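import Mathlib
import Cfsg.Prelude.Def_GeometricClasses
set_option autoImplicit false
set_option linter.unusedSectionVars false
set_option linter.unusedVariables false
set_option linter.style.haveILetI false

/-!
Block decomposition of a ring with respect to a unital embedding of a matrix algebra.
-/

namespace Cfsg.Agent.Asch.CW

open Matrix Module

open scoped Matrix

section blk

variable {β : Type} [Fintype β] [DecidableEq β] {F : Type*} [Field F] {R : Type*} [Ring R] [Algebra F R]
  (E : Matrix β β F →ₐ[F] R)

/-- `b` commutes with the embedded matrix algebra -/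
def Cmt (b : R) : Prop := ∀ a, E a * b = b * E a

variable {E}

lemma Cmt.add {b c : R} (hb : Cmt E b) (hc : Cmt E c) : Cmt E (b + c) := fun a => by rw [mul_add, add_mul, hb, hc]

lemma Cmt.sub {b c : R} (hb : Cmt E b) (hc : Cmt E c) : Cmt E (b - c) := fun a => by rw [mul_sub, sub_mul, hb, hc]

lemma Cmt.neg {b : R} (hb : Cmt E b) : Cmt E (-b) := fun a => by rw [mul_neg, neg_mul, hb]

lemma Cmt.mul {b c : R} (hb : Cmt E b) (hc : Cmt E c) : Cmt E (b * c) := fun a => by rw [← mul_assoc, hb, mul_assoc, hc, mul_assoc]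

lemma Cmt.one : Cmt E (1 : R) := fun a => by rw [mul_one, one_mul]

lemma Cmt.zero : Cmt E (0 : R) := fun a => by rw [mul_zero, zero_mul]

lemma Cmt.smul {b : R} (hb : Cmt E b) (c : F) : Cmt E (c • b) := fun a => by rw [mul_smul_comm, smul_mul_assoc, hb]

lemma Cmt.sum {γ : Type*} {s : Finset γ} {f : γ → R} (h : ∀ x ∈ s, Cmt E (f x)) : Cmt E (∑ x ∈ s, f x) := fun a => by
  rw [Finset.mul_sum, Finset.sum_mul]
  exact Finset.sum_congr rfl fun x hx => h x hx a

variable (E)

/-- the `(l, m)` block -/
def blk (Z : R) (l m : β) : R := ∑ r, E (single r l 1) * Z * E (single m r 1)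

lemma E_single_mul_blk (Z : R) (l m p q : β) : E (single p q 1) * blk E Z l m = E (single p l 1) * Z * E (single m q 1) := by
  rw [blk, Finset.mul_sum, Finset.sum_eq_single q]
  · rw [← mul_assoc, ← mul_assoc, ← map_mul, single_mul_single_same, one_mul]
  · intro b _ hb
    rw [← mul_assoc, ← mul_assoc, ← map_mul, single_mul_single_of_ne _ _ _ _ (Ne.symm hb), map_zero, zero_mul, zero_mul]
  · simp

lemma blk_mul_E_single (Z : R) (l m p q : β) : blk E Z l m * E (single p q 1) = E (single p l 1) * Z * E (single m q 1) := by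
  rw [blk, Finset.sum_mul, Finset.sum_eq_single p]
  · rw [mul_assoc, ← map_mul, single_mul_single_same, one_mul]
  · intro b _ hb
    rw [mul_assoc, ← map_mul, single_mul_single_of_ne _ _ _ _ hb, map_zero, mul_zero]
  · simp

lemma blk_cmt (Z : R) (l m : β) : Cmt E (blk E Z l m) := by
  intro a
  rw [matrix_eq_sum_single a]
  simp only [map_sum, Finset.sum_mul, Finset.mul_sum]
  refine Finset.sum_congr rfl fun p _ => Finset.sum_congr rfl fun q _ => ?_
  have : single p q (a p q) = a p q • single p q (1 : F) := by rw [smul_single, smul_eq_mul, mul_one]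
  rw [this, map_smul, smul_mul_assoc, mul_smul_comm, E_single_mul_blk, blk_mul_E_single]

lemma sum_single_diag : (∑ l : β, single l l (1 : F)) = 1 := by
  ext i j
  rw [Matrix.sum_apply, one_apply]
  by_cases h : i = j
  · subst h; simp [single_apply]
  · rw [if_neg h]
    apply Finset.sum_eq_zero
    intro l _
    rw [single_apply, if_neg]
    rintro ⟨rfl, rfl⟩; exact h rfl

lemma sum_blk (Z : R) : ∑ l, ∑ m, E (single l m 1) * blk E Z l m = Z := by
  have h : ∀ l m, E (single l m 1) * blk E Z l m = E (single l l 1) * Z * E (single m m 1) := fun l m => E_single_mul_blk E Z l m l m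
  simp only [h]
  simp only [← Finset.mul_sum, ← Finset.sum_mul, ← map_sum, sum_single_diag, map_one, one_mul, mul_one]

lemma blk_ext {Z Z' : R} (h : ∀ l m, blk E Z l m = blk E Z' l m) : Z = Z' := by
  rw [← sum_blk E Z, ← sum_blk E Z']
  simp only [h]

lemma blk_add (Z Z' : R) (l m : β) : blk E (Z + Z') l m = blk E Z l m + blk E Z' l m := by
  simp only [blk, mul_add, add_mul, Finset.sum_add_distrib]

lemma blk_sub (Z Z' : R) (l m : β) : blk E (Z - Z') l m = blk E Z l m - blk E Z' l m := by
  simp only [blk, mul_sub, sub_mul, Finset.sum_sub_distrib]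

lemma blk_zero (l m : β) : blk E 0 l m = 0 := by
  simp only [blk, mul_zero, zero_mul, Finset.sum_const_zero]

lemma blk_smul (c : F) (Z : R) (l m : β) : blk E (c • Z) l m = c • blk E Z l m := by
  simp only [blk, mul_smul_comm, smul_mul_assoc, Finset.smul_sum]

lemma blk_sum {γ : Type*} (s : Finset γ) (f : γ → R) (l m : β) : blk E (∑ x ∈ s, f x) l m = ∑ x ∈ s, blk E (f x) l m := by
  simp only [blk, Finset.mul_sum, Finset.sum_mul]
  rw [Finset.sum_comm]

lemma E_single_conj (a : Matrix β β F) (r l m : β) : E (single r l 1) * E a * E (single m r 1) = a l m • E (single r r 1) := by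
  rw [← map_mul, ← map_mul, ← map_smul]
  congr 1
  ext i j
  simp only [mul_apply, single_apply, ite_mul, one_mul, zero_mul, mul_ite, mul_one, mul_zero, Matrix.smul_apply, smul_eq_mul]
  by_cases hi : r = i
  · subst hi
    by_cases hj : r = j
    · subst hj
      simp
    · simp [hj]
  · simp [hi]

lemma blk_E_mul {b : R} (hb : Cmt E b) (a : Matrix β β F) (l m : β) : blk E (E a * b) l m = a l m • b := by
  have h : ∀ r, E (single r l 1) * (E a * b) * E (single m r 1) = a l m • E (single r r 1) * b := by
    intro r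
    rw [mul_assoc, mul_assoc, ← hb, ← mul_assoc, ← mul_assoc, E_single_conj]
  simp only [blk, h]
  rw [← Finset.sum_mul, ← Finset.smul_sum, ← map_sum, sum_single_diag, map_one, smul_mul_assoc, one_mul]

lemma blk_E (a : Matrix β β F) (l m : β) : blk E (E a) l m = a l m • (1 : R) := by
  have := blk_E_mul E Cmt.one a l m
  rwa [mul_one] at this

lemma blk_of_cmt {b : R} (hb : Cmt E b) (l m : β) : blk E b l m = if l = m then b else 0 := by
  have := blk_E_mul E hb 1 l m
  rw [map_one, one_mul] at this
  rw [this, one_apply]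
  split_ifs <;> simp

lemma blk_mul (Z Z' : R) (l m : β) : blk E (Z * Z') l m = ∑ r, blk E Z l r * blk E Z' r m := by
  have h : ∀ r s, E (single s l 1) * Z * E (single r s 1) * blk E Z' r m = E (single s l 1) * (Z * E (single r r 1) * Z') * E (single m s 1) := by
    intro r s
    rw [mul_assoc (E (single s l 1) * Z), E_single_mul_blk]
    simp only [mul_assoc]
  have h2 : ∀ r, blk E Z l r * blk E Z' r m = blk E (Z * E (single r r 1) * Z') l m := by
    intro r
    conv_lhs => rw [blk, Finset.sum_mul]
    simp only [h]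
    rfl
  simp only [h2]
  rw [← blk_sum, ← Finset.sum_mul, ← Finset.mul_sum, ← map_sum, sum_single_diag, map_one, mul_one]

lemma eq_zero_of_E_mul {b : R} (hb : Cmt E b) {a : Matrix β β F} (ha : a ≠ 0) (h : E a * b = 0) : b = 0 := by
  obtain ⟨l, hl⟩ := Function.ne_iff.1 ha
  obtain ⟨m, hm⟩ := Function.ne_iff.1 hl
  have h1 := blk_E_mul E hb a l m
  rw [h, blk_zero] at h1
  exact (smul_eq_zero.1 h1.symm).resolve_left hm

lemma cmt_iff_single {b : R} : Cmt E b ↔ ∀ l m, E (single l m 1) * b = b * E (single l m 1) := by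
  refine ⟨fun h l m => h _, fun h a => ?_⟩
  rw [matrix_eq_sum_single a]
  simp only [map_sum, Finset.sum_mul, Finset.mul_sum]
  refine Finset.sum_congr rfl fun p _ => Finset.sum_congr rfl fun q _ => ?_
  have : single p q (a p q) = a p q • single p q (1 : F) := by rw [smul_single, smul_eq_mul, mul_one]
  rw [this, map_smul, smul_mul_assoc, mul_smul_comm, h]

/-- if all blocks are scalar multiples of an element `r` then `Z = E B * r` -/
lemma eq_of_blk_smul {Z r : R} (B : Matrix β β F) (h : ∀ l m, blk E Z l m = B l m • r) (hr : Cmt E r) : Z = E B * r := by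
  apply blk_ext E
  intro l m
  rw [h, blk_E_mul E hr]

end blk

end Cfsg.Agent.Asch.CW
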