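import Mathlib
import Cfsg.Prelude.Def_GeometricClasses
import Cfsg.Agent.GeoMax.Transv
set_option autoImplicit false
set_option linter.unusedSectionVars false

/-!
Matrix algebra lemmas for the maximality of tensor product stabilisers: subalgebras invariant under elementary matrices,
matrices commuting up to scalars, groups containing the elementary matrices.
-/

namespace Cfsg.Agent.Asch.TMax

open Cfsg.Geo Matrix

open scoped Matrix Kronecker MatrixGroups

variable {α : Type} [Fintype α] [DecidableEq α] {F : Type*} [Field F]

lemma sgl_mul_sgl {i j k : α} : (single i j (1 : F)) * single j k (1 : F) = single i k 1 := by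
  rw [single_mul_single_same, one_mul]

lemma sgl_mul_sgl_ne {i j k l : α} (h : j ≠ k) : (single i j (1 : F)) * single k l (1 : F) = 0 :=
  single_mul_single_of_ne _ _ _ _ h _

lemma smul_sgl (c : F) (i j : α) : c • single i j (1 : F) = single i j c := by
  rw [smul_single, smul_eq_mul, mul_one]

/-- the conjugation condition -/
def ConjInv (S : Subalgebra F (Matrix α α F)) : Prop :=
  ∀ i j : α, i ≠ j → ∀ c : F, ∀ A ∈ S, (1 + c • single i j (1 : F)) * A * (1 - c • single i j (1 : F)) ∈ S

lemma sgl_all {S : Subalgebra F (Matrix α α F)} (hS : ConjInv S) {i j : α} (hij : i ≠ j)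
    (h : single i j (1 : F) ∈ S) : ∀ k l : α, single k l (1 : F) ∈ S := by
  -- basic moves
  have move1 : ∀ i j : α, i ≠ j → single i j (1 : F) ∈ S → single i i (1 : F) ∈ S ∧ single j i (1 : F) ∈ S ∧
      single j j (1 : F) ∈ S := by
    intro i j hij h
    have h1 := hS j i hij.symm 1 _ h
    have e1 : (1 + (1 : F) • single j i (1 : F)) * single i j (1 : F) * (1 - (1 : F) • single j i (1 : F)) =
        single i j 1 + single j j 1 - single i i 1 - single j i 1 := by
      rw [one_smul, add_mul, one_mul, sgl_mul_sgl, mul_sub, mul_one, add_mul, sgl_mul_sgl, sgl_mul_sgl]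
      abel
    rw [e1] at h1
    have h2 := S.mul_mem h h1
    have e2 : single i j (1 : F) * (single i j 1 + single j j 1 - single i i 1 - single j i 1) =
        single i j 1 - single i i 1 := by
      rw [mul_sub, mul_sub, mul_add, sgl_mul_sgl_ne hij.symm, sgl_mul_sgl, sgl_mul_sgl_ne hij.symm, sgl_mul_sgl]
      abel
    rw [e2] at h2
    have h3 : single i i (1 : F) ∈ S := by
      have := S.sub_mem h h2
      rwa [sub_sub_cancel] at this
    have h4 := S.mul_mem h1 h3
    have e3 : (single i j (1 : F) + single j j 1 - single i i 1 - single j i 1) * single i i 1 =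
        - single i i 1 - single j i 1 := by
      rw [sub_mul, sub_mul, add_mul, sgl_mul_sgl_ne hij.symm, sgl_mul_sgl_ne hij.symm, sgl_mul_sgl, sgl_mul_sgl]
      abel
    rw [e3] at h4
    have h5 : single j i (1 : F) ∈ S := by
      have := S.neg_mem (S.add_mem h4 h3)
      have e4 : -(-single i i (1 : F) - single j i 1 + single i i 1) = single j i 1 := by abel
      rwa [e4] at this
    refine ⟨h3, h5, ?_⟩
    have := S.mul_mem h5 h
    rwa [sgl_mul_sgl] at this
  have move2 : ∀ i j k : α, i ≠ j → k ≠ j → single i j (1 : F) ∈ S → single k j (1 : F) ∈ S := by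
    intro i j k hij hkj h
    by_cases hki : k = i
    · rw [hki]; exact h
    have h1 := hS k i hki 1 _ h
    have e1 : (1 + (1 : F) • single k i (1 : F)) * single i j (1 : F) * (1 - (1 : F) • single k i (1 : F)) =
        single i j 1 + single k j 1 := by
      rw [one_smul, add_mul, one_mul, sgl_mul_sgl, mul_sub, mul_one, add_mul, sgl_mul_sgl_ne hkj.symm,
        sgl_mul_sgl_ne hkj.symm]
      abel
    rw [e1] at h1
    have := S.sub_mem h1 h
    rwa [add_sub_cancel_left] at this
  have hall : ∀ l k, k ≠ l → single k l (1 : F) ∈ S := by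
    intro l k hkl
    by_cases hlj : l = j
    · subst hlj
      exact move2 i l k hij hkl h
    · have h1 : single l j (1 : F) ∈ S := move2 i j l hij hlj h
      have h2 : single j l (1 : F) ∈ S := (move1 l j hlj h1).2.1
      exact move2 j l k (Ne.symm hlj) hkl h2
  intro k l
  by_cases hkl : k = l
  · subst hkl
    by_cases hki : k = i
    · rw [hki]; exact (move1 i j hij h).1
    · exact (move1 k i hki (hall i k hki)).1
  · exact hall l k hkl

lemma eq_top_of_sgl {S : Subalgebra F (Matrix α α F)} (h : ∀ k l : α, single k l (1 : F) ∈ S) : S = ⊤ := by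
  rw [eq_top_iff]
  intro A _
  rw [matrix_eq_sum_single A]
  refine S.sum_mem fun i _ => S.sum_mem fun j _ => ?_
  rw [← smul_sgl]
  exact S.smul_mem (h i j) _

lemma nonscalar_cases {A : Matrix α α F} (hA : ¬ ∃ c : F, A = c • (1 : Matrix α α F)) :
    (∃ i j, i ≠ j ∧ A j i ≠ 0) ∨ ((∀ i j, i ≠ j → A i j = 0) ∧ ∃ i j, i ≠ j ∧ A i i ≠ A j j) := by
  by_contra hcon
  push Not at hcon
  obtain ⟨h1, h2⟩ := hcon
  apply hA
  have h3 : ∀ i j, i ≠ j → A i j = 0 := fun i j hij => h1 j i hij.symm
  have h4 := h2 h3
  rcases isEmpty_or_nonempty α with hα | ⟨⟨i₀⟩⟩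
  · exact ⟨0, by ext i; exact (hα.false i).elim⟩
  · refine ⟨A i₀ i₀, ?_⟩
    ext i j
    by_cases hij : i = j
    · subst hij
      rw [Matrix.smul_apply, one_apply_eq, smul_eq_mul, mul_one]
      by_cases hi : i = i₀
      · rw [hi]
      · exact h4 i i₀ hi
    · rw [h3 i j hij, Matrix.smul_apply, one_apply_ne hij, smul_zero]

/-- An invariant subalgebra containing a non-scalar matrix is everything. -/
theorem eq_top_of_conjInv {S : Subalgebra F (Matrix α α F)} (hS : ConjInv S)
    (hq : 3 ≤ Fintype.card α ∨ ∃ c : F, c ≠ 0 ∧ c ≠ 1) {A : Matrix α α F} (hA : A ∈ S)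
    (hns : ¬ ∃ c : F, A = c • (1 : Matrix α α F)) : S = ⊤ := by
  suffices h : ∃ i j : α, i ≠ j ∧ single i j (1 : F) ∈ S by
    obtain ⟨i, j, hij, h⟩ := h
    exact eq_top_of_sgl (sgl_all hS hij h)
  have hsm : ∀ {i j : α} {c : F}, c ≠ 0 → c • single i j (1 : F) ∈ S → single i j (1 : F) ∈ S := by
    intro i j c hc h
    have := S.smul_mem h c⁻¹
    rwa [smul_smul, inv_mul_cancel₀ hc, one_smul] at this
  have hEAE : ∀ (i j i' j' : α), single i j (1 : F) * A * single i' j' (1 : F) = A j i' • single i j' (1 : F) := by
    intro i j i' j'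
    rw [single_mul_mul_single, one_mul, mul_one, smul_sgl]
  rcases nonscalar_cases hns with ⟨i, j, hij, hji⟩ | ⟨hd, i, j, hij, hne⟩
  · rcases hq with h3 | ⟨c, hc0, hc1⟩
    · -- three indices
      obtain ⟨k, hk⟩ : ∃ k, k ∉ ({i, j} : Finset α) := by
        by_contra hcon
        push Not at hcon
        have : Fintype.card α ≤ ({i, j} : Finset α).card := by
          rw [← Finset.card_univ]
          exact Finset.card_le_card fun x _ => hcon x
        have h2 := Finset.card_le_two (a := i) (b := j)
        omega
      rw [Finset.mem_insert, Finset.mem_singleton, not_or] at hk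
      obtain ⟨hki, hkj⟩ := hk
      have h1 := hS i j hij 1 _ hA
      have h2 := hS i k (Ne.symm hki) 1 _ hA
      have h3 := hS i k (Ne.symm hki) 1 _ h1
      have e : (1 + (1 : F) • single i k (1 : F)) * ((1 + (1 : F) • single i j (1 : F)) * A * (1 - (1 : F) • single i j (1 : F))) *
          (1 - (1 : F) • single i k (1 : F)) - (1 + (1 : F) • single i j (1 : F)) * A * (1 - (1 : F) • single i j (1 : F)) -
          (1 + (1 : F) • single i k (1 : F)) * A * (1 - (1 : F) • single i k (1 : F)) + A =
          - (A j i • single i k (1 : F)) - (A k i • single i j (1 : F)) := by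
        rw [← hEAE, ← hEAE, one_smul, one_smul]
        have e1 : single i k (1 : F) * single i j (1 : F) = 0 := sgl_mul_sgl_ne hki
        have e2 : single i j (1 : F) * single i k (1 : F) = 0 := sgl_mul_sgl_ne (Ne.symm hij)
        have e3 : (1 + single i k (1 : F)) * ((1 + single i j (1 : F)) * A * (1 - single i j (1 : F))) *
            (1 - single i k (1 : F)) - (1 + single i j (1 : F)) * A * (1 - single i j (1 : F)) -
            (1 + single i k (1 : F)) * A * (1 - single i k (1 : F)) + A =
            - (single i j (1 : F) * A * single i k (1 : F)) - (single i k (1 : F) * A * single i j (1 : F))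
            + (single i k (1 : F) * single i j (1 : F)) * (A - A * single i j (1 : F) - A * single i k (1 : F) + A * (single i j (1 : F) * single i k (1 : F)))
            + (A + single i j (1 : F) * A + single i k (1 : F) * A) * (single i j (1 : F) * single i k (1 : F)) := by
          noncomm_ring
        rw [e3, e1, e2, zero_mul, mul_zero, add_zero, add_zero]
      have h4 : - (A j i • single i k (1 : F)) - (A k i • single i j (1 : F)) ∈ S := by
        rw [← e]
        exact S.add_mem (S.sub_mem (S.sub_mem h3 h1) h2) hA
      have h5 : A j i • single i k (1 : F) + A k i • single i j (1 : F) ∈ S := by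
        have := S.neg_mem h4
        have e6 : -(-(A j i • single i k (1 : F)) - A k i • single i j (1 : F)) = A j i • single i k (1 : F) + A k i • single i j (1 : F) := by
          abel
        rwa [e6] at this
      refine ⟨i, k, Ne.symm hki, ?_⟩
      by_cases hAk : A k i = 0
      · rw [hAk, zero_smul, add_zero] at h5
        exact hsm hji h5
      · have h6 := hS j k (Ne.symm hkj) (-1) _ h5
        have e7 : (1 + (-1 : F) • single j k (1 : F)) * (A j i • single i k (1 : F) + A k i • single i j (1 : F)) *
            (1 - (-1 : F) • single j k (1 : F)) - (A j i • single i k (1 : F) + A k i • single i j (1 : F)) =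
            A k i • single i k (1 : F) := by
          have f1 : single j k (1 : F) * single i k (1 : F) = 0 := sgl_mul_sgl_ne hki
          have f2 : single j k (1 : F) * single i j (1 : F) = 0 := sgl_mul_sgl_ne hki
          have f3 : single i k (1 : F) * single j k (1 : F) = 0 := sgl_mul_sgl_ne hkj
          have f4 : single i j (1 : F) * single j k (1 : F) = single i k (1 : F) := sgl_mul_sgl
          rw [neg_smul, one_smul, sub_neg_eq_add, ← sub_eq_add_neg, sub_mul, one_mul, mul_add (single j k (1 : F)), mul_smul_comm,
            mul_smul_comm, f1, f2, smul_zero, smul_zero, add_zero, sub_zero, mul_add, mul_one, add_mul _ _ (single j k (1 : F)),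
            smul_mul_assoc, smul_mul_assoc, f3, f4, smul_zero, zero_add, add_sub_cancel_left]
        have h7 := S.sub_mem h6 h5
        rw [e7] at h7
        exact hsm hAk h7
    · refine ⟨i, j, hij, ?_⟩
      have h1 := hS i j hij 1 _ hA
      have h2 := hS i j hij c _ hA
      have e : c • ((1 + (1 : F) • single i j (1 : F)) * A * (1 - (1 : F) • single i j (1 : F)) - A) -
          ((1 + c • single i j (1 : F)) * A * (1 - c • single i j (1 : F)) - A) = ((c ^ 2 - c) * A j i) • single i j (1 : F) := by
        rw [mul_smul, ← hEAE, one_smul]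
        have e1 : ∀ d : F, (1 + d • single i j (1 : F)) * A * (1 - d • single i j (1 : F)) - A =
            d • (single i j (1 : F) * A - A * single i j (1 : F)) - d ^ 2 • (single i j (1 : F) * A * single i j (1 : F)) := by
          intro d
          simp only [add_mul, one_mul, mul_sub, mul_one, smul_mul_assoc, mul_smul_comm, smul_add, smul_sub, smul_smul, pow_two]
          abel
        have e2 := e1 1
        rw [one_smul, one_smul, one_pow, one_smul] at e2
        rw [e2, e1 c]
        module
      have h3 : ((c ^ 2 - c) * A j i) • single i j (1 : F) ∈ S := by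
        rw [← e]
        exact S.sub_mem (S.smul_mem (S.sub_mem h1 hA) c) (S.sub_mem h2 hA)
      refine hsm (mul_ne_zero ?_ hji) h3
      rw [pow_two, ← mul_sub_one]
      exact mul_ne_zero hc0 (sub_ne_zero.2 hc1)
  · refine ⟨i, j, hij, ?_⟩
    have h1 := hS i j hij 1 _ hA
    have e : (1 + (1 : F) • single i j (1 : F)) * A * (1 - (1 : F) • single i j (1 : F)) - A = (A j j - A i i) • single i j (1 : F) := by
      have f1 : single i j (1 : F) * A = A j j • single i j (1 : F) := by
        ext k l
        by_cases hk : k = i
        · subst hk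
          rw [single_mul_apply_same, one_mul, Matrix.smul_apply, smul_eq_mul]
          by_cases hl : l = j
          · subst hl; simp
          · rw [hd j l (Ne.symm hl)]; simp [Ne.symm hl]
        · rw [single_mul_apply_of_ne _ _ _ _ _ hk]; simp [Ne.symm hk]
      have f2 : A * single i j (1 : F) = A i i • single i j (1 : F) := by
        ext k l
        by_cases hl : l = j
        · subst hl
          rw [mul_single_apply_same, mul_one, Matrix.smul_apply, smul_eq_mul]
          by_cases hk : k = i
          · subst hk; simp
          · rw [hd k i hk]; simp [Ne.symm hk]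
        · rw [mul_single_apply_of_ne _ _ _ _ _ hl]; simp [Ne.symm hl]
      have f3 : single i j (1 : F) * A * single i j (1 : F) = 0 := by
        rw [hEAE, hd j i hij.symm, zero_smul]
      rw [one_smul, add_mul, one_mul, mul_sub, mul_one, add_mul, f3, f2, f1, sub_smul]
      abel
    have h2 := S.sub_mem h1 hA
    rw [e] at h2
    exact hsm (sub_ne_zero.2 (Ne.symm hne)) h2

/-- A matrix commuting with the elementary matrices up to scalars is scalar. -/
theorem scalar_of_comm {P : Matrix α α F} (hq : 3 ≤ Fintype.card α ∨ ∃ c : F, c ≠ 0 ∧ c ≠ 1)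
    (h : ∀ i j : α, i ≠ j → ∀ c : F, ∃ l : F, (1 + c • single i j (1 : F)) * P - P * (1 + c • single i j (1 : F)) =
      l • (1 + c • single i j (1 : F))) : ∃ c : F, P = c • (1 : Matrix α α F) := by
  by_contra hns
  -- entries of the commutator
  have hcomm : ∀ i j : α, i ≠ j → ∀ c : F, ∃ l : F, c • (single i j (1 : F) * P - P * single i j (1 : F)) =
      l • (1 + c • single i j (1 : F)) := by
    intro i j hij c
    obtain ⟨l, hl⟩ := h i j hij c
    refine ⟨l, ?_⟩
    rw [← hl]
    simp only [add_mul, one_mul, mul_add, mul_one, smul_mul_assoc, mul_smul_comm, smul_sub]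
    abel
  rcases nonscalar_cases hns with ⟨i, j, hij, hji⟩ | ⟨hd, i, j, hij, hne⟩
  · -- the (i, i) and (j, j) entries
    have hii : ∀ c l : F, c • (single i j (1 : F) * P - P * single i j (1 : F)) = l • (1 + c • single i j (1 : F)) →
        c * P j i = l ∧ - (c * P j i) = l := by
      intro c l hl
      have e1 := congrFun (congrFun hl i) i
      have e2 := congrFun (congrFun hl j) j
      rw [Matrix.smul_apply, Matrix.sub_apply, single_mul_apply_same, mul_single_apply_of_ne _ _ _ _ _ hij, Matrix.smul_apply, Matrix.add_apply,
        one_apply_eq, Matrix.smul_apply, single_apply_of_ne _ _ _ _ _ (by simp [hij.symm])] at e1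
      rw [Matrix.smul_apply, Matrix.sub_apply, single_mul_apply_of_ne _ _ _ _ _ hij.symm, mul_single_apply_same, Matrix.smul_apply, Matrix.add_apply,
        one_apply_eq, Matrix.smul_apply, single_apply_of_ne _ _ _ _ _ (by simp [hij])] at e2
      simp only [smul_eq_mul, mul_zero, mul_one, one_mul, sub_zero, add_zero, zero_sub, mul_neg] at e1 e2
      exact ⟨e1, e2⟩
    rcases hq with h3 | ⟨c, hc0, hc1⟩
    · obtain ⟨k, hk⟩ : ∃ k, k ∉ ({i, j} : Finset α) := by
        by_contra hcon
        push Not at hcon
        have : Fintype.card α ≤ ({i, j} : Finset α).card := by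
          rw [← Finset.card_univ]
          exact Finset.card_le_card fun x _ => hcon x
        have h2 := Finset.card_le_two (a := i) (b := j)
        omega
      rw [Finset.mem_insert, Finset.mem_singleton, not_or] at hk
      obtain ⟨hki, hkj⟩ := hk
      obtain ⟨l, hl⟩ := hcomm i j hij 1
      have e3 := congrFun (congrFun hl k) k
      rw [Matrix.smul_apply, Matrix.sub_apply, single_mul_apply_of_ne _ _ _ _ _ hki, mul_single_apply_of_ne _ _ _ _ _ hkj, Matrix.smul_apply,
        Matrix.add_apply, one_apply_eq, Matrix.smul_apply, single_apply_of_ne _ _ _ _ _ (by simp [Ne.symm hki])] at e3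
      simp only [smul_eq_mul, mul_zero, mul_one, sub_zero, add_zero] at e3
      have := (hii 1 l hl).1
      rw [one_mul, ← e3] at this
      exact hji this
    · -- two values of the parameter
      obtain ⟨l, hl⟩ := hcomm i j hij 1
      obtain ⟨l', hl'⟩ := hcomm i j hij c
      obtain ⟨e1, e2⟩ := hii 1 l hl
      obtain ⟨e1', e2'⟩ := hii c l' hl'
      have e3 := congrFun (congrFun hl i) j
      have e4 := congrFun (congrFun hl' i) j
      rw [Matrix.smul_apply, Matrix.sub_apply, single_mul_apply_same, mul_single_apply_same, Matrix.smul_apply, Matrix.add_apply,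
        one_apply_ne hij, Matrix.smul_apply, single_apply_same] at e3 e4
      simp only [smul_eq_mul, mul_one, one_mul, zero_add] at e3 e4
      rw [one_mul] at e1
      have e5 : c * l = l' * c := by rw [← e4, ← e3]
      have e6 : l' = l := by
        have := mul_right_cancel₀ hc0 (show l' * c = l * c by rw [← e5, mul_comm])
        exact this
      rw [e6, ← e1] at e1'
      have e7 : (c - 1) * P j i = 0 := by rw [sub_mul, one_mul, e1', sub_self]
      rcases mul_eq_zero.1 e7 with h8 | h8
      · exact hc1 (sub_eq_zero.1 h8)
      · exact hji h8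
  · obtain ⟨l, hl⟩ := hcomm i j hij 1
    have e1 := congrFun (congrFun hl i) i
    have e3 := congrFun (congrFun hl i) j
    rw [Matrix.smul_apply, Matrix.sub_apply, single_mul_apply_same, mul_single_apply_same, Matrix.smul_apply, Matrix.add_apply,
      one_apply_ne hij, Matrix.smul_apply, single_apply_same] at e3
    rw [Matrix.smul_apply, Matrix.sub_apply, single_mul_apply_same, mul_single_apply_of_ne _ _ _ _ _ hij, Matrix.smul_apply, Matrix.add_apply,
      one_apply_eq, Matrix.smul_apply, single_apply_of_ne _ _ _ _ _ (by simp [hij.symm])] at e1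
    simp only [smul_eq_mul, mul_zero, mul_one, one_mul, sub_zero, add_zero, zero_add] at e1 e3
    rw [hd j i hij.symm] at e1
    rw [← e1, sub_eq_zero] at e3
    exact hne e3.symm

/-- A group containing the elementary matrices contains the special linear group. -/
theorem specialLinear_le_of_elementary [Nontrivial α] (M : Subgroup (GL α F))
    (h : ∀ i j : α, i ≠ j → ∀ c : F, 1 + c • single i j (1 : F) ∈ matrixSet M) : specialLinear α F ≤ M := by
  refine GeoMax.specialLinear_le_of_basis M 1 fun i w hw => ?_
  rw [Units.val_one, one_mulVec] at hw ⊢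
  have hwi : w i = 0 := by simpa using hw
  have hs : w = ∑ k, Pi.single k (w k) := (Finset.univ_sum_single w).symm
  have key : ∀ s : Finset α, GeoMax.HasT M (Pi.single i 1) (∑ k ∈ s, Pi.single k (w k)) := by
    intro s
    induction s using Finset.induction_on with
    | empty => rw [Finset.sum_empty]; exact GeoMax.HasT.zero_right M _
    | insert k s hk ih =>
      rw [Finset.sum_insert hk]
      refine GeoMax.HasT.add_right ?_ ih
      by_cases hki : k = i
      · rw [hki, hwi, Pi.single_zero]; exact GeoMax.HasT.zero_right M _
      · obtain ⟨g, hg, hgm⟩ := h i k (Ne.symm hki) (w k)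
        refine ⟨by simp [hki], g, hg, ?_⟩
        rw [show (g : Matrix α α F) = 1 + w k • single i k (1 : F) from hgm]
        congr 1
        ext a b
        simp only [Matrix.smul_apply, single_apply, vecMulVec_apply, Pi.single_apply, smul_eq_mul]
        by_cases ha : a = i
        · by_cases hb : b = k
          · simp [ha, hb]
          · simp [ha, hb, Ne.symm hb]
        · simp [ha, Ne.symm ha]
  rw [hs]
  exact key _

end Cfsg.Agent.Asch.TMax
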