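import Mathlib
import Cfsg.Prelude.Def_GeometricClasses
import Cfsg.Agent.Asch.TMaxSub
set_option autoImplicit false
set_option linter.unusedSectionVars false

/-!
Sets of block matrices closed under multiplication, containing the elementary matrices with scalar blocks and the block scalar
matrices of determinant one.
-/

namespace Cfsg.Agent.Asch.TMax

open Cfsg.Geo Matrix

open scoped Matrix Kronecker MatrixGroups

variable {α β : Type} [Fintype α] [DecidableEq α] [Fintype β] [DecidableEq β] {F : Type*} [Field F]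

/-- A multiplicative set of block matrices containing the elementary ones. -/
structure TSet (M : Set (Matrix β β (Matrix α α F))) : Prop where
  one : 1 ∈ M
  mul : ∀ {a b}, a ∈ M → b ∈ M → a * b ∈ M
  inv : ∀ {a b}, a ∈ M → a * b = 1 → b ∈ M
  elem : ∀ j l, j ≠ l → ∀ c : F, 1 + single j l (c • (1 : Matrix α α F)) ∈ M
  sc : ∀ x : Matrix α α F, x.det = 1 → scalar β x ∈ M

section comm

variable {R : Type*} [Ring R]

lemma comm_identity {e f : R} (ee : e * e = 0) (ff : f * f = 0) (fe : f * e = 0) :
    (1 + e) * (1 + f) * ((1 - e) * (1 - f)) = 1 + e * f := by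
  have h : (1 + e) * (1 + f) * ((1 - e) * (1 - f)) = 1 + e * f - (e * e) * (1 - f) - f * f - e * (f * f) - f * e
      - e * (f * e) + (f * e) * f + e * (f * e) * f := by noncomm_ring
  rw [h, ee, ff, fe]
  simp

lemma one_add_mul_one_sub {e : R} (ee : e * e = 0) : (1 + e) * (1 - e) = 1 := by
  have : (1 + e) * (1 - e) = 1 - e * e := by noncomm_ring
  rw [this, ee, sub_zero]

lemma one_sub_mul_one_add {e : R} (ee : e * e = 0) : (1 - e) * (1 + e) = 1 := by
  have : (1 - e) * (1 + e) = 1 - e * e := by noncomm_ring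
  rw [this, ee, sub_zero]

end comm

namespace TSet

variable {M : Set (Matrix β β (Matrix α α F))} (hM : TSet M)

include hM

lemma comm_mem {e f : Matrix β β (Matrix α α F)} (he : 1 + e ∈ M) (hf : 1 + f ∈ M) (ee : e * e = 0) (ff : f * f = 0)
    (fe : f * e = 0) : 1 + e * f ∈ M := by
  rw [← comm_identity ee ff fe]
  exact hM.mul (hM.mul he hf) (hM.mul (hM.inv he (one_add_mul_one_sub ee)) (hM.inv hf (one_add_mul_one_sub ff)))

omit hM in
/-- coefficients of the elementary matrices in position `j l` -/
def Co (M : Set (Matrix β β (Matrix α α F))) (j l : β) : Set (Matrix α α F) := {A | 1 + single j l A ∈ M}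

omit hM in
lemma ssq {j l : β} (h : j ≠ l) (A B : Matrix α α F) : single j l A * single j l B = 0 :=
  single_mul_single_of_ne _ _ _ _ h.symm _

lemma co_mul {j l m : β} (h1 : j ≠ l) (h2 : j ≠ m) (h3 : l ≠ m) {A B : Matrix α α F} (hA : A ∈ Co M j l)
    (hB : B ∈ Co M l m) : A * B ∈ Co M j m := by
  have := hM.comm_mem hA hB (ssq h1 A A) (ssq h3 B B) (single_mul_single_of_ne _ _ _ _ h2.symm _)
  rwa [single_mul_single_same] at this

lemma one_co {j l : β} (h : j ≠ l) : (1 : Matrix α α F) ∈ Co M j l := by
  have := hM.elem j l h 1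
  rwa [one_smul] at this

lemma co_right {j l m : β} (h1 : j ≠ l) (h2 : j ≠ m) (h3 : l ≠ m) {A : Matrix α α F} (hA : A ∈ Co M j l) :
    A ∈ Co M j m := by
  have := hM.co_mul h1 h2 h3 hA (hM.one_co h3)
  rwa [mul_one] at this

lemma co_left {j l m : β} (h1 : j ≠ l) (h2 : m ≠ j) (h3 : m ≠ l) {A : Matrix α α F} (hA : A ∈ Co M j l) :
    A ∈ Co M m l := by
  have := hM.co_mul h2 h3 h1 (hM.one_co h2) hA
  rwa [one_mul] at this

omit hM in
lemma exists_third (h3 : 3 ≤ Fintype.card β) (i j : β) : ∃ k : β, k ≠ i ∧ k ≠ j := by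
  obtain ⟨k, hk⟩ : ∃ k, k ∉ ({i, j} : Finset β) := by
    by_contra hcon
    push Not at hcon
    have : Fintype.card β ≤ ({i, j} : Finset β).card := by
      rw [← Finset.card_univ]
      exact Finset.card_le_card fun x _ => hcon x
    have h2 := Finset.card_le_two (a := i) (b := j)
    omega
  rw [Finset.mem_insert, Finset.mem_singleton, not_or] at hk
  exact ⟨k, hk⟩

lemma co_all (h3 : 3 ≤ Fintype.card β) {j l : β} (h : j ≠ l) {A : Matrix α α F} (hA : A ∈ Co M j l) :
    ∀ j' l', j' ≠ l' → A ∈ Co M j' l' := by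
  intro j' l' h'
  by_cases h1 : l' = j
  · subst h1
    by_cases h2 : j' = l
    · subst h2
      obtain ⟨m, hm1, hm2⟩ := exists_third h3 l' j'
      -- from (l', j') to (j', l')
      have a1 := hM.co_right h (Ne.symm hm1) (Ne.symm hm2) hA
      have a2 := hM.co_left (Ne.symm hm1) h' (Ne.symm hm2) a1
      exact hM.co_right (Ne.symm hm2) h' hm1 a2
    · have a1 := hM.co_left h h' h2 hA
      exact hM.co_right h2 h' h.symm a1
  · have a1 : A ∈ Co M j l' := by
      by_cases h2 : l' = l
      · rw [h2]; exact hA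
      · exact hM.co_right h (Ne.symm h1) (Ne.symm h2) hA
    by_cases h4 : j' = j
    · rw [h4]; exact a1
    · exact hM.co_left (Ne.symm h1) h4 h' a1

omit hM in
lemma single_comm_scalar (j l : β) (A x : Matrix α α F) : scalar β x * single j l A = single j l (x * A) := by
  ext a b : 1
  rw [scalar_apply, diagonal_mul]
  by_cases h : j = a ∧ l = b
  · obtain ⟨rfl, rfl⟩ := h; simp
  · rw [single_apply_of_ne _ _ _ _ _ h, single_apply_of_ne _ _ _ _ _ h, mul_zero]

omit hM in
lemma single_mul_scalar (j l : β) (A x : Matrix α α F) : single j l A * scalar β x = single j l (A * x) := by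
  ext a b : 1
  rw [scalar_apply, mul_diagonal]
  by_cases h : j = a ∧ l = b
  · obtain ⟨rfl, rfl⟩ := h; simp
  · rw [single_apply_of_ne _ _ _ _ _ h, single_apply_of_ne _ _ _ _ _ h, zero_mul]

omit hM in
lemma det_elem {i k : α} (h : i ≠ k) (c : F) : (1 + c • single i k (1 : F)).det = 1 := by
  rw [smul_sgl]
  exact det_transvection_of_ne i k h c

lemma sc_conj_mem {i k : α} (h : i ≠ k) (c : F) {j l : β} {A : Matrix α α F} (hA : A ∈ Co M j l) :
    (1 + c • single i k (1 : F)) * A * (1 - c • single i k (1 : F)) ∈ Co M j l := by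
  have hk : (1 + c • single i k (1 : F)) * (1 - c • single i k (1 : F)) = 1 := by
    apply one_add_mul_one_sub
    rw [smul_mul_smul_comm, sgl_mul_sgl_ne h.symm, smul_zero]
  have h1 := hM.sc _ (det_elem h c)
  have h2 : scalar β (1 - c • single i k (1 : F)) ∈ M := by
    refine hM.inv h1 ?_
    rw [← map_mul, hk, map_one]
  have h3 := hM.mul (hM.mul h1 hA) h2
  have e : scalar β (1 + c • single i k (1 : F)) * (1 + single j l A) * scalar β (1 - c • single i k (1 : F)) =
      1 + single j l ((1 + c • single i k (1 : F)) * A * (1 - c • single i k (1 : F))) := by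
    rw [mul_add, mul_one, add_mul, ← map_mul, hk, map_one, single_comm_scalar, single_mul_scalar]
  rwa [e] at h3

/-- the algebra of coefficients -/
def coAlg (h3 : 3 ≤ Fintype.card β) : Subalgebra F (Matrix α α F) where
  carrier := {A | ∀ j l, j ≠ l → A ∈ Co M j l}
  mul_mem' := by
    intro A B hA hB j l h
    obtain ⟨m, hm1, hm2⟩ := exists_third h3 j l
    exact hM.co_mul (Ne.symm hm1) h hm2 (hA j m (Ne.symm hm1)) (hB m l hm2)
  add_mem' := by
    intro A B hA hB j l h
    have := hM.mul (hA j l h) (hB j l h)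
    have e : (1 + single j l A) * (1 + single j l B) = 1 + single j l (A + B) := by
      rw [mul_add, mul_one, add_mul, one_mul, ssq h, add_zero, single_add]
      abel
    rwa [e] at this
  algebraMap_mem' := by
    intro c j l h
    have := hM.elem j l h c
    rwa [← Algebra.algebraMap_eq_smul_one] at this

lemma coAlg_conjInv (h3 : 3 ≤ Fintype.card β) : ConjInv (hM.coAlg h3) := by
  intro i k h c A hA j l hjl
  exact hM.sc_conj_mem h c (hA j l hjl)

lemma mem_coAlg (h3 : 3 ≤ Fintype.card β) {j l : β} (h : j ≠ l) {A : Matrix α α F} (hA : A ∈ Co M j l) : A ∈ hM.coAlg h3 :=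
  fun j' l' h' => hM.co_all h3 h hA j' l' h'

/-- the alternative for the coefficients -/
theorem coAlg_cases (h3 : 3 ≤ Fintype.card β) (hq : 3 ≤ Fintype.card α ∨ ∃ c : F, c ≠ 0 ∧ c ≠ 1) :
    (∀ j l : β, j ≠ l → ∀ A : Matrix α α F, 1 + single j l A ∈ M) ∨
      (∀ j l : β, j ≠ l → ∀ A : Matrix α α F, 1 + single j l A ∈ M → ∃ c : F, A = c • (1 : Matrix α α F)) := by
  by_cases h : ∃ A ∈ hM.coAlg h3, ¬ ∃ c : F, A = c • (1 : Matrix α α F)
  · obtain ⟨A, hA, hns⟩ := h
    have htop := eq_top_of_conjInv (hM.coAlg_conjInv h3) hq hA hns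
    left
    intro j l hjl B
    have : B ∈ hM.coAlg h3 := by rw [htop]; exact Algebra.mem_top
    exact this j l hjl
  · push Not at h
    right
    intro j l hjl A hA
    exact h A (hM.mem_coAlg h3 hjl hA)

end TSet

/-- the matrix with row `j₀` equal to `a` -/
def rowM (j₀ : β) (a : β → Matrix α α F) : Matrix β β (Matrix α α F) := of fun j l => if j = j₀ then a l else 0

lemma mul_scalar_apply' (X : Matrix β β (Matrix α α F)) (y : Matrix α α F) (j b : β) : (X * scalar β y) j b = X j b * y := by
  rw [scalar_apply, mul_diagonal]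

lemma rowM_apply (j₀ : β) (a : β → Matrix α α F) (j l : β) : rowM j₀ a j l = if j = j₀ then a l else 0 := rfl

lemma rowM_mul_self {j₀ : β} {a : β → Matrix α α F} (h : a j₀ = 0) : rowM j₀ a * rowM j₀ a = 0 := by
  ext j l : 1
  rw [mul_apply]
  apply Finset.sum_eq_zero
  intro k _
  rw [rowM_apply, rowM_apply]
  by_cases hk : k = j₀
  · subst hk; simp [h]
  · rw [if_neg hk, mul_zero]

lemma rowM_mul_single {j₀ : β} {a : β → Matrix α α F} (l m : β) : rowM j₀ a * single l m 1 = single j₀ m (a l) := by
  ext j k : 1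
  by_cases hk : k = m
  · subst hk
    rw [mul_single_apply_same, mul_one, rowM_apply]
    by_cases hj : j = j₀
    · subst hj; simp
    · rw [if_neg hj, single_apply_of_ne _ _ _ _ _ (by simp [Ne.symm hj])]
  · rw [mul_single_apply_of_ne _ _ _ _ _ hk, single_apply_of_ne _ _ _ _ _ (by simp [Ne.symm hk])]

lemma single_mul_rowM {j₀ : β} {a : β → Matrix α α F} {l m : β} (h : m ≠ j₀) : single l m 1 * rowM j₀ a = 0 := by
  ext j k : 1
  by_cases hj : j = l
  · subst hj
    rw [single_mul_apply_same, rowM_apply, if_neg h, mul_zero]; rfl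
  · rw [single_mul_apply_of_ne _ _ _ _ _ hj]; rfl

/-- all coefficients of elementary matrices are scalars -/
def ScalarCo (M : Set (Matrix β β (Matrix α α F))) : Prop :=
  ∀ j l : β, j ≠ l → ∀ A : Matrix α α F, 1 + single j l A ∈ M → ∃ c : F, A = c • (1 : Matrix α α F)

namespace TSet

variable {M : Set (Matrix β β (Matrix α α F))} (hM : TSet M)

include hM

lemma row_scalar (h3 : 3 ≤ Fintype.card β) (hs : ScalarCo M) {j₀ : β} {a : β → Matrix α α F} (ha : a j₀ = 0)
    (h : 1 + rowM j₀ a ∈ M) (l : β) : ∃ c : F, a l = c • (1 : Matrix α α F) := by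
  by_cases hl : l = j₀
  · exact ⟨0, by rw [hl, ha, zero_smul]⟩
  obtain ⟨m, hm1, hm2⟩ := exists_third h3 l j₀
  have h1 := hM.comm_mem h (hM.one_co (Ne.symm hm1)) (rowM_mul_self ha) (ssq (Ne.symm hm1) 1 1) (single_mul_rowM hm2)
  rw [rowM_mul_single] at h1
  exact hs j₀ m (Ne.symm hm2) _ h1

/-- The stabiliser of `U ⊗ w`: the blocks of the inverse are scalar multiples of one of them. -/
theorem block_scalar (h3 : 3 ≤ Fintype.card β) (hq : 3 ≤ Fintype.card α ∨ ∃ c : F, c ≠ 0 ∧ c ≠ 1) (hs : ScalarCo M)
    {j₀ : β} {s r : Matrix β β (Matrix α α F)} (hsM : s ∈ M) (hrM : r ∈ M) (hsr : s * r = 1) (hrs : r * s = 1)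
    (hs0 : ∀ j, j ≠ j₀ → s j j₀ = 0) (hr0 : ∀ j, j ≠ j₀ → r j j₀ = 0) :
    ∀ l m, ∃ c : F, r l m = c • r j₀ j₀ := by
  set A := s j₀ j₀ with hA
  set A' := r j₀ j₀ with hA'
  have hAA' : A * A' = 1 := by
    have := congrFun (congrFun hsr j₀) j₀
    rw [mul_apply, Finset.sum_eq_single j₀ (fun k _ hk => by rw [hr0 k hk, mul_zero]) (by simp), one_apply_eq] at this
    exact this
  have hA'A : A' * A = 1 := by
    have := congrFun (congrFun hrs j₀) j₀
    rw [mul_apply, Finset.sum_eq_single j₀ (fun k _ hk => by rw [hs0 k hk, mul_zero]) (by simp), one_apply_eq] at this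
    exact this
  -- step 1: the lower right blocks
  have step1 : ∀ l m, l ≠ j₀ → ∃ c : F, A * r l m = c • (1 : Matrix α α F) := by
    intro l m hl
    have h1 : s * (1 + single j₀ l 1) * r = 1 + rowM j₀ (fun m => A * r l m) := by
      rw [mul_add, mul_one, add_mul, hsr]
      congr 1
      ext j k : 1
      rw [mul_apply, Finset.sum_eq_single l]
      · rw [mul_single_apply_same, mul_one, rowM_apply]
        by_cases hj : j = j₀
        · rw [if_pos hj, hj]
        · rw [if_neg hj, hs0 j hj, zero_mul]
      · intro b _ hb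
        rw [mul_single_apply_of_ne _ _ _ _ _ hb, zero_mul]
      · simp
    have h2 : 1 + rowM j₀ (fun m => A * r l m) ∈ M := by
      rw [← h1]
      exact hM.mul (hM.mul hsM (hM.one_co (Ne.symm hl))) hrM
    exact hM.row_scalar h3 hs (by rw [hr0 l hl, mul_zero]) h2 m
  choose c hc using step1
  have step1' : ∀ l (hl : l ≠ j₀) m, r l m = c l m hl • A' := by
    intro l hl m
    have := congrArg (fun X => A' * X) (hc l m hl)
    simp only [← mul_assoc, hA'A, one_mul, mul_smul_comm, mul_one] at this
    exact this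
  intro l m
  by_cases hl : l = j₀
  swap
  · exact ⟨c l m hl, step1' l hl m⟩
  subst hl
  by_cases hm : m = l
  · exact ⟨1, by rw [hm, one_smul]⟩
  -- step 2: the top row
  set P := r l m * A with hP
  suffices h : ∃ d : F, P = d • (1 : Matrix α α F) by
    obtain ⟨d, hd⟩ := h
    refine ⟨d, ?_⟩
    have := congrArg (fun X => X * A') hd
    simp only [hP, mul_assoc, hAA', mul_one, smul_mul_assoc, one_mul] at this
    exact this
  apply scalar_of_comm hq
  intro i k hik d
  set x : Matrix α α F := 1 + d • single i k (1 : F) with hx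
  set x' : Matrix α α F := 1 - d • single i k (1 : F) with hx'
  have hee : (d • single i k (1 : F)) * (d • single i k (1 : F)) = 0 := by
    rw [smul_mul_smul_comm, sgl_mul_sgl_ne hik.symm, smul_zero]
  have hxx' : x * x' = 1 := one_add_mul_one_sub hee
  have hx'x : x' * x = 1 := one_sub_mul_one_add hee
  have hscx : scalar β x ∈ M := hM.sc _ (det_elem hik d)
  have hdx : x.det = 1 := det_elem hik d
  have hdx' : x'.det = 1 := by
    have := congrArg det hxx'
    rwa [det_mul, hdx, one_mul, det_one] at this
  have hdAA' : A.det * A'.det = 1 := by rw [← det_mul, hAA', det_one]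
  have hscA : scalar β (A * x' * A') ∈ M := by
    refine hM.sc _ ?_
    rw [det_mul, det_mul, hdx', mul_one, hdAA']
  -- the products
  set ρ : β → Matrix α α F := fun b => ∑ k, s l k * x * r k b with hρ
  have hblk : ∀ j b, (s * scalar β x * r) j b = ∑ k, s j k * x * r k b := by
    intro j b
    rw [mul_apply]
    apply Finset.sum_congr rfl
    intro k _
    rw [scalar_apply, mul_diagonal]
  have hsum : ∀ j b, j ≠ l → b ≠ l → ∑ k, s j k * x * r k b = if j = b then A * x * A' else 0 := by
    intro j b hj hb
    have h1 : ∀ k, s j k * x * r k b = (s j k * r k b) * (A * x * A') := by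
      intro k
      by_cases hk : k = l
      · rw [hk, hs0 j hj]; simp only [zero_mul]
      · -- s j k is a scalar multiple of A
        have hsA : ∃ e : F, s j k = e • A := by
          -- the same argument for the inverse pair
          have h1 : r * (1 + single l j 1) * s = 1 + rowM l (fun m => A' * s j m) := by
            rw [mul_add, mul_one, add_mul, hrs]
            congr 1
            ext a k : 1
            rw [mul_apply, Finset.sum_eq_single j]
            · rw [mul_single_apply_same, mul_one, rowM_apply]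
              by_cases ha : a = l
              · rw [if_pos ha, ha]
              · rw [if_neg ha, hr0 a ha, zero_mul]
            · intro b _ hb
              rw [mul_single_apply_of_ne _ _ _ _ _ hb, zero_mul]
            · simp
          have h2 : 1 + rowM l (fun m => A' * s j m) ∈ M := by
            rw [← h1]
            exact hM.mul (hM.mul hrM (hM.one_co (Ne.symm hj))) hsM
          obtain ⟨e, he⟩ := hM.row_scalar h3 hs (by rw [hs0 j hj, mul_zero]) h2 k
          refine ⟨e, ?_⟩
          have := congrArg (fun X => A * X) he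
          simp only [← mul_assoc, hAA', one_mul, mul_smul_comm, mul_one] at this
          exact this
        obtain ⟨e, he⟩ := hsA
        rw [he, step1' k hk b]
        simp only [smul_mul_assoc, mul_smul_comm, ← mul_assoc, hAA', one_mul]
    rw [Finset.sum_congr rfl (fun k _ => h1 k), ← Finset.sum_mul, ← mul_apply, hsr, one_apply]
    by_cases hjb : j = b
    · rw [if_pos hjb, if_pos hjb, one_mul]
    · rw [if_neg hjb, if_neg hjb, zero_mul]
  -- the conjugate of the block scalar matrix of `x'` by `A`: block scalar matrices are permuted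
  -- the product with the inverse of the block scalar matrix of `A x A'`
  have hform : s * scalar β x * r * scalar β (A * x' * A') = 1 + rowM l (fun b => if b = l then 0 else ρ b * (A * x' * A')) := by
    ext j b : 1
    rw [mul_scalar_apply', hblk, Matrix.add_apply, rowM_apply]
    by_cases hj : j = l
    · subst hj
      by_cases hb : b = j
      · subst hb
        rw [Finset.sum_eq_single b (fun k _ hk => by rw [hr0 k hk, mul_zero]) (by simp), one_apply_eq, if_pos rfl, if_pos rfl, add_zero]
        calc s b b * x * r b b * (A * x' * A') = A * x * (A' * A) * x' * A' := by simp only [hA, hA', mul_assoc]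
          _ = 1 := by rw [hA'A, mul_one, mul_assoc A, hxx', mul_one, hAA']
      · rw [if_pos rfl, if_neg hb, one_apply_ne (Ne.symm hb), zero_add]
    · rw [if_neg hj, add_zero]
      by_cases hb : b = l
      · subst hb
        rw [one_apply_ne hj, Finset.sum_eq_zero, zero_mul]
        intro k _
        by_cases hk : k = b
        · rw [hk, hs0 j hj, zero_mul, zero_mul]
        · rw [hr0 k hk, mul_zero]
      · rw [hsum j b hj hb, one_apply]
        by_cases hjb : j = b
        · rw [if_pos hjb, if_pos hjb]
          calc A * x * A' * (A * x' * A') = A * x * (A' * A) * x' * A' := by simp only [mul_assoc]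
            _ = 1 := by rw [hA'A, mul_one, mul_assoc A, hxx', mul_one, hAA']
        · rw [if_neg hjb, if_neg hjb, zero_mul]
  have hmem : 1 + rowM l (fun b => if b = l then 0 else ρ b * (A * x' * A')) ∈ M := by
    rw [← hform]
    exact hM.mul (hM.mul (hM.mul hsM hscx) hrM) hscA
  obtain ⟨lam, hlam⟩ := hM.row_scalar h3 hs (by simp) hmem m
  rw [if_neg hm] at hlam
  refine ⟨lam, ?_⟩
  -- the two sums
  have e1 : ρ m = A * x * r l m + (∑ k ∈ Finset.univ.erase l, s l k * x * r k m) := by
    rw [hρ]; exact (Finset.add_sum_erase _ _ (Finset.mem_univ l)).symm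
  have e2 : (0 : Matrix α α F) = A * r l m + ∑ k ∈ Finset.univ.erase l, s l k * r k m := by
    have := congrFun (congrFun hsr l) m
    rw [mul_apply, one_apply_ne (Ne.symm hm), ← Finset.add_sum_erase _ _ (Finset.mem_univ l)] at this
    exact this.symm
  have e3 : ∑ k ∈ Finset.univ.erase l, s l k * x * r k m = (∑ k ∈ Finset.univ.erase l, s l k * r k m) * (A * x * A') := by
    rw [Finset.sum_mul]
    apply Finset.sum_congr rfl
    intro k hk
    have hk' : k ≠ l := Finset.ne_of_mem_erase hk
    rw [step1' k hk' m]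
    simp only [mul_smul_comm, smul_mul_assoc, mul_assoc]
    congr 2
    rw [← mul_assoc A' A, hA'A, one_mul]
  have e4 : ∑ k ∈ Finset.univ.erase l, s l k * r k m = - (A * r l m) := by
    rw [eq_neg_iff_add_eq_zero, add_comm, ← e2]
  have e5 : ρ m = A * x * r l m - A * r l m * (A * x * A') := by
    rw [e1, e3, e4, neg_mul, ← sub_eq_add_neg]
  -- conclude
  have e6 : A' * (ρ m * (A * x' * A')) * (A * x) = lam • x := by
    rw [hlam]
    simp only [mul_smul_comm, smul_mul_assoc, mul_one]
    rw [← mul_assoc, hA'A, one_mul]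
  have e7 : A' * (ρ m * (A * x' * A')) * (A * x) = x * P - P * x := by
    have f1 : A' * (ρ m * (A * x' * A')) * (A * x) = A' * ρ m * A * x' * (A' * A) * x := by simp only [mul_assoc]
    rw [f1, hA'A, mul_one, mul_assoc _ x' x, hx'x, mul_one, e5, mul_sub, sub_mul]
    have f2 : A' * (A * x * r l m) * A = (A' * A) * x * (r l m * A) := by simp only [mul_assoc]
    have f3 : A' * (A * r l m * (A * x * A')) * A = (A' * A) * (r l m * A) * x * (A' * A) := by simp only [mul_assoc]
    rw [f2, f3, hA'A, one_mul, one_mul, mul_one]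
  rw [← e7, e6]

end TSet

end Cfsg.Agent.Asch.TMax
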