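import Mathlib
import Cfsg.Prelude.Def_GeometricClasses
set_option autoImplicit false
set_option linter.unusedSectionVars false
set_option linter.style.haveILetI false

/-!
Elements with a unique fixed point on the cosets of a subgroup, and consequences for Sylow subgroups, stabilisers and
invariants of modules.
-/

namespace Cfsg.Agent.Asch.TMax

open Cfsg.Geo Matrix

open scoped Matrix Kronecker MatrixGroups

section Abstract

variable {G : Type*} [Group G]

/-- The elements of `T` have a unique fixed point on the cosets of `N`. -/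
structure UniqueFix (N : Subgroup G) (T : Set G) : Prop where
  mem : ∀ x ∈ T, x ∈ N
  unique : ∀ x ∈ T, ∀ g : G, g * x * g⁻¹ ∈ N → g ∈ N

variable {p : ℕ} [hp : Fact p.Prime] {N : Subgroup G} {T : Set G}

lemma UniqueFix.coset_fixed_iff (h : UniqueFix N T) {x : G} (hx : x ∈ T) (c : G ⧸ N) :
    x • c = c ↔ c = ((1 : G) : G ⧸ N) := by
  induction c using QuotientGroup.induction_on with
  | H g =>
    rw [MulAction.Quotient.smul_coe, smul_eq_mul, eq_comm, QuotientGroup.eq, eq_comm (a := ((g : G) : G ⧸ N)), QuotientGroup.eq]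
    rw [inv_one, one_mul]
    constructor
    · intro h1
      have h2 : g⁻¹ * x * g⁻¹⁻¹ ∈ N := by rw [inv_inv, mul_assoc]; exact h1
      have := h.unique x hx g⁻¹ h2
      rwa [inv_mem_iff] at this
    · intro h1
      exact N.mul_mem (N.inv_mem h1) (N.mul_mem (h.mem x hx) h1)

lemma UniqueFix.card_modEq [Finite G] (h : UniqueFix N T) {x : G} (hx : x ∈ T) (hxp : IsPGroup p (Subgroup.zpowers x)) :
    Nat.card (G ⧸ N) ≡ 1 [MOD p] := by
  have h1 := hxp.card_modEq_card_fixedPoints (G ⧸ N)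
  have h2 : Nat.card (MulAction.fixedPoints (Subgroup.zpowers x) (G ⧸ N)) = 1 := by
    rw [Nat.card_eq_one_iff_unique]
    refine ⟨⟨fun a b => ?_⟩, ⟨⟨((1 : G) : G ⧸ N), ?_⟩⟩⟩
    · have key : ∀ a : MulAction.fixedPoints (Subgroup.zpowers x) (G ⧸ N), (a : G ⧸ N) = ((1 : G) : G ⧸ N) := by
        intro a
        have := a.2 ⟨x, Subgroup.mem_zpowers x⟩
        exact (h.coset_fixed_iff hx _).1 this
      exact Subtype.ext ((key a).trans (key b).symm)
    · intro ⟨y, hy⟩
      have hyN : y ∈ N := (Subgroup.zpowers_le.2 (h.mem x hx)) hy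
      change y • ((1 : G) : G ⧸ N) = _
      rw [MulAction.Quotient.smul_coe, smul_eq_mul, mul_one, eq_comm, QuotientGroup.eq, inv_one, one_mul]
      exact hyN
  rwa [h2] at h1

/-- A `p`-subgroup containing an element with a unique fixed point is contained in `N`. -/
theorem UniqueFix.le_of_mem [Finite G] (h : UniqueFix N T) {x : G} (hx : x ∈ T) {P : Subgroup G} (hP : IsPGroup p P)
    (hxP : x ∈ P) : P ≤ N := by
  have hxp : IsPGroup p (Subgroup.zpowers x) := hP.to_le (Subgroup.zpowers_le.2 hxP)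
  have h1 := h.card_modEq hx hxp
  have h2 := hP.card_modEq_card_fixedPoints (G ⧸ N)
  have h3 : Nat.card (MulAction.fixedPoints P (G ⧸ N)) ≠ 0 := by
    intro h0
    rw [h0] at h2
    have h4 : 1 ≡ 0 [MOD p] := h1.symm.trans h2
    have h5 := (Nat.modEq_zero_iff_dvd).1 h4
    exact hp.out.one_lt.ne' (Nat.dvd_one.1 h5)
  obtain ⟨⟨c, hc⟩⟩ := (Nat.card_ne_zero.1 h3).1
  have hc1 : c = ((1 : G) : G ⧸ N) := (h.coset_fixed_iff hx c).1 (hc ⟨x, hxP⟩)
  intro y hy
  have h6 : y • c = c := hc ⟨y, hy⟩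
  rw [hc1, MulAction.Quotient.smul_coe, smul_eq_mul, mul_one, eq_comm, QuotientGroup.eq, inv_one, one_mul] at h6
  exact h6

/-- The transfer argument: objects fixed by a Sylow subgroup. -/
theorem UniqueFix.exists_sylow [Finite G] (h : UniqueFix N T) {x : G} (hx : x ∈ T) {P₀ : Subgroup G} (hP₀ : IsPGroup p P₀)
    (hxP : x ∈ P₀) : ∃ P : Subgroup G, IsPGroup p P ∧ P₀ ≤ P ∧ P ≤ N ∧ ∀ (M : Subgroup G) (g : G),
      (∀ y ∈ P, g * y * g⁻¹ ∈ M) → ∀ x' ∈ T, x' ∈ M → IsPGroup p (Subgroup.zpowers x') → ∃ m ∈ M, m * g ∈ N := by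
  obtain ⟨P, hP⟩ := hP₀.exists_le_sylow
  have hPN : (P : Subgroup G) ≤ N := h.le_of_mem hx P.isPGroup' (hP hxP)
  refine ⟨P, P.isPGroup', hP, hPN, fun M g hM x' hx' hx'M hx'p => ?_⟩
  -- the conjugate Sylow subgroup
  have hle : ((g • P : Sylow p G) : Subgroup G) ≤ M := by
    intro y hy
    rw [Sylow.coe_subgroup_smul, Subgroup.mem_pointwise_smul_iff_inv_smul_mem] at hy
    have h1 := hM _ hy
    rw [← map_inv, MulAut.smul_def, MulAut.conj_apply] at h1
    convert h1 using 1
    group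
  have hzM : Subgroup.zpowers (⟨x', hx'M⟩ : M) ≤ ⊤ := le_top
  have hz : IsPGroup p (Subgroup.zpowers (⟨x', hx'M⟩ : M)) := by
    have h1 : (Subgroup.zpowers (⟨x', hx'M⟩ : M)).map M.subtype = Subgroup.zpowers x' := by
      rw [MonoidHom.map_zpowers]; rfl
    have e := (Subgroup.equivMapOfInjective (Subgroup.zpowers (⟨x', hx'M⟩ : M)) M.subtype M.subtype_injective)
    refine IsPGroup.of_equiv ?_ e.symm
    rw [h1]
    exact hx'p
  obtain ⟨Q, hQ⟩ := hz.exists_le_sylow
  obtain ⟨m, hm⟩ := MulAction.exists_smul_eq M ((g • P : Sylow p G).subtype hle) Q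
  refine ⟨(m : G), m.2, ?_⟩
  have h1 : (⟨x', hx'M⟩ : M) ∈ (Q : Subgroup M) := hQ (Subgroup.mem_zpowers _)
  rw [← hm, Sylow.coe_subgroup_smul, Subgroup.mem_pointwise_smul_iff_inv_smul_mem] at h1
  have h2 : (((MulAut.conj m)⁻¹ • (⟨x', hx'M⟩ : M) : M) : G) ∈ ((g • P : Sylow p G) : Subgroup G) := h1
  rw [Sylow.coe_subgroup_smul, Subgroup.mem_pointwise_smul_iff_inv_smul_mem] at h2
  have h3 := hPN h2
  have h4 : (((m : G) * g)⁻¹) * x' * (((m : G) * g)⁻¹)⁻¹ ∈ N := by
    rw [← map_inv, ← map_inv, MulAut.smul_def, MulAut.smul_def, MulAut.conj_apply, MulAut.conj_apply] at h3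
    simp only [Subgroup.coe_mul, Subgroup.coe_inv, InvMemClass.coe_inv] at h3
    convert h3 using 1
    group
  have h5 := h.unique x' hx' _ h4
  rwa [inv_mem_iff] at h5

end Abstract

/-- A `p`-subgroup of `GL` in characteristic `p` fixes a nonzero vector. -/
theorem exists_fixed_vec {ι : Type} [Fintype ι] [DecidableEq ι] [Nonempty ι] {F : Type*} [Field F] [Finite F] {p : ℕ}
    [hp : Fact p.Prime] [CharP F p] {P : Subgroup (GL ι F)} (hP : IsPGroup p P) :
    ∃ v : ι → F, v ≠ 0 ∧ ∀ g ∈ P, (g : Matrix ι ι F) *ᵥ v = v := by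
  letI act : MulAction P (ι → F) :=
    { smul := fun g v => ((g : GL ι F) : Matrix ι ι F) *ᵥ v
      one_smul := fun v => by
        change (((1 : P) : GL ι F) : Matrix ι ι F) *ᵥ v = v
        rw [Subgroup.coe_one, Units.val_one, one_mulVec]
      mul_smul := fun a b v => by
        change (((a * b : P) : GL ι F) : Matrix ι ι F) *ᵥ v = _
        rw [Subgroup.coe_mul, Units.val_mul, ← mulVec_mulVec]
        rfl }
  have hdvd : p ∣ Nat.card (ι → F) := by
    have h1 : addOrderOf (fun _ : ι => (1 : F)) = p := by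
      apply addOrderOf_eq_prime
      · ext i; simp
      · intro h
        obtain ⟨i⟩ := (inferInstance : Nonempty ι)
        exact one_ne_zero (congrFun h i)
    rw [← h1]
    exact addOrderOf_dvd_natCard _
  obtain ⟨b, hb, hne⟩ := hP.exists_fixed_point_of_prime_dvd_card_of_fixed_point (ι → F) hdvd
    (a := (0 : ι → F)) (fun u => mulVec_zero _)
  exact ⟨b, hne.symm, fun g hg => hb ⟨g, hg⟩⟩

end Cfsg.Agent.Asch.TMax
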