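import Mathlib
import Cfsg.Prelude.Def_GeometricClasses
import Cfsg.Agent.Asch.TMaxBlock
import Cfsg.Agent.Asch.TMaxGroup
import Cfsg.Agent.AschCases.TensForm
set_option autoImplicit false
set_option linter.unusedSectionVars false
set_option linter.style.haveILetI false

/-!
Overgroups of `SL(U) ⊗ SL(W)` in `GL(U ⊗ W)`, for `dim U < dim W`.
-/

namespace Cfsg.Agent.Asch.TMax

open Cfsg.Geo Matrix Module

open Cfsg.Agent.AschCases (tp kron_tp)

open scoped Matrix Kronecker MatrixGroups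

variable {a b : ℕ} {F : Type*} [Field F]

/-- block form -/
noncomputable def blkE (a b : ℕ) (F : Type*) [Field F] :
    Matrix (Fin a × Fin b) (Fin a × Fin b) F ≃+* Matrix (Fin b) (Fin b) (Matrix (Fin a) (Fin a) F) :=
  (Matrix.reindexAlgEquiv F F (Equiv.prodComm (Fin a) (Fin b))).toRingEquiv.trans (Matrix.compRingEquiv (Fin b) (Fin a) F).symm

lemma blkE_apply (M : Matrix (Fin a × Fin b) (Fin a × Fin b) F) (j l : Fin b) (i k : Fin a) :
    blkE a b F M j l i k = M (i, j) (k, l) := rfl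

lemma blkE_kron (A : Matrix (Fin a) (Fin a) F) (B : Matrix (Fin b) (Fin b) F) :
    blkE a b F (A ⊗ₖ B) = of fun j l => B j l • A := by
  ext j l i k
  rw [blkE_apply, kroneckerMap_apply, of_apply, Matrix.smul_apply, smul_eq_mul, mul_comm]

lemma blkE_kron_one (A : Matrix (Fin a) (Fin a) F) : blkE a b F (A ⊗ₖ (1 : Matrix (Fin b) (Fin b) F)) = scalar (Fin b) A := by
  rw [blkE_kron]
  ext j l i k
  rw [of_apply, scalar_apply]
  by_cases h : j = l
  · subst h; simp
  · simp [h]

lemma blkE_one_kron (j l : Fin b) (c : F) :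
    blkE a b F ((1 : Matrix (Fin a) (Fin a) F) ⊗ₖ (1 + c • single j l (1 : F))) = 1 + single j l (c • (1 : Matrix (Fin a) (Fin a) F)) := by
  rw [kronecker_add, map_add, one_kronecker_one, map_one, blkE_kron]
  congr 1
  ext j' l' i k
  by_cases h : j = j' ∧ l = l'
  · obtain ⟨rfl, rfl⟩ := h; simp
  · rw [of_apply, Matrix.smul_apply, Matrix.smul_apply, single_apply_of_ne _ _ _ _ _ h, single_apply_of_ne _ _ _ _ _ h]
    simp

lemma blkE_single (i k : Fin a) (j l : Fin b) (c : F) :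
    blkE a b F (c • single (i, j) (k, l) (1 : F)) = single j l (c • single i k (1 : F)) := by
  ext j' l' i' k'
  rw [blkE_apply, Matrix.smul_apply]
  by_cases h : j = j' ∧ l = l'
  · obtain ⟨rfl, rfl⟩ := h
    rw [single_apply_same, Matrix.smul_apply]
    by_cases h2 : i = i' ∧ k = k'
    · obtain ⟨rfl, rfl⟩ := h2; simp
    · rw [single_apply_of_ne _ _ _ _ _ h2, single_apply_of_ne]
      rintro ⟨h3, h4⟩
      exact h2 ⟨congrArg Prod.fst h3, congrArg Prod.fst h4⟩
  · rw [single_apply_of_ne _ _ _ _ _ h, single_apply_of_ne]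
    · simp
    · rintro ⟨h3, h4⟩
      exact h ⟨congrArg Prod.snd h3, congrArg Prod.snd h4⟩

/-- the group contains the two special linear groups -/
structure HasSL (S : Subgroup (GL (Fin a × Fin b) F)) : Prop where
  left : ∀ A : Matrix (Fin a) (Fin a) F, A.det = 1 → A ⊗ₖ (1 : Matrix (Fin b) (Fin b) F) ∈ matrixSet S
  right : ∀ B : Matrix (Fin b) (Fin b) F, B.det = 1 → (1 : Matrix (Fin a) (Fin a) F) ⊗ₖ B ∈ matrixSet S

/-- the block matrices of the elements -/
def blkSet (S : Subgroup (GL (Fin a × Fin b) F)) : Set (Matrix (Fin b) (Fin b) (Matrix (Fin a) (Fin a) F)) :=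
  {M | ∃ g ∈ S, blkE a b F (g : Matrix _ _ F) = M}

lemma mem_blkSet_of {S : Subgroup (GL (Fin a × Fin b) F)} {X : Matrix (Fin a × Fin b) (Fin a × Fin b) F} (h : X ∈ matrixSet S) :
    blkE a b F X ∈ blkSet S := by
  obtain ⟨g, hg, rfl⟩ := h
  exact ⟨g, hg, rfl⟩

lemma mem_matrixSet_of_blk {S : Subgroup (GL (Fin a × Fin b) F)} {X : Matrix (Fin a × Fin b) (Fin a × Fin b) F}
    (h : blkE a b F X ∈ blkSet S) : X ∈ matrixSet S := by
  obtain ⟨g, hg, h⟩ := h
  exact ⟨g, hg, (blkE a b F).injective h⟩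

lemma HasSL.tset {S : Subgroup (GL (Fin a × Fin b) F)} (hS : HasSL S) : TSet (blkSet S) where
  one := ⟨1, S.one_mem, by rw [Units.val_one, map_one]⟩
  mul := by
    rintro _ _ ⟨g, hg, rfl⟩ ⟨h, hh, rfl⟩
    exact ⟨g * h, S.mul_mem hg hh, by rw [Units.val_mul, map_mul]⟩
  inv := by
    rintro _ y ⟨g, hg, rfl⟩ h
    refine ⟨g⁻¹, S.inv_mem hg, ?_⟩
    have h1 : blkE a b F ((g⁻¹ : GL _ F) : Matrix _ _ F) * blkE a b F (g : Matrix _ _ F) = 1 := by
      rw [← map_mul, ← Units.val_mul, inv_mul_cancel, Units.val_one, map_one]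
    calc blkE a b F ((g⁻¹ : GL _ F) : Matrix _ _ F) = blkE a b F ((g⁻¹ : GL _ F) : Matrix _ _ F) * (blkE a b F (g : Matrix _ _ F) * y) := by
          rw [h, mul_one]
      _ = y := by rw [← mul_assoc, h1, one_mul]
  elem := by
    intro j l hjl c
    rw [← blkE_one_kron]
    refine mem_blkSet_of (hS.right _ ?_)
    rw [smul_sgl]
    exact det_transvection_of_ne j l hjl c
  sc := by
    intro x hx
    rw [← blkE_kron_one]
    exact mem_blkSet_of (hS.left x hx)

/-- Case of a non-scalar coefficient. -/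
theorem specialLinear_le_of_full (h2 : 2 ≤ b) (ha : 1 ≤ a) {S : Subgroup (GL (Fin a × Fin b) F)} (hS : HasSL S)
    (hfull : ∀ j l : Fin b, j ≠ l → ∀ A : Matrix (Fin a) (Fin a) F, 1 + single j l A ∈ blkSet S) :
    specialLinear (Fin a × Fin b) F ≤ S := by
  have h0b : 0 < b := by omega
  haveI : Nontrivial (Fin a × Fin b) := ⟨⟨(⟨0, ha⟩, ⟨0, h0b⟩), (⟨0, ha⟩, ⟨1, by omega⟩), by simp⟩⟩
  apply specialLinear_le_of_elementary
  rintro ⟨i, j⟩ ⟨k, l⟩ hne c
  apply mem_matrixSet_of_blk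
  rw [map_add, map_one, blkE_single]
  by_cases hjl : j = l
  · subst hjl
    have hik : i ≠ k := fun h => hne (by rw [h])
    obtain ⟨m, hm⟩ : ∃ m : Fin b, m ≠ j := by
      haveI : Nontrivial (Fin b) := Fin.nontrivial_iff_two_le.2 h2
      exact exists_ne j
    have h1 := hS.tset.comm_mem (hfull j m (Ne.symm hm) (c • single i k (1 : F))) (hfull m j hm (single k k (1 : F)))
      (TSet.ssq (Ne.symm hm) _ _) (TSet.ssq hm _ _) (by
        rw [single_mul_single_same, mul_smul_comm, sgl_mul_sgl_ne (Ne.symm hik), smul_zero, single_zero])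
    rwa [single_mul_single_same, smul_mul_assoc, sgl_mul_sgl] at h1
  · exact hfull j l hjl _

/-! ### Pure tensors -/

/-- `u ↦ u ⊗ w` -/
def tpR (w : Fin b → F) : (Fin a → F) →ₗ[F] (Fin a × Fin b → F) where
  toFun u := tp u w
  map_add' u u' := by ext x; simp [tp, add_mul]
  map_smul' c u := by ext x; simp [tp, mul_assoc]

/-- `w ↦ u ⊗ w` -/
def tpL (u : Fin a → F) : (Fin b → F) →ₗ[F] (Fin a × Fin b → F) where
  toFun w := tp u w
  map_add' u u' := by ext x; simp [tp, mul_add]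
  map_smul' c u := by ext x; simp [tp, mul_left_comm]

lemma tpR_apply (w : Fin b → F) (u : Fin a → F) : tpR w u = tp u w := rfl
lemma tpL_apply (u : Fin a → F) (w : Fin b → F) : tpL u w = tp u w := rfl

lemma tpR_injective {w : Fin b → F} (hw : w ≠ 0) : Function.Injective (tpR (a := a) w) := by
  obtain ⟨j, hj⟩ := Function.ne_iff.1 hw
  intro u u' h
  ext i
  exact mul_right_cancel₀ hj (congrFun h (i, j))

lemma tpL_injective {u : Fin a → F} (hu : u ≠ 0) : Function.Injective (tpL (b := b) u) := by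
  obtain ⟨j, hj⟩ := Function.ne_iff.1 hu
  intro w w' h
  ext i
  exact mul_left_cancel₀ hj (congrFun h (j, i))

lemma finrank_tpR {w : Fin b → F} (hw : w ≠ 0) : finrank F (LinearMap.range (tpR (a := a) w)) = a := by
  rw [LinearMap.finrank_range_of_inj (tpR_injective hw), finrank_fin_fun]

lemma finrank_tpL {u : Fin a → F} (hu : u ≠ 0) : finrank F (LinearMap.range (tpL (b := b) u)) = b := by
  rw [LinearMap.finrank_range_of_inj (tpL_injective hu), finrank_fin_fun]

lemma tp_ne_zero {u : Fin a → F} {w : Fin b → F} (hu : u ≠ 0) (hw : w ≠ 0) : tp u w ≠ 0 := by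
  intro h
  apply hu
  apply tpR_injective hw
  rw [map_zero]; exact h

lemma ne_zero_of_tp {u : Fin a → F} {w : Fin b → F} (h : tp u w ≠ 0) : u ≠ 0 ∧ w ≠ 0 := by
  constructor
  · rintro rfl; apply h; ext x; simp [tp]
  · rintro rfl; apply h; ext x; simp [tp]

lemma one_kron_vecMulVec (w ψ : Fin b → F) (v : Fin a × Fin b → F) :
    ((1 : Matrix (Fin a) (Fin a) F) ⊗ₖ vecMulVec w ψ) *ᵥ v = tp (fun i => ∑ j, v (i, j) * ψ j) w := by
  ext ⟨i, j⟩
  rw [mulVec, dotProduct, Fintype.sum_prod_type, Finset.sum_eq_single i]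
  · simp only [kroneckerMap_apply, one_apply_eq, one_mul, vecMulVec_apply, tp]
    rw [Finset.sum_mul]
    apply Finset.sum_congr rfl; intro l _; ring
  · intro k _ hk
    apply Finset.sum_eq_zero; intro l _
    rw [kroneckerMap_apply, one_apply_ne (Ne.symm hk)]; ring
  · simp

/-- the root elements -/
def IsRoot (x : GL (Fin a × Fin b) F) : Prop :=
  ∃ w ψ : Fin b → F, w ≠ 0 ∧ ψ ≠ 0 ∧ ψ ⬝ᵥ w = 0 ∧ (x : Matrix _ _ F) = (1 : Matrix (Fin a) (Fin a) F) ⊗ₖ (1 + vecMulVec w ψ)

lemma det_one_add_vecMulVec {n : Type} [Fintype n] [DecidableEq n] {w ψ : n → F} (h : ψ ⬝ᵥ w = 0) : (1 + vecMulVec w ψ).det = 1 := by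
  have h1 := Matrix.det_one_add_replicateCol_mul_replicateRow (ι := Unit) w ψ
  rw [vecMulVec_eq Unit, h1, h, add_zero]

/-- a determinant one matrix moving a vector to another -/
lemma exists_det_one {n : ℕ} (hn : 2 ≤ n) {w w' : Fin n → F} (hw : w ≠ 0) (hw' : w' ≠ 0) :
    ∃ B : Matrix (Fin n) (Fin n) F, B.det = 1 ∧ B *ᵥ w = w' := by
  -- one transvection, or two
  have one : ∀ v v' : Fin n → F, v ∉ Submodule.span F {v' - v} → ∃ B : Matrix (Fin n) (Fin n) F, B.det = 1 ∧ B *ᵥ v = v' := by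
    intro v v' hv
    obtain ⟨r, hr1, hr2⟩ := GeoMax.exists_dot_of_notMem hv
    have h3 := hr1 _ (Submodule.mem_span_singleton_self _)
    set ψ := (r ⬝ᵥ v)⁻¹ • r with hψ
    have h1 : ψ ⬝ᵥ v = 1 := by rw [hψ, smul_dotProduct, smul_eq_mul, inv_mul_cancel₀ hr2]
    have h2 : ψ ⬝ᵥ (v' - v) = 0 := by rw [hψ, smul_dotProduct, h3, smul_zero]
    refine ⟨1 + vecMulVec (v' - v) ψ, det_one_add_vecMulVec h2, ?_⟩
    rw [add_mulVec, one_mulVec, vecMulVec_mulVec, h1]
    ext i; simp
  by_cases h : w ∈ Submodule.span F {w' - w}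
  · -- then w' is a multiple of w
    obtain ⟨c, hc⟩ := Submodule.mem_span_singleton.1 h
    have hc0 : c ≠ 0 := by rintro rfl; rw [zero_smul] at hc; exact hw hc.symm
    have hw1 : w' = (c⁻¹ + 1) • w := by
      have : w' - w = c⁻¹ • w := by
        rw [← hc, smul_smul, inv_mul_cancel₀ hc0, one_smul, hc]
      rw [add_smul, one_smul, ← this]; abel
    obtain ⟨z, hz⟩ : ∃ z : Fin n → F, z ∉ Submodule.span F {w} := by
      by_contra hcon
      push Not at hcon
      have htop : Submodule.span F {w} = ⊤ := by rw [eq_top_iff]; intro z _; exact hcon z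
      have h1 := finrank_span_singleton (K := F) hw
      rw [htop, finrank_top, finrank_fin_fun] at h1
      omega
    have hz1 : w ∉ Submodule.span F {z - w} := by
      intro h1
      obtain ⟨d, hd⟩ := Submodule.mem_span_singleton.1 h1
      have hd0 : d ≠ 0 := by rintro rfl; rw [zero_smul] at hd; exact hw hd.symm
      apply hz
      rw [Submodule.mem_span_singleton]
      refine ⟨d⁻¹ + 1, ?_⟩
      have : z - w = d⁻¹ • w := by
        nth_rewrite 2 [← hd]
        rw [smul_smul, inv_mul_cancel₀ hd0, one_smul]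
      rw [add_smul, one_smul, ← this]; abel
    have hz2 : z ∉ Submodule.span F {w' - z} := by
      intro h1
      obtain ⟨d, hd⟩ := Submodule.mem_span_singleton.1 h1
      apply hz
      rw [Submodule.mem_span_singleton]
      have h2 : (1 + d) • z = (d * (c⁻¹ + 1)) • w := by
        have h4 : z = d • w' - d • z := by rw [← smul_sub]; exact hd.symm
        rw [add_smul, one_smul]
        nth_rewrite 1 [h4]
        rw [sub_add_cancel, hw1, smul_smul]
      by_cases hd1 : 1 + d = 0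
      · exfalso
        rw [hd1, zero_smul] at h2
        rcases smul_eq_zero.1 h2.symm with h5 | h5
        · rcases mul_eq_zero.1 h5 with h6 | h6
          · rw [h6, add_zero] at hd1; exact one_ne_zero hd1
          · rw [h6, zero_smul] at hw1; exact hw' hw1
        · exact hw h5
      · refine ⟨(1 + d)⁻¹ * (d * (c⁻¹ + 1)), ?_⟩
        rw [mul_smul, ← h2, smul_smul, inv_mul_cancel₀ hd1, one_smul]
    obtain ⟨B1, hB1, hB1'⟩ := one w z hz1
    obtain ⟨B2, hB2, hB2'⟩ := one z w' hz2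
    exact ⟨B2 * B1, by rw [det_mul, hB1, hB2, one_mul], by rw [← mulVec_mulVec, hB1', hB2']⟩
  · exact one w w' h

end Cfsg.Agent.Asch.TMax
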