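import Mathlib
import Cfsg.Prelude.Def_GeometricClasses
import Cfsg.Agent.Asch.TMaxMain
set_option autoImplicit false
set_option linter.unusedSectionVars false
set_option linter.style.haveILetI false

/-!
Overgroups of `SL(U) ⊗ SL(W)` in `GL(U ⊗ W)`, for `dim U < dim W`: the main theorem.
-/

namespace Cfsg.Agent.Asch.TMax

open Cfsg.Geo Matrix Module

open Cfsg.Agent.AschCases (tp kron_tp)

open scoped Matrix Kronecker MatrixGroups

variable {a b : ℕ} {F : Type*} [Field F]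

/-- the Kronecker product as an invertible matrix -/
def kGL (A : GL (Fin a) F) (B : GL (Fin b) F) : GL (Fin a × Fin b) F where
  val := (A : Matrix (Fin a) (Fin a) F) ⊗ₖ (B : Matrix (Fin b) (Fin b) F)
  inv := ((A⁻¹ : GL (Fin a) F) : Matrix (Fin a) (Fin a) F) ⊗ₖ ((B⁻¹ : GL (Fin b) F) : Matrix (Fin b) (Fin b) F)
  val_inv := by rw [← mul_kronecker_mul, ← Units.val_mul, ← Units.val_mul, mul_inv_cancel, mul_inv_cancel,
    Units.val_one, Units.val_one, one_kronecker_one]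
  inv_val := by rw [← mul_kronecker_mul, ← Units.val_mul, ← Units.val_mul, inv_mul_cancel, inv_mul_cancel,
    Units.val_one, Units.val_one, one_kronecker_one]

lemma kGL_mem (A : GL (Fin a) F) (B : GL (Fin b) F) : kGL A B ∈ kroneckerSubgroup a b F := ⟨A, B, rfl⟩

/-- a Kronecker product which is invertible belongs to the Kronecker subgroup -/
lemma mem_kron_of_eq (ha : 1 ≤ a) (hb : 1 ≤ b) {g : GL (Fin a × Fin b) F} {A : Matrix (Fin a) (Fin a) F}
    {B : Matrix (Fin b) (Fin b) F} (h : (g : Matrix _ _ F) = A ⊗ₖ B) : g ∈ kroneckerSubgroup a b F := by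
  have hdet : (A ⊗ₖ B).det ≠ 0 := by rw [← h]; exact GeneralLinearGroup.det_ne_zero g
  rw [det_kronecker] at hdet
  have hA : A.det ≠ 0 := by
    intro h0; apply hdet
    rw [h0, Fintype.card_fin, zero_pow (show b ≠ 0 by omega), zero_mul]
  have hB : B.det ≠ 0 := by
    intro h0; apply hdet
    rw [h0, Fintype.card_fin, Fintype.card_fin, zero_pow (show a ≠ 0 by omega), mul_zero]
  exact ⟨GeneralLinearGroup.mkOfDetNeZero A hA, GeneralLinearGroup.mkOfDetNeZero B hB, h⟩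

lemma gl_inv_mulVec' {ι : Type} [Fintype ι] [DecidableEq ι] (g : GL ι F) (x : ι → F) :
    ((g⁻¹ : GL ι F) : Matrix ι ι F) *ᵥ ((g : Matrix ι ι F) *ᵥ x) = x := GeoMax.gl_inv_mulVec g x

lemma gl_mulVec_inv' {ι : Type} [Fintype ι] [DecidableEq ι] (g : GL ι F) (x : ι → F) :
    (g : Matrix ι ι F) *ᵥ (((g⁻¹ : GL ι F) : Matrix ι ι F) *ᵥ x) = x := GeoMax.gl_mulVec_inv g x

/-- The stabiliser of `U ⊗ e₀`. -/
lemma mem_kron_of_stab_single (ha : 1 ≤ a) (h3 : 3 ≤ b) (hq : 3 ≤ a ∨ ∃ c : F, c ≠ 0 ∧ c ≠ 1)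
    {S : Subgroup (GL (Fin a × Fin b) F)} (hS : HasSL S) (hs : ScalarCo (blkSet S)) {j₀ : Fin b} {g : GL (Fin a × Fin b) F}
    (hg : g ∈ S) (h1 : ∀ u : Fin a → F, ∃ u' : Fin a → F, (g : Matrix _ _ F) *ᵥ tp u (Pi.single j₀ 1) = tp u' (Pi.single j₀ 1))
    (h2 : ∀ u : Fin a → F, ∃ u' : Fin a → F, ((g⁻¹ : GL _ F) : Matrix _ _ F) *ᵥ tp u (Pi.single j₀ 1) = tp u' (Pi.single j₀ 1)) :
    g ∈ kroneckerSubgroup a b F := by
  have hblk : ∀ (X : Matrix (Fin a × Fin b) (Fin a × Fin b) F),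
      (∀ u : Fin a → F, ∃ u' : Fin a → F, X *ᵥ tp u (Pi.single j₀ 1) = tp u' (Pi.single j₀ 1)) → ∀ j, j ≠ j₀ → blkE a b F X j j₀ = 0 := by
    intro X hX j hj
    ext i k
    obtain ⟨u', hu'⟩ := hX (Pi.single k 1)
    have h4 := congrFun hu' (i, j)
    have h5 : tp (Pi.single k (1 : F)) (Pi.single j₀ 1) = (Pi.single (k, j₀) 1 : Fin a × Fin b → F) := by
      ext ⟨x, y⟩
      simp only [tp, Pi.single_apply, Prod.mk.injEq]
      by_cases hx : x = k <;> by_cases hy : y = j₀ <;> simp [hx, hy]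
    rw [h5, mulVec_single_one, tp, Pi.single_apply, if_neg hj, mul_zero] at h4
    exact h4
  have hr := hS.tset.block_scalar (by rwa [Fintype.card_fin]) (by rwa [Fintype.card_fin]) hs
    (s := blkE a b F ((g⁻¹ : GL _ F) : Matrix _ _ F)) (r := blkE a b F (g : Matrix _ _ F)) (j₀ := j₀)
    ⟨g⁻¹, S.inv_mem hg, rfl⟩ ⟨g, hg, rfl⟩ (by rw [← map_mul, ← Units.val_mul, inv_mul_cancel, Units.val_one, map_one])
    (by rw [← map_mul, ← Units.val_mul, mul_inv_cancel, Units.val_one, map_one]) (hblk _ h2) (hblk _ h1)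
  choose c hc using hr
  refine mem_kron_of_eq (A := blkE a b F (g : Matrix _ _ F) j₀ j₀) (B := of c) ha (by omega) ?_
  apply (blkE a b F).injective
  rw [blkE_kron]
  ext j l : 2
  rw [of_apply, of_apply, hc]

lemma mem_range_tpR {w : Fin b → F} {v : Fin a × Fin b → F} : v ∈ LinearMap.range (tpR (a := a) w) ↔ ∃ u, v = tp u w :=
  ⟨fun ⟨u, hu⟩ => ⟨u, hu.symm⟩, fun ⟨u, hu⟩ => ⟨u, hu.symm⟩⟩

/-- An element mapping some `U ⊗ w` to some `U ⊗ w'` is a Kronecker product. -/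
lemma mem_kron_of_map (ha : 1 ≤ a) (h3 : 3 ≤ b) (hq : 3 ≤ a ∨ ∃ c : F, c ≠ 0 ∧ c ≠ 1)
    {S : Subgroup (GL (Fin a × Fin b) F)} (hS : HasSL S) (hs : ScalarCo (blkSet S)) {g : GL (Fin a × Fin b) F}
    (hg : g ∈ S) {w w' : Fin b → F} (hw : w ≠ 0) (hw' : w' ≠ 0)
    (h : (LinearMap.range (tpR (a := a) w)).map (toLin' (g : Matrix _ _ F)) = LinearMap.range (tpR (a := a) w')) :
    g ∈ kroneckerSubgroup a b F := by
  obtain ⟨e0⟩ : Nonempty (Fin b) := ⟨⟨0, by omega⟩⟩
  have h0 : (Pi.single e0 (1 : F) : Fin b → F) ≠ 0 := by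
    intro h; have := congrFun h e0; simp at this
  obtain ⟨B, hB, hBw⟩ := exists_det_one (F := F) (n := b) (by omega) h0 hw
  obtain ⟨C, hC, hCw⟩ := exists_det_one (F := F) (n := b) (by omega) hw' h0
  obtain ⟨kB, hkB, hkB'⟩ := hS.right B hB
  obtain ⟨kC, hkC, hkC'⟩ := hS.right C hC
  replace hkB' : (kB : Matrix _ _ F) = (1 : Matrix (Fin a) (Fin a) F) ⊗ₖ B := hkB'
  replace hkC' : (kC : Matrix _ _ F) = (1 : Matrix (Fin a) (Fin a) F) ⊗ₖ C := hkC'
  have hkBm : kB ∈ kroneckerSubgroup a b F := mem_kron_of_eq ha (by omega) hkB'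
  have hkCm : kC ∈ kroneckerSubgroup a b F := mem_kron_of_eq ha (by omega) hkC'
  have e1 : ∀ u : Fin a → F, (kB : Matrix _ _ F) *ᵥ tp u (Pi.single e0 1) = tp u w := by
    intro u; rw [hkB', kron_tp, one_mulVec, hBw]
  have e2 : ∀ u : Fin a → F, (kC : Matrix _ _ F) *ᵥ tp u w' = tp u (Pi.single e0 1) := by
    intro u; rw [hkC', kron_tp, one_mulVec, hCw]
  have e3 : ∀ u : Fin a → F, ∃ u' : Fin a → F, (g : Matrix _ _ F) *ᵥ tp u w = tp u' w' := by
    intro u
    have : toLin' (g : Matrix _ _ F) (tp u w) ∈ LinearMap.range (tpR (a := a) w') := by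
      rw [← h]; exact Submodule.mem_map_of_mem ⟨u, rfl⟩
    rw [mem_range_tpR] at this
    exact this
  have e4 : ∀ u : Fin a → F, ∃ u' : Fin a → F, ((g⁻¹ : GL _ F) : Matrix _ _ F) *ᵥ tp u w' = tp u' w := by
    intro u
    have : tp u w' ∈ (LinearMap.range (tpR (a := a) w)).map (toLin' (g : Matrix _ _ F)) := by
      rw [h]; exact ⟨u, rfl⟩
    obtain ⟨_, ⟨u', rfl⟩, h5⟩ := this
    refine ⟨u', ?_⟩
    rw [← h5, toLin'_apply, gl_inv_mulVec']
    rfl
  have hmem : kC * g * kB ∈ kroneckerSubgroup a b F := by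
    apply mem_kron_of_stab_single ha h3 hq hS hs (j₀ := e0) (S.mul_mem (S.mul_mem hkC hg) hkB)
    · intro u
      obtain ⟨u', hu'⟩ := e3 u
      refine ⟨u', ?_⟩
      rw [Units.val_mul, Units.val_mul, ← mulVec_mulVec, ← mulVec_mulVec, e1, hu', e2]
    · intro u
      obtain ⟨u', hu'⟩ := e4 u
      refine ⟨u', ?_⟩
      rw [_root_.mul_inv_rev, _root_.mul_inv_rev, Units.val_mul, Units.val_mul, ← mulVec_mulVec, ← mulVec_mulVec, ← e2 u, gl_inv_mulVec', hu',
        ← e1 u', gl_inv_mulVec']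
  have : g = kC⁻¹ * (kC * g * kB) * kB⁻¹ := by group
  rw [this]
  exact Subgroup.mul_mem _ (Subgroup.mul_mem _ (Subgroup.inv_mem _ hkCm) hmem) (Subgroup.inv_mem _ hkBm)

/-- a non-scalar matrix has a vector which is not an eigenvector -/
lemma exists_not_eigen {n : Type} [Fintype n] [DecidableEq n] {A : Matrix n n F} (h : ¬ ∃ c : F, A = c • (1 : Matrix n n F)) :
    ∃ u : n → F, ∀ c : F, A *ᵥ u ≠ c • u := by
  rcases nonscalar_cases h with ⟨i, j, hij, hji⟩ | ⟨hd, i, j, hij, hne⟩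
  · refine ⟨Pi.single i 1, fun c hc => hji ?_⟩
    have := congrFun hc j
    rw [mulVec_single_one, Pi.smul_apply, Pi.single_apply, if_neg hij.symm, smul_zero] at this
    exact this
  · refine ⟨Pi.single i 1 + Pi.single j 1, fun c hc => hne ?_⟩
    have e1 := congrFun hc i
    have e2 := congrFun hc j
    rw [mulVec_add, mulVec_single_one, mulVec_single_one] at e1 e2
    simp only [Pi.add_apply, Pi.smul_apply, Pi.single_apply, if_neg hij, if_neg hij.symm, if_true, smul_eq_mul, col_apply,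
      hd i j hij, hd j i hij.symm] at e1 e2
    simp only [add_zero, zero_add, mul_one] at e1 e2
    rw [e1, e2]

/-- Fusion of root elements. -/
lemma mem_kron_of_conj_root (ha : 1 ≤ a) (hab : a < b) (h3 : 3 ≤ b) (hq : 3 ≤ a ∨ ∃ c : F, c ≠ 0 ∧ c ≠ 1)
    {S : Subgroup (GL (Fin a × Fin b) F)} (hS : HasSL S) (hs : ScalarCo (blkSet S)) {g x : GL (Fin a × Fin b) F}
    (hg : g ∈ S) (hx : IsRoot x) (h : g * x * g⁻¹ ∈ kroneckerSubgroup a b F) : g ∈ kroneckerSubgroup a b F := by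
  obtain ⟨w, ψ, hw, hψ, hψw, hxe⟩ := hx
  obtain ⟨A, B, hAB⟩ := h
  set y := g * x * g⁻¹ with hy
  -- the range of `y - 1`
  have hx1 : ∀ v : Fin a × Fin b → F, (x : Matrix _ _ F) *ᵥ v - v = tp (fun i => ∑ j, v (i, j) * ψ j) w := by
    intro v
    rw [hxe, kronecker_add, one_kronecker_one, add_mulVec, one_mulVec, one_kron_vecMulVec, add_sub_cancel_left]
  have hy1 : ∀ v : Fin a × Fin b → F, (y : Matrix (Fin a × Fin b) (Fin a × Fin b) F) *ᵥ v - v =
      (g : Matrix (Fin a × Fin b) (Fin a × Fin b) F) *ᵥ ((x : Matrix (Fin a × Fin b) (Fin a × Fin b) F) *ᵥ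
        (((g⁻¹ : GL (Fin a × Fin b) F) : Matrix (Fin a × Fin b) (Fin a × Fin b) F) *ᵥ v)
      - ((g⁻¹ : GL (Fin a × Fin b) F) : Matrix (Fin a × Fin b) (Fin a × Fin b) F) *ᵥ v) := by
    intro v
    rw [mulVec_sub, gl_mulVec_inv', hy, Units.val_mul, Units.val_mul, ← mulVec_mulVec, ← mulVec_mulVec]
  have hrange : ∀ v : Fin a × Fin b → F, (y : Matrix _ _ F) *ᵥ v - v ∈ (LinearMap.range (tpR (a := a) w)).map (toLin' (g : Matrix _ _ F)) := by
    intro v
    rw [hy1, hx1]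
    exact Submodule.mem_map_of_mem (f := toLin' (g : Matrix (Fin a × Fin b) (Fin a × Fin b) F))
      (p := LinearMap.range (tpR (a := a) w)) (mem_range_tpR.2 ⟨_, rfl⟩)
  have hfr : finrank F ((LinearMap.range (tpR (a := a) w)).map (toLin' (g : Matrix (Fin a × Fin b) (Fin a × Fin b) F))) = a := by
    rw [← LinearEquiv.finrank_eq (Submodule.equivMapOfInjective (toLin' (g : Matrix (Fin a × Fin b) (Fin a × Fin b) F))
      (fun u v huv => GeoMax.gl_mulVec_injective g huv) (LinearMap.range (tpR (a := a) w)))]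
    exact finrank_tpR hw
  by_cases hsc : ∃ c : F, (A : Matrix (Fin a) (Fin a) F) = c • (1 : Matrix (Fin a) (Fin a) F)
  swap
  · exfalso
    obtain ⟨u, hu⟩ := exists_not_eigen hsc
    have hu0 : u ≠ 0 := by
      rintro rfl
      exact hu 0 (by rw [mulVec_zero, smul_zero])
    -- an injective map into the range
    let φ : (Fin b → F) →ₗ[F] (Fin a × Fin b → F) := (toLin' (y : Matrix _ _ F) - LinearMap.id) ∘ₗ tpL u
    have hφ : ∀ z, φ z = tp ((A : Matrix _ _ F) *ᵥ u) ((B : Matrix _ _ F) *ᵥ z) - tp u z := by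
      intro z
      change (y : Matrix _ _ F) *ᵥ tp u z - tp u z = _
      rw [hAB, kron_tp]
    have hinj : Function.Injective φ := by
      rw [← LinearMap.ker_eq_bot, LinearMap.ker_eq_bot']
      intro z hz
      by_contra hz0
      rw [hφ, sub_eq_zero] at hz
      obtain ⟨j, hj⟩ := Function.ne_iff.1 hz0
      rw [Pi.zero_apply] at hj
      have h1 : ∀ i, ((A : Matrix _ _ F) *ᵥ u) i * ((B : Matrix _ _ F) *ᵥ z) j = u i * z j := fun i => congrFun hz (i, j)
      have h2 : ((B : Matrix _ _ F) *ᵥ z) j ≠ 0 := by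
        intro h0
        obtain ⟨i, hi⟩ := Function.ne_iff.1 hu0
        have := h1 i
        rw [h0, mul_zero] at this
        exact (mul_ne_zero hi hj) this.symm
      apply hu (z j / ((B : Matrix _ _ F) *ᵥ z) j)
      ext i
      rw [Pi.smul_apply, smul_eq_mul]
      field_simp
      rw [h1 i]; ring
    have hle : LinearMap.range φ ≤ (LinearMap.range (tpR (a := a) w)).map (toLin' (g : Matrix _ _ F)) := by
      rintro _ ⟨z, rfl⟩
      exact hrange (tp u z)
    have h5 := Submodule.finrank_mono hle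
    rw [hfr, LinearMap.finrank_range_of_inj hinj, finrank_fin_fun] at h5
    omega
  obtain ⟨c, hc⟩ := hsc
  -- the difference on pure tensors
  have hy2 : ∀ (u : Fin a → F) (z : Fin b → F), (y : Matrix _ _ F) *ᵥ tp u z - tp u z = tp u (c • (B : Matrix _ _ F) *ᵥ z - z) := by
    intro u z
    rw [hAB, kron_tp, hc, smul_mulVec, one_mulVec]
    ext ⟨i, j⟩
    simp only [tp, Pi.sub_apply, Pi.smul_apply, smul_eq_mul]
    ring
  obtain ⟨z, hz⟩ : ∃ z : Fin b → F, c • (B : Matrix _ _ F) *ᵥ z - z ≠ 0 := by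
    by_contra hcon
    push Not at hcon
    -- then y = 1
    have hy3 : ∀ (u : Fin a → F) (z : Fin b → F), (y : Matrix _ _ F) *ᵥ tp u z = tp u z := by
      intro u z
      have := hy2 u z
      rw [hcon z] at this
      have h0 : tp u (0 : Fin b → F) = 0 := by ext x; simp [tp]
      rw [h0] at this
      exact sub_eq_zero.1 this
    have hy4 : y = 1 := by
      apply Units.ext
      apply Matrix.ext_of_mulVec_single
      rintro ⟨i, j⟩
      have h5 : tp (Pi.single i (1 : F)) (Pi.single j 1) = (Pi.single (i, j) 1 : Fin a × Fin b → F) := by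
        ext ⟨x, y⟩
        simp only [tp, Pi.single_apply, Prod.mk.injEq]
        by_cases hx : x = i <;> by_cases hy : y = j <;> simp [hx, hy]
      rw [Units.val_one, one_mulVec, ← h5, hy3]
    have hx2 : x = 1 := by
      have : x = g⁻¹ * y * g := by rw [hy]; group
      rw [this, hy4]; group
    obtain ⟨j, hj⟩ := Function.ne_iff.1 hψ
    rw [Pi.zero_apply] at hj
    have h6 := hx1 (tp (fun _ => 1) (Pi.single j 1))
    rw [hx2, Units.val_one, one_mulVec, sub_self] at h6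
    have h7 : (fun i : Fin a => ∑ l, tp (fun _ : Fin a => (1 : F)) (Pi.single j 1) (i, l) * ψ l) = fun _ => ψ j := by
      ext i
      simp [tp, Pi.single_apply]
    rw [h7] at h6
    refine tp_ne_zero (a := a) ?_ hw h6.symm
    intro h8
    exact hj (congrFun h8 ⟨0, ha⟩)
  set w' := c • (B : Matrix _ _ F) *ᵥ z - z with hw'
  have hle : LinearMap.range (tpR (a := a) w') ≤ (LinearMap.range (tpR (a := a) w)).map (toLin' (g : Matrix _ _ F)) := by
    rintro _ ⟨u, rfl⟩
    rw [tpR_apply, hw', ← hy2]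
    exact hrange _
  have heq := Submodule.eq_of_le_of_finrank_eq hle (by rw [hfr, finrank_tpR hz])
  exact mem_kron_of_map ha h3 hq hS hs hg hw hz heq.symm

end Cfsg.Agent.Asch.TMax
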