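import Mathlib
import Cfsg.Prelude.Def_GeometricClasses
import Cfsg.Agent.Asch.CWBlk
import Cfsg.Agent.Asch.TMaxFinal
set_option autoImplicit false
set_option linter.unusedSectionVars false
set_option linter.unusedVariables false
set_option linter.style.haveILetI false

/-!
Rank arguments for `E a + b`.
-/

namespace Cfsg.Agent.Asch.CW

open Matrix Module

open scoped Matrix

variable {β : Type} [Fintype β] [DecidableEq β] {ι : Type} [Fintype ι] [DecidableEq ι] {F : Type*} [Field F]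

lemma exists_row_sep {u v : β → F} (h : v ∉ Submodule.span F {u}) : ∃ ψ : β → F, ψ ⬝ᵥ u = 0 ∧ ψ ⬝ᵥ v = 1 := by
  obtain ⟨f, hf, hf'⟩ := Submodule.exists_le_ker_of_notMem h
  have hfu : f u = 0 := hf' (Submodule.mem_span_singleton_self u)
  have hrep : ∀ w : β → F, (fun j => f (Pi.single j 1)) ⬝ᵥ w = f w := by
    intro w
    conv_rhs => rw [← Finset.univ_sum_single w, map_sum]
    rw [dotProduct]
    refine Finset.sum_congr rfl fun j _ => ?_
    have : (Pi.single j (w j) : β → F) = w j • Pi.single j 1 := by rw [← Pi.single_smul, smul_eq_mul, mul_one]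
    rw [this, map_smul, smul_eq_mul, mul_comm]
  refine ⟨(f v)⁻¹ • fun j => f (Pi.single j 1), ?_, ?_⟩
  · rw [smul_dotProduct, hrep, hfu, smul_zero]
  · rw [smul_dotProduct, hrep, smul_eq_mul, inv_mul_cancel₀ hf]

lemma exists_row_zero (h3 : 3 ≤ Fintype.card β) (u v : β → F) : ∃ ψ : β → F, ψ ≠ 0 ∧ ψ ⬝ᵥ u = 0 ∧ ψ ⬝ᵥ v = 0 := by
  let L : (β → F) →ₗ[F] (Fin 2 → F) :=
    { toFun := fun ψ => ![ψ ⬝ᵥ u, ψ ⬝ᵥ v]
      map_add' := by intro x y; ext i; fin_cases i <;> simp [add_dotProduct]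
      map_smul' := by intro c x; ext i; fin_cases i <;> simp [smul_dotProduct] }
  have hker : LinearMap.ker L ≠ ⊥ := by
    apply LinearMap.ker_ne_bot_of_finrank_lt
    rw [finrank_fintype_fun_eq_card, finrank_fintype_fun_eq_card, Fintype.card_fin]
    omega
  obtain ⟨ψ, hψ, hψ0⟩ := Submodule.exists_mem_ne_zero_of_ne_bot hker
  have h := LinearMap.mem_ker.1 hψ
  exact ⟨ψ, hψ0, congrFun h 0, congrFun h 1⟩

lemma mul_eq_zero_of_rank_le {Z M N : Matrix ι ι F} (hr : Z.rank ≤ (Z * M).rank) (h : N * (Z * M) = 0) : N * Z = 0 := by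
  have hle : LinearMap.range (Z * M).mulVecLin ≤ LinearMap.range Z.mulVecLin := by
    rw [Matrix.mulVecLin_mul]
    exact LinearMap.range_comp_le_range _ _
  have heq : LinearMap.range (Z * M).mulVecLin = LinearMap.range Z.mulVecLin :=
    Submodule.eq_of_le_of_finrank_le hle hr
  apply Matrix.ext_of_mulVec_single
  intro i
  rw [zero_mulVec, ← mulVec_mulVec]
  have h1 : Z *ᵥ Pi.single i 1 ∈ LinearMap.range (Z * M).mulVecLin := by
    rw [heq]; exact ⟨_, rfl⟩
  obtain ⟨w, hw⟩ := h1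
  rw [mulVecLin_apply] at hw
  rw [← hw, mulVec_mulVec, h, zero_mulVec]

variable {E : Matrix β β F →ₐ[F] Matrix ι ι F}

/-- **Rank lemma**: if `E a + b` has rank at most the rank of a rank one idempotent and `a` is not scalar then `b` is scalar. -/
theorem scalar_of_rank (h3 : 3 ≤ Fintype.card β) {a : Matrix β β F} {b : Matrix ι ι F} (hb : Cmt E b) (i₀ : β)
    (hr : (E a + b).rank ≤ (E (single i₀ i₀ 1)).rank) (ha : ¬ ∃ c : F, a = c • (1 : Matrix β β F)) :
    ∃ c : F, b = c • (1 : Matrix ι ι F) := by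
  obtain ⟨u, hu⟩ := TMax.exists_not_eigen ha
  have hau : a *ᵥ u ∉ Submodule.span F {u} := by
    intro h
    obtain ⟨c, hc⟩ := Submodule.mem_span_singleton.1 h
    exact hu c hc.symm
  obtain ⟨ψ, hψ1, hψ2⟩ := exists_row_sep hau
  obtain ⟨ψ', hψ0, hψ1', hψ2'⟩ := exists_row_zero h3 u (a *ᵥ u)
  set x : β → F := Pi.single i₀ 1 with hx
  have hM : (E a + b) * E (vecMulVec u x) = E (vecMulVec (a *ᵥ u) x) + E (vecMulVec u x) * b := by
    rw [add_mul, ← hb, ← map_mul, mul_vecMulVec]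
  have hxx : vecMulVec x x = single i₀ i₀ (1 : F) := by
    ext i j
    simp only [vecMulVec_apply, single_apply, hx, Pi.single_apply, eq_comm (a := i), eq_comm (a := j)]
    by_cases hi : i₀ = i <;> by_cases hj : i₀ = j <;> simp [hi, hj]
  have hN : ∀ χ : β → F, E (vecMulVec x χ) * ((E a + b) * E (vecMulVec u x)) =
      (χ ⬝ᵥ (a *ᵥ u)) • E (vecMulVec x x) + (χ ⬝ᵥ u) • (E (vecMulVec x x) * b) := by
    intro χ
    rw [hM, mul_add, ← mul_assoc, ← map_mul, ← map_mul, vecMulVec_mul_vecMulVec, vecMulVec_mul_vecMulVec,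
      vecMulVec_smul, vecMulVec_smul, map_smul, map_smul, smul_mul_assoc]
  have h1 : (E a + b).rank ≤ ((E a + b) * E (vecMulVec u x)).rank := by
    refine hr.trans ?_
    have h2 := hN ψ
    rw [hψ1, hψ2, zero_smul, add_zero, one_smul, hxx] at h2
    rw [← h2]
    exact Matrix.rank_mul_le_right _ _
  have h2 := hN ψ'
  rw [hψ1', hψ2', zero_smul, zero_smul, add_zero] at h2
  have h4 := mul_eq_zero_of_rank_le h1 h2
  rw [mul_add, ← map_mul, vecMulVec_mul] at h4
  obtain ⟨m, hm⟩ := Function.ne_iff.1 hψ0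
  have h5 := congrArg (fun Z => blk E Z i₀ m) h4
  simp only [blk_add, blk_zero, blk_E_mul E hb, blk_E, vecMulVec_apply, hx, Pi.single_eq_same, one_mul] at h5
  rw [Pi.zero_apply] at hm
  refine ⟨- ((ψ' m)⁻¹ * (ψ' ᵥ* a) m), ?_⟩
  have h6 : (ψ' m) • b = - ((ψ' ᵥ* a) m • (1 : Matrix ι ι F)) := by
    rw [eq_neg_iff_add_eq_zero, add_comm]; exact h5
  calc b = (ψ' m)⁻¹ • (ψ' m • b) := by rw [smul_smul, inv_mul_cancel₀ hm, one_smul]
    _ = _ := by rw [h6, smul_neg, smul_smul, neg_smul]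

end Cfsg.Agent.Asch.CW
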