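import Mathlib
import Cfsg.Prelude.Def_GeometricClasses
import Cfsg.Agent.Asch.CWBlk
import Cfsg.Agent.Asch.TensorWreath
set_option autoImplicit false
set_option linter.unusedSectionVars false
set_option linter.unusedVariables false
set_option linter.style.haveILetI false

/-!
Systems of commuting matrix algebras.
-/

namespace Cfsg.Agent.Asch.CW

open Matrix Module

open scoped Matrix

/-- pairwise commuting full matrix algebras with scalar joint centralizer -/
structure Sys (k : ℕ) (T ι : Type) [Fintype ι] [DecidableEq ι] (F : Type*) [Field F] where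
  E : T → Matrix (Fin k) (Fin k) F →ₐ[F] Matrix ι ι F
  comm : ∀ i j, i ≠ j → ∀ a b, E i a * E j b = E j b * E i a
  cent : ∀ Z : Matrix ι ι F, (∀ i, Cmt (E i) Z) → ∃ c : F, Z = c • (1 : Matrix ι ι F)

namespace Sys

variable {k : ℕ} {T ι : Type} [Fintype ι] [DecidableEq ι] {F : Type*} [Field F] (S : Sys k T ι F)

/-- `Z` commutes with all factors outside `J` -/
def On (J : Finset T) (Z : Matrix ι ι F) : Prop := ∀ i, i ∉ J → Cmt (S.E i) Z

variable {S} {J J' : Finset T}

lemma On.add {b c : Matrix ι ι F} (hb : S.On J b) (hc : S.On J c) : S.On J (b + c) := fun i hi => (hb i hi).add (hc i hi)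

lemma On.sub {b c : Matrix ι ι F} (hb : S.On J b) (hc : S.On J c) : S.On J (b - c) := fun i hi => (hb i hi).sub (hc i hi)

lemma On.neg {b : Matrix ι ι F} (hb : S.On J b) : S.On J (-b) := fun i hi => (hb i hi).neg

lemma On.mul {b c : Matrix ι ι F} (hb : S.On J b) (hc : S.On J c) : S.On J (b * c) := fun i hi => (hb i hi).mul (hc i hi)

lemma On.one : S.On J (1 : Matrix ι ι F) := fun i hi => Cmt.one

lemma On.zero : S.On J (0 : Matrix ι ι F) := fun i hi => Cmt.zero

lemma On.smul {b : Matrix ι ι F} (hb : S.On J b) (c : F) : S.On J (c • b) := fun i hi => (hb i hi).smul c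

lemma On.sum {γ : Type*} {s : Finset γ} {f : γ → Matrix ι ι F} (h : ∀ x ∈ s, S.On J (f x)) : S.On J (∑ x ∈ s, f x) :=
  fun i hi => Cmt.sum fun x hx => h x hx i hi

lemma On.mono {b : Matrix ι ι F} (hb : S.On J b) (h : J ⊆ J') : S.On J' b := fun i hi => hb i fun h' => hi (h h')

lemma On.inv {g : GL ι F} (hg : S.On J (g : Matrix ι ι F)) : S.On J ((g⁻¹ : GL ι F) : Matrix ι ι F) := by
  intro i hi a
  have h := hg i hi a
  have h1 : ((g⁻¹ : GL ι F) : Matrix ι ι F) * (S.E i a * (g : Matrix ι ι F)) * ((g⁻¹ : GL ι F) : Matrix ι ι F) =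
      ((g⁻¹ : GL ι F) : Matrix ι ι F) * ((g : Matrix ι ι F) * S.E i a) * ((g⁻¹ : GL ι F) : Matrix ι ι F) := by rw [h]
  rw [← mul_assoc, ← mul_assoc, ← Units.val_mul, inv_mul_cancel, Units.val_one, one_mul, mul_assoc, mul_assoc, ← Units.val_mul,
    mul_inv_cancel, Units.val_one, mul_one] at h1
  exact h1.symm

lemma cmt_E {i j : T} (h : i ≠ j) (a : Matrix (Fin k) (Fin k) F) : Cmt (S.E i) (S.E j a) := fun x => S.comm i j h x a

lemma on_E {i : T} (hi : i ∈ J) (a : Matrix (Fin k) (Fin k) F) : S.On J (S.E i a) := fun j hj =>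
  cmt_E (fun h => hj (by rw [h]; exact hi)) a

lemma cmt_of_On {i : T} (hi : i ∉ J) {b : Matrix ι ι F} (hb : S.On J b) : Cmt (S.E i) b := hb i hi

variable [DecidableEq T]

lemma On.blk {Z : Matrix ι ι F} (hZ : S.On J Z) (i : T) (l m : Fin k) : S.On (J.erase i) (CW.blk (S.E i) Z l m) := by
  intro j hj
  by_cases h : j = i
  · subst h
    exact blk_cmt _ _ _ _
  · rw [Finset.mem_erase, not_and] at hj
    apply Cmt.sum
    intro r _
    exact ((cmt_E h _).mul (hZ j (hj h))).mul (cmt_E h _)

lemma on_empty {Z : Matrix ι ι F} (hZ : S.On ∅ Z) : ∃ c : F, Z = c • (1 : Matrix ι ι F) :=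
  S.cent Z fun i => hZ i (Finset.notMem_empty i)

lemma on_singleton {i : T} {Z : Matrix ι ι F} (hZ : S.On {i} Z) : ∃ z, Z = S.E i z := by
  have h : ∀ l m, ∃ c : F, CW.blk (S.E i) Z l m = c • (1 : Matrix ι ι F) := by
    intro l m
    apply on_empty (S := S)
    have := hZ.blk i l m
    rwa [Finset.erase_singleton] at this
  choose z hz using h
  refine ⟨of z, ?_⟩
  have := eq_of_blk_smul (S.E i) (Z := Z) (r := 1) (of z) hz Cmt.one
  rwa [mul_one] at this

end Sys

section std

variable {k t : ℕ} {F : Type*} [Field F]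

lemma mulSingle_comm {i j : Fin t} (hij : i ≠ j) (a b : Matrix (Fin k) (Fin k) F) :
    (Pi.mulSingle i a : Fin t → Matrix (Fin k) (Fin k) F) * Pi.mulSingle j b = Pi.mulSingle j b * Pi.mulSingle i a :=
  (Pi.mulSingle_commute (f := fun _ : Fin t => Matrix (Fin k) (Fin k) F) hij a b).eq

lemma piMat_apply (g : Fin t → Matrix (Fin k) (Fin k) F) (x y : Fin t → Fin k) : piMat g x y = ∏ i, g i (x i) (y i) := rfl

lemma piMat_mulSingle_apply (i : Fin t) (a : Matrix (Fin k) (Fin k) F) (x y : Fin t → Fin k) :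
    piMat (Pi.mulSingle i a) x y = a (x i) (y i) * if ∀ j, j ≠ i → x j = y j then 1 else 0 := by
  rw [piMat_apply, ← Finset.mul_prod_erase Finset.univ _ (Finset.mem_univ i), Pi.mulSingle_eq_same]
  congr 1
  split_ifs with h
  · apply Finset.prod_eq_one
    intro j hj
    rw [Pi.mulSingle_eq_of_ne (Finset.ne_of_mem_erase hj), h j (Finset.ne_of_mem_erase hj), one_apply_eq]
  · push Not at h
    obtain ⟨j, hj, hne⟩ := h
    apply Finset.prod_eq_zero (Finset.mem_erase.2 ⟨hj, Finset.mem_univ j⟩)
    rw [Pi.mulSingle_eq_of_ne hj, one_apply_ne hne]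

/-- the embedding at position `i` -/
def fac (i : Fin t) : Matrix (Fin k) (Fin k) F →ₐ[F] Matrix (Fin t → Fin k) (Fin t → Fin k) F where
  toFun a := piMat (Pi.mulSingle i a)
  map_one' := by rw [Pi.mulSingle_one, piMat_one]
  map_mul' a b := by rw [← piMat_mul, Pi.mulSingle_mul]
  map_zero' := by ext x y; simp [piMat_mulSingle_apply]
  map_add' a b := by ext x y; simp only [piMat_mulSingle_apply, Matrix.add_apply, add_mul]
  commutes' c := by
    ext x y
    rw [piMat_mulSingle_apply, Algebra.algebraMap_eq_smul_one, Algebra.algebraMap_eq_smul_one, Matrix.smul_apply, Matrix.smul_apply,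
      smul_eq_mul, smul_eq_mul, one_apply, one_apply]
    by_cases h : x = y
    · subst h; simp
    · rw [if_neg h]
      by_cases h1 : x i = y i
      · have h2 : ¬ ∀ j, j ≠ i → x j = y j := by
          intro h3; apply h; funext j
          by_cases hj : j = i
          · rw [hj, h1]
          · exact h3 j hj
        rw [if_neg h2]; simp
      · rw [if_neg h1]; simp

lemma fac_apply (i : Fin t) (a : Matrix (Fin k) (Fin k) F) : fac i a = piMat (Pi.mulSingle i a) := rfl

lemma piMat_comm_of {Z : Matrix (Fin t → Fin k) (Fin t → Fin k) F} (h : ∀ i a, fac i a * Z = Z * fac i a) (g : Fin t → Matrix (Fin k) (Fin k) F) :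
    piMat g * Z = Z * piMat g := by
  have h1 : piMat (Finset.univ.noncommProd (fun i => Pi.mulSingle i (g i)) (fun i _ j _ _ => Pi.mulSingle_apply_commute g i j)) * Z =
      Z * piMat (Finset.univ.noncommProd (fun i => Pi.mulSingle i (g i)) (fun i _ j _ _ => Pi.mulSingle_apply_commute g i j)) := by
    refine Finset.noncommProd_induction _ _ _ (fun M => piMat M * Z = Z * piMat M) ?_ ?_ ?_
    · intro a b ha hb
      rw [piMat_mul, mul_assoc, hb, ← mul_assoc, ha, mul_assoc]
    · rw [piMat_one, one_mul, mul_one]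
    · intro i _
      exact h i (g i)
  rwa [Finset.noncommProd_mulSingle] at h1

lemma piMat_single (x y : Fin t → Fin k) : piMat (fun i => single (x i) (y i) (1 : F)) = single x y 1 := by
  ext p q
  rw [piMat_apply]
  simp only [single_apply]
  by_cases h : x = p ∧ y = q
  · obtain ⟨rfl, rfl⟩ := h
    simp
  · rw [if_neg h]
    have h2 : ∃ i, ¬ (x i = p i ∧ y i = q i) := by
      by_contra hcon
      push Not at hcon
      exact h ⟨funext fun i => (hcon i).1, funext fun i => (hcon i).2⟩
    obtain ⟨i, hi⟩ := h2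
    apply Finset.prod_eq_zero (Finset.mem_univ i)
    rw [if_neg hi]

/-- the standard system -/
def std (k t : ℕ) (F : Type*) [Field F] : Sys k (Fin t) (Fin t → Fin k) F where
  E := fac
  comm i j hij a b := by
    rw [fac_apply, fac_apply, ← piMat_mul, ← piMat_mul]
    exact congrArg piMat (mulSingle_comm hij a b)
  cent Z hZ := by
    have h := piMat_comm_of (fun i a => hZ i a)
    have h2 : Z ∈ Set.range (Matrix.scalar (Fin t → Fin k)) := by
      apply Matrix.mem_range_scalar_of_commute_single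
      intro x y _
      have := h (fun i => single (x i) (y i) (1 : F))
      rw [piMat_single] at this
      exact this
    obtain ⟨c, hc⟩ := h2
    exact ⟨c, by rw [← hc, Matrix.scalar_apply, ← smul_one_eq_diagonal]⟩

end std

end Cfsg.Agent.Asch.CW
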