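import Mathlib
import Cfsg.Prelude.Def_GeometricClasses
import Cfsg.Agent.Asch.CWSys
set_option autoImplicit false
set_option linter.unusedSectionVars false
set_option linter.unusedVariables false
set_option linter.style.haveILetI false

/-!
The relative trace argument: an equivariant map for a subgroup is equivariant for the overgroup.
-/

namespace Cfsg.Agent.Asch.CW

open Matrix Module

open scoped Matrix

section abstract

variable {G : Type*} [Group G] {A : Type*} [AddCommGroup A] {N X : Subgroup G}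

open scoped Classical in
theorem sum_quotient_eq [Finite G] {h : G ⧸ N → A} {act : G → A → A}
    (hX : ∀ x ∈ X, ∀ c : G ⧸ N, h (x • c) = act x (h c))
    (hfree : ∀ x ∈ X, x ≠ 1 → ∀ g : G, g⁻¹ * x * g ∈ N → g ∈ N)
    (hXN : X ≤ N)
    (hkill : ∀ a : A, ∑ᶠ x : X, act x a = 0) :
    ∑ᶠ c : G ⧸ N, h c = h ((1 : G) : G ⧸ N) := by
  haveI : Fintype G := Fintype.ofFinite G
  haveI : Fintype (G ⧸ N) := Fintype.ofFinite _
  haveI : Fintype X := Fintype.ofFinite _
  rw [finsum_eq_sum_of_fintype, ← Finset.add_sum_erase Finset.univ h (Finset.mem_univ ((1 : G) : G ⧸ N))]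
  rw [add_eq_left]
  let π : G ⧸ N → Quotient (MulAction.orbitRel X (G ⧸ N)) := Quotient.mk _
  haveI : Fintype (Quotient (MulAction.orbitRel X (G ⧸ N))) := Fintype.ofFinite _
  rw [← Finset.sum_fiberwise_of_maps_to (g := π) (t := Finset.univ) (fun _ _ => Finset.mem_univ _)]
  apply Finset.sum_eq_zero
  intro ω _
  by_cases hne : ((Finset.univ.erase ((1 : G) : G ⧸ N)).filter (fun c => π c = ω)).Nonempty
  swap
  · rw [Finset.not_nonempty_iff_eq_empty] at hne
    rw [hne, Finset.sum_empty]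
  obtain ⟨c₀, hc₀⟩ := hne
  rw [Finset.mem_filter, Finset.mem_erase] at hc₀
  obtain ⟨⟨hc1, -⟩, hc2⟩ := hc₀
  -- elements of X act freely at c₀
  have hfr : ∀ x : X, x • c₀ = c₀ → x = 1 := by
    intro x hx
    by_contra hx1
    obtain ⟨g, rfl⟩ := QuotientGroup.mk_surjective c₀
    have h1 : ((x : G) * g : G) = ((x • (g : G ⧸ N) : G ⧸ N)) := rfl
    have h2 : (((x : G) * g : G) : G ⧸ N) = (g : G ⧸ N) := h1.trans hx
    rw [eq_comm, QuotientGroup.eq] at h2
    have h3 : g ∈ N := hfree x x.2 (fun h => hx1 (Subtype.ext h)) g (by rwa [mul_assoc])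
    exact hc1 (by rw [eq_comm, QuotientGroup.eq, inv_one, one_mul]; exact h3)
  have hset : (Finset.univ.erase ((1 : G) : G ⧸ N)).filter (fun c => π c = ω) = Finset.univ.image (fun x : X => x • c₀) := by
    ext c
    rw [Finset.mem_filter, Finset.mem_erase, Finset.mem_image]
    constructor
    · rintro ⟨⟨hc, -⟩, hc'⟩
      rw [← hc2] at hc'
      have h1 : (MulAction.orbitRel X (G ⧸ N)) c c₀ := Quotient.exact hc'
      obtain ⟨x, hx⟩ := (MulAction.orbitRel_apply.1 h1)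
      exact ⟨x, Finset.mem_univ _, hx⟩
    · rintro ⟨x, -, rfl⟩
      refine ⟨⟨?_, Finset.mem_univ _⟩, ?_⟩
      · intro h1
        apply hc1
        have h2 : c₀ = x⁻¹ • ((1 : G) : G ⧸ N) := by rw [← h1, inv_smul_smul]
        rw [h2]
        have h3 : (x⁻¹ • ((1 : G) : G ⧸ N) : G ⧸ N) = (((x⁻¹ : X) : G) * 1 : G) := rfl
        rw [h3, mul_one, eq_comm, QuotientGroup.eq, inv_one, one_mul]
        exact hXN (x⁻¹).2
      · rw [← hc2]
        apply Quotient.sound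
        show (MulAction.orbitRel X (G ⧸ N)) _ _
        rw [MulAction.orbitRel_apply]
        exact ⟨x, rfl⟩
  rw [hset, Finset.sum_image]
  · have h1 : ∀ x : X, h (x • c₀) = act x (h c₀) := fun x => hX x x.2 c₀
    simp only [h1]
    rw [← finsum_eq_sum_of_fintype]
    exact hkill _
  · intro x _ y _ hxy
    have h1 : (y⁻¹ * x) • c₀ = c₀ := by
      have hxy' : x • c₀ = y • c₀ := hxy
      rw [mul_smul, hxy', inv_smul_smul]
    have := hfr _ h1
    exact (inv_mul_eq_one.1 this).symm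

end abstract

namespace Sys

variable {k : ℕ} {T ι : Type} [Fintype ι] [DecidableEq ι] {F : Type*} [Field F] (S : Sys k T ι F)

/-- the elements permuting the factors in `J` -/
def Mon (J : Finset T) : Subgroup (GL ι F) where
  carrier := {g | ∃ σ : Equiv.Perm T, (∀ i, σ i ∈ J ↔ i ∈ J) ∧ ∀ i ∈ J, ∃ B : GL (Fin k) F, ∀ a,
    g.1 * S.E i a * (g⁻¹).1 = S.E (σ i) (B.1 * a * (B⁻¹).1)}
  mul_mem' := by
    rintro g h ⟨σ, hσ, hg⟩ ⟨σ', hσ', hh⟩
    refine ⟨σ * σ', fun i => by rw [Equiv.Perm.mul_apply, hσ, hσ'], fun i hi => ?_⟩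
    obtain ⟨B', hB'⟩ := hh i hi
    obtain ⟨B, hB⟩ := hg (σ' i) ((hσ' i).2 hi)
    refine ⟨B * B', fun a => ?_⟩
    rw [_root_.mul_inv_rev, _root_.mul_inv_rev, Units.val_mul, Units.val_mul, Units.val_mul, Units.val_mul]
    calc g.1 * h.1 * S.E i a * ((h⁻¹).1 * (g⁻¹).1) = g.1 * (h.1 * S.E i a * (h⁻¹).1) * (g⁻¹).1 := by simp only [mul_assoc]
      _ = _ := by
        rw [hB', hB, Equiv.Perm.mul_apply]
        simp only [mul_assoc]
  one_mem' := by
    refine ⟨1, fun i => Iff.rfl, fun i _ => ⟨1, fun a => ?_⟩⟩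
    rw [inv_one, inv_one, Units.val_one, Units.val_one, one_mul, mul_one, one_mul, mul_one]
    rfl
  inv_mem' := by
    rintro g ⟨σ, hσ, hg⟩
    refine ⟨σ.symm, fun i => by rw [← hσ, Equiv.apply_symm_apply], fun i hi => ?_⟩
    obtain ⟨B, hB⟩ := hg (σ.symm i) (by rwa [← hσ, Equiv.apply_symm_apply])
    refine ⟨B⁻¹, fun a => ?_⟩
    have h1 := hB ((B⁻¹).1 * a * B.1)
    rw [Equiv.apply_symm_apply] at h1
    have e : B.1 * ((B⁻¹).1 * a * B.1) * (B⁻¹).1 = a := by
      have e1 : B.1 * (B⁻¹).1 = 1 := by rw [← Units.val_mul, mul_inv_cancel, Units.val_one]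
      calc B.1 * ((B⁻¹).1 * a * B.1) * (B⁻¹).1 = (B.1 * (B⁻¹).1) * a * (B.1 * (B⁻¹).1) := by simp only [mul_assoc]
        _ = a := by rw [e1, one_mul, mul_one]
    rw [e] at h1
    rw [← h1, inv_inv, inv_inv]
    have e2 : (g⁻¹).1 * g.1 = 1 := by rw [← Units.val_mul, inv_mul_cancel, Units.val_one]
    calc (g⁻¹).1 * (g.1 * S.E (σ.symm i) ((B⁻¹).1 * a * B.1) * (g⁻¹).1) * g.1 =
        ((g⁻¹).1 * g.1) * S.E (σ.symm i) ((B⁻¹).1 * a * B.1) * ((g⁻¹).1 * g.1) := by simp only [mul_assoc]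
      _ = _ := by rw [e2, one_mul, mul_one]

variable {S} {J : Finset T} (τ : Matrix ι ι F →ₗ[F] F)

/-- the matrix of the conditional expectation onto a factor -/
def ceM (S : Sys k T ι F) (τ : Matrix ι ι F →ₗ[F] F) (j : T) (Z : Matrix ι ι F) : Matrix (Fin k) (Fin k) F :=
  of fun l m => τ (S.E j (single m l 1) * Z)

lemma ceM_add (j : T) (Z Z' : Matrix ι ι F) : S.ceM τ j (Z + Z') = S.ceM τ j Z + S.ceM τ j Z' := by
  ext l m
  simp only [ceM, of_apply, Matrix.add_apply, mul_add, map_add]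

lemma ceM_zero (j : T) : S.ceM τ j 0 = 0 := by
  ext l m
  simp only [ceM, of_apply, Matrix.zero_apply, mul_zero, map_zero]

lemma trace_ceM (j : T) (Z : Matrix ι ι F) (y : Matrix (Fin k) (Fin k) F) : (y * S.ceM τ j Z).trace = τ (S.E j y * Z) := by
  have h1 : τ (S.E j y * Z) = ∑ p, ∑ q, y p q * τ (S.E j (single p q 1) * Z) := by
    conv_lhs => rw [matrix_eq_sum_single y]
    simp only [map_sum, Finset.sum_mul]
    refine Finset.sum_congr rfl fun p _ => Finset.sum_congr rfl fun q _ => ?_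
    have : single p q (y p q) = y p q • single p q (1 : F) := by rw [smul_single, smul_eq_mul, mul_one]
    rw [this, map_smul, smul_mul_assoc, map_smul, smul_eq_mul]
  rw [h1, Matrix.trace]
  simp only [diag_apply, mul_apply, ceM, of_apply]

lemma single_trace (l m : Fin k) (z : Matrix (Fin k) (Fin k) F) : (single m l (1 : F) * z).trace = z l m := by
  rw [Matrix.trace, Finset.sum_eq_single m]
  · rw [diag_apply, mul_apply, Finset.sum_eq_single l]
    · rw [single_apply_same, one_mul]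
    · intro b _ hb
      rw [single_apply_of_col_ne _ _ (Ne.symm hb), zero_mul]
    · simp
  · intro b _ hb
    rw [diag_apply, mul_apply]
    apply Finset.sum_eq_zero
    intro c _
    rw [single_apply_of_row_ne (Ne.symm hb), zero_mul]
  · simp

/-- the projection onto the sum of the factors -/
def pr (S : Sys k T ι F) (τ : Matrix ι ι F →ₗ[F] F) (J : Finset T) (Z : Matrix ι ι F) : Matrix ι ι F := ∑ j ∈ J, S.E j (S.ceM τ j Z)

lemma pr_add (Z Z' : Matrix ι ι F) : S.pr τ J (Z + Z') = S.pr τ J Z + S.pr τ J Z' := by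
  simp only [pr, ceM_add, map_add, Finset.sum_add_distrib]

lemma pr_zero : S.pr τ J 0 = 0 := by
  simp only [pr, ceM_zero, map_zero, Finset.sum_const_zero]

variable {τ}

lemma pr_conj (hτ : ∀ Z Z', S.On J Z → S.On J Z' → τ (Z * Z') = τ (Z' * Z)) {g : GL ι F} (hg : g ∈ S.Mon J) (hgJ : S.On J g.1)
    {Z : Matrix ι ι F} (hZ : S.On J Z) : S.pr τ J (g.1 * Z * (g⁻¹).1) = g.1 * S.pr τ J Z * (g⁻¹).1 := by
  obtain ⟨σ, hσ, hB⟩ := hg
  have h1 : ∀ j ∈ J, S.E (σ j) (S.ceM τ (σ j) (g.1 * Z * (g⁻¹).1)) = g.1 * S.E j (S.ceM τ j Z) * (g⁻¹).1 := by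
    intro j hj
    obtain ⟨B, hB⟩ := hB j hj
    rw [hB]
    congr 1
    ext l m
    rw [← single_trace l m (B.1 * S.ceM τ j Z * (B⁻¹).1)]
    have e1 : (single m l (1 : F) * (B.1 * S.ceM τ j Z * (B⁻¹).1)).trace = ((B⁻¹).1 * single m l (1 : F) * B.1 * S.ceM τ j Z).trace := by
      rw [← mul_assoc, trace_mul_comm, ← mul_assoc, ← mul_assoc]
    rw [e1, trace_ceM]
    have e2 : S.E j ((B⁻¹).1 * single m l (1 : F) * B.1) = (g⁻¹).1 * S.E (σ j) (single m l 1) * g.1 := by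
      have h2 := hB ((B⁻¹).1 * single m l (1 : F) * B.1)
      have e3 : B.1 * ((B⁻¹).1 * single m l (1 : F) * B.1) * (B⁻¹).1 = single m l 1 := by
        have e1 : B.1 * (B⁻¹).1 = 1 := by rw [← Units.val_mul, mul_inv_cancel, Units.val_one]
        calc B.1 * ((B⁻¹).1 * single m l (1 : F) * B.1) * (B⁻¹).1 = (B.1 * (B⁻¹).1) * single m l (1 : F) * (B.1 * (B⁻¹).1) := by simp only [mul_assoc]
          _ = _ := by rw [e1, one_mul, mul_one]
      rw [e3] at h2
      rw [← h2]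
      have e4 : (g⁻¹).1 * g.1 = 1 := by rw [← Units.val_mul, inv_mul_cancel, Units.val_one]
      calc S.E j ((B⁻¹).1 * single m l (1 : F) * B.1) = ((g⁻¹).1 * g.1) * S.E j ((B⁻¹).1 * single m l (1 : F) * B.1) * ((g⁻¹).1 * g.1) := by
            rw [e4, one_mul, mul_one]
        _ = _ := by simp only [mul_assoc]
    rw [e2, ceM, of_apply]
    have h3 := hτ (S.E (σ j) (single m l 1) * g.1 * Z) ((g⁻¹).1) (((on_E ((hσ j).2 hj) _).mul hgJ).mul hZ) (On.inv hgJ)
    rw [← mul_assoc, ← mul_assoc, h3]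
    congr 1
    simp only [mul_assoc]
  rw [pr, pr, Finset.mul_sum, Finset.sum_mul]
  symm
  apply Finset.sum_bij (fun j _ => σ j)
  · intro j hj; exact (hσ j).2 hj
  · intro a _ b _ h; exact σ.injective h
  · intro b hb
    exact ⟨σ.symm b, by rwa [← hσ, Equiv.apply_symm_apply], Equiv.apply_symm_apply _ _⟩
  · intro j hj
    exact (h1 j hj).symm

/-- the conjugation action -/
def cj (g : GL ι F) (Z : Matrix ι ι F) : Matrix ι ι F := g.1 * Z * (g⁻¹).1

lemma cj_mul (g h : GL ι F) (Z : Matrix ι ι F) : cj (g * h) Z = cj g (cj h Z) := by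
  rw [cj, cj, cj, _root_.mul_inv_rev, Units.val_mul, Units.val_mul]
  simp only [mul_assoc]

lemma cj_one (Z : Matrix ι ι F) : cj (1 : GL ι F) Z = Z := by
  rw [cj, inv_one, Units.val_one, one_mul, mul_one]

lemma cj_add (g : GL ι F) (Z Z' : Matrix ι ι F) : cj g (Z + Z') = cj g Z + cj g Z' := by
  rw [cj, cj, cj, mul_add, add_mul]

lemma cj_zero (g : GL ι F) : cj g (0 : Matrix ι ι F) = 0 := by
  rw [cj, mul_zero, zero_mul]

lemma cj_inv_cj (g : GL ι F) (Z : Matrix ι ι F) : cj g⁻¹ (cj g Z) = Z := by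
  rw [← cj_mul, inv_mul_cancel, cj_one]

lemma cj_cj_inv (g : GL ι F) (Z : Matrix ι ι F) : cj g (cj g⁻¹ Z) = Z := by
  rw [← cj_mul, mul_inv_cancel, cj_one]

lemma On.cj {g : GL ι F} (hg : S.On J g.1) {Z : Matrix ι ι F} (hZ : S.On J Z) : S.On J (cj g Z) := (hg.mul hZ).mul (On.inv hg)

variable {K : Subgroup (GL ι F)}

/-- the function on cosets -/
noncomputable def hfun (S : Sys k T ι F) (τ : Matrix ι ι F →ₗ[F] F) (J : Finset T) (K : Subgroup (GL ι F)) (Z : Matrix ι ι F)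
    (c : K ⧸ (S.Mon J).subgroupOf K) : Matrix ι ι F :=
  cj (c.out : GL ι F) (S.pr τ J (cj (c.out : GL ι F)⁻¹ Z))

lemma hfun_mk (hτ : ∀ Z Z', S.On J Z → S.On J Z' → τ (Z * Z') = τ (Z' * Z)) (hK : ∀ g ∈ K, S.On J g.1)
    {Z : Matrix ι ι F} (hZ : S.On J Z) (g : K) : S.hfun τ J K Z (g : K ⧸ (S.Mon J).subgroupOf K) = cj g.1 (S.pr τ J (cj g.1⁻¹ Z)) := by
  obtain ⟨n, hn⟩ := QuotientGroup.mk_out_eq_mul ((S.Mon J).subgroupOf K) g
  rw [hfun, hn]
  have hnM : (n : K).1 ∈ S.Mon J := Subgroup.mem_subgroupOf.1 n.2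
  have hnJ := hK _ (n : K).2
  rw [Subgroup.coe_mul, cj_mul, _root_.mul_inv_rev, cj_mul]
  have h1 := pr_conj hτ hnM hnJ (Z := cj (n : K).1⁻¹ (cj g.1⁻¹ Z)) (On.cj (On.inv hnJ) (On.cj (On.inv (hK _ g.2)) hZ))
  have h2 : cj (n : K).1 (S.pr τ J (cj (n : K).1⁻¹ (cj g.1⁻¹ Z))) = S.pr τ J (cj g.1⁻¹ Z) := by
    rw [cj, ← h1]
    congr 1
    exact cj_cj_inv _ _
  rw [h2]

end Sys

end Cfsg.Agent.Asch.CW
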