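import Mathlib
import Cfsg.Prelude.Def_GeometricClasses
import Cfsg.Agent.Asch.CWRank
import Cfsg.Agent.Asch.CWTrace
set_option autoImplicit false
set_option linter.unusedSectionVars false
set_option linter.unusedVariables false
set_option linter.style.haveILetI false

/-!
Fusion analysis: unipotent elements with square zero `y - 1` permuting the factors.
-/

namespace Cfsg.Agent.Asch.CW

open Matrix Module

open scoped Matrix

section gen

variable {β : Type} [Fintype β] [DecidableEq β] {ι : Type} [Fintype ι] [DecidableEq ι] {F : Type*} [Field F]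
  {E : Matrix β β F →ₐ[F] Matrix ι ι F}

lemma inv_mul_val (g : GL ι F) : (g⁻¹).1 * g.1 = 1 := by rw [← Units.val_mul, inv_mul_cancel, Units.val_one]

lemma mul_inv_val (g : GL ι F) : g.1 * (g⁻¹).1 = 1 := by rw [← Units.val_mul, mul_inv_cancel, Units.val_one]

lemma conj_eq_iff {g : GL ι F} {Z Z' : Matrix ι ι F} : g.1 * Z * (g⁻¹).1 = Z' ↔ g.1 * Z = Z' * g.1 := by
  constructor
  · intro h; rw [← h, mul_assoc, inv_mul_val, mul_one]
  · intro h; rw [h, mul_assoc, mul_inv_val, mul_one]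

/-- the embedding on units -/
def EU (E : Matrix β β F →ₐ[F] Matrix ι ι F) (B : GL β F) : GL ι F := Units.map (E : Matrix β β F →* Matrix ι ι F) B

lemma EU_val (B : GL β F) : (EU E B).1 = E B.1 := rfl

lemma EU_inv_val (B : GL β F) : ((EU E B)⁻¹).1 = E (B⁻¹).1 := rfl

lemma exists_ne_one_of_not_scalar {B : GL β F} (hB : ¬ ∃ c : F, B.1 = c • (1 : Matrix β β F)) : ∃ a, B.1 * a * (B⁻¹).1 ≠ a := by
  by_contra hcon
  push Not at hcon
  apply hB
  have h : B.1 ∈ Set.range (Matrix.scalar β) := by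
    apply Matrix.mem_range_scalar_of_commute_single
    intro i j _
    have h1 := conj_eq_iff.1 (hcon (single i j 1))
    exact h1.symm
  obtain ⟨c, hc⟩ := h
  exact ⟨c, by rw [← hc, Matrix.scalar_apply, ← smul_one_eq_diagonal]⟩

lemma rank_le_of_eq_mul {Z A B : Matrix ι ι F} {Z' : Matrix ι ι F} (h : Z = A * Z' * B) : Z.rank ≤ Z'.rank := by
  rw [h]
  exact (Matrix.rank_mul_le_left _ _).trans (Matrix.rank_mul_le_right _ _)

/-- **rank one from rank** -/
lemma rank_one_of_rank [Nonempty ι] (i₀ : β) {a : Matrix β β F} (hr : (E a).rank ≤ (E (single i₀ i₀ 1)).rank) (ha : a ≠ 0) :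
    ∃ u φ : β → F, a = vecMulVec u φ := by
  have h1 : ∃ v, a *ᵥ v ≠ 0 := by
    by_contra hcon
    push Not at hcon
    apply ha
    apply Matrix.ext_of_mulVec_single
    intro i
    rw [hcon, zero_mulVec]
  obtain ⟨v, hv⟩ := h1
  have h0 : a *ᵥ v ∉ Submodule.span F {(0 : β → F)} := by
    rw [Submodule.span_singleton_eq_bot.2 rfl]
    exact hv
  obtain ⟨ψ, -, hψ⟩ := exists_row_sep h0
  set x : β → F := Pi.single i₀ 1 with hx
  have hxx : vecMulVec x x = single i₀ i₀ (1 : F) := by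
    ext i j
    simp only [vecMulVec_apply, single_apply, hx, Pi.single_apply, eq_comm (a := i), eq_comm (a := j)]
    by_cases hi : i₀ = i <;> by_cases hj : i₀ = j <;> simp [hi, hj]
  have hle : (E a).rank ≤ (E a * E (vecMulVec v x)).rank := by
    refine hr.trans (rank_le_of_eq_mul (A := E (vecMulVec x ψ)) (B := 1) ?_)
    rw [mul_one, ← map_mul, ← map_mul, mul_vecMulVec, vecMulVec_mul_vecMulVec, hψ, one_smul, hxx]
  have hkey : ∀ χ : β → F, χ ⬝ᵥ (a *ᵥ v) = 0 → χ ᵥ* a = 0 := by
    intro χ hχ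
    have h2 : E (vecMulVec x χ) * (E a * E (vecMulVec v x)) = 0 := by
      rw [← map_mul, ← map_mul, mul_vecMulVec, vecMulVec_mul_vecMulVec, hχ, zero_smul, vecMulVec_zero, map_zero]
    have h3 := mul_eq_zero_of_rank_le hle h2
    rw [← map_mul, vecMulVec_mul] at h3
    have h4 : vecMulVec x (χ ᵥ* a) = 0 := by
      by_contra h
      have := eq_zero_of_E_mul E (b := 1) Cmt.one h (by rw [mul_one, h3])
      exact one_ne_zero this
    funext m
    have := congrFun (congrFun h4 i₀) m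
    simpa [vecMulVec_apply, hx] using this
  refine ⟨a *ᵥ v, ψ ᵥ* a, ?_⟩
  ext i j
  -- χ = e_i - (a v)_i ψ
  have h5 := hkey (Pi.single i 1 - (a *ᵥ v) i • ψ) (by
    rw [sub_dotProduct, smul_dotProduct, hψ, smul_eq_mul, mul_one, single_dotProduct, one_mul, sub_self])
  have h6 := congrFun h5 j
  rw [sub_vecMul, Pi.sub_apply, smul_vecMul, Pi.smul_apply, single_one_vecMul, Pi.zero_apply, sub_eq_zero] at h6
  rw [vecMulVec_apply]
  exact h6

end gen

namespace Sys

variable {k : ℕ} {T ι : Type} [Fintype T] [DecidableEq T] [Fintype ι] [DecidableEq ι] {F : Type*} [Field F] {S : Sys k T ι F}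

/-- `g` permutes the factors according to `σ` -/
def Perms (S : Sys k T ι F) (g : GL ι F) (σ : Equiv.Perm T) : Prop :=
  ∀ i, ∃ B : GL (Fin k) F, ∀ a, g.1 * S.E i a = S.E (σ i) (B.1 * a * (B⁻¹).1) * g.1

lemma mem_mon_univ {g : GL ι F} : g ∈ S.Mon Finset.univ ↔ ∃ σ, S.Perms g σ := by
  constructor
  · rintro ⟨σ, -, h⟩
    refine ⟨σ, fun i => ?_⟩
    obtain ⟨B, hB⟩ := h i (Finset.mem_univ i)
    exact ⟨B, fun a => conj_eq_iff.1 (hB a)⟩
  · rintro ⟨σ, h⟩
    refine ⟨σ, fun i => by simp, fun i _ => ?_⟩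
    obtain ⟨B, hB⟩ := h i
    exact ⟨B, fun a => conj_eq_iff.2 (hB a)⟩

lemma not_cmt_of_ne [Nonempty ι] {i : T} {a : Matrix (Fin k) (Fin k) F} (ha : ¬ ∃ c : F, a = c • (1 : Matrix (Fin k) (Fin k) F)) :
    ¬ Cmt (S.E i) (S.E i a) := by
  intro h
  apply ha
  have h1 : a ∈ Set.range (Matrix.scalar (Fin k)) := by
    apply Matrix.mem_range_scalar_of_commute_single
    intro p q _
    have h2 := h (single p q 1)
    rw [← map_mul, ← map_mul, ← sub_eq_zero, ← map_sub] at h2
    show single p q 1 * a = a * single p q 1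
    rw [← sub_eq_zero]
    by_contra h3
    exact one_ne_zero (eq_zero_of_E_mul (S.E i) (b := 1) Cmt.one h3 (by rw [mul_one, h2]))
  obtain ⟨c, hc⟩ := h1
  exact ⟨c, by rw [← hc, Matrix.scalar_apply, ← smul_one_eq_diagonal]⟩

lemma E_inj [Nonempty ι] {i : T} {a b : Matrix (Fin k) (Fin k) F} (h : S.E i a = S.E i b) : a = b := by
  by_contra hne
  exact one_ne_zero (eq_zero_of_E_mul (S.E i) (b := 1) Cmt.one (sub_ne_zero.2 hne) (by rw [mul_one, map_sub, sub_eq_zero, h]))

lemma exists_not_scalar (hk : 2 ≤ k) : ∃ a : Matrix (Fin k) (Fin k) F, ¬ ∃ c : F, a = c • (1 : Matrix (Fin k) (Fin k) F) := by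
  refine ⟨single ⟨0, by omega⟩ ⟨1, by omega⟩ 1, ?_⟩
  rintro ⟨c, hc⟩
  have := congrFun (congrFun hc ⟨0, by omega⟩) ⟨1, by omega⟩
  rw [single_apply_same, Matrix.smul_apply, one_apply_ne (by simp [Fin.ext_iff]), smul_zero] at this
  exact one_ne_zero this

lemma idx_eq_of_E_eq [Nonempty ι] {i j : T} {a b : Matrix (Fin k) (Fin k) F} (ha : ¬ ∃ c : F, a = c • (1 : Matrix (Fin k) (Fin k) F))
    (h : S.E i a = S.E j b) : i = j := by
  by_contra hne
  apply not_cmt_of_ne (S := S) (i := i) ha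
  rw [h]
  exact cmt_E hne b

/-- powers of `1 + N` with `N² = 0` -/
lemma pow_eq_of_sq_zero {y : Matrix ι ι F} (h : (y - 1) * (y - 1) = 0) (n : ℕ) : y ^ n = 1 + (n : F) • (y - 1) := by
  induction n with
  | zero => simp
  | succ n ih =>
    have h1 : y * (y - 1) = y - 1 := by
      have : y * (y - 1) - (y - 1) = 0 := by rw [← h, sub_mul, one_mul]
      exact sub_eq_zero.1 this
    rw [pow_succ', ih, mul_add, mul_one, mul_smul_comm, h1, Nat.cast_succ, add_smul, one_smul]
    abel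

variable [Fintype F]

/-- **Fusion, odd characteristic** -/
theorem fus_odd [Nonempty ι] (hk : 2 ≤ k) (hq : Odd (Fintype.card F)) {y : GL ι F} (hy : (y.1 - 1) * (y.1 - 1) = 0) (hy1 : y ≠ 1)
    {σ : Equiv.Perm T} (hσ : S.Perms y σ) : ∃ (j : T) (A : Matrix (Fin k) (Fin k) F), y.1 = S.E j A := by
  have h2 : (2 : F) ≠ 0 := by
    intro h0
    obtain ⟨m, hm⟩ := hq
    have h1 : ((Fintype.card F : ℕ) : F) = 0 := FiniteField.cast_card_eq_zero F
    rw [hm] at h1
    push_cast at h1
    rw [h0, zero_mul, zero_add] at h1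
    exact one_ne_zero h1
  have hsq : y.1 * y.1 = (2 : F) • y.1 - 1 := by
    have h1 : y.1 * y.1 - y.1 - y.1 + 1 = 0 := by
      rw [← hy]; noncomm_ring
    have h3 : y.1 * y.1 = y.1 + y.1 - 1 := by
      rw [← sub_eq_zero, ← h1]; abel
    rw [h3, two_smul]
  have key : ∀ {Z Z' Z'' : Matrix ι ι F}, y.1 * Z = Z' * y.1 → y.1 * Z' = Z'' * y.1 → (2 : F) • ((Z' - Z'') * y.1) = Z - Z'' := by
    intro Z Z' Z'' h h'
    have h3 : y.1 * y.1 * Z = Z'' * (y.1 * y.1) := by
      rw [mul_assoc, h, ← mul_assoc, h', mul_assoc]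
    rw [hsq, sub_mul, one_mul, smul_mul_assoc, h, mul_sub, mul_one, mul_smul_comm] at h3
    rw [sub_mul, smul_sub]
    have h4 : (2 : F) • (Z' * y.1) - Z - ((2 : F) • (Z'' * y.1) - Z'') = 0 := sub_eq_zero.2 h3
    rw [← sub_eq_zero, ← h4]; abel
  choose B hB using hσ
  set i0 : Fin k := ⟨0, by omega⟩ with hi0
  set i1 : Fin k := ⟨1, by omega⟩ with hi1
  have hne01 : i0 ≠ i1 := by simp [hi0, hi1, Fin.ext_iff]
  have he : ∀ D : GL (Fin k) F, 1 - D.1 * single i0 i0 1 * (D⁻¹).1 ≠ 0 := by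
    intro D h
    have h3 : (D⁻¹).1 * (1 - D.1 * single i0 i0 1 * (D⁻¹).1) * D.1 = 1 - single i0 i0 1 := by
      rw [mul_sub, sub_mul, mul_one, inv_mul_val]
      congr 1
      calc (D⁻¹).1 * (D.1 * single i0 i0 1 * (D⁻¹).1) * D.1 = ((D⁻¹).1 * D.1) * single i0 i0 1 * ((D⁻¹).1 * D.1) := by simp only [mul_assoc]
        _ = _ := by rw [inv_mul_val, one_mul, mul_one]
    rw [h, mul_zero, zero_mul] at h3
    have h4 := congrFun (congrFun h3 i1) i1
    rw [Matrix.sub_apply, one_apply_eq, single_apply_of_row_ne hne01, sub_zero, Matrix.zero_apply] at h4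
    exact zero_ne_one h4
  -- step A
  have hσ1 : ∀ j, σ j = j := by
    intro j
    by_contra hj
    by_cases hj2 : σ (σ j) = j
    · -- odd power
      obtain ⟨m, hm⟩ := hq
      have hyq : y ^ (2 * (m + 1)) = y := by
        apply Units.ext
        rw [Units.val_pow_eq_pow_val, pow_eq_of_sq_zero hy]
        have : ((2 * (m + 1) : ℕ) : F) = 1 := by
          have h1 : ((Fintype.card F : ℕ) : F) = 0 := FiniteField.cast_card_eq_zero F
          rw [hm] at h1
          have h3 : ((2 * (m + 1) : ℕ) : F) = ((2 * m + 1 : ℕ) : F) + 1 := by push_cast; ring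
          rw [h3, h1, zero_add]
        rw [this, one_smul]; abel
      have hind : ∀ n : ℕ, ∀ a, ∃ a', (y ^ (2 * n)).1 * S.E j a = S.E j a' * (y ^ (2 * n)).1 := by
        intro n
        induction n with
        | zero => intro a; exact ⟨a, by simp⟩
        | succ n ih =>
          intro a
          obtain ⟨a', ha'⟩ := ih a
          have h3 := hB j a'
          have h4 := hB (σ j) ((B j).1 * a' * ((B j)⁻¹).1)
          rw [hj2] at h4
          refine ⟨(B (σ j)).1 * ((B j).1 * a' * ((B j)⁻¹).1) * ((B (σ j))⁻¹).1, ?_⟩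
          have e : y ^ (2 * (n + 1)) = y * (y * y ^ (2 * n)) := by
            rw [← mul_assoc, ← pow_two, ← pow_add]; congr 1; ring
          rw [e, Units.val_mul, Units.val_mul]
          calc y.1 * (y.1 * (y ^ (2 * n)).1) * S.E j a = y.1 * (y.1 * ((y ^ (2 * n)).1 * S.E j a)) := by simp only [mul_assoc]
            _ = y.1 * ((y.1 * S.E j a') * (y ^ (2 * n)).1) := by rw [ha']; simp only [mul_assoc]
            _ = (y.1 * S.E (σ j) ((B j).1 * a' * ((B j)⁻¹).1)) * (y.1 * (y ^ (2 * n)).1) := by rw [h3]; simp only [mul_assoc]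
            _ = _ := by rw [h4]; simp only [mul_assoc]
      obtain ⟨a, ha⟩ := exists_not_scalar (F := F) hk
      obtain ⟨a', ha'⟩ := hind (m + 1) a
      rw [hyq, hB j a] at ha'
      have h3 : S.E (σ j) ((B j).1 * a * ((B j)⁻¹).1) = S.E j a' := by
        have := congrArg (· * (y⁻¹).1) ha'
        simpa only [mul_assoc, mul_inv_val, mul_one] using this
      apply hj
      refine idx_eq_of_E_eq (S := S) ?_ h3
      rintro ⟨c, hc⟩
      apply ha
      refine ⟨c, ?_⟩
      have h5 : a = ((B j)⁻¹).1 * ((B j).1 * a * ((B j)⁻¹).1) * (B j).1 := by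
        calc a = (((B j)⁻¹).1 * (B j).1) * a * (((B j)⁻¹).1 * (B j).1) := by rw [inv_mul_val, one_mul, mul_one]
          _ = _ := by simp only [mul_assoc]
      rw [h5, hc, mul_smul_comm, smul_mul_assoc, mul_one, inv_mul_val]
    · -- three distinct
      have hd1 : σ (σ j) ≠ σ j := fun h => hj (σ.injective h)
      have hk1 := key (hB j (single i0 i0 1)) (hB (σ j) _)
      set P' := S.E (σ j) ((B j).1 * single i0 i0 1 * ((B j)⁻¹).1) with hP'
      set P'' := S.E (σ (σ j)) ((B (σ j)).1 * ((B j).1 * single i0 i0 1 * ((B j)⁻¹).1) * ((B (σ j))⁻¹).1) with hP''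
      have hid : ∀ D : GL (Fin k) F, ∀ e : Matrix (Fin k) (Fin k) F, e * e = e → (D.1 * e * (D⁻¹).1) * (D.1 * e * (D⁻¹).1) = D.1 * e * (D⁻¹).1 := by
        intro D e he
        calc (D.1 * e * (D⁻¹).1) * (D.1 * e * (D⁻¹).1) = D.1 * e * ((D⁻¹).1 * D.1) * e * (D⁻¹).1 := by simp only [mul_assoc]
          _ = _ := by rw [inv_mul_val, mul_one, mul_assoc D.1 e e, he]
      have hss : single i0 i0 (1 : F) * single i0 i0 1 = single i0 i0 1 := by rw [single_mul_single_same, one_mul]
      have hP'2 : P' * P' = P' := by rw [hP', ← map_mul, hid _ _ hss]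
      have hP''2 : P'' * P'' = P'' := by rw [hP'', ← map_mul, hid _ _ (hid _ _ hss)]
      have hcomm : P' * P'' = P'' * P' := S.comm _ _ (Ne.symm hd1) _ _
      have h5 : (1 - P') * (1 - P'') * (P' - P'') = 0 := by
        have : (1 - P') * (1 - P'') * (P' - P'') = P' - P'' - P' * P' + P' * P'' - P'' * P' + P'' * P'' + P' * P'' * P' - P' * (P'' * P'') := by noncomm_ring
        rw [this, hP'2, hP''2, hcomm, mul_assoc P'' P' P', hP'2]
        abel
      have h6 : (1 - P') * (1 - P'') * (S.E j (single i0 i0 1) - P'') = 0 := by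
        rw [← hk1, mul_smul_comm, ← mul_assoc, h5, zero_mul, smul_zero]
      have h7 : (1 - P') * (1 - P'') * S.E j (single i0 i0 1) = 0 := by
        have h8 : (1 - P') * (1 - P'') * P'' = 0 := by
          rw [mul_assoc, sub_mul 1 P'', one_mul, hP''2, sub_self, mul_zero]
        rw [mul_sub, h8, sub_zero] at h6
        exact h6
      have hj3 : σ (σ j) ≠ j := hj2
      have hP'1 : 1 - P' = S.E (σ j) (1 - (B j).1 * single i0 i0 1 * ((B j)⁻¹).1) := by rw [map_sub, map_one]
      have hP''1 : 1 - P'' = S.E (σ (σ j)) (1 - (B (σ j) * B j).1 * single i0 i0 1 * ((B (σ j) * B j)⁻¹).1) := by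
        rw [map_sub, map_one, hP'', _root_.mul_inv_rev, Units.val_mul, Units.val_mul]
        simp only [mul_assoc]
      have hc1 : Cmt (S.E j) ((1 - P') * (1 - P'')) := by
        rw [hP'1, hP''1]
        exact (cmt_E (Ne.symm hj) _).mul (cmt_E (Ne.symm hj3) _)
      rw [← hc1] at h7
      have h9 := eq_zero_of_E_mul (S.E j) hc1 (by
        intro h; have := congrFun (congrFun h i0) i0
        rw [single_apply_same, Matrix.zero_apply] at this; exact one_ne_zero this) h7
      rw [hP'1, hP''1] at h9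
      have h10 := eq_zero_of_E_mul (S.E (σ j)) (cmt_E (Ne.symm hd1) _) (he _) h9
      exact he (B (σ j) * B j) (E_inj (S := S) (i := σ (σ j)) (by rw [h10, map_zero]))
  -- step B
  have hj : ∃ j a, (B j).1 * a * ((B j)⁻¹).1 ≠ a := by
    by_contra hcon
    push Not at hcon
    obtain ⟨c, hc⟩ := S.cent y.1 (fun i a => by
      have := hB i a
      rw [hσ1, hcon] at this
      exact this.symm)
    apply hy1
    apply Units.ext
    rw [hc] at hy
    have h3 : ((c - 1) * (c - 1)) • (1 : Matrix ι ι F) = 0 := by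
      rw [← hy, ← sub_eq_zero]
      have : c • (1 : Matrix ι ι F) - 1 = (c - 1) • 1 := by rw [sub_smul, one_smul]
      rw [this, smul_mul_smul_comm, one_mul, sub_self]
    have h4 := (smul_eq_zero.1 h3).resolve_right one_ne_zero
    have h5 : c = 1 := by
      rcases mul_self_eq_zero.1 h4 with h
      exact sub_eq_zero.1 h
    rw [hc, h5, one_smul, Units.val_one]
  obtain ⟨j, a, ha⟩ := hj
  have h1 := hB j a
  have h1' := hB j ((B j).1 * a * ((B j)⁻¹).1)
  rw [hσ1] at h1 h1'
  have hk2 := key h1 h1'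
  set a' := (B j).1 * a * ((B j)⁻¹).1 with ha'
  set a'' := (B j).1 * a' * ((B j)⁻¹).1 with ha''
  have hne : a' - a'' ≠ 0 := by
    intro h
    apply ha
    have h3 : a' = a'' := sub_eq_zero.1 h
    have h4 : ∀ z : Matrix (Fin k) (Fin k) F, z = ((B j)⁻¹).1 * ((B j).1 * z * ((B j)⁻¹).1) * (B j).1 := by
      intro z
      calc z = (((B j)⁻¹).1 * (B j).1) * z * (((B j)⁻¹).1 * (B j).1) := by rw [inv_mul_val, one_mul, mul_one]
        _ = _ := by simp only [mul_assoc]
    rw [h4 a', ← ha'', ← h3, ha', ← h4 a]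
  have hon : S.On {j} y.1 := by
    intro l hl
    rw [Finset.mem_singleton] at hl
    intro c
    have h3 := hB l c
    rw [hσ1] at h3
    set c' := (B l).1 * c * ((B l)⁻¹).1 with hc'
    have h4 : S.E l c * (S.E j a - S.E j a'') = (S.E j a - S.E j a'') * S.E l c := by
      rw [mul_sub, sub_mul, S.comm l j hl, S.comm l j hl]
    rw [← hk2, smul_mul_assoc, mul_smul_comm, ← map_sub] at h4
    have h5 : S.E l c * (S.E j (a' - a'') * y.1) = S.E j (a' - a'') * y.1 * S.E l c := by
      have := congrArg ((2 : F)⁻¹ • ·) h4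
      simpa only [smul_smul, inv_mul_cancel₀ h2, one_smul] using this
    rw [mul_assoc, h3, ← mul_assoc, S.comm l j hl, mul_assoc, ← sub_eq_zero, ← mul_sub, ← sub_mul (S.E l c) (S.E l c') y.1, ← map_sub (S.E l), ← mul_assoc] at h5
    have h6 : S.E j (a' - a'') * S.E l (c - c') = 0 := by
      have := congrArg (· * (y⁻¹).1) h5
      simpa only [mul_assoc, mul_inv_val, mul_one, zero_mul] using this
    have h7 := eq_zero_of_E_mul (S.E j) (cmt_E (Ne.symm hl) _) hne h6
    rw [map_sub, sub_eq_zero] at h7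
    rw [h3, ← h7]
  obtain ⟨A, hA⟩ := on_singleton hon
  exact ⟨j, A, hA⟩

end Sys

end Cfsg.Agent.Asch.CW
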