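import Mathlib
import Cfsg.Prelude.Def_GeometricClasses
import Cfsg.Agent.Asch.CWFus
set_option autoImplicit false
set_option linter.unusedSectionVars false
set_option linter.unusedVariables false
set_option linter.style.haveILetI false

/-!
Fusion analysis via ranks.
-/

namespace Cfsg.Agent.Asch.CW

open Matrix Module

open scoped Matrix

section rk

variable {ι : Type} [Fintype ι] [DecidableEq ι] {F : Type*} [Field F]

lemma mulVecLin_range_mul_le (P Q : Matrix ι ι F) : LinearMap.range (P * Q).mulVecLin ≤ LinearMap.range P.mulVecLin := by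
  rw [Matrix.mulVecLin_mul]; exact LinearMap.range_comp_le_range _ _

lemma rank_add_orth {P Q : Matrix ι ι F} (hP : P * P = P) (hQ : Q * Q = Q) (hPQ : P * Q = 0) (hQP : Q * P = 0) :
    (P + Q).rank = P.rank + Q.rank := by
  have h1 : LinearMap.range (P + Q).mulVecLin = LinearMap.range P.mulVecLin ⊔ LinearMap.range Q.mulVecLin := by
    apply le_antisymm
    · rintro _ ⟨v, rfl⟩
      rw [mulVecLin_apply, add_mulVec]
      exact Submodule.add_mem_sup ⟨v, rfl⟩ ⟨v, rfl⟩
    · apply sup_le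
      · have : P = (P + Q) * P := by rw [add_mul, hP, hQP, add_zero]
        conv_lhs => rw [this]
        exact mulVecLin_range_mul_le _ _
      · have : Q = (P + Q) * Q := by rw [add_mul, hQ, hPQ, zero_add]
        conv_lhs => rw [this]
        exact mulVecLin_range_mul_le _ _
  have h2 : LinearMap.range P.mulVecLin ⊓ LinearMap.range Q.mulVecLin = ⊥ := by
    rw [Submodule.eq_bot_iff]
    rintro _ ⟨⟨v, rfl⟩, ⟨w, hw⟩⟩
    rw [mulVecLin_apply, mulVecLin_apply] at hw
    rw [mulVecLin_apply]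
    have h3 : P *ᵥ (P *ᵥ v) = P *ᵥ v := by rw [mulVec_mulVec, hP]
    rw [← h3, ← hw, mulVec_mulVec, hPQ, zero_mulVec]
  have h3 := Submodule.finrank_sup_add_finrank_inf_eq (LinearMap.range P.mulVecLin) (LinearMap.range Q.mulVecLin)
  rw [← h1, h2, finrank_bot, add_zero] at h3
  exact h3

lemma rank_sum_orth {γ : Type*} [DecidableEq γ] (s : Finset γ) (f : γ → Matrix ι ι F) (hf : ∀ x ∈ s, f x * f x = f x)
    (ho : ∀ x ∈ s, ∀ y ∈ s, x ≠ y → f x * f y = 0) : (∑ x ∈ s, f x).rank = ∑ x ∈ s, (f x).rank := by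
  induction s using Finset.induction_on with
  | empty => simp
  | insert a s ha ih =>
    rw [Finset.sum_insert ha, Finset.sum_insert ha, rank_add_orth, ih]
    · intro x hx; exact hf x (Finset.mem_insert_of_mem hx)
    · intro x hx y hy; exact ho x (Finset.mem_insert_of_mem hx) y (Finset.mem_insert_of_mem hy)
    · exact hf a (Finset.mem_insert_self _ _)
    · rw [Finset.sum_mul_sum]
      refine Finset.sum_congr rfl fun x hx => ?_
      rw [Finset.sum_eq_single x]
      · exact hf x (Finset.mem_insert_of_mem hx)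
      · intro y hy hyx
        exact ho x (Finset.mem_insert_of_mem hx) y (Finset.mem_insert_of_mem hy) (Ne.symm hyx)
      · intro h; exact absurd hx h
    · rw [Finset.mul_sum]
      apply Finset.sum_eq_zero
      intro x hx
      exact ho a (Finset.mem_insert_self _ _) x (Finset.mem_insert_of_mem hx) (by rintro rfl; exact ha hx)
    · rw [Finset.sum_mul]
      apply Finset.sum_eq_zero
      intro x hx
      exact ho x (Finset.mem_insert_of_mem hx) a (Finset.mem_insert_self _ _) (by rintro rfl; exact ha hx)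

lemma rank_conj (g : GL ι F) (Z : Matrix ι ι F) : (g.1 * Z * (g⁻¹).1).rank = Z.rank := by
  apply le_antisymm (rank_le_of_eq_mul rfl)
  have : Z = (g⁻¹).1 * (g.1 * Z * (g⁻¹).1) * g.1 := by
    calc Z = ((g⁻¹).1 * g.1) * Z * ((g⁻¹).1 * g.1) := by rw [inv_mul_val, one_mul, mul_one]
      _ = _ := by simp only [mul_assoc]
  exact rank_le_of_eq_mul this

lemma rank_le_of_inj {M P : Matrix ι ι F} (h : ∀ v, M *ᵥ (P *ᵥ v) = 0 → P *ᵥ v = 0) : P.rank ≤ (M * P).rank := by
  have h1 := LinearMap.finrank_range_add_finrank_ker (M * P).mulVecLin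
  have h2 := LinearMap.finrank_range_add_finrank_ker P.mulVecLin
  have h3 : LinearMap.ker (M * P).mulVecLin ≤ LinearMap.ker P.mulVecLin := by
    intro v hv
    rw [LinearMap.mem_ker, mulVecLin_apply] at hv ⊢
    exact h v (by rw [mulVec_mulVec]; exact hv)
  have h4 := Submodule.finrank_mono h3
  show finrank F (LinearMap.range P.mulVecLin) ≤ finrank F (LinearMap.range (M * P).mulVecLin)
  omega

end rk

section gen

variable {β : Type} [Fintype β] [DecidableEq β] {ι : Type} [Fintype ι] [DecidableEq ι] {F : Type*} [Field F]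
  {E : Matrix β β F →ₐ[F] Matrix ι ι F}

/-- the permutation of two basis vectors -/
lemma exists_swap_conj (l m : β) : ∃ B : GL β F, B.1 * single l l 1 * (B⁻¹).1 = single m m 1 := by
  have hdet : IsUnit (Matrix.det ((Equiv.swap l m).permMatrix F)) := by
    rw [Matrix.det_permutation]
    exact (Units.isUnit _).map (Int.castRingHom F)
  refine ⟨Matrix.GeneralLinearGroup.mk'' _ hdet, ?_⟩
  rw [conj_eq_iff]
  show (Equiv.swap l m).permMatrix F * single l l 1 = single m m 1 * (Equiv.swap l m).permMatrix F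
  rw [Equiv.Perm.permMatrix, PEquiv.toMatrix_toPEquiv_mul, PEquiv.mul_toMatrix_toPEquiv]
  ext i j
  simp only [submatrix_apply, id_eq, single_apply, Equiv.symm_swap]
  have e1 : (l = Equiv.swap l m i) ↔ (m = i) := by
    rw [eq_comm, Equiv.swap_apply_eq_iff, Equiv.swap_apply_left, eq_comm]
  have e2 : (m = Equiv.swap l m j) ↔ (l = j) := by
    rw [eq_comm, Equiv.swap_apply_eq_iff, Equiv.swap_apply_right, eq_comm]
  simp only [e1, e2]

lemma rank_E_mul_single {b : Matrix ι ι F} (hb : Cmt E b) (l m : β) : (E (single l l 1) * b).rank = (E (single m m 1) * b).rank := by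
  obtain ⟨B, hB⟩ := exists_swap_conj (F := F) l m
  rw [← hB, ← rank_conj (EU E B), EU_val, EU_inv_val, map_mul, map_mul]
  congr 1
  calc E B.1 * (E (single l l 1) * b) * E (B⁻¹).1 = E B.1 * E (single l l 1) * (b * E (B⁻¹).1) := by simp only [mul_assoc]
    _ = _ := by rw [← hb]; simp only [mul_assoc]

lemma rank_E_single (l m : β) : (E (single l l 1)).rank = (E (single m m 1)).rank := by
  have := rank_E_mul_single (E := E) Cmt.one l m
  rwa [mul_one, mul_one] at this

lemma rank_E_conj_mul {b : Matrix ι ι F} (hb : Cmt E b) (B : GL β F) (l : β) : (E (B.1 * single l l 1 * (B⁻¹).1) * b).rank = (E (single l l 1) * b).rank := by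
  rw [← rank_conj (EU E B) (E (single l l 1) * b), EU_val, EU_inv_val, map_mul, map_mul]
  congr 1
  calc E B.1 * E (single l l 1) * E (B⁻¹).1 * b = E B.1 * E (single l l 1) * (E (B⁻¹).1 * b) := by simp only [mul_assoc]
    _ = _ := by rw [hb]; simp only [mul_assoc]

/-- the rank of a commuting idempotent is the sum of the ranks of the pieces -/
lemma card_mul_rank {Q : Matrix ι ι F} (hQ : Cmt E Q) (hQ2 : Q * Q = Q) (l : β) : Fintype.card β * (E (single l l 1) * Q).rank = Q.rank := by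
  have h1 : (∑ m : β, E (single m m 1) * Q) = Q := by
    rw [← Finset.sum_mul, ← map_sum, sum_single_diag, map_one, one_mul]
  conv_rhs => rw [← h1]
  rw [rank_sum_orth]
  · rw [Finset.sum_congr rfl (fun m _ => rank_E_mul_single hQ m l), Finset.sum_const, Finset.card_univ, smul_eq_mul]
  · intro m _
    rw [mul_assoc, ← mul_assoc Q, ← hQ, mul_assoc _ Q Q, hQ2, ← mul_assoc, ← map_mul, single_mul_single_same, one_mul]
  · intro m _ m' _ hne
    rw [mul_assoc, ← mul_assoc Q, ← hQ, mul_assoc _ Q Q, hQ2, ← mul_assoc, ← map_mul, single_mul_single_of_ne _ _ _ _ hne, map_zero, zero_mul]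

lemma card_mul_rank_one (l : β) : Fintype.card β * (E (single l l 1)).rank = Fintype.card ι := by
  have := card_mul_rank (E := E) (Q := 1) Cmt.one (mul_one 1) l
  rwa [mul_one, rank_one] at this

end gen

namespace Sys

variable {k : ℕ} {T ι : Type} [Fintype T] [DecidableEq T] [Fintype ι] [DecidableEq ι] {F : Type*} [Field F] {S : Sys k T ι F}

lemma rank_E_eq (i j : T) (l m : Fin k) : (S.E i (single l l 1)).rank = (S.E j (single m m 1)).rank := by
  have h1 := card_mul_rank_one (E := S.E i) l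
  have h2 := card_mul_rank_one (E := S.E j) m
  have hk : 0 < Fintype.card (Fin k) := by rw [Fintype.card_fin]; exact Fin.pos l
  exact Nat.eq_of_mul_eq_mul_left hk (h1.trans h2.symm)

/-- **the permutation is trivial** if the rank is small and `4 ≤ k` -/
theorem sigma_one_of_rank [Nonempty ι] (hk : 4 ≤ k) {y : GL ι F} {σ : Equiv.Perm T} (hσ : S.Perms y σ) (i₀ : T) (l₀ : Fin k)
    (hr : (y.1 - 1).rank ≤ (S.E i₀ (single l₀ l₀ 1)).rank) (j : T) : σ j = j := by
  by_contra hj
  obtain ⟨B, hB⟩ := hσ j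
  set i0 : Fin k := ⟨0, by omega⟩ with hi0
  set i1 : Fin k := ⟨1, by omega⟩ with hi1
  have hne : i0 ≠ i1 := by simp [hi0, hi1, Fin.ext_iff]
  rw [rank_E_eq i₀ j l₀ i0] at hr
  set P : Fin k → Matrix ι ι F := fun l => S.E j (single l l 1) with hP
  set P' : Fin k → Matrix ι ι F := fun l => S.E (σ j) (B.1 * single l l 1 * (B⁻¹).1) with hP'
  have hyP : ∀ l, y.1 * P l = P' l * y.1 := fun l => hB _
  have hPP' : ∀ l m, P l * P' m = P' m * P l := fun l m => S.comm j (σ j) (Ne.symm hj) _ _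
  have hconj : ∀ a b : Matrix (Fin k) (Fin k) F, (B.1 * a * (B⁻¹).1) * (B.1 * b * (B⁻¹).1) = B.1 * (a * b) * (B⁻¹).1 := by
    intro a b
    calc (B.1 * a * (B⁻¹).1) * (B.1 * b * (B⁻¹).1) = B.1 * a * ((B⁻¹).1 * B.1) * b * (B⁻¹).1 := by simp only [mul_assoc]
      _ = _ := by rw [inv_mul_val, mul_one]; simp only [mul_assoc]
  have hPl : ∀ l, P l * P l = P l := fun l => by simp only [hP]; rw [← map_mul, single_mul_single_same, one_mul]
  have hPlm : ∀ l m, l ≠ m → P l * P m = 0 := fun l m h => by simp only [hP]; rw [← map_mul, single_mul_single_of_ne _ _ _ _ h, map_zero]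
  have hP'l : ∀ l, P' l * P' l = P' l := fun l => by simp only [hP']; rw [← map_mul, hconj, single_mul_single_same, one_mul]
  have hP'lm : ∀ l m, l ≠ m → P' l * P' m = 0 := fun l m h => by
    simp only [hP']; rw [← map_mul, hconj, single_mul_single_of_ne _ _ _ _ h, mul_zero, zero_mul, map_zero]
  have hcP : ∀ l, Cmt (S.E (σ j)) (P l) := fun l => cmt_E hj _
  -- ranks
  set ρ := (P i0).rank with hρ
  set ρ₂ := (P i0 * P' i0).rank with hρ₂
  have hr2 : ∀ l m, (P l * P' m).rank = ρ₂ := by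
    intro l m
    have e1 : (P l * P' m).rank = (P l * S.E (σ j) (single m m 1)).rank := by
      rw [hPP']
      simp only [hP']
      rw [rank_E_conj_mul (hcP l) B m, ← hcP l]
    have e2 : (P i0 * P' i0).rank = (P i0 * S.E (σ j) (single i0 i0 1)).rank := by
      rw [hPP']
      simp only [hP']
      rw [rank_E_conj_mul (hcP i0) B i0, ← hcP i0]
    rw [hρ₂, e1, e2]
    have e3 := rank_E_mul_single (E := S.E j) (b := S.E (σ j) (single m m 1)) (cmt_E (Ne.symm hj) _) l i0
    have e4 := rank_E_mul_single (E := S.E (σ j)) (b := P i0) (hcP i0) m i0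
    rw [hcP i0, hcP i0] at e4
    exact e3.trans e4
  have hrP : ∀ l, (P l).rank = ρ := fun l => rank_E_single l i0
  have hρk : k * ρ₂ = ρ := by
    have := card_mul_rank (E := S.E (σ j)) (Q := P i0) (hcP i0) (hPl i0) i0
    rw [Fintype.card_fin, hcP i0] at this
    have e2 : (P i0 * P' i0).rank = (P i0 * S.E (σ j) (single i0 i0 1)).rank := by
      rw [hPP']
      simp only [hP']
      rw [rank_E_conj_mul (hcP i0) B i0, ← hcP i0]
    rw [← e2] at this
    exact this
  have hρpos : 0 < ρ₂ := by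
    have h1 := card_mul_rank_one (E := S.E j) i0
    have h2 : 0 < Fintype.card ι := Fintype.card_pos
    rw [← h1, Fintype.card_fin] at h2
    have h3 : 0 < (S.E j (single i0 i0 1)).rank := Nat.pos_of_mul_pos_left h2
    have h4 : 0 < ρ := h3
    rw [← hρk] at h4
    exact Nat.pos_of_mul_pos_left h4
  -- the idempotent
  set R0 := P i0 * (1 - P' i0) with hR0
  set R1 := P i1 * (1 - P' i0 - P' i1) with hR1
  set RR := R0 + R1 with hRR
  have c0 : P i0 * (1 - P' i0) = (1 - P' i0) * P i0 := by rw [mul_sub, sub_mul, mul_one, one_mul, hPP']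
  have c1 : P i1 * (1 - P' i0 - P' i1) = (1 - P' i0 - P' i1) * P i1 := by
    rw [mul_sub, mul_sub, sub_mul, sub_mul, mul_one, one_mul, hPP', hPP']
  have d0 : (1 - P' i0) * (1 - P' i0) = 1 - P' i0 := by
    rw [mul_sub, mul_one, sub_mul, one_mul, hP'l, sub_self, sub_zero]
  have d1 : (1 - P' i0 - P' i1) * (1 - P' i0 - P' i1) = 1 - P' i0 - P' i1 := by
    have : (1 - P' i0 - P' i1) * (1 - P' i0 - P' i1) = 1 - P' i0 - P' i0 + P' i0 * P' i0 - P' i1 - P' i1 + P' i1 * P' i1 + P' i0 * P' i1 + P' i1 * P' i0 := by noncomm_ring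
    rw [this, hP'l, hP'l, hP'lm _ _ hne, hP'lm _ _ (Ne.symm hne)]; abel
  have e00 : R0 * R0 = R0 := by
    rw [hR0]
    calc P i0 * (1 - P' i0) * (P i0 * (1 - P' i0)) = P i0 * ((1 - P' i0) * P i0) * (1 - P' i0) := by simp only [mul_assoc]
      _ = (P i0 * P i0) * ((1 - P' i0) * (1 - P' i0)) := by rw [← c0]; simp only [mul_assoc]
      _ = _ := by rw [hPl, d0]
  have e11 : R1 * R1 = R1 := by
    rw [hR1]
    calc P i1 * (1 - P' i0 - P' i1) * (P i1 * (1 - P' i0 - P' i1)) = P i1 * ((1 - P' i0 - P' i1) * P i1) * (1 - P' i0 - P' i1) := by simp only [mul_assoc]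
      _ = (P i1 * P i1) * ((1 - P' i0 - P' i1) * (1 - P' i0 - P' i1)) := by rw [← c1]; simp only [mul_assoc]
      _ = _ := by rw [hPl, d1]
  have e01 : R0 * R1 = 0 := by
    have h1 : R0 = (1 - P' i0) * P i0 := by rw [hR0, c0]
    calc R0 * R1 = (1 - P' i0) * (P i0 * P i1) * (1 - P' i0 - P' i1) := by rw [h1, hR1]; simp only [mul_assoc]
      _ = 0 := by rw [hPlm _ _ hne, mul_zero, zero_mul]
  have e10 : R1 * R0 = 0 := by
    have h1 : R1 = (1 - P' i0 - P' i1) * P i1 := by rw [hR1, c1]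
    calc R1 * R0 = (1 - P' i0 - P' i1) * (P i1 * P i0) * (1 - P' i0) := by rw [h1, hR0]; simp only [mul_assoc]
      _ = 0 := by rw [hPlm _ _ (Ne.symm hne), mul_zero, zero_mul]
  have f : ∀ l m, (P l * P' m) * (P l * P' m) = P l * P' m := by
    intro l m
    calc (P l * P' m) * (P l * P' m) = P l * (P' m * P l) * P' m := by simp only [mul_assoc]
      _ = (P l * P l) * (P' m * P' m) := by rw [← hPP']; simp only [mul_assoc]
      _ = _ := by rw [hPl, hP'l]
  have rR0 : R0.rank + ρ₂ = ρ := by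
    have h1 : R0 + P i0 * P' i0 = P i0 := by rw [hR0, ← mul_add, sub_add_cancel, mul_one]
    have h2 := rank_add_orth e00 (f i0 i0) (by
        rw [hR0, hPP', mul_assoc, ← mul_assoc (1 - P' i0), sub_mul, one_mul, hP'l, sub_self, zero_mul, mul_zero])
      (by
        have : P i0 * P' i0 * R0 = P i0 * P' i0 * ((1 - P' i0) * P i0) := by rw [hR0, c0]
        rw [this, mul_assoc, ← mul_assoc (P' i0), mul_sub (P' i0), mul_one, hP'l, sub_self, zero_mul, mul_zero])
    rw [h1] at h2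
    rw [← h2]
  have rR1 : R1.rank + (ρ₂ + ρ₂) = ρ := by
    have h1 : R1 + (P i1 * P' i0 + P i1 * P' i1) = P i1 := by rw [hR1]; noncomm_ring
    have g1 : (P i1 * P' i0) * (P i1 * P' i1) = 0 := by
      calc (P i1 * P' i0) * (P i1 * P' i1) = P i1 * (P' i0 * P i1) * P' i1 := by simp only [mul_assoc]
        _ = P i1 * P i1 * (P' i0 * P' i1) := by rw [← hPP']; simp only [mul_assoc]
        _ = 0 := by rw [hP'lm _ _ hne, mul_zero]
    have g2 : (P i1 * P' i1) * (P i1 * P' i0) = 0 := by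
      calc (P i1 * P' i1) * (P i1 * P' i0) = P i1 * (P' i1 * P i1) * P' i0 := by simp only [mul_assoc]
        _ = P i1 * P i1 * (P' i1 * P' i0) := by rw [← hPP']; simp only [mul_assoc]
        _ = 0 := by rw [hP'lm _ _ (Ne.symm hne), mul_zero]
    have h3 := rank_add_orth (f i1 i0) (f i1 i1) g1 g2
    have h4 : (P i1 * P' i0 + P i1 * P' i1) * (P i1 * P' i0 + P i1 * P' i1) = P i1 * P' i0 + P i1 * P' i1 := by
      rw [mul_add, add_mul, add_mul, f, f, g1, g2, zero_add, add_zero]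
    have z1 : (1 - P' i0 - P' i1) * (P' i0 + P' i1) = 0 := by
      have : (1 - P' i0 - P' i1) * (P' i0 + P' i1) = P' i0 + P' i1 - P' i0 * P' i0 - P' i0 * P' i1 - P' i1 * P' i0 - P' i1 * P' i1 := by noncomm_ring
      rw [this, hP'l, hP'l, hP'lm _ _ hne, hP'lm _ _ (Ne.symm hne)]; abel
    have z2 : (P' i0 + P' i1) * (1 - P' i0 - P' i1) = 0 := by
      have : (P' i0 + P' i1) * (1 - P' i0 - P' i1) = P' i0 + P' i1 - P' i0 * P' i0 - P' i0 * P' i1 - P' i1 * P' i0 - P' i1 * P' i1 := by noncomm_ring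
      rw [this, hP'l, hP'l, hP'lm _ _ hne, hP'lm _ _ (Ne.symm hne)]; abel
    have cc : P i1 * (P' i0 + P' i1) = (P' i0 + P' i1) * P i1 := by rw [mul_add, add_mul, hPP', hPP']
    have g3 : R1 * (P i1 * P' i0 + P i1 * P' i1) = 0 := by
      rw [← mul_add]
      calc R1 * (P i1 * (P' i0 + P' i1)) = P i1 * ((1 - P' i0 - P' i1) * (P' i0 + P' i1)) * P i1 := by rw [cc, hR1]; simp only [mul_assoc]
        _ = 0 := by rw [z1, mul_zero, zero_mul]
    have g4 : (P i1 * P' i0 + P i1 * P' i1) * R1 = 0 := by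
      rw [← mul_add]
      calc P i1 * (P' i0 + P' i1) * R1 = P i1 * ((P' i0 + P' i1) * (1 - P' i0 - P' i1)) * P i1 := by rw [hR1, c1]; simp only [mul_assoc]
        _ = 0 := by rw [z2, mul_zero, zero_mul]
    have h5 := rank_add_orth e11 h4 g3 g4
    rw [h1, h3, hr2, hr2, hrP] at h5
    exact h5.symm
  have rRR : RR.rank = R0.rank + R1.rank := rank_add_orth e00 e11 e01 e10
  -- injectivity
  have p0R : P' i0 * RR = 0 := by
    rw [hRR, mul_add, hR0, hR1, c0, c1, ← mul_assoc, ← mul_assoc, mul_sub, mul_sub, mul_sub, mul_one, hP'l, hP'lm _ _ hne, sub_self, sub_zero, zero_mul, zero_mul, add_zero]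
  have p1R : P' i1 * (P i1 * RR) = 0 := by
    have : P i1 * RR = R1 := by
      rw [hRR, mul_add, hR0, hR1, ← mul_assoc, ← mul_assoc, hPlm _ _ (Ne.symm hne), hPl, zero_mul, zero_add]
    rw [this, hR1, c1, ← mul_assoc, mul_sub, mul_sub, mul_one, hP'l, hP'lm _ _ (Ne.symm hne), sub_zero, sub_self, zero_mul]
  have pR : (P i0 + P i1) * RR = RR := by
    rw [hRR, add_mul, mul_add, mul_add]
    have a1 : P i0 * R0 = R0 := by rw [hR0, ← mul_assoc, hPl]
    have a2 : P i0 * R1 = 0 := by rw [hR1, ← mul_assoc, hPlm _ _ hne, zero_mul]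
    have a3 : P i1 * R0 = 0 := by rw [hR0, ← mul_assoc, hPlm _ _ (Ne.symm hne), zero_mul]
    have a4 : P i1 * R1 = R1 := by rw [hR1, ← mul_assoc, hPl]
    rw [a1, a2, a3, a4, add_zero, zero_add]
  have yinj : ∀ w, y.1 *ᵥ w = 0 → w = 0 := by
    intro w hw
    have : (y⁻¹).1 *ᵥ (y.1 *ᵥ w) = w := by rw [mulVec_mulVec, inv_mul_val, one_mulVec]
    rw [← this, hw, mulVec_zero]
  have hinj : ∀ w, (y.1 - 1) *ᵥ (RR *ᵥ w) = 0 → RR *ᵥ w = 0 := by
    intro w hw
    set v := RR *ᵥ w with hv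
    rw [sub_mulVec, one_mulVec, sub_eq_zero] at hw
    have step : ∀ l, P' l *ᵥ v = 0 → P l *ᵥ v = 0 := by
      intro l hl
      apply yinj
      rw [mulVec_mulVec, hyP, ← mulVec_mulVec, hw, hl]
    have h0 : P i0 *ᵥ v = 0 := step i0 (by rw [hv, mulVec_mulVec, p0R, zero_mulVec])
    have h1 : P i1 *ᵥ v = v := by
      have : (P i0 + P i1) *ᵥ v = v := by rw [hv, mulVec_mulVec, pR]
      rwa [add_mulVec, h0, zero_add] at this
    have h2 : P i1 *ᵥ v = 0 := step i1 (by
      rw [← h1, hv, mulVec_mulVec, mulVec_mulVec, mul_assoc, p1R, zero_mulVec])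
    rw [← h1, h2]
  have h1 := rank_le_of_inj hinj
  have h2 : ((y.1 - 1) * RR).rank ≤ (y.1 - 1).rank := Matrix.rank_mul_le_left _ _
  have h3 : RR.rank ≤ ρ := h1.trans (h2.trans hr)
  rw [rRR] at h3
  have h4 : 4 * ρ₂ ≤ ρ := by rw [← hρk]; exact Nat.mul_le_mul_right _ hk
  omega

/-- the rank version for trivial permutation -/
theorem fus_rank [Nonempty ι] (hk : 3 ≤ k) {y : GL ι F} (hy : (y.1 - 1) * (y.1 - 1) = 0) (hy1 : y ≠ 1) {σ : Equiv.Perm T}
    (hσ : S.Perms y σ) (hσ1 : ∀ j, σ j = j) (i₀ : T) (l₀ : Fin k) (hr : (y.1 - 1).rank ≤ (S.E i₀ (single l₀ l₀ 1)).rank) :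
    ∃ (j : T) (A : Matrix (Fin k) (Fin k) F), y.1 = S.E j A := by
  choose B hB using hσ
  have hj : ∃ j, ¬ ∃ c : F, (B j).1 = c • (1 : Matrix (Fin k) (Fin k) F) := by
    by_contra hcon
    push Not at hcon
    obtain ⟨c, hc⟩ := S.cent y.1 (fun i a => by
      have := hB i a
      obtain ⟨c, hc⟩ := hcon i
      have h2 : (B i).1 * a * ((B i)⁻¹).1 = a := by
        rw [conj_eq_iff, hc, smul_mul_assoc, mul_smul_comm, one_mul, mul_one]
      rw [hσ1, h2] at this
      exact this.symm)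
    apply hy1
    apply Units.ext
    rw [hc] at hy
    have h3 : ((c - 1) * (c - 1)) • (1 : Matrix ι ι F) = 0 := by
      rw [← hy, ← sub_eq_zero]
      have : c • (1 : Matrix ι ι F) - 1 = (c - 1) • 1 := by rw [sub_smul, one_smul]
      rw [this, smul_mul_smul_comm, one_mul, sub_self]
    have h4 := (smul_eq_zero.1 h3).resolve_right one_ne_zero
    have h5 : c = 1 := by
      rcases mul_self_eq_zero.1 h4 with h
      exact sub_eq_zero.1 h
    rw [hc, h5, one_smul, Units.val_one]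
  obtain ⟨j, hj⟩ := hj
  -- y = E_j(B_j) b
  set b : GL ι F := (EU (S.E j) (B j))⁻¹ * y with hb
  have hyb : y.1 = S.E j (B j).1 * b.1 := by
    have : y = EU (S.E j) (B j) * b := by rw [hb, mul_inv_cancel_left]
    rw [this, Units.val_mul, EU_val]
  have hcb : Cmt (S.E j) b.1 := by
    intro a
    have h1 := hB j a
    rw [hσ1] at h1
    have h2 : b.1 = S.E j ((B j)⁻¹).1 * y.1 := rfl
    have h3 : ((B j)⁻¹).1 * ((B j).1 * a * ((B j)⁻¹).1) = a * ((B j)⁻¹).1 := by
      rw [← mul_assoc, ← mul_assoc, inv_mul_val, one_mul]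
    rw [h2, mul_assoc, h1, ← mul_assoc, ← mul_assoc, ← map_mul, ← map_mul, h3]
  have hcb' : Cmt (S.E j) (-(b⁻¹).1) := by
    apply Cmt.neg
    intro a
    have h2 : (b⁻¹).1 * (S.E j a * b.1) * (b⁻¹).1 = (b⁻¹).1 * (b.1 * S.E j a) * (b⁻¹).1 := by rw [hcb]
    rw [mul_assoc, mul_assoc, mul_inv_val, mul_one, ← mul_assoc, inv_mul_val, one_mul] at h2
    exact h2.symm
  have hrk : (S.E j (B j).1 + -(b⁻¹).1).rank ≤ (S.E j (single l₀ l₀ 1)).rank := by
    have h1 : S.E j (B j).1 + -(b⁻¹).1 = 1 * (y.1 - 1) * (b⁻¹).1 := by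
      rw [one_mul, sub_mul, one_mul, hyb, mul_assoc, mul_inv_val, mul_one, sub_eq_add_neg]
    exact (rank_le_of_eq_mul h1).trans (hr.trans (rank_E_eq i₀ j l₀ l₀).le)
  obtain ⟨c, hc⟩ := scalar_of_rank (by rw [Fintype.card_fin]; exact hk) hcb' l₀ hrk hj
  have hc0 : c ≠ 0 := by
    rintro rfl
    rw [zero_smul, neg_eq_zero] at hc
    have := mul_inv_val b
    rw [hc, mul_zero] at this
    exact zero_ne_one this
  refine ⟨j, (-c⁻¹) • (B j).1, ?_⟩
  have h2 : b.1 = (-c⁻¹) • (1 : Matrix ι ι F) := by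
    have h3 := mul_inv_val b
    have h4 : (b⁻¹).1 = (-c) • (1 : Matrix ι ι F) := by rw [neg_smul, ← hc, neg_neg]
    rw [h4, mul_smul_comm, mul_one] at h3
    rw [← h3, smul_smul, neg_mul_neg, inv_mul_cancel₀ hc0, one_smul]
  rw [hyb, h2, mul_smul_comm, mul_one, map_smul]

/-- an element of a factor with the rank of a root is a root -/
lemma root_of_E [Nonempty ι] {j : T} {A : Matrix (Fin k) (Fin k) F} {y : GL ι F} (hyA : y.1 = S.E j A) (hy : (y.1 - 1) * (y.1 - 1) = 0)
    (hy1 : y ≠ 1) (i₀ : T) (l₀ : Fin k) (hr : (y.1 - 1).rank ≤ (S.E i₀ (single l₀ l₀ 1)).rank) :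
    ∃ u φ : Fin k → F, u ≠ 0 ∧ φ ≠ 0 ∧ φ ⬝ᵥ u = 0 ∧ y.1 = 1 + S.E j (vecMulVec u φ) := by
  have h1 : y.1 - 1 = S.E j (A - 1) := by rw [map_sub, map_one, hyA]
  have hA : A - 1 ≠ 0 := by
    intro h
    apply hy1
    apply Units.ext
    rw [h, map_zero, sub_eq_zero] at h1
    exact h1
  have hr' : (S.E j (A - 1)).rank ≤ (S.E j (single l₀ l₀ 1)).rank := by
    rw [← h1]; exact hr.trans (rank_E_eq i₀ j l₀ l₀).le
  obtain ⟨u, φ, h⟩ := rank_one_of_rank l₀ hr' hA
  have hu : u ≠ 0 := by rintro rfl; apply hA; rw [h, zero_vecMulVec]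
  have hφ : φ ≠ 0 := by rintro rfl; apply hA; rw [h, vecMulVec_zero]
  refine ⟨u, φ, hu, hφ, ?_, ?_⟩
  · rw [h1, ← map_mul, h, vecMulVec_mul_vecMulVec, vecMulVec_smul] at hy
    have h3 : (φ ⬝ᵥ u) • vecMulVec u φ = 0 := E_inj (S := S) (i := j) (by rw [hy, map_zero])
    have h4 : vecMulVec u φ ≠ 0 := by rw [← h]; exact hA
    exact (smul_eq_zero.1 h3).resolve_right h4
  · rw [← h, ← h1]; abel

end Sys

end Cfsg.Agent.Asch.CW
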