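import Mathlib
import Cfsg.Prelude.Def_GeometricClasses
import Cfsg.Agent.Asch.CWFusR
import Cfsg.Agent.Asch.TMaxBlock
set_option autoImplicit false
set_option linter.unusedSectionVars false
set_option linter.unusedVariables false
set_option linter.style.haveILetI false

/-!
Root elements and the block lemma in the linear case.
-/

namespace Cfsg.Agent.Asch.CW

open Matrix Module

open scoped Matrix

section mem1

variable {ι : Type} [Fintype ι] [DecidableEq ι] {F : Type*} [Field F]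

/-- `1 + Z` lies in `K` -/
def Mem1 (K : Subgroup (GL ι F)) (Z : Matrix ι ι F) : Prop := ∃ x ∈ K, x.1 = 1 + Z

variable {K : Subgroup (GL ι F)}

lemma mem1_of {x : GL ι F} (hx : x ∈ K) {Z : Matrix ι ι F} (h : x.1 = 1 + Z) : Mem1 K Z := ⟨x, hx, h⟩

lemma Mem1.mem {Z : Matrix ι ι F} (h : Mem1 K Z) {x : GL ι F} (hx : x.1 = 1 + Z) : x ∈ K := by
  obtain ⟨y, hy, hyZ⟩ := h
  have : x = y := Units.ext (hx.trans hyZ.symm)
  rw [this]; exact hy

lemma mem1_zero : Mem1 K 0 := ⟨1, K.one_mem, by rw [Units.val_one, add_zero]⟩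

lemma Mem1.inv_eq {Z : Matrix ι ι F} {x : GL ι F} (hx : x.1 = 1 + Z) (hZ : Z * Z = 0) : (x⁻¹).1 = 1 - Z := by
  have h1 : x.1 * (1 - Z) = 1 := by rw [hx, mul_sub, mul_one, add_mul, one_mul, hZ, add_zero]; abel
  calc (x⁻¹).1 = (x⁻¹).1 * (x.1 * (1 - Z)) := by rw [h1, mul_one]
    _ = _ := by rw [← mul_assoc, inv_mul_val, one_mul]

lemma Mem1.neg {Z : Matrix ι ι F} (h : Mem1 K Z) (hZ : Z * Z = 0) : Mem1 K (-Z) := by
  obtain ⟨x, hx, hxZ⟩ := h
  exact ⟨x⁻¹, K.inv_mem hx, by rw [Mem1.inv_eq hxZ hZ, sub_eq_add_neg]⟩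

lemma Mem1.add {Z W : Matrix ι ι F} (h : Mem1 K Z) (h' : Mem1 K W) (hZW : Z * W = 0) : Mem1 K (Z + W) := by
  obtain ⟨x, hx, hxZ⟩ := h
  obtain ⟨y, hy, hyW⟩ := h'
  refine ⟨x * y, K.mul_mem hx hy, ?_⟩
  rw [Units.val_mul, hxZ, hyW, mul_add, mul_one, add_mul, one_mul, hZW, add_zero, add_assoc]

lemma Mem1.comm {Z W : Matrix ι ι F} (h : Mem1 K Z) (h' : Mem1 K W) (hZ : Z * Z = 0) (hW : W * W = 0) (hWZ : W * Z = 0) : Mem1 K (Z * W) := by
  obtain ⟨x, hx, hxZ⟩ := h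
  obtain ⟨y, hy, hyW⟩ := h'
  refine ⟨x * y * (x⁻¹ * y⁻¹), K.mul_mem (K.mul_mem hx hy) (K.mul_mem (K.inv_mem hx) (K.inv_mem hy)), ?_⟩
  rw [Units.val_mul, Units.val_mul, Units.val_mul, Mem1.inv_eq hxZ hZ, Mem1.inv_eq hyW hW, hxZ, hyW]
  exact TMax.comm_identity hZ hW hWZ

lemma Mem1.conj {Z : Matrix ι ι F} {K' : Subgroup (GL ι F)} (h : Mem1 K Z) {g : GL ι F} (hg : ∀ x ∈ K, g * x * g⁻¹ ∈ K') :
    Mem1 K' (g.1 * Z * (g⁻¹).1) := by
  obtain ⟨x, hx, hxZ⟩ := h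
  refine ⟨g * x * g⁻¹, hg x hx, ?_⟩
  rw [Units.val_mul, Units.val_mul, hxZ, mul_add, mul_one, add_mul, mul_inv_val]

lemma Mem1.conj' {Z : Matrix ι ι F} (h : Mem1 K Z) {g : GL ι F} (hg : g ∈ K) : Mem1 K (g.1 * Z * (g⁻¹).1) :=
  h.conj fun x hx => K.mul_mem (K.mul_mem hg hx) (K.inv_mem hg)

lemma exists_of_sq_zero {Z : Matrix ι ι F} (hZ : Z * Z = 0) : ∃ x : GL ι F, x.1 = 1 + Z :=
  ⟨⟨1 + Z, 1 - Z, by rw [mul_sub, mul_one, add_mul, one_mul, hZ, add_zero]; abel, by rw [mul_add, mul_one, sub_mul, one_mul, hZ, sub_zero]; abel⟩, rfl⟩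

end mem1

section blockL

variable {k : ℕ} {ι : Type} [Fintype ι] [DecidableEq ι] {F : Type*} [Field F]
  {E : Matrix (Fin k) (Fin k) F →ₐ[F] Matrix ι ι F}

lemma vmv_mul (u v φ ψ : Fin k → F) : vecMulVec u φ * vecMulVec v ψ = (φ ⬝ᵥ v) • vecMulVec u ψ := by
  rw [vecMulVec_mul_vecMulVec, vecMulVec_smul]

lemma vmv_sq {u φ : Fin k → F} (h : φ ⬝ᵥ u = 0) : vecMulVec u φ * vecMulVec u φ = 0 := by rw [vmv_mul, h, zero_smul]

lemma E_vmv_sq {u φ : Fin k → F} (h : φ ⬝ᵥ u = 0) : E (vecMulVec u φ) * E (vecMulVec u φ) = 0 := by rw [← map_mul, vmv_sq h, map_zero]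

/-- partial contraction -/
def ctr (E : Matrix (Fin k) (Fin k) F →ₐ[F] Matrix ι ι F) (φ v : Fin k → F) (Y : Matrix ι ι F) : Matrix ι ι F :=
  ∑ r, E (vecMulVec (Pi.single r 1) φ) * Y * E (vecMulVec v (Pi.single r 1))

lemma sum_single_vmv (x ψ : Fin k → F) : ∑ r, vecMulVec x (Pi.single r 1) * vecMulVec (Pi.single r 1) ψ = (k : F) • vecMulVec x ψ := by
  simp only [vmv_mul]
  have : ∀ r : Fin k, (Pi.single r (1 : F) : Fin k → F) ⬝ᵥ Pi.single r 1 = 1 := fun r => by simp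
  simp only [this, one_smul, Finset.sum_const, Finset.card_univ, Fintype.card_fin]
  exact (Nat.cast_smul_eq_nsmul F k _).symm

lemma E_mul_ctr (φ v x ψ : Fin k → F) (Y : Matrix ι ι F) :
    E (vecMulVec x ψ) * ctr E φ v Y = E (vecMulVec x φ) * Y * E (vecMulVec v ψ) := by
  rw [ctr, Finset.mul_sum]
  have h1 : ∀ r, E (vecMulVec x ψ) * (E (vecMulVec (Pi.single r 1) φ) * Y * E (vecMulVec v (Pi.single r 1))) =
      E (vecMulVec x φ) * Y * E (ψ r • vecMulVec v (Pi.single r 1)) := by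
    intro r
    rw [← mul_assoc, ← mul_assoc, ← map_mul, vmv_mul]
    have : ψ ⬝ᵥ Pi.single r 1 = ψ r := by simp
    rw [this, map_smul, smul_mul_assoc, smul_mul_assoc, map_smul, mul_smul_comm]
  simp only [h1]
  rw [← Finset.mul_sum, ← map_sum]
  congr 2
  ext i j
  rw [Matrix.sum_apply]
  simp only [Matrix.smul_apply, vecMulVec_apply, Pi.single_apply, smul_eq_mul]
  rw [Finset.sum_eq_single j]
  · simp [mul_comm]
  · intro b _ hb; simp [Ne.symm hb]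
  · simp

lemma ctr_mul_E (φ v x ψ : Fin k → F) (Y : Matrix ι ι F) :
    ctr E φ v Y * E (vecMulVec x ψ) = E (vecMulVec x φ) * Y * E (vecMulVec v ψ) := by
  rw [ctr, Finset.sum_mul]
  have h1 : ∀ r, (E (vecMulVec (Pi.single r 1) φ) * Y * E (vecMulVec v (Pi.single r 1))) * E (vecMulVec x ψ) =
      E (x r • vecMulVec (Pi.single r 1) φ) * Y * E (vecMulVec v ψ) := by
    intro r
    rw [mul_assoc, ← map_mul, vmv_mul]
    have : (Pi.single r (1 : F) : Fin k → F) ⬝ᵥ x = x r := by simp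
    rw [this, map_smul, map_smul, mul_smul_comm, smul_mul_assoc, smul_mul_assoc]
  simp only [h1]
  rw [← Finset.sum_mul, ← Finset.sum_mul, ← map_sum]
  congr 3
  ext i j
  rw [Matrix.sum_apply]
  simp only [Matrix.smul_apply, vecMulVec_apply, Pi.single_apply, smul_eq_mul]
  rw [Finset.sum_eq_single i]
  · simp
  · intro b _ hb; simp [Ne.symm hb]
  · simp

lemma single_eq_vmv (l m : Fin k) : single l m (1 : F) = vecMulVec (Pi.single l 1) (Pi.single m 1) := by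
  ext i j
  simp only [single_apply, vecMulVec_apply, Pi.single_apply]
  by_cases hi : l = i
  · subst hi
    by_cases hj : m = j
    · subst hj; simp
    · simp [hj, Ne.symm hj]
  · simp [hi, Ne.symm hi]

lemma ctr_cmt (φ v : Fin k → F) (Y : Matrix ι ι F) : Cmt E (ctr E φ v Y) := by
  rw [cmt_iff_single]
  intro l m
  rw [single_eq_vmv, E_mul_ctr, ctr_mul_E]

/-- the coefficient condition -/
def Coef (E : Matrix (Fin k) (Fin k) F →ₐ[F] Matrix ι ι F) (K : Subgroup (GL ι F)) : Prop :=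
  ∀ u φ : Fin k → F, u ≠ 0 → φ ≠ 0 → φ ⬝ᵥ u = 0 → ∀ A, Cmt E A → Mem1 K (E (vecMulVec u φ) * A) → ∃ c : F, A = c • (1 : Matrix ι ι F)

/-- all roots -/
def Roots (E : Matrix (Fin k) (Fin k) F →ₐ[F] Matrix ι ι F) (K : Subgroup (GL ι F)) : Prop :=
  ∀ u φ : Fin k → F, φ ⬝ᵥ u = 0 → Mem1 K (E (vecMulVec u φ))

variable {K K' : Subgroup (GL ι F)} {h : GL ι F}

lemma vmv_sum_right (u : Fin k → F) (c : Fin k → F) : vecMulVec u c = ∑ m, c m • vecMulVec u (Pi.single m 1) := by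
  ext i j
  rw [Matrix.sum_apply]
  simp only [Matrix.smul_apply, vecMulVec_apply, Pi.single_apply, smul_eq_mul]
  rw [Finset.sum_eq_single j]
  · simp [mul_comm]
  · intro b _ hb; simp [Ne.symm hb]
  · simp

lemma vmv_sum_left (c φ : Fin k → F) : vecMulVec c φ = ∑ m, c m • vecMulVec (Pi.single m 1) φ := by
  ext i j
  rw [Matrix.sum_apply]
  simp only [Matrix.smul_apply, vecMulVec_apply, Pi.single_apply, smul_eq_mul]
  rw [Finset.sum_eq_single i]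
  · simp
  · intro b _ hb; simp [Ne.symm hb]
  · simp

lemma one_eq_sum_vmv : (1 : Matrix (Fin k) (Fin k) F) = ∑ m, vecMulVec (Pi.single m 1) (Pi.single m 1) := by
  rw [← sum_single_diag]
  exact Finset.sum_congr rfl fun m _ => single_eq_vmv m m

/-- **spreading along rows** -/
lemma spread_row (hk : 3 ≤ k) (hR : Roots E K) (hR' : Roots E K') (hC : Coef E K') (hh : ∀ x ∈ K, h * x * h⁻¹ ∈ K')
    {u φ u' φ' : Fin k → F} (hφ : φ ≠ 0) (hu' : u' ≠ 0)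
    (hr : h.1 * E (vecMulVec u φ) * (h⁻¹).1 = E (vecMulVec u' φ')) {ψ : Fin k → F} (hψ : ψ ⬝ᵥ u = 0) :
    ∃ R : Fin k → F, h.1 * E (vecMulVec u ψ) * (h⁻¹).1 = E (vecMulVec u' R) := by
  -- φ w = 1
  obtain ⟨m₀, hm₀⟩ := Function.ne_iff.1 hφ
  set w : Fin k → F := (φ m₀)⁻¹ • Pi.single m₀ 1 with hw
  have hφw : φ ⬝ᵥ w = 1 := by
    rw [hw, dotProduct_smul, dotProduct_single_one, smul_eq_mul, inv_mul_cancel₀ hm₀]
  set Y := h.1 * E (vecMulVec w ψ) * (h⁻¹).1 with hY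
  set Z := h.1 * E (vecMulVec u ψ) * (h⁻¹).1 with hZ
  have hZY : Z = E (vecMulVec u' φ') * Y := by
    rw [← hr, hY, hZ]
    have : vecMulVec u ψ = vecMulVec u φ * vecMulVec w ψ := by rw [vmv_mul, hφw, one_smul]
    rw [this, map_mul]
    calc h.1 * (E (vecMulVec u φ) * E (vecMulVec w ψ)) * (h⁻¹).1 = h.1 * E (vecMulVec u φ) * 1 * E (vecMulVec w ψ) * (h⁻¹).1 := by
          rw [mul_one]; simp only [mul_assoc]
      _ = _ := by rw [← inv_mul_val h]; simp only [mul_assoc]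
  have hZZ : Z * Z = 0 := by
    rw [hZ]
    calc h.1 * E (vecMulVec u ψ) * (h⁻¹).1 * (h.1 * E (vecMulVec u ψ) * (h⁻¹).1) = h.1 * E (vecMulVec u ψ) * ((h⁻¹).1 * h.1) * E (vecMulVec u ψ) * (h⁻¹).1 := by
          simp only [mul_assoc]
      _ = h.1 * (E (vecMulVec u ψ) * E (vecMulVec u ψ)) * (h⁻¹).1 := by rw [inv_mul_val, mul_one]; simp only [mul_assoc]
      _ = 0 := by rw [E_vmv_sq hψ, mul_zero, zero_mul]
  have hZm : Mem1 K' Z := (hR u ψ hψ).conj hh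
  have hρ : ∀ v : Fin k → F, ∃ c : F, ctr E φ' v Y = c • (1 : Matrix ι ι F) := by
    intro v
    obtain ⟨χ, hχ0, hχu, hχv⟩ := exists_row_zero (by rw [Fintype.card_fin]; exact hk) u' v
    apply hC u' χ hu' hχ0 hχu _ (ctr_cmt _ _ _)
    have h1 : Z * E (vecMulVec v χ) = E (vecMulVec u' χ) * ctr E φ' v Y := by
      rw [hZY, E_mul_ctr, mul_assoc]
    rw [← h1]
    apply Mem1.comm hZm (hR' v χ hχv) hZZ (E_vmv_sq hχv)
    rw [hZY, ← mul_assoc, ← map_mul, vmv_mul, hχu, zero_smul, map_zero, zero_mul]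
  choose c hc using fun m : Fin k => hρ (Pi.single m 1)
  refine ⟨c, ?_⟩
  rw [vmv_sum_right, map_sum]
  have h2 : ∀ m : Fin k, E (c m • vecMulVec u' (Pi.single m 1)) = Z * E (vecMulVec (Pi.single m 1) (Pi.single m 1)) := by
    intro m
    rw [map_smul, hZY, ← E_mul_ctr, hc, mul_smul_comm, mul_one]
  simp only [h2]
  rw [← Finset.mul_sum, ← map_sum, ← one_eq_sum_vmv, map_one, mul_one]

/-- **spreading along columns** -/
lemma spread_col (hk : 3 ≤ k) (hR : Roots E K) (hR' : Roots E K') (hC : Coef E K') (hh : ∀ x ∈ K, h * x * h⁻¹ ∈ K')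
    {u φ u' φ' : Fin k → F} (hu : u ≠ 0) (hφ' : φ' ≠ 0)
    (hr : h.1 * E (vecMulVec u φ) * (h⁻¹).1 = E (vecMulVec u' φ')) {v : Fin k → F} (hv : φ ⬝ᵥ v = 0) :
    ∃ c : Fin k → F, h.1 * E (vecMulVec v φ) * (h⁻¹).1 = E (vecMulVec c φ') := by
  obtain ⟨m₀, hm₀⟩ := Function.ne_iff.1 hu
  set χ₀ : Fin k → F := (u m₀)⁻¹ • Pi.single m₀ 1 with hw
  have hφw : χ₀ ⬝ᵥ u = 1 := by
    rw [hw, smul_dotProduct, single_one_dotProduct, smul_eq_mul, inv_mul_cancel₀ hm₀]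
  set Y := h.1 * E (vecMulVec v χ₀) * (h⁻¹).1 with hY
  set Z := h.1 * E (vecMulVec v φ) * (h⁻¹).1 with hZ
  have hZY : Z = Y * E (vecMulVec u' φ') := by
    rw [← hr, hY, hZ]
    have : vecMulVec v φ = vecMulVec v χ₀ * vecMulVec u φ := by rw [vmv_mul, hφw, one_smul]
    rw [this, map_mul]
    calc h.1 * (E (vecMulVec v χ₀) * E (vecMulVec u φ)) * (h⁻¹).1 = h.1 * E (vecMulVec v χ₀) * 1 * E (vecMulVec u φ) * (h⁻¹).1 := by
          rw [mul_one]; simp only [mul_assoc]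
      _ = _ := by rw [← inv_mul_val h]; simp only [mul_assoc]
  have hZZ : Z * Z = 0 := by
    rw [hZ]
    calc h.1 * E (vecMulVec v φ) * (h⁻¹).1 * (h.1 * E (vecMulVec v φ) * (h⁻¹).1) = h.1 * E (vecMulVec v φ) * ((h⁻¹).1 * h.1) * E (vecMulVec v φ) * (h⁻¹).1 := by
          simp only [mul_assoc]
      _ = h.1 * (E (vecMulVec v φ) * E (vecMulVec v φ)) * (h⁻¹).1 := by rw [inv_mul_val, mul_one]; simp only [mul_assoc]
      _ = 0 := by rw [E_vmv_sq hv, mul_zero, zero_mul]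
  have hZm : Mem1 K' Z := (hR v φ hv).conj hh
  have hρ : ∀ χ : Fin k → F, ∃ c : F, ctr E χ u' Y = c • (1 : Matrix ι ι F) := by
    intro χ
    obtain ⟨w, hw0, hwφ, hwχ⟩ := exists_row_zero (by rw [Fintype.card_fin]; exact hk) φ' χ
    rw [dotProduct_comm] at hwφ hwχ
    apply hC w φ' hw0 hφ' hwφ _ (ctr_cmt _ _ _)
    have h1 : E (vecMulVec w χ) * Z = E (vecMulVec w φ') * ctr E χ u' Y := by
      rw [hZY, E_mul_ctr]
      exact (mul_assoc _ _ _).symm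
    rw [← h1]
    apply Mem1.comm (hR' w χ hwχ) hZm (E_vmv_sq hwχ) hZZ
    rw [hZY, mul_assoc, ← map_mul, vmv_mul, hwφ, zero_smul, map_zero, mul_zero]
  choose c hc using fun m : Fin k => hρ (Pi.single m 1)
  refine ⟨c, ?_⟩
  rw [vmv_sum_left, map_sum]
  have h2 : ∀ m : Fin k, E (c m • vecMulVec (Pi.single m 1) φ') = E (vecMulVec (Pi.single m 1) (Pi.single m 1)) * Z := by
    intro m
    rw [map_smul, hZY, ← mul_assoc, ← E_mul_ctr, hc, mul_smul_comm, mul_one]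
  simp only [h2]
  rw [← Finset.sum_mul, ← map_sum, ← one_eq_sum_vmv, map_one, one_mul]

lemma E_inj' [Nonempty ι] {a b : Matrix (Fin k) (Fin k) F} (h : E a = E b) : a = b := by
  by_contra hne
  exact one_ne_zero (eq_zero_of_E_mul E (b := 1) Cmt.one (sub_ne_zero.2 hne) (by rw [mul_one, map_sub, sub_eq_zero, h]))

lemma conj_eq_zero {Z : Matrix ι ι F} (g : GL ι F) (h : g.1 * Z * (g⁻¹).1 = 0) : Z = 0 := by
  calc Z = ((g⁻¹).1 * g.1) * Z * ((g⁻¹).1 * g.1) := by rw [inv_mul_val, one_mul, mul_one]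
    _ = (g⁻¹).1 * (g.1 * Z * (g⁻¹).1) * g.1 := by simp only [mul_assoc]
    _ = 0 := by rw [h, mul_zero, zero_mul]

lemma vmv_ne_zero {u φ : Fin k → F} (hu : u ≠ 0) (hφ : φ ≠ 0) : vecMulVec u φ ≠ 0 := by
  obtain ⟨i, hi⟩ := Function.ne_iff.1 hu
  obtain ⟨j, hj⟩ := Function.ne_iff.1 hφ
  intro h
  have := congrFun (congrFun h i) j
  rw [vecMulVec_apply, Matrix.zero_apply] at this
  exact (mul_ne_zero hi hj) this

/-- all roots go to the factor -/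
lemma spread_all [Nonempty ι] (hk : 3 ≤ k) (hR : Roots E K) (hR' : Roots E K') (hC : Coef E K') (hh : ∀ x ∈ K, h * x * h⁻¹ ∈ K')
    {u φ u' φ' : Fin k → F} (hu : u ≠ 0) (hφ : φ ≠ 0)
    (hr : h.1 * E (vecMulVec u φ) * (h⁻¹).1 = E (vecMulVec u' φ')) {v χ : Fin k → F} (hv : v ≠ 0) (hvχ : χ ⬝ᵥ v = 0) :
    ∃ z, h.1 * E (vecMulVec v χ) * (h⁻¹).1 = E z := by
  have hne : ∀ {a b a' b' : Fin k → F}, a ≠ 0 → b ≠ 0 → h.1 * E (vecMulVec a b) * (h⁻¹).1 = E (vecMulVec a' b') → a' ≠ 0 ∧ b' ≠ 0 := by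
    intro a b a' b' ha hb hab
    have h0 : E (vecMulVec a' b') ≠ 0 := by
      intro h0
      rw [h0] at hab
      have := conj_eq_zero h hab
      exact vmv_ne_zero ha hb (E_inj' (E := E) (by rw [this, map_zero]))
    constructor
    · rintro rfl; exact h0 (by rw [zero_vecMulVec, map_zero])
    · rintro rfl; exact h0 (by rw [vecMulVec_zero, map_zero])
  obtain ⟨hu', hφ'⟩ := hne hu hφ hr
  obtain ⟨ψ, hψ0, hψu, hψv⟩ := exists_row_zero (by rw [Fintype.card_fin]; exact hk) u v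
  obtain ⟨R, hR1⟩ := spread_row hk hR hR' hC hh hφ hu' hr hψu
  obtain ⟨-, hR0⟩ := hne hu hψ0 hR1
  obtain ⟨c, hc⟩ := spread_col hk hR hR' hC hh hu hR0 hR1 hψv
  obtain ⟨hc0, -⟩ := hne hv hψ0 hc
  obtain ⟨R', hR2⟩ := spread_row hk hR hR' hC hh hψ0 hc0 hc hvχ
  exact ⟨_, hR2⟩

lemma spread_alg [Nonempty ι] (hk : 3 ≤ k) (hR : Roots E K) (hR' : Roots E K') (hC : Coef E K') (hh : ∀ x ∈ K, h * x * h⁻¹ ∈ K')
    {u φ u' φ' : Fin k → F} (hu : u ≠ 0) (hφ : φ ≠ 0)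
    (hr : h.1 * E (vecMulVec u φ) * (h⁻¹).1 = E (vecMulVec u' φ')) (a : Matrix (Fin k) (Fin k) F) :
    ∃ z, h.1 * E a * (h⁻¹).1 = E z := by
  have hsum : ∀ (s : Finset (Fin k × Fin k)) (f : Fin k × Fin k → Matrix (Fin k) (Fin k) F), (∀ p ∈ s, ∃ z, h.1 * E (f p) * (h⁻¹).1 = E z) →
      ∃ z, h.1 * E (∑ p ∈ s, f p) * (h⁻¹).1 = E z := by
    intro s f
    induction s using Finset.induction_on with
    | empty => intro _; exact ⟨0, by simp⟩
    | insert p s hp ih =>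
      intro hf
      obtain ⟨z, hz⟩ := ih fun q hq => hf q (Finset.mem_insert_of_mem hq)
      obtain ⟨z', hz'⟩ := hf p (Finset.mem_insert_self _ _)
      exact ⟨z' + z, by rw [Finset.sum_insert hp, map_add, mul_add, add_mul, hz, hz', map_add]⟩
  have hoff : ∀ l m : Fin k, l ≠ m → ∃ z, h.1 * E (single l m 1) * (h⁻¹).1 = E z := by
    intro l m hlm
    rw [single_eq_vmv]
    refine spread_all hk hR hR' hC hh hu hφ hr ?_ ?_
    · intro h0; have := congrFun h0 l; rw [Pi.single_eq_same] at this; exact one_ne_zero this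
    · rw [single_one_dotProduct, Pi.single_eq_of_ne (Ne.symm hlm)]
  have hmul : ∀ a b : Matrix (Fin k) (Fin k) F, (∃ z, h.1 * E a * (h⁻¹).1 = E z) → (∃ z, h.1 * E b * (h⁻¹).1 = E z) →
      ∃ z, h.1 * E (a * b) * (h⁻¹).1 = E z := by
    rintro a b ⟨z, hz⟩ ⟨z', hz'⟩
    refine ⟨z * z', ?_⟩
    rw [map_mul, map_mul, ← hz, ← hz']
    calc h.1 * (E a * E b) * (h⁻¹).1 = h.1 * E a * 1 * E b * (h⁻¹).1 := by rw [mul_one]; simp only [mul_assoc]
      _ = _ := by rw [← inv_mul_val h]; simp only [mul_assoc]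
  have hall : ∀ l m : Fin k, ∃ z, h.1 * E (single l m 1) * (h⁻¹).1 = E z := by
    intro l m
    by_cases hlm : l = m
    · subst hlm
      obtain ⟨j, hj⟩ : ∃ j : Fin k, j ≠ l := by
        haveI : Nontrivial (Fin k) := Fin.nontrivial_iff_two_le.2 (by omega)
        exact exists_ne l
      have : single l l (1 : F) = single l j 1 * single j l 1 := by rw [single_mul_single_same, one_mul]
      rw [this]
      exact hmul _ _ (hoff _ _ (Ne.symm hj)) (hoff _ _ hj)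
    · exact hoff l m hlm
  have ha : a = ∑ p : Fin k × Fin k, single p.1 p.2 (a p.1 p.2) := by
    conv_lhs => rw [matrix_eq_sum_single a]
    rw [← Finset.univ_product_univ, Finset.sum_product]
  rw [ha]
  apply hsum
  intro p _
  obtain ⟨z, hz⟩ := hall p.1 p.2
  refine ⟨a p.1 p.2 • z, ?_⟩
  have : single p.1 p.2 (a p.1 p.2) = a p.1 p.2 • single p.1 p.2 (1 : F) := by rw [smul_single, smul_eq_mul, mul_one]
  rw [this, map_smul, mul_smul_comm, smul_mul_assoc, hz, map_smul]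

/-- Skolem-Noether -/
lemma exists_conj_of_alg [Nonempty ι] (hk : k ≠ 0) {g : GL ι F} (hg : ∀ a, ∃ z, g.1 * E a * (g⁻¹).1 = E z) :
    ∃ B : GL (Fin k) F, ∀ a, g.1 * E a * (g⁻¹).1 = E (B.1 * a * (B⁻¹).1) := by
  let φ : Matrix (Fin k) (Fin k) F →ₐ[F] Module.End F (ι → F) := (Matrix.toLinAlgEquiv' : Matrix ι ι F ≃ₐ[F] _).toAlgHom.comp E
  let gl : (ι → F) ≃ₗ[F] (ι → F) := Matrix.GeneralLinearGroup.toLin g |> LinearMap.GeneralLinearGroup.generalLinearEquiv F (ι → F)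
  have hgl : (gl : Module.End F (ι → F)) = Matrix.toLin' g.1 := by
    ext v; rfl
  have hgs : (gl.symm : Module.End F (ι → F)) = Matrix.toLin' (g⁻¹).1 := by
    ext v; rfl
  have hφ : ∀ a, φ a = Matrix.toLin' (E a) := fun a => rfl
  haveI : Nontrivial (ι → F) := Function.nontrivial
  obtain ⟨B, hB⟩ := exists_conj_of_normalises hk φ gl (by
    intro a
    obtain ⟨z, hz⟩ := hg a
    refine ⟨z, ?_⟩
    rw [hgl, hgs, hφ, hφ, ← hz, Matrix.toLin'_mul, Matrix.toLin'_mul]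
    rfl)
  refine ⟨B, fun a => conj_eq_iff.2 ?_⟩
  have h1 := hB a
  rw [hgl, hφ, hφ] at h1
  have h2 : Matrix.toLin' (g.1 * E a) = Matrix.toLin' (E (B.1 * a * (B⁻¹).1) * g.1) := by
    rw [Matrix.toLin'_mul, Matrix.toLin'_mul]
    exact h1
  exact Matrix.toLin'.injective h2

/-- **the block lemma** -/
theorem block_lemma [Nonempty ι] (hk : 3 ≤ k) (hR : Roots E K) (hR' : Roots E K') (hC : Coef E K') (hh : ∀ x ∈ K, h * x * h⁻¹ ∈ K')
    {u φ u' φ' : Fin k → F} (hu : u ≠ 0) (hφ : φ ≠ 0)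
    (hr : h.1 * E (vecMulVec u φ) * (h⁻¹).1 = E (vecMulVec u' φ')) : ∃ (B : GL (Fin k) F) (a : GL ι F), Cmt E a.1 ∧ h = EU E B * a := by
  obtain ⟨B, hB⟩ := exists_conj_of_alg (by omega) (spread_alg hk hR hR' hC hh hu hφ hr)
  refine ⟨B, (EU E B)⁻¹ * h, ?_, by rw [mul_inv_cancel_left]⟩
  intro a
  have h1 := conj_eq_iff.1 (hB a)
  have h2 : ((EU E B)⁻¹ * h).1 = E (B⁻¹).1 * h.1 := rfl
  rw [h2, mul_assoc, h1, ← mul_assoc, ← mul_assoc, ← map_mul, ← map_mul]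
  congr 2
  rw [← mul_assoc, ← mul_assoc, inv_mul_val, one_mul]

end blockL

end Cfsg.Agent.Asch.CW
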