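import Mathlib
import Cfsg.Prelude.Def_GeometricClasses
import Cfsg.Agent.Asch.CWMem
set_option autoImplicit false
set_option linter.unusedSectionVars false
set_option linter.unusedVariables false
set_option linter.style.haveILetI false

/-!
The relative trace argument, part 2.
-/

namespace Cfsg.Agent.Asch.CW

open Matrix Module

open scoped Matrix

section kill

variable {F : Type*} [Field F] [Fintype F]

lemma sum_coord_mul {r : ℕ} (hr : 2 < (Fintype.card F - 1) * r) (m m' : Fin r) : ∑ c : Fin r → F, c m * c m' = 0 := by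
  have h := MvPolynomial.sum_eval_eq_zero (K := F) (σ := Fin r) (MvPolynomial.X m * MvPolynomial.X m') (by
    refine (MvPolynomial.totalDegree_mul _ _).trans_lt ?_
    rw [MvPolynomial.totalDegree_X, MvPolynomial.totalDegree_X, Fintype.card_fin]
    exact hr)
  simpa using h

lemma sum_coord {r : ℕ} (hr : 2 < (Fintype.card F - 1) * r) (m : Fin r) : ∑ c : Fin r → F, c m = 0 := by
  have h := MvPolynomial.sum_eval_eq_zero (K := F) (σ := Fin r) (MvPolynomial.X m) (by
    rw [MvPolynomial.totalDegree_X, Fintype.card_fin]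
    omega)
  simpa using h

lemma sum_one {r : ℕ} (hr : 2 < (Fintype.card F - 1) * r) : ∑ c : Fin r → F, (1 : F) = 0 := by
  have h := MvPolynomial.sum_eval_eq_zero (K := F) (σ := Fin r) 1 (by
    rw [MvPolynomial.totalDegree_one, Fintype.card_fin]
    omega)
  simpa using h

/-- the killing lemma -/
lemma kill_sum {R : Type*} [Ring R] [Algebra F R] {r : ℕ} (hr : 2 < (Fintype.card F - 1) * r) (e : Fin r → R) (a : R) :
    ∑ c : Fin r → F, (1 + ∑ m, c m • e m) * a * (1 - ∑ m, c m • e m) = 0 := by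
  have h1 : ∀ c : Fin r → F, (1 + ∑ m, c m • e m) * a * (1 - ∑ m, c m • e m) =
      (1 : F) • a + ∑ m, c m • (e m * a - a * e m) - ∑ m, ∑ m', (c m * c m') • (e m * a * e m') := by
    intro c
    have e1 : (∑ m, c m • e m) * a * (∑ m, c m • e m) = ∑ m, ∑ m', (c m * c m') • (e m * a * e m') := by
      rw [Finset.sum_mul, Finset.sum_mul]
      refine Finset.sum_congr rfl fun m _ => ?_
      rw [Finset.mul_sum]
      refine Finset.sum_congr rfl fun m' _ => ?_
      rw [smul_mul_assoc, smul_mul_smul_comm]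
    have e2 : ∑ m, c m • (e m * a - a * e m) = (∑ m, c m • e m) * a - a * ∑ m, c m • e m := by
      rw [Finset.sum_mul, Finset.mul_sum, ← Finset.sum_sub_distrib]
      refine Finset.sum_congr rfl fun m _ => ?_
      rw [smul_sub, smul_mul_assoc, mul_smul_comm]
    rw [← e1, e2, one_smul]
    noncomm_ring
  simp only [h1]
  rw [Finset.sum_sub_distrib, Finset.sum_add_distrib]
  have z1 : ∑ c : Fin r → F, (1 : F) • a = 0 := by rw [← Finset.sum_smul, sum_one hr, zero_smul]
  have z2 : ∑ c : Fin r → F, ∑ m, c m • (e m * a - a * e m) = 0 := by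
    rw [Finset.sum_comm]
    apply Finset.sum_eq_zero
    intro m _
    rw [← Finset.sum_smul, sum_coord hr, zero_smul]
  have z3 : ∑ c : Fin r → F, ∑ m, ∑ m', (c m * c m') • (e m * a * e m') = 0 := by
    rw [Finset.sum_comm]
    apply Finset.sum_eq_zero
    intro m _
    rw [Finset.sum_comm]
    apply Finset.sum_eq_zero
    intro m' _
    rw [← Finset.sum_smul, sum_coord_mul hr, zero_smul]
  rw [z1, z2, z3, add_zero, sub_zero]

end kill

section rowgroup

variable {k : ℕ} {ι : Type} [Fintype ι] [DecidableEq ι] {F : Type*} [Field F]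
  (E : Matrix (Fin k) (Fin k) F →ₐ[F] Matrix ι ι F)

lemma row_dot_zero {u : Fin k → F} {r : ℕ} {θ : Fin r → Fin k → F} (hθ : ∀ m, θ m ⬝ᵥ u = 0) (c : Fin r → F) : (∑ m, c m • θ m) ⬝ᵥ u = 0 := by
  rw [sum_dotProduct]
  apply Finset.sum_eq_zero
  intro m _
  rw [smul_dotProduct, hθ, smul_zero]

/-- the group of root elements with a given centre -/
def RowGrp (u : Fin k → F) {r : ℕ} (θ : Fin r → Fin k → F) (hθ : ∀ m, θ m ⬝ᵥ u = 0) : Subgroup (GL ι F) where
  carrier := {x | ∃ c : Fin r → F, x.1 = 1 + E (vecMulVec u (∑ m, c m • θ m))}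
  mul_mem' := by
    rintro x y ⟨c, hc⟩ ⟨c', hc'⟩
    refine ⟨c + c', ?_⟩
    have h0 : E (vecMulVec u (∑ m, c m • θ m)) * E (vecMulVec u (∑ m, c' m • θ m)) = 0 := by
      rw [← map_mul, vmv_mul, row_dot_zero hθ, zero_smul, map_zero]
    have h1 : vecMulVec u (∑ m, (c + c') m • θ m) = vecMulVec u (∑ m, c m • θ m) + vecMulVec u (∑ m, c' m • θ m) := by
      rw [← vecMulVec_add, ← Finset.sum_add_distrib]
      congr 1
      exact Finset.sum_congr rfl fun m _ => by rw [Pi.add_apply, add_smul]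
    rw [Units.val_mul, hc, hc', h1, map_add, mul_add, mul_one, add_mul, one_mul, h0, add_zero, add_assoc]
  one_mem' := ⟨0, by simp⟩
  inv_mem' := by
    rintro x ⟨c, hc⟩
    refine ⟨-c, ?_⟩
    have h1 : vecMulVec u (∑ m, (-c) m • θ m) = - vecMulVec u (∑ m, c m • θ m) := by
      rw [← vecMulVec_neg, ← Finset.sum_neg_distrib]
      congr 1
      exact Finset.sum_congr rfl fun m _ => by rw [Pi.neg_apply, neg_smul]
    rw [Mem1.inv_eq hc (E_vmv_sq (row_dot_zero hθ c)), h1, map_neg, sub_eq_add_neg]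

variable {E}

lemma rowGrp_le {u : Fin k → F} {r : ℕ} {θ : Fin r → Fin k → F} {hθ : ∀ m, θ m ⬝ᵥ u = 0} {K : Subgroup (GL ι F)} (hR : Roots E K) :
    RowGrp E u θ hθ ≤ K := by
  rintro x ⟨c, hc⟩
  exact (hR u _ (row_dot_zero hθ c)).mem hc

open scoped Classical in
lemma rowGrp_kill [Nonempty ι] [Fintype F] {u : Fin k → F} (hu : u ≠ 0) {r : ℕ} (hr : 2 < (Fintype.card F - 1) * r) {θ : Fin r → Fin k → F}
    (hθ : ∀ m, θ m ⬝ᵥ u = 0) (hli : LinearIndependent F θ) (K : Subgroup (GL ι F)) (hK : RowGrp E u θ hθ ≤ K) (a : Matrix ι ι F) :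
    ∑ᶠ x : (RowGrp E u θ hθ).subgroupOf K, Sys.cj (x : K).1 a = 0 := by
  have hex : ∀ c : Fin r → F, ∃ x : GL ι F, x.1 = 1 + E (vecMulVec u (∑ m, c m • θ m)) := fun c =>
    exists_of_sq_zero (E_vmv_sq (row_dot_zero hθ c))
  choose y hy using hex
  have hyX : ∀ c, y c ∈ RowGrp E u θ hθ := fun c => ⟨c, hy c⟩
  let e : (Fin r → F) → (RowGrp E u θ hθ).subgroupOf K := fun c => ⟨⟨y c, hK (hyX c)⟩, Subgroup.mem_subgroupOf.2 (hyX c)⟩
  have he : Function.Bijective e := by
    constructor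
    · intro c c' h
      have h1 : y c = y c' := by
        have := congrArg (fun x : (RowGrp E u θ hθ).subgroupOf K => (x : K).1) h
        exact this
      have h2 := hy c
      rw [h1, hy c', add_right_inj] at h2
      have h3 := E_inj' h2
      obtain ⟨i, hi⟩ := Function.ne_iff.1 hu
      have h4 : ∑ m, c' m • θ m = ∑ m, c m • θ m := by
        funext j
        have := congrFun (congrFun h3 i) j
        rw [vecMulVec_apply, vecMulVec_apply] at this
        exact mul_left_cancel₀ hi this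
      have h5 := Fintype.linearIndependent_iff.1 hli (c' - c) (by
        simp only [Pi.sub_apply, sub_smul, Finset.sum_sub_distrib, h4, sub_self])
      funext m
      exact (sub_eq_zero.1 (h5 m)).symm
    · rintro ⟨⟨x, hxK⟩, hx⟩
      obtain ⟨c, hc⟩ := Subgroup.mem_subgroupOf.1 hx
      refine ⟨c, ?_⟩
      apply Subtype.ext
      apply Subtype.ext
      apply Units.ext
      show (y c).1 = x.1
      rw [hy]; exact hc.symm
  have h1 := finsum_eq_of_bijective (f := fun c : Fin r → F => Sys.cj (y c) a) (g := fun x : (RowGrp E u θ hθ).subgroupOf K => Sys.cj (x : K).1 a)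
    e he (fun c => rfl)
  rw [← h1, finsum_eq_sum_of_fintype]
  have h2 : ∀ c : Fin r → F, Sys.cj (y c) a = (1 + ∑ m, c m • E (vecMulVec u (θ m))) * a * (1 - ∑ m, c m • E (vecMulVec u (θ m))) := by
    intro c
    have h3 : E (vecMulVec u (∑ m, c m • θ m)) = ∑ m, c m • E (vecMulVec u (θ m)) := by
      have h4 : vecMulVec u (∑ m, c m • θ m) = ∑ m, c m • vecMulVec u (θ m) := by
        ext i j
        rw [Matrix.sum_apply, vecMulVec_apply, Finset.sum_apply, Finset.mul_sum]
        refine Finset.sum_congr rfl fun m _ => ?_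
        rw [Matrix.smul_apply, vecMulVec_apply, Pi.smul_apply, smul_eq_mul, smul_eq_mul, mul_left_comm]
      rw [h4, map_sum]
      exact Finset.sum_congr rfl fun m _ => map_smul _ _ _
    rw [Sys.cj, Mem1.inv_eq (hy c) (E_vmv_sq (row_dot_zero hθ c)), hy, h3]
  simp only [h2]
  exact kill_sum hr _ a

end rowgroup

namespace Sys

variable {k : ℕ} {T ι : Type} [Fintype ι] [DecidableEq ι] {F : Type*} [Field F] {S : Sys k T ι F}
  {J : Finset T} {τ : Matrix ι ι F →ₗ[F] F} {K : Subgroup (GL ι F)}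

/-- conjugation as an additive homomorphism -/
def cjHom (g : GL ι F) : Matrix ι ι F →+ Matrix ι ι F where
  toFun := cj g
  map_zero' := cj_zero g
  map_add' := cj_add g

lemma hfun_smul (hτ : ∀ Z Z', S.On J Z → S.On J Z' → τ (Z * Z') = τ (Z' * Z)) (hK : ∀ g ∈ K, S.On J g.1)
    {Z : Matrix ι ι F} (hZ : S.On J Z) (g : K) (c : K ⧸ (S.Mon J).subgroupOf K) :
    S.hfun τ J K (cj g.1 Z) (g • c) = cj g.1 (S.hfun τ J K Z c) := by
  obtain ⟨x, rfl⟩ := QuotientGroup.mk_surjective c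
  have h1 : g • (x : K ⧸ (S.Mon J).subgroupOf K) = ((g * x : K) : K ⧸ (S.Mon J).subgroupOf K) := rfl
  rw [h1, hfun_mk hτ hK (On.cj (hK _ g.2) hZ), hfun_mk hτ hK hZ, Subgroup.coe_mul, cj_mul, _root_.mul_inv_rev, cj_mul, cj_inv_cj]

variable [Finite F]

/-- the relative trace of the projection -/
noncomputable def FK (S : Sys k T ι F) (τ : Matrix ι ι F →ₗ[F] F) (J : Finset T) (K : Subgroup (GL ι F)) (Z : Matrix ι ι F) : Matrix ι ι F :=
  ∑ᶠ c : K ⧸ (S.Mon J).subgroupOf K, S.hfun τ J K Z c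

lemma FK_conj (hτ : ∀ Z Z', S.On J Z → S.On J Z' → τ (Z * Z') = τ (Z' * Z)) (hK : ∀ g ∈ K, S.On J g.1)
    {Z : Matrix ι ι F} (hZ : S.On J Z) {g : GL ι F} (hg : g ∈ K) : S.FK τ J K (cj g Z) = cj g (S.FK τ J K Z) := by
  haveI : Finite (GL ι F) := inferInstance
  haveI : Finite (K ⧸ (S.Mon J).subgroupOf K) := inferInstance
  have h1 : cj g (S.FK τ J K Z) = ∑ᶠ c : K ⧸ (S.Mon J).subgroupOf K, cj g (S.hfun τ J K Z c) := by
    exact (cjHom g).map_finsum (Set.toFinite _)
  rw [h1]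
  symm
  apply finsum_eq_of_bijective (fun c : K ⧸ (S.Mon J).subgroupOf K => (⟨g, hg⟩ : K) • c) (MulAction.bijective _)
  intro c
  exact (hfun_smul hτ hK hZ ⟨g, hg⟩ c).symm

lemma hfun_add (Z Z' : Matrix ι ι F) (c : K ⧸ (S.Mon J).subgroupOf K) :
    S.hfun τ J K (Z + Z') c = S.hfun τ J K Z c + S.hfun τ J K Z' c := by
  rw [hfun, hfun, hfun, cj_add, pr_add, cj_add]

lemma FK_add (Z Z' : Matrix ι ι F) : S.FK τ J K (Z + Z') = S.FK τ J K Z + S.FK τ J K Z' := by
  haveI : Finite (K ⧸ (S.Mon J).subgroupOf K) := inferInstance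
  rw [FK, FK, FK, ← finsum_add_distrib (Set.toFinite _) (Set.toFinite _)]
  exact finsum_congr fun c => hfun_add Z Z' c

lemma FK_zero : S.FK τ J K 0 = 0 := by
  have h := FK_add (S := S) (τ := τ) (J := J) (K := K) 0 0
  rw [add_zero] at h
  exact (add_eq_left.1 h.symm)

lemma cj_eq_self {x : GL ι F} {Z : Matrix ι ι F} (h : x.1 * Z = Z * x.1) : cj x Z = Z := by
  rw [cj, h, mul_assoc, mul_inv_val, mul_one]

open scoped Classical in
theorem FK_eq_pr (hτ : ∀ Z Z', S.On J Z → S.On J Z' → τ (Z * Z') = τ (Z' * Z)) (hK : ∀ g ∈ K, S.On J g.1)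
    {X : Subgroup (GL ι F)} (hXK : X ≤ K) (hXM : X ≤ S.Mon J)
    (hfree : ∀ x ∈ X, x ≠ 1 → ∀ g ∈ K, g⁻¹ * x * g ∈ S.Mon J → g ∈ S.Mon J)
    (hkill : ∀ a : Matrix ι ι F, ∑ᶠ x : X.subgroupOf K, cj (x : K).1 a = 0)
    {Z : Matrix ι ι F} (hZ : S.On J Z) (hZX : ∀ x ∈ X, cj x Z = Z) : S.FK τ J K Z = S.pr τ J Z := by
  haveI : Finite K := inferInstance
  have h := sum_quotient_eq (G := K) (N := (S.Mon J).subgroupOf K) (X := X.subgroupOf K) (h := S.hfun τ J K Z)
    (act := fun x a => cj x.1 a) (by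
      intro x hx c
      have h1 := hfun_smul hτ hK hZ x c
      rw [hZX _ (Subgroup.mem_subgroupOf.1 hx)] at h1
      exact h1)
    (by
      intro x hx hx1 g hg
      exact Subgroup.mem_subgroupOf.2 (hfree x.1 (Subgroup.mem_subgroupOf.1 hx) (fun h => hx1 (Subtype.ext h)) g.1 g.2 (Subgroup.mem_subgroupOf.1 hg)))
    (fun x hx => Subgroup.mem_subgroupOf.2 (hXM (Subgroup.mem_subgroupOf.1 hx)))
    hkill
  rw [FK, h, hfun_mk hτ hK hZ]
  rw [Subgroup.coe_one, inv_one, cj_one, cj_one]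

end Sys

end Cfsg.Agent.Asch.CW
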