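import Mathlib
import Cfsg.Prelude.Def_GeometricClasses
import Cfsg.Agent.Asch.CWTr2
set_option autoImplicit false
set_option linter.unusedSectionVars false
set_option linter.unusedVariables false
set_option linter.style.haveILetI false

/-!
Elements of trace zero are sums of products of root vectors; conclusion of the relative trace argument.
-/

namespace Cfsg.Agent.Asch.CW

open Matrix Module

open scoped Matrix

namespace Sys

variable {k : ℕ} {T ι : Type} [DecidableEq T] [Fintype ι] [DecidableEq ι] {F : Type*} [Field F] {S : Sys k T ι F}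
  {J : Finset T} {τ : Matrix ι ι F →ₗ[F] F} {K : Subgroup (GL ι F)}

/-- the additive group generated by products of root vectors -/
def Gen (S : Sys k T ι F) (J : Finset T) : AddSubgroup (Matrix ι ι F) :=
  AddSubgroup.closure {Z | ∃ i ∈ J, ∃ u φ : Fin k → F, φ ⬝ᵥ u = 0 ∧ ∃ b, Cmt (S.E i) b ∧ S.On J b ∧ Z = S.E i (vecMulVec u φ) * b}

lemma mem_gen_vmv {i : T} (hi : i ∈ J) {u φ : Fin k → F} (h : φ ⬝ᵥ u = 0) {b : Matrix ι ι F} (hb : Cmt (S.E i) b) (hbJ : S.On J b) :
    S.E i (vecMulVec u φ) * b ∈ S.Gen J := AddSubgroup.subset_closure ⟨i, hi, u, φ, h, b, hb, hbJ, rfl⟩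

lemma mem_gen_single {i : T} (hi : i ∈ J) {l m : Fin k} (hlm : l ≠ m) (c : F) {b : Matrix ι ι F} (hb : Cmt (S.E i) b) (hbJ : S.On J b) :
    S.E i (c • single l m (1 : F)) * b ∈ S.Gen J := by
  rw [single_eq_vmv, ← smul_vecMulVec]
  apply mem_gen_vmv hi _ hb hbJ
  rw [dotProduct_smul, single_one_dotProduct, Pi.single_eq_of_ne (Ne.symm hlm), smul_zero]

lemma mem_gen_of_trace {i : T} (hi : i ∈ J) {a : Matrix (Fin k) (Fin k) F} (ha : a.trace = 0) {b : Matrix ι ι F} (hb : Cmt (S.E i) b) (hbJ : S.On J b) :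
    S.E i a * b ∈ S.Gen J := by
  rcases Nat.eq_zero_or_pos k with hk | hk
  · subst hk
    have : a = 0 := by ext i; exact i.elim0
    rw [this, map_zero, zero_mul]; exact AddSubgroup.zero_mem _
  set z : Fin k := ⟨0, hk⟩ with hz
  have h1 : a = ∑ l, ∑ m, a l m • (if l = m then single l l (1 : F) - single z z 1 else single l m 1) := by
    have h2 : ∀ l m : Fin k, a l m • (if l = m then single l l (1 : F) - single z z 1 else single l m 1) =
        single l m (a l m) - if l = m then a l m • single z z (1 : F) else 0 := by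
      intro l m
      split_ifs with h
      · subst h; rw [smul_sub]; congr 1; rw [smul_single, smul_eq_mul, mul_one]
      · rw [smul_single, smul_eq_mul, mul_one, sub_zero]
    simp only [h2, Finset.sum_sub_distrib]
    rw [← matrix_eq_sum_single a]
    have h3 : ∑ x : Fin k, ∑ x_1 : Fin k, (if x = x_1 then a x x_1 • single z z (1 : F) else 0) = 0 := by
      simp only [Finset.sum_ite_eq, Finset.mem_univ, if_true]
      rw [← Finset.sum_smul]
      have : ∑ i, a i i = a.trace := rfl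
      rw [this, ha, zero_smul]
    rw [h3, sub_zero]
  rw [h1, map_sum, Finset.sum_mul]
  apply AddSubgroup.sum_mem
  intro l _
  rw [map_sum, Finset.sum_mul]
  apply AddSubgroup.sum_mem
  intro m _
  split_ifs with h
  · subst h
    by_cases hl : l = z
    · subst hl; rw [sub_self, smul_zero, map_zero, zero_mul]; exact AddSubgroup.zero_mem _
    · have h2 : single l l (1 : F) - single z z 1 = vecMulVec (Pi.single l 1 + Pi.single z 1) (Pi.single l 1 - Pi.single z 1) + single l z 1 - single z l 1 := by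
        rw [add_vecMulVec, vecMulVec_sub, vecMulVec_sub, ← single_eq_vmv, ← single_eq_vmv, ← single_eq_vmv, ← single_eq_vmv]
        abel
      rw [h2, smul_sub, smul_add, map_sub, map_add, sub_mul, add_mul]
      apply AddSubgroup.sub_mem _ (AddSubgroup.add_mem _ _ (mem_gen_single hi hl _ hb hbJ)) (mem_gen_single hi (Ne.symm hl) _ hb hbJ)
      rw [← smul_vecMulVec]
      apply mem_gen_vmv hi _ hb hbJ
      rw [dotProduct_smul, sub_dotProduct, single_one_dotProduct, single_one_dotProduct]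
      simp only [Pi.add_apply, Pi.single_eq_same]
      rw [Pi.single_eq_of_ne hl, Pi.single_eq_of_ne (Ne.symm hl)]
      simp
  · exact mem_gen_single hi h _ hb hbJ

lemma gen_mono_mul {i : T} {J' : Finset T} (hiJ : i ∉ J') {Z : Matrix ι ι F} (hZ : Z ∈ S.Gen J') (e : Matrix (Fin k) (Fin k) F) :
    S.E i e * Z ∈ S.Gen (insert i J') := by
  refine AddSubgroup.closure_induction (p := fun Z _ => S.E i e * Z ∈ S.Gen (insert i J')) ?_ ?_ ?_ ?_ hZ
  · rintro _ ⟨j, hj, u, φ, h, b, hb, hbJ, rfl⟩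
    have hij : i ≠ j := by rintro rfl; exact hiJ hj
    rw [← mul_assoc, S.comm i j hij, mul_assoc]
    apply mem_gen_vmv (Finset.mem_insert_of_mem hj) h
    · exact (cmt_E (Ne.symm hij) e).mul hb
    · exact (on_E (Finset.mem_insert_self _ _) e).mul (hbJ.mono (Finset.subset_insert _ _))
  · rw [mul_zero]; exact AddSubgroup.zero_mem _
  · intro a b _ _ ha hb; rw [mul_add]; exact AddSubgroup.add_mem _ ha hb
  · intro a _ ha; rw [mul_neg]; exact AddSubgroup.neg_mem _ ha

lemma span_aux (hk : 0 < k) (J : Finset T) : ∃ e, S.On J e ∧ ∀ Z, S.On J Z → ∃ c : F, Z - c • e ∈ S.Gen J := by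
  induction J using Finset.induction_on with
  | empty =>
    refine ⟨1, On.one, fun Z hZ => ?_⟩
    obtain ⟨c, hc⟩ := on_empty hZ
    exact ⟨c, by rw [hc, sub_self]; exact AddSubgroup.zero_mem _⟩
  | insert i J' hi ih =>
    obtain ⟨e, he, h⟩ := ih
    set z : Fin k := ⟨0, hk⟩ with hz
    refine ⟨S.E i (single z z 1) * e, (on_E (Finset.mem_insert_self _ _) _).mul (he.mono (Finset.subset_insert _ _)), fun Z hZ => ?_⟩
    have hblk : ∀ l m, S.On J' (blk (S.E i) Z l m) := by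
      intro l m
      have := hZ.blk i l m
      rwa [Finset.erase_insert hi] at this
    have hcm : ∀ l m, Cmt (S.E i) (blk (S.E i) Z l m) := fun l m => blk_cmt _ _ _ _
    have hW : S.On J' (∑ l, blk (S.E i) Z l l) := On.sum fun l _ => hblk l l
    obtain ⟨c, hc⟩ := h _ hW
    refine ⟨c, ?_⟩
    have h1 : Z - c • (S.E i (single z z 1) * e) = (∑ l, ∑ m, S.E i (if l = m then single l l (1 : F) - single z z 1 else single l m 1) * blk (S.E i) Z l m) +
        S.E i (single z z 1) * ((∑ l, blk (S.E i) Z l l) - c • e) := by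
      have h2 : ∀ l m, S.E i (if l = m then single l l (1 : F) - single z z 1 else single l m 1) * blk (S.E i) Z l m =
          S.E i (single l m 1) * blk (S.E i) Z l m - if l = m then S.E i (single z z 1) * blk (S.E i) Z l m else 0 := by
        intro l m
        split_ifs with h
        · subst h; rw [map_sub, sub_mul]
        · rw [sub_zero]
      simp only [h2, Finset.sum_sub_distrib]
      rw [sum_blk]
      simp only [Finset.sum_ite_eq, Finset.mem_univ, if_true]
      rw [← Finset.mul_sum, mul_sub, mul_smul_comm]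
      abel
    rw [h1]
    apply AddSubgroup.add_mem _ _ (gen_mono_mul hi hc _)
    apply AddSubgroup.sum_mem
    intro l _
    apply AddSubgroup.sum_mem
    intro m _
    apply mem_gen_of_trace (Finset.mem_insert_self _ _) _ (hcm l m) ((hblk l m).mono (Finset.subset_insert _ _))
    split_ifs with h
    · rw [trace_sub, trace_single_eq_same, trace_single_eq_same, sub_self]
    · exact trace_single_eq_of_ne _ _ _ h

lemma tau_vmv (hτ : ∀ Z Z', S.On J Z → S.On J Z' → τ (Z * Z') = τ (Z' * Z)) {i : T} (hi : i ∈ J) {u φ : Fin k → F} (h : φ ⬝ᵥ u = 0)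
    {b : Matrix ι ι F} (hb : Cmt (S.E i) b) (hbJ : S.On J b) : τ (S.E i (vecMulVec u φ) * b) = 0 := by
  by_cases hφ : φ = 0
  · rw [hφ, vecMulVec_zero, map_zero, zero_mul, map_zero]
  obtain ⟨m₀, hm₀⟩ := Function.ne_iff.1 hφ
  set w : Fin k → F := (φ m₀)⁻¹ • Pi.single m₀ 1 with hw
  have hφw : φ ⬝ᵥ w = 1 := by
    rw [hw, dotProduct_smul, dotProduct_single_one, smul_eq_mul, inv_mul_cancel₀ hm₀]
  have h1 : vecMulVec u φ = vecMulVec u φ * vecMulVec w φ := by rw [vmv_mul, hφw, one_smul]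
  rw [h1, map_mul (S.E i), mul_assoc, hτ _ _ (on_E hi _) ((on_E hi _).mul hbJ), mul_assoc, ← hb, ← mul_assoc, ← map_mul (S.E i), vmv_mul, h, zero_smul, map_zero, zero_mul, map_zero]

lemma tau_gen (hτ : ∀ Z Z', S.On J Z → S.On J Z' → τ (Z * Z') = τ (Z' * Z)) {Z : Matrix ι ι F} (hZ : Z ∈ S.Gen J) : τ Z = 0 := by
  refine AddSubgroup.closure_induction (p := fun Z _ => τ Z = 0) ?_ ?_ ?_ ?_ hZ
  · rintro _ ⟨j, hj, u, φ, h, b, hb, hbJ, rfl⟩
    exact tau_vmv hτ hj h hb hbJ
  · exact map_zero _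
  · intro a b _ _ ha hb; rw [map_add, ha, hb, add_zero]
  · intro a _ ha; rw [map_neg, ha, neg_zero]

lemma mem_gen_of_tau (hk : 0 < k) (hτ : ∀ Z Z', S.On J Z → S.On J Z' → τ (Z * Z') = τ (Z' * Z)) {Z₀ : Matrix ι ι F} (hZ₀ : S.On J Z₀) (hτ₀ : τ Z₀ ≠ 0)
    {Z : Matrix ι ι F} (hZ : S.On J Z) (hτZ : τ Z = 0) : Z ∈ S.Gen J := by
  obtain ⟨e, he, h⟩ := span_aux (S := S) hk J
  have he0 : τ e ≠ 0 := by
    intro h0
    obtain ⟨c, hc⟩ := h _ hZ₀
    have := tau_gen hτ hc
    rw [map_sub, map_smul, h0, smul_zero, sub_zero] at this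
    exact hτ₀ this
  obtain ⟨c, hc⟩ := h _ hZ
  have h1 := tau_gen hτ hc
  rw [map_sub, map_smul, hτZ, zero_sub, neg_eq_zero, smul_eq_mul] at h1
  have hc0 : c = 0 := (mul_eq_zero.1 h1).resolve_right he0
  rwa [hc0, zero_smul, sub_zero] at hc

/-- evaluation of the projection -/
lemma exists_ev (hk : 0 < k) (hτ : ∀ Z Z', S.On J Z → S.On J Z' → τ (Z * Z') = τ (Z' * Z)) {Z₀ : Matrix ι ι F} (hZ₀ : S.On J Z₀) (hτ₀ : τ Z₀ ≠ 0)
    {i : T} (hi : i ∈ J) {u φ : Fin k → F} (h : φ ⬝ᵥ u = 0) : ∃ Z, S.On J Z ∧ τ Z = 0 ∧ S.pr τ J Z = S.E i (vecMulVec u φ) := by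
  set z : Fin k := ⟨0, hk⟩ with hz
  -- diagonal part
  set W := ∑ l, blk (S.E i) Z₀ l l with hW
  have hblk : ∀ l m, S.On (J.erase i) (blk (S.E i) Z₀ l m) := fun l m => hZ₀.blk i l m
  have hblkJ : ∀ l m, S.On J (blk (S.E i) Z₀ l m) := fun l m => (hblk l m).mono (Finset.erase_subset _ _)
  have hcm : ∀ l m, Cmt (S.E i) (blk (S.E i) Z₀ l m) := fun l m => blk_cmt _ _ _ _
  have hWJ : S.On J W := On.sum fun l _ => hblkJ l l
  have hWc : Cmt (S.E i) W := Cmt.sum fun l _ => hcm l l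
  have hoff : ∀ {l m : Fin k}, l ≠ m → ∀ {b : Matrix ι ι F}, Cmt (S.E i) b → S.On J b → τ (S.E i (single l m 1) * b) = 0 := by
    intro l m hlm b hb hbJ
    rw [single_eq_vmv]
    apply tau_vmv hτ hi _ hb hbJ
    rw [single_one_dotProduct, Pi.single_eq_of_ne (Ne.symm hlm)]
  have hdiag : ∀ (l m : Fin k) {b : Matrix ι ι F}, Cmt (S.E i) b → S.On J b → τ (S.E i (single l l 1) * b) = τ (S.E i (single m m 1) * b) := by
    intro l m b hb hbJ
    have h1 : single l l (1 : F) = single l m 1 * single m l 1 := by rw [single_mul_single_same, one_mul]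
    rw [h1, map_mul (S.E i), mul_assoc, hτ _ _ (on_E hi _) ((on_E hi _).mul hbJ), mul_assoc, ← hb, ← mul_assoc, ← map_mul (S.E i), single_mul_single_same, one_mul]
  have hτW : τ (S.E i (single z z 1) * W) = τ Z₀ := by
    conv_rhs => rw [← sum_blk (S.E i) Z₀]
    rw [hW, Finset.mul_sum, map_sum, map_sum]
    refine Finset.sum_congr rfl fun l _ => ?_
    rw [map_sum, Finset.sum_eq_single l]
    · exact hdiag z l (hcm l l) (hblkJ l l)
    · intro m _ hm
      exact hoff (Ne.symm hm) (hcm l m) (hblkJ l m)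
    · intro h; exact absurd (Finset.mem_univ _) h
  set Q := (τ Z₀)⁻¹ • W with hQ
  have hQJ : S.On J Q := hWJ.smul _
  have hQc : Cmt (S.E i) Q := hWc.smul _
  have hτQ : τ (S.E i (single z z 1) * Q) = 1 := by
    rw [hQ, mul_smul_comm, map_smul, hτW, smul_eq_mul, inv_mul_cancel₀ hτ₀]
  -- trace formula
  have htr : ∀ a : Matrix (Fin k) (Fin k) F, τ (S.E i a * Q) = a.trace := by
    intro a
    have h1 : τ (S.E i a * Q) = ∑ l, ∑ m, a l m * τ (S.E i (single l m 1) * Q) := by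
      conv_lhs => rw [matrix_eq_sum_single a]
      simp only [map_sum, Finset.sum_mul]
      refine Finset.sum_congr rfl fun p _ => Finset.sum_congr rfl fun q _ => ?_
      have : single p q (a p q) = a p q • single p q (1 : F) := by rw [smul_single, smul_eq_mul, mul_one]
      rw [this, map_smul, smul_mul_assoc, map_smul, smul_eq_mul]
    rw [h1, Matrix.trace]
    refine Finset.sum_congr rfl fun l _ => ?_
    rw [Finset.sum_eq_single l]
    · rw [hdiag l z hQc hQJ, hτQ, mul_one, diag_apply]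
    · intro m _ hm
      rw [hoff (Ne.symm hm) hQc hQJ, mul_zero]
    · intro h; exact absurd (Finset.mem_univ _) h
  refine ⟨S.E i (vecMulVec u φ) * Q, (on_E hi _).mul hQJ, ?_, ?_⟩
  · exact tau_vmv hτ hi h hQc hQJ
  · rw [pr, Finset.sum_eq_single i]
    · congr 1
      ext l m
      rw [ceM, of_apply, ← mul_assoc, ← map_mul, htr, single_trace]
    · intro j hj hji
      have : S.ceM τ j (S.E i (vecMulVec u φ) * Q) = 0 := by
        ext l m
        rw [ceM, of_apply, ← mul_assoc, S.comm j i hji, mul_assoc, Matrix.zero_apply]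
        exact tau_vmv hτ hi h ((cmt_E (Ne.symm hji) _).mul hQc) ((on_E hj _).mul hQJ)
      rw [this, map_zero]
    · intro h; exact absurd hi h

/-- **Conclusion of the relative trace argument** -/
theorem trace_conclusion [Finite F] (hk : 0 < k) (hτ : ∀ Z Z', S.On J Z → S.On J Z' → τ (Z * Z') = τ (Z' * Z))
    {Z₀ : Matrix ι ι F} (hZ₀ : S.On J Z₀) (hτ₀ : τ Z₀ ≠ 0) (hK : ∀ g ∈ K, S.On J g.1)
    (hfix : ∀ i ∈ J, ∀ u φ : Fin k → F, φ ⬝ᵥ u = 0 → ∀ b, Cmt (S.E i) b → S.On J b →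
      S.FK τ J K (S.E i (vecMulVec u φ) * b) = S.pr τ J (S.E i (vecMulVec u φ) * b))
    {g : GL ι F} (hg : g ∈ K) {i : T} (hi : i ∈ J) {u φ : Fin k → F} (h : φ ⬝ᵥ u = 0) :
    ∃ z : T → Matrix (Fin k) (Fin k) F, g.1 * S.E i (vecMulVec u φ) * (g⁻¹).1 = ∑ j ∈ J, S.E j (z j) := by
  have hgen : ∀ Z ∈ S.Gen J, S.FK τ J K Z = S.pr τ J Z := by
    intro Z hZ
    refine AddSubgroup.closure_induction (p := fun Z _ => S.FK τ J K Z = S.pr τ J Z) ?_ ?_ ?_ ?_ hZ
    · rintro _ ⟨j, hj, u, φ, h, b, hb, hbJ, rfl⟩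
      exact hfix j hj u φ h b hb hbJ
    · rw [FK_zero, pr_zero]
    · intro a b _ _ ha hb; rw [FK_add, pr_add, ha, hb]
    · intro a _ ha
      have h1 : S.FK τ J K (-a) + S.FK τ J K a = 0 := by rw [← FK_add, neg_add_cancel, FK_zero]
      have h2 : S.pr τ J (-a) + S.pr τ J a = 0 := by rw [← pr_add, neg_add_cancel, pr_zero]
      rw [ha] at h1
      rw [eq_neg_of_add_eq_zero_left h1, eq_neg_of_add_eq_zero_left h2]
  obtain ⟨Z, hZJ, hZτ, hZpr⟩ := exists_ev hk hτ hZ₀ hτ₀ hi h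
  have hgJ := hK g hg
  have h1 := FK_conj hτ hK hZJ hg
  rw [hgen Z (mem_gen_of_tau hk hτ hZ₀ hτ₀ hZJ hZτ), hZpr] at h1
  have hZ' : S.On J (cj g Z) := On.cj hgJ hZJ
  have hτ' : τ (cj g Z) = 0 := by
    rw [cj, hτ _ _ (hgJ.mul hZJ) (On.inv hgJ), ← mul_assoc, inv_mul_val, one_mul, hZτ]
  rw [hgen _ (mem_gen_of_tau hk hτ hZ₀ hτ₀ hZ' hτ')] at h1
  exact ⟨fun j => S.ceM τ j (cj g Z), by rw [← show cj g (S.E i (vecMulVec u φ)) = g.1 * S.E i (vecMulVec u φ) * (g⁻¹).1 from rfl, ← h1]; rfl⟩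

end Sys

end Cfsg.Agent.Asch.CW
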