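import Mathlib
import Cfsg.Prelude.Def_GeometricClasses
import Cfsg.Agent.Asch.CWSpan
set_option autoImplicit false
set_option linter.unusedSectionVars false
set_option linter.unusedVariables false
set_option linter.style.haveILetI false

/-!
Induction on the set of factors.
-/

namespace Cfsg.Agent.Asch.CW

open Matrix Module

open scoped Matrix

namespace Sys

variable {k : ℕ} {T ι : Type} [DecidableEq T] [Fintype ι] [DecidableEq ι] {F : Type*} [Field F] {S : Sys k T ι F}
  {J : Finset T} {K' : Subgroup (GL ι F)}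

/-- recovering the coefficient -/
lemma coeff_on {i : T} (hi : i ∈ J) {u φ : Fin k → F} (hu : u ≠ 0) (hφ : φ ≠ 0) {A : Matrix ι ι F} (hA : Cmt (S.E i) A)
    (h : S.On J (S.E i (vecMulVec u φ) * A)) : S.On J A := by
  obtain ⟨l, hl⟩ := Function.ne_iff.1 hu
  obtain ⟨m, hm⟩ := Function.ne_iff.1 hφ
  have h1 := blk_E_mul (S.E i) hA (vecMulVec u φ) l m
  have h2 : S.On J (blk (S.E i) (S.E i (vecMulVec u φ) * A) l m) := (h.blk i l m).mono (Finset.erase_subset _ _)
  rw [h1] at h2
  have h3 := h2.smul ((vecMulVec u φ l m)⁻¹)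
  rwa [smul_smul, inv_mul_cancel₀ (by rw [vecMulVec_apply]; exact mul_ne_zero hl hm), one_smul] at h3

lemma cmt_coeff {i j : T} (hij : i ≠ j) {u φ : Fin k → F} (hu : u ≠ 0) (hφ : φ ≠ 0) {A : Matrix ι ι F} (hA : Cmt (S.E j) A)
    (h : Cmt (S.E i) (S.E j (vecMulVec u φ) * A)) : Cmt (S.E i) A := by
  obtain ⟨l, hl⟩ := Function.ne_iff.1 hu
  obtain ⟨m, hm⟩ := Function.ne_iff.1 hφ
  have h1 := blk_E_mul (S.E j) hA (vecMulVec u φ) l m
  have h2 : Cmt (S.E i) (blk (S.E j) (S.E j (vecMulVec u φ) * A) l m) := by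
    apply Cmt.sum
    intro r _
    exact ((cmt_E hij _).mul h).mul (cmt_E hij _)
  rw [h1] at h2
  have h3 := h2.smul ((vecMulVec u φ l m)⁻¹)
  rwa [smul_smul, inv_mul_cancel₀ (by rw [vecMulVec_apply]; exact mul_ne_zero hl hm), one_smul] at h3

/-- elements of `Mon J` on `J` permute all factors -/
lemma perms_of_mon {g : GL ι F} (hg : g ∈ S.Mon J) (hgJ : S.On J g.1) : ∃ σ, S.Perms g σ ∧ (∀ i, i ∉ J → σ i = i) ∧ ∀ i, σ i ∈ J ↔ i ∈ J := by
  obtain ⟨σ, hσ, h⟩ := hg
  let σ' : Equiv.Perm T := Equiv.Perm.ofSubtype (σ.subtypePerm (p := fun i => i ∈ J) hσ)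
  have h1 : ∀ i, i ∈ J → σ' i = σ i := by
    intro i hi
    rw [Equiv.Perm.ofSubtype_apply_of_mem _ hi]
    rfl
  have h2 : ∀ i, i ∉ J → σ' i = i := fun i hi => Equiv.Perm.ofSubtype_apply_of_not_mem _ hi
  refine ⟨σ', fun i => ?_, h2, fun i => ?_⟩
  · by_cases hi : i ∈ J
    · obtain ⟨B, hB⟩ := h i hi
      exact ⟨B, fun a => by rw [h1 i hi]; exact conj_eq_iff.1 (hB a)⟩
    · refine ⟨1, fun a => ?_⟩
      rw [h2 i hi, inv_one, Units.val_one, one_mul, mul_one]
      exact (hgJ i hi a).symm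
  · by_cases hi : i ∈ J
    · rw [h1 i hi]; exact hσ i
    · rw [h2 i hi]

lemma mon_of_perms {g : GL ι F} {σ : Equiv.Perm T} (h : S.Perms g σ) (hσ : ∀ i, σ i ∈ J ↔ i ∈ J) : g ∈ S.Mon J := by
  refine ⟨σ, hσ, fun i _ => ?_⟩
  obtain ⟨B, hB⟩ := h i
  exact ⟨B, fun a => conj_eq_iff.2 (hB a)⟩

lemma on_EU {i : T} (hi : i ∈ J) (B : GL (Fin k) F) : S.On J (EU (S.E i) B).1 := on_E hi _

lemma EU_mem_mon (i : T) (B : GL (Fin k) F) : EU (S.E i) B ∈ S.Mon J := by
  refine ⟨1, fun i => Iff.rfl, fun j _ => ?_⟩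
  by_cases hij : j = i
  · subst hij
    refine ⟨B, fun a => ?_⟩
    rw [EU_val, EU_inv_val, ← map_mul, ← map_mul, Equiv.Perm.one_apply]
  · refine ⟨1, fun a => ?_⟩
    rw [EU_val, EU_inv_val, inv_one, Units.val_one, one_mul, mul_one, Equiv.Perm.one_apply]
    rw [S.comm i j (Ne.symm hij), mul_assoc, ← map_mul, mul_inv_val, map_one, mul_one]

/-- the flip of two factors -/
def flipM (S : Sys k T ι F) (i j : T) : Matrix ι ι F := ∑ l, ∑ m, S.E i (single l m 1) * S.E j (single m l 1)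

lemma flipM_mul {i j : T} (hij : i ≠ j) (a : Matrix (Fin k) (Fin k) F) : S.flipM i j * S.E i a = S.E j a * S.flipM i j := by
  have key : ∀ p q : Fin k, S.flipM i j * S.E i (single p q 1) = S.E j (single p q 1) * S.flipM i j := by
    intro p q
    have h1 : S.flipM i j * S.E i (single p q 1) = ∑ l, S.E i (single l q 1) * S.E j (single p l 1) := by
      rw [flipM, Finset.sum_mul]
      refine Finset.sum_congr rfl fun l _ => ?_
      rw [Finset.sum_mul, Finset.sum_eq_single p]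
      · rw [mul_assoc, ← S.comm i j hij, ← mul_assoc, ← map_mul, single_mul_single_same, one_mul]
      · intro m _ hm
        rw [mul_assoc, ← S.comm i j hij, ← mul_assoc, ← map_mul, single_mul_single_of_ne _ _ _ _ hm, map_zero, zero_mul]
      · intro h; exact absurd (Finset.mem_univ _) h
    have h2 : S.E j (single p q 1) * S.flipM i j = ∑ l, S.E i (single l q 1) * S.E j (single p l 1) := by
      rw [flipM, Finset.mul_sum]
      refine Finset.sum_congr rfl fun l _ => ?_
      rw [Finset.mul_sum, Finset.sum_eq_single q]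
      · rw [← mul_assoc, ← S.comm i j hij, mul_assoc, ← map_mul, single_mul_single_same, one_mul]
      · intro m _ hm
        rw [← mul_assoc, ← S.comm i j hij, mul_assoc, ← map_mul, single_mul_single_of_ne _ _ _ _ (Ne.symm hm), map_zero, mul_zero]
      · intro h; exact absurd (Finset.mem_univ _) h
    rw [h1, h2]
  rw [matrix_eq_sum_single a]
  simp only [map_sum, Finset.mul_sum, Finset.sum_mul]
  refine Finset.sum_congr rfl fun p _ => Finset.sum_congr rfl fun q _ => ?_
  have : single p q (a p q) = a p q • single p q (1 : F) := by rw [smul_single, smul_eq_mul, mul_one]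
  rw [this, map_smul, map_smul, mul_smul_comm, smul_mul_assoc, key]

lemma flipM_symm {i j : T} (hij : i ≠ j) : S.flipM i j = S.flipM j i := by
  rw [flipM, flipM, Finset.sum_comm]
  refine Finset.sum_congr rfl fun l _ => Finset.sum_congr rfl fun m _ => ?_
  exact S.comm i j hij _ _

lemma flipM_sq {i j : T} (hij : i ≠ j) : S.flipM i j * S.flipM i j = 1 := by
  have h1 : ∀ l m, S.flipM i j * (S.E i (single l m 1) * S.E j (single m l 1)) = S.E i (single m m 1) * S.E j (single l l 1) := by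
    intro l m
    rw [flipM, Finset.sum_mul, Finset.sum_eq_single m]
    · rw [Finset.sum_mul, Finset.sum_eq_single l]
      · calc S.E i (single m l 1) * S.E j (single l m 1) * (S.E i (single l m 1) * S.E j (single m l 1)) =
            S.E i (single m l 1) * (S.E j (single l m 1) * S.E i (single l m 1)) * S.E j (single m l 1) := by simp only [mul_assoc]
          _ = (S.E i (single m l 1) * S.E i (single l m 1)) * (S.E j (single l m 1) * S.E j (single m l 1)) := by
            rw [← S.comm i j hij]; simp only [mul_assoc]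
          _ = _ := by rw [← map_mul, ← map_mul, single_mul_single_same, single_mul_single_same, one_mul]
      · intro p _ hp
        calc S.E i (single m p 1) * S.E j (single p m 1) * (S.E i (single l m 1) * S.E j (single m l 1)) =
            S.E i (single m p 1) * (S.E j (single p m 1) * S.E i (single l m 1)) * S.E j (single m l 1) := by simp only [mul_assoc]
          _ = (S.E i (single m p 1) * S.E i (single l m 1)) * (S.E j (single p m 1) * S.E j (single m l 1)) := by
            rw [← S.comm i j hij]; simp only [mul_assoc]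
          _ = _ := by rw [← map_mul, single_mul_single_of_ne _ _ _ _ hp, map_zero, zero_mul]
      · intro h; exact absurd (Finset.mem_univ _) h
    · intro p _ hp
      rw [Finset.sum_mul]
      apply Finset.sum_eq_zero
      intro r _
      calc S.E i (single p r 1) * S.E j (single r p 1) * (S.E i (single l m 1) * S.E j (single m l 1)) =
            S.E i (single p r 1) * (S.E j (single r p 1) * S.E i (single l m 1)) * S.E j (single m l 1) := by simp only [mul_assoc]
          _ = (S.E i (single p r 1) * S.E i (single l m 1)) * (S.E j (single r p 1) * S.E j (single m l 1)) := by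
            rw [← S.comm i j hij]; simp only [mul_assoc]
          _ = _ := by rw [← map_mul (S.E j), single_mul_single_of_ne _ _ _ _ hp, map_zero, mul_zero]
    · intro h; exact absurd (Finset.mem_univ _) h
  conv_lhs => rw [flipM, ← flipM]
  have h2 : S.flipM i j * S.flipM i j = ∑ l, ∑ m, S.flipM i j * (S.E i (single l m 1) * S.E j (single m l 1)) := by
    conv_lhs => arg 2; rw [flipM]
    rw [Finset.mul_sum]
    exact Finset.sum_congr rfl fun l _ => Finset.mul_sum _ _ _
  rw [h2]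
  simp only [h1]
  rw [Finset.sum_comm]
  simp only [← Finset.mul_sum, ← map_sum, sum_single_diag, map_one, mul_one]

/-- the flip as a unit -/
def flip (S : Sys k T ι F) {i j : T} (hij : i ≠ j) : GL ι F := ⟨S.flipM i j, S.flipM i j, flipM_sq hij, flipM_sq hij⟩

lemma flip_val {i j : T} (hij : i ≠ j) : (S.flip hij).1 = S.flipM i j := rfl

lemma flip_inv_val {i j : T} (hij : i ≠ j) : ((S.flip hij)⁻¹).1 = S.flipM i j := rfl

lemma flip_conj_left {i j : T} (hij : i ≠ j) (a : Matrix (Fin k) (Fin k) F) : (S.flip hij).1 * S.E i a * ((S.flip hij)⁻¹).1 = S.E j a :=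
  conj_eq_iff.2 (flipM_mul hij a)

lemma flip_conj_right {i j : T} (hij : i ≠ j) (a : Matrix (Fin k) (Fin k) F) : (S.flip hij).1 * S.E j a * ((S.flip hij)⁻¹).1 = S.E i a :=
  conj_eq_iff.2 (by rw [flip_val, flipM_symm hij]; exact flipM_mul (Ne.symm hij) a)

lemma flip_cmt {i j l : T} (hij : i ≠ j) (hli : l ≠ i) (hlj : l ≠ j) : Cmt (S.E l) (S.flip hij).1 := by
  rw [flip_val, flipM]
  exact Cmt.sum fun p _ => Cmt.sum fun q _ => (cmt_E hli _).mul (cmt_E hlj _)

lemma flip_on {i j : T} (hij : i ≠ j) (hi : i ∈ J) (hj : j ∈ J) : S.On J (S.flip hij).1 := by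
  intro l hl
  apply flip_cmt hij
  · rintro rfl; exact hl hi
  · rintro rfl; exact hl hj

lemma flip_perms {i j : T} (hij : i ≠ j) : S.Perms (S.flip hij) (Equiv.swap i j) := by
  intro l
  refine ⟨1, fun a => ?_⟩
  rw [inv_one, Units.val_one, one_mul, mul_one]
  by_cases hli : l = i
  · subst hli; rw [Equiv.swap_apply_left]; exact conj_eq_iff.1 (flip_conj_left hij a)
  by_cases hlj : l = j
  · subst hlj; rw [Equiv.swap_apply_right]; exact conj_eq_iff.1 (flip_conj_right hij a)
  rw [Equiv.swap_apply_of_ne_of_ne hli hlj]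
  exact (flip_cmt hij hli hlj a).symm

lemma swap_mem_iff {i j : T} (hi : i ∈ J) (hj : j ∈ J) (l : T) : Equiv.swap i j l ∈ J ↔ l ∈ J := by
  by_cases hli : l = i
  · subst hli; rw [Equiv.swap_apply_left]; exact ⟨fun _ => hi, fun _ => hj⟩
  by_cases hlj : l = j
  · subst hlj; rw [Equiv.swap_apply_right]; exact ⟨fun _ => hj, fun _ => hi⟩
  rw [Equiv.swap_apply_of_ne_of_ne hli hlj]

lemma flip_mem_mon {i j : T} (hij : i ≠ j) (hi : i ∈ J) (hj : j ∈ J) : S.flip hij ∈ S.Mon J :=
  mon_of_perms (flip_perms hij) (swap_mem_iff hi hj)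

/-- the inductive claim -/
def Claim (S : Sys k T ι F) (J : Finset T) : Prop :=
  ∀ K' : Subgroup (GL ι F), (∀ x ∈ K', S.On J x.1) → (∀ i ∈ J, Roots (S.E i) K') → (∀ i ∈ J, Coef (S.E i) K') →
    ∀ h : GL ι F, S.On J h.1 → (∀ i ∈ J, ∀ u φ : Fin k → F, φ ⬝ᵥ u = 0 → Mem1 K' (h.1 * S.E i (vecMulVec u φ) * (h⁻¹).1)) → h ∈ S.Mon J

lemma comm_val {x y : GL ι F} {e f : Matrix ι ι F} (hx : x.1 = 1 + e) (hy : y.1 = 1 + f) (he : e * e = 0) (hf : f * f = 0) (hfe : f * e = 0) :
    (x * y * (x⁻¹ * y⁻¹)).1 = 1 + e * f := by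
  rw [Units.val_mul, Units.val_mul, Units.val_mul, Mem1.inv_eq hx he, Mem1.inv_eq hy hf, hx, hy]
  exact TMax.comm_identity he hf hfe

lemma cmt_mul_inv {E : Matrix (Fin k) (Fin k) F →ₐ[F] Matrix ι ι F} {a : GL ι F} (ha : Cmt E a.1) : Cmt E (a⁻¹).1 := by
  intro z
  have h2 : (a⁻¹).1 * (E z * a.1) * (a⁻¹).1 = (a⁻¹).1 * (a.1 * E z) * (a⁻¹).1 := by rw [ha]
  rw [mul_assoc, mul_assoc, mul_inv_val, mul_one, ← mul_assoc, inv_mul_val, one_mul] at h2
  exact h2.symm

lemma EU_comm_of_cmt {E : Matrix (Fin k) (Fin k) F →ₐ[F] Matrix ι ι F} {a : GL ι F} (ha : Cmt E a.1) (B : GL (Fin k) F) : EU E B * a = a * EU E B :=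
  Units.ext (ha _)

/-- the subgroup of the centraliser of a factor -/
def subC (S : Sys k T ι F) (i : T) (K' : Subgroup (GL ι F)) : Subgroup (GL ι F) where
  carrier := {a | Cmt (S.E i) a.1 ∧ ∃ B, EU (S.E i) B * a ∈ K'}
  mul_mem' := by
    rintro a a' ⟨ha, B, hB⟩ ⟨ha', B', hB'⟩
    refine ⟨by rw [Units.val_mul]; exact ha.mul ha', B * B', ?_⟩
    have : EU (S.E i) (B * B') * (a * a') = EU (S.E i) B * a * (EU (S.E i) B' * a') := by
      have h1 : EU (S.E i) (B * B') = EU (S.E i) B * EU (S.E i) B' := map_mul (Units.map _) _ _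
      rw [h1, mul_assoc, ← mul_assoc (EU (S.E i) B') a, EU_comm_of_cmt ha]
      simp only [mul_assoc]
    rw [this]
    exact K'.mul_mem hB hB'
  one_mem' := ⟨Cmt.one, 1, by
    have h1 : EU (S.E i) 1 = 1 := map_one (Units.map _)
    rw [h1, one_mul]; exact K'.one_mem⟩
  inv_mem' := by
    rintro a ⟨ha, B, hB⟩
    refine ⟨cmt_mul_inv ha, B⁻¹, ?_⟩
    have h1 : EU (S.E i) B⁻¹ = (EU (S.E i) B)⁻¹ := map_inv (Units.map _) _
    have : EU (S.E i) B⁻¹ * a⁻¹ = (EU (S.E i) B * a)⁻¹ := by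
      rw [h1, EU_comm_of_cmt ha, _root_.mul_inv_rev]
    rw [this]
    exact K'.inv_mem hB

lemma conj_cmt {E : Matrix (Fin k) (Fin k) F →ₐ[F] Matrix ι ι F} {a : GL ι F} (ha : Cmt E a.1) {Z : Matrix ι ι F} (hZ : Cmt E Z) :
    Cmt E (a.1 * Z * (a⁻¹).1) := (ha.mul hZ).mul (cmt_mul_inv ha)

/-- the step when a root of a factor goes to a root of the same factor -/
theorem block_step_same [Nonempty ι] (hk : 3 ≤ k) {i : T} (hi : i ∈ J) (IH : S.Claim (J.erase i))
    (hK' : ∀ x ∈ K', S.On J x.1) (hR : ∀ i ∈ J, Roots (S.E i) K') (hC : ∀ i ∈ J, Coef (S.E i) K') {h : GL ι F} (hh : S.On J h.1)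
    (hroot : ∀ i ∈ J, ∀ u φ : Fin k → F, φ ⬝ᵥ u = 0 → Mem1 K' (h.1 * S.E i (vecMulVec u φ) * (h⁻¹).1))
    {u φ u' φ' : Fin k → F} (hu : u ≠ 0) (hφ : φ ≠ 0) (hr : h.1 * S.E i (vecMulVec u φ) * (h⁻¹).1 = S.E i (vecMulVec u' φ')) :
    h ∈ S.Mon J := by
  -- the block lemma
  let K : Subgroup (GL ι F) := K'.comap (MulAut.conj h).toMonoidHom
  have hKR : Roots (S.E i) K := by
    intro v χ hv
    obtain ⟨x, hx⟩ := exists_of_sq_zero (E_vmv_sq (E := S.E i) hv)
    refine ⟨x, ?_, hx⟩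
    show h * x * h⁻¹ ∈ K'
    apply (hroot i hi v χ hv).mem
    rw [Units.val_mul, Units.val_mul, hx, mul_add, mul_one, add_mul, mul_inv_val]
  obtain ⟨B, a, ha, hBa⟩ := block_lemma hk hKR (hR i hi) (hC i hi) (fun x hx => hx) hu hφ hr
  have haJ : S.On (J.erase i) a.1 := by
    have h1 : S.On J a.1 := by
      have : a = (EU (S.E i) B)⁻¹ * h := by rw [hBa, inv_mul_cancel_left]
      rw [this, Units.val_mul]
      exact (On.inv (on_EU hi B)).mul hh
    intro l hl
    by_cases hli : l = i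
    · subst hli; exact ha
    · exact h1 l fun h2 => hl (Finset.mem_erase.2 ⟨hli, h2⟩)
  have hEUc : ∀ {Z : Matrix ι ι F}, Cmt (S.E i) Z → (EU (S.E i) B).1 * Z * ((EU (S.E i) B)⁻¹).1 = Z := by
    intro Z hZ
    rw [EU_val, hZ, mul_assoc, ← EU_val, mul_inv_val, mul_one]
  have hamon : a ∈ S.Mon (J.erase i) := by
    apply IH (S.subC i K')
    · rintro x ⟨hx, D, hD⟩ l hl
      by_cases hli : l = i
      · subst hli; exact hx
      · have h1 : S.On J x.1 := by
          have : x = (EU (S.E i) D)⁻¹ * (EU (S.E i) D * x) := by rw [inv_mul_cancel_left]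
          rw [this, Units.val_mul]
          exact (On.inv (on_EU hi D)).mul (hK' _ hD)
        exact h1 l fun h2 => hl (Finset.mem_erase.2 ⟨hli, h2⟩)
    · intro j hj v χ hv
      obtain ⟨hji, hjJ⟩ := Finset.mem_erase.1 hj
      obtain ⟨x, hx, hxv⟩ := hR j hjJ v χ hv
      refine ⟨x, ⟨?_, 1, ?_⟩, hxv⟩
      · rw [hxv]; exact Cmt.one.add (cmt_E (Ne.symm hji) _)
      · have h1 : EU (S.E i) 1 = 1 := map_one (Units.map _)
        rw [h1, one_mul]; exact hx
    · intro j hj v χ hv0 hχ0 hv A hA hmem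
      obtain ⟨hji, hjJ⟩ := Finset.mem_erase.1 hj
      obtain ⟨x, ⟨hxc, D, hD⟩, hxv⟩ := hmem
      -- commutator with a root
      obtain ⟨m₀, hm₀⟩ := Function.ne_iff.1 hχ0
      set w : Fin k → F := (χ m₀)⁻¹ • Pi.single m₀ 1 with hw
      have hφw : χ ⬝ᵥ w = 1 := by
        rw [hw, dotProduct_smul, dotProduct_single_one, smul_eq_mul, inv_mul_cancel₀ hm₀]
      obtain ⟨ψ, hψ0, hψv, hψw⟩ := exists_row_zero (by rw [Fintype.card_fin]; exact hk) v w
      apply hC j hjJ v ψ hv0 hψ0 hψv A hA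
      obtain ⟨y, hy, hyw⟩ := hR j hjJ w ψ hψw
      have hAA : S.E j (vecMulVec v χ) * A * (S.E j (vecMulVec v χ) * A) = 0 := by
        calc S.E j (vecMulVec v χ) * A * (S.E j (vecMulVec v χ) * A) = S.E j (vecMulVec v χ) * (A * S.E j (vecMulVec v χ)) * A := by simp only [mul_assoc]
          _ = (S.E j (vecMulVec v χ) * S.E j (vecMulVec v χ)) * (A * A) := by rw [← hA]; simp only [mul_assoc]
          _ = 0 := by rw [E_vmv_sq hv, zero_mul]
      have hc := comm_val hxv hyw hAA (E_vmv_sq hψw) (by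
        rw [← mul_assoc, ← map_mul, vmv_mul, hψv, zero_smul, map_zero, zero_mul])
      have he : S.E j (vecMulVec v χ) * A * S.E j (vecMulVec w ψ) = S.E j (vecMulVec v ψ) * A := by
        rw [mul_assoc, ← hA, ← mul_assoc, ← map_mul, vmv_mul, hφw, one_smul]
      rw [he] at hc
      refine ⟨_, ?_, hc⟩
      have hxE : EU (S.E i) D * x = x * EU (S.E i) D := EU_comm_of_cmt hxc D
      have hyE : EU (S.E i) D * y = y * EU (S.E i) D := by
        apply EU_comm_of_cmt
        rw [hyw]; exact Cmt.one.add (cmt_E (Ne.symm hji) _)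
      have h3 : x * y * (x⁻¹ * y⁻¹) = (EU (S.E i) D * x) * y * ((EU (S.E i) D * x)⁻¹ * y⁻¹) := by
        rw [hxE, _root_.mul_inv_rev]
        calc x * y * (x⁻¹ * y⁻¹) = x * (y * EU (S.E i) D) * (EU (S.E i) D)⁻¹ * (x⁻¹ * y⁻¹) := by group
          _ = _ := by rw [← hyE]; group
      rw [h3]
      exact K'.mul_mem (K'.mul_mem hD hy) (K'.mul_mem (K'.inv_mem hD) (K'.inv_mem hy))
    · exact haJ
    · intro j hj v χ hv
      obtain ⟨hji, hjJ⟩ := Finset.mem_erase.1 hj
      have hc : Cmt (S.E i) (a.1 * S.E j (vecMulVec v χ) * (a⁻¹).1) := conj_cmt ha (cmt_E (Ne.symm hji) _)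
      obtain ⟨x, hx, hxv⟩ := hroot j hjJ v χ hv
      have h1 : h.1 * S.E j (vecMulVec v χ) * (h⁻¹).1 = a.1 * S.E j (vecMulVec v χ) * (a⁻¹).1 := by
        rw [hBa, _root_.mul_inv_rev, Units.val_mul, Units.val_mul]
        rw [← hEUc hc]
        simp only [mul_assoc]
      rw [h1] at hxv
      refine ⟨x, ⟨?_, 1, ?_⟩, hxv⟩
      · rw [hxv]; exact Cmt.one.add hc
      · have h1 : EU (S.E i) 1 = 1 := map_one (Units.map _)
        rw [h1, one_mul]; exact hx
  rw [hBa]
  apply Subgroup.mul_mem _ (EU_mem_mon i B)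
  obtain ⟨σ, hσ, hσ1, hσ2⟩ := perms_of_mon hamon haJ
  apply mon_of_perms hσ
  intro l
  by_cases hl : l ∈ J.erase i
  · have := (hσ2 l).2 hl
    exact ⟨fun _ => Finset.mem_of_mem_erase hl, fun _ => Finset.mem_of_mem_erase this⟩
  · rw [hσ1 l hl]

/-- the block step -/
theorem block_step [Fintype T] [Nonempty ι] (hk : 3 ≤ k) (IH : ∀ i ∈ J, S.Claim (J.erase i))
    (hK' : ∀ x ∈ K', S.On J x.1) (hR : ∀ i ∈ J, Roots (S.E i) K') (hC : ∀ i ∈ J, Coef (S.E i) K') {h : GL ι F} (hh : S.On J h.1)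
    (hroot : ∀ i ∈ J, ∀ u φ : Fin k → F, φ ⬝ᵥ u = 0 → Mem1 K' (h.1 * S.E i (vecMulVec u φ) * (h⁻¹).1))
    {i j : T} (hi : i ∈ J) (hj : j ∈ J)
    {u φ u' φ' : Fin k → F} (hu : u ≠ 0) (hφ : φ ≠ 0) (hr : h.1 * S.E i (vecMulVec u φ) * (h⁻¹).1 = S.E j (vecMulVec u' φ')) :
    h ∈ S.Mon J := by
  by_cases hij : i = j
  · subst hij
    exact block_step_same hk hi (IH i hi) hK' hR hC hh hroot hu hφ hr
  set π := S.flip hij with hπ
  have hπon : S.On J π.1 := flip_on hij hi hj
  have hπi : ∀ a, π.1 * S.E i a * (π⁻¹).1 = S.E j a := flip_conj_left hij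
  have hπj : ∀ a, π.1 * S.E j a * (π⁻¹).1 = S.E i a := flip_conj_right hij
  have hinv : π⁻¹ = π := Units.ext rfl
  -- the conjugated group
  let K₂ : Subgroup (GL ι F) := K'.comap (MulAut.conj π).toMonoidHom
  have hK₂ : ∀ x, x ∈ K₂ ↔ π * x * π⁻¹ ∈ K' := fun x => Iff.rfl
  have hconjE : ∀ l a, ∃ l', (l' ∈ J ↔ l ∈ J) ∧ π.1 * S.E l a * (π⁻¹).1 = S.E l' a := by
    intro l a
    by_cases hli : l = i
    · subst hli; exact ⟨j, ⟨fun _ => hi, fun _ => hj⟩, hπi a⟩
    by_cases hlj : l = j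
    · subst hlj; exact ⟨i, ⟨fun _ => hj, fun _ => hi⟩, hπj a⟩
    exact ⟨l, Iff.rfl, conj_eq_iff.2 (flip_cmt hij hli hlj a).symm⟩
  have key : ∀ {x : GL ι F} {Z : Matrix ι ι F}, x.1 = 1 + Z → (π * x * π⁻¹).1 = 1 + π.1 * Z * (π⁻¹).1 := by
    intro x Z hx
    rw [Units.val_mul, Units.val_mul, hx, mul_add, mul_one, add_mul, mul_inv_val]
  have h2 : π * h ∈ S.Mon J := by
    refine block_step_same (K' := K₂) hk hi (IH i hi) ?_ ?_ ?_ (h := π * h) ?_ ?_ (u := u) (φ := φ) (u' := u') (φ' := φ') hu hφ ?_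
    · intro x hx
      have h3 := hK' _ ((hK₂ x).1 hx)
      have h4 : x = π⁻¹ * (π * x * π⁻¹) * π := by group
      rw [h4, Units.val_mul, Units.val_mul]
      exact ((On.inv hπon).mul h3).mul hπon
    · intro l hl v χ hv
      obtain ⟨x, hx⟩ := exists_of_sq_zero (E_vmv_sq (E := S.E l) hv)
      refine ⟨x, ?_, hx⟩
      rw [hK₂]
      obtain ⟨l', hl', hc⟩ := hconjE l (vecMulVec v χ)
      apply (hR l' (hl'.2 hl) v χ hv).mem
      rw [key hx, hc]
    · intro l hl v χ hv0 hχ0 hv A hA hmem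
      obtain ⟨l', hl', hc⟩ := hconjE l (vecMulVec v χ)
      have hc' : ∀ a, π.1 * S.E l a * (π⁻¹).1 = S.E l' a := by
        intro a
        by_cases hli : l = i
        · subst hli
          have : j = l' := idx_eq_of_E_eq (S := S) (a := vecMulVec v χ) (b := vecMulVec v χ) (by
            rintro ⟨c, hc0⟩
            have h6 := vmv_sq hv
            rw [hc0, smul_mul_smul_comm, one_mul] at h6
            have h7 : c * c = 0 := by
              have := congrFun (congrFun h6 ⟨0, by omega⟩) ⟨0, by omega⟩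
              simpa using this
            have h8 : c = 0 := by
              rcases mul_self_eq_zero.1 h7 with h; exact h
            exact vmv_ne_zero hv0 hχ0 (by rw [hc0, h8, zero_smul])) (by rw [← hπi, hc])
          rw [← this]; exact hπi a
        by_cases hlj : l = j
        · subst hlj
          have : i = l' := idx_eq_of_E_eq (S := S) (a := vecMulVec v χ) (b := vecMulVec v χ) (by
            rintro ⟨c, hc0⟩
            have h6 := vmv_sq hv
            rw [hc0, smul_mul_smul_comm, one_mul] at h6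
            have h7 : c * c = 0 := by
              have := congrFun (congrFun h6 ⟨0, by omega⟩) ⟨0, by omega⟩
              simpa using this
            have h8 : c = 0 := by
              rcases mul_self_eq_zero.1 h7 with h; exact h
            exact vmv_ne_zero hv0 hχ0 (by rw [hc0, h8, zero_smul])) (by rw [← hπj, hc])
          rw [← this]; exact hπj a
        · have h9 : ∀ a, π.1 * S.E l a * (π⁻¹).1 = S.E l a := fun a => conj_eq_iff.2 (flip_cmt hij hli hlj a).symm
          have : l = l' := idx_eq_of_E_eq (S := S) (a := vecMulVec v χ) (b := vecMulVec v χ) (by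
            rintro ⟨c, hc0⟩
            have h6 := vmv_sq hv
            rw [hc0, smul_mul_smul_comm, one_mul] at h6
            have h7 : c * c = 0 := by
              have := congrFun (congrFun h6 ⟨0, by omega⟩) ⟨0, by omega⟩
              simpa using this
            have h8 : c = 0 := by
              rcases mul_self_eq_zero.1 h7 with h; exact h
            exact vmv_ne_zero hv0 hχ0 (by rw [hc0, h8, zero_smul])) (by rw [← h9, hc])
          rw [← this]; exact h9 a
      obtain ⟨x, hx, hxv⟩ := hmem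
      have hA' : Cmt (S.E l') (π.1 * A * (π⁻¹).1) := by
        intro a
        rw [← hc' a]
        calc π.1 * S.E l a * (π⁻¹).1 * (π.1 * A * (π⁻¹).1) = π.1 * S.E l a * ((π⁻¹).1 * π.1) * A * (π⁻¹).1 := by simp only [mul_assoc]
          _ = π.1 * (S.E l a * A) * (π⁻¹).1 := by rw [inv_mul_val, mul_one]; simp only [mul_assoc]
          _ = π.1 * A * 1 * S.E l a * (π⁻¹).1 := by rw [hA, mul_one]; simp only [mul_assoc]
          _ = _ := by rw [← inv_mul_val π]; simp only [mul_assoc]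
      have hm : Mem1 K' (S.E l' (vecMulVec v χ) * (π.1 * A * (π⁻¹).1)) := by
        refine ⟨_, (hK₂ x).1 hx, ?_⟩
        rw [key hxv, ← hc' (vecMulVec v χ)]
        congr 1
        calc π.1 * (S.E l (vecMulVec v χ) * A) * (π⁻¹).1 = π.1 * S.E l (vecMulVec v χ) * 1 * A * (π⁻¹).1 := by rw [mul_one]; simp only [mul_assoc]
          _ = _ := by rw [← inv_mul_val π]; simp only [mul_assoc]
      obtain ⟨c, hcA⟩ := hC l' (hl'.2 hl) v χ hv0 hχ0 hv _ hA' hm
      refine ⟨c, ?_⟩
      calc A = ((π⁻¹).1 * π.1) * A * ((π⁻¹).1 * π.1) := by rw [inv_mul_val, one_mul, mul_one]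
        _ = (π⁻¹).1 * (π.1 * A * (π⁻¹).1) * π.1 := by simp only [mul_assoc]
        _ = _ := by rw [hcA, mul_smul_comm, smul_mul_assoc, mul_one, inv_mul_val]
    · rw [Units.val_mul]; exact hπon.mul hh
    · intro l hl v χ hv
      obtain ⟨x, hx, hxv⟩ := hroot l hl v χ hv
      refine ⟨π * x * π⁻¹, ?_, ?_⟩
      · rw [hK₂]
        have : π * (π * x * π⁻¹) * π⁻¹ = x := by
          rw [hinv]
          have h9 : π * π = 1 := Units.ext (flipM_sq hij)
          calc π * (π * x * π) * π = (π * π) * x * (π * π) := by group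
            _ = x := by rw [h9, one_mul, mul_one]
        rw [this]; exact hx
      · rw [key hxv, _root_.mul_inv_rev, Units.val_mul, Units.val_mul]
        simp only [mul_assoc]
    · rw [_root_.mul_inv_rev, Units.val_mul, Units.val_mul]
      calc π.1 * h.1 * S.E i (vecMulVec u φ) * ((h⁻¹).1 * (π⁻¹).1) = π.1 * (h.1 * S.E i (vecMulVec u φ) * (h⁻¹).1) * (π⁻¹).1 := by simp only [mul_assoc]
        _ = _ := by rw [hr, hπj]
  have : h = π⁻¹ * (π * h) := by rw [inv_mul_cancel_left]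
  rw [this]
  exact Subgroup.mul_mem _ (Subgroup.inv_mem _ (flip_mem_mon hij hi hj)) h2

end Sys

end Cfsg.Agent.Asch.CW
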