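import Mathlib
import Cfsg.Prelude.Def_GeometricClasses
import Cfsg.Agent.Asch.CWInd
set_option autoImplicit false
set_option linter.unusedSectionVars false
set_option linter.unusedVariables false
set_option linter.style.haveILetI false

/-!
Induction on the set of factors: the general step.
-/

namespace Cfsg.Agent.Asch.CW

open Matrix Module

open scoped Matrix

lemma vmv_not_scalar {k : ℕ} (hk : 0 < k) {F : Type*} [Field F] {v χ : Fin k → F} (hv0 : v ≠ 0) (hχ0 : χ ≠ 0) (hv : χ ⬝ᵥ v = 0) :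
    ¬ ∃ c : F, vecMulVec v χ = c • (1 : Matrix (Fin k) (Fin k) F) := by
  rintro ⟨c, hc0⟩
  have h6 := vmv_sq hv
  rw [hc0, smul_mul_smul_comm, one_mul] at h6
  have h7 : c * c = 0 := by
    have := congrFun (congrFun h6 ⟨0, by omega⟩) ⟨0, by omega⟩
    simpa using this
  have h8 : c = 0 := by
    rcases mul_self_eq_zero.1 h7 with h; exact h
  exact vmv_ne_zero hv0 hχ0 (by rw [hc0, h8, zero_smul])

namespace Sys

variable {k : ℕ} {T ι : Type} [Fintype T] [DecidableEq T] [Fintype ι] [DecidableEq ι] {F : Type*} [Field F] {S : Sys k T ι F}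
  {J : Finset T} {K' : Subgroup (GL ι F)}

lemma rank_vmv_le (i : T) (z : Fin k) (u φ : Fin k → F) : (S.E i (vecMulVec u φ)).rank ≤ (S.E i (single z z 1)).rank := by
  apply rank_le_of_eq_mul (A := S.E i (vecMulVec u (Pi.single z 1))) (B := S.E i (vecMulVec (Pi.single z 1) φ))
  rw [← map_mul, ← map_mul, single_eq_vmv, vmv_mul, smul_mul_assoc, vmv_mul]
  simp

/-- the data for the inductive step -/
structure Good (S : Sys k T ι F) (J : Finset T) (K' : Subgroup (GL ι F)) : Prop where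
  on : ∀ x ∈ K', S.On J x.1
  root : ∀ i ∈ J, Roots (S.E i) K'
  coef : ∀ i ∈ J, Coef (S.E i) K'

/-- the fusion property for elements of `K'` -/
def Fus1 (S : Sys k T ι F) (J : Finset T) (K' : Subgroup (GL ι F)) : Prop :=
  ∀ g ∈ K', ∀ i ∈ J, ∀ u φ : Fin k → F, u ≠ 0 → φ ≠ 0 → φ ⬝ᵥ u = 0 → ∀ y : GL ι F, y.1 = 1 + g.1 * S.E i (vecMulVec u φ) * (g⁻¹).1 → y ∈ S.Mon J →
      ∃ j ∈ J, ∃ u' φ' : Fin k → F, g.1 * S.E i (vecMulVec u φ) * (g⁻¹).1 = S.E j (vecMulVec u' φ')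

/-- the fusion property for general elements -/
def Fus2 (S : Sys k T ι F) (J : Finset T) : Prop :=
  ∀ h : GL ι F, S.On J h.1 → J.Nonempty →
    (∀ i ∈ J, ∀ u φ : Fin k → F, φ ⬝ᵥ u = 0 → ∃ y : GL ι F, y.1 = 1 + h.1 * S.E i (vecMulVec u φ) * (h⁻¹).1 ∧ y ∈ S.Mon J) →
    ∃ i ∈ J, ∃ u φ : Fin k → F, u ≠ 0 ∧ φ ≠ 0 ∧ ∃ j ∈ J, ∃ u' φ' : Fin k → F, h.1 * S.E i (vecMulVec u φ) * (h⁻¹).1 = S.E j (vecMulVec u' φ')

lemma sq_conj {h : GL ι F} {Z : Matrix ι ι F} (hZ : Z * Z = 0) : (h.1 * Z * (h⁻¹).1) * (h.1 * Z * (h⁻¹).1) = 0 := by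
  calc (h.1 * Z * (h⁻¹).1) * (h.1 * Z * (h⁻¹).1) = h.1 * Z * ((h⁻¹).1 * h.1) * Z * (h⁻¹).1 := by simp only [mul_assoc]
    _ = h.1 * (Z * Z) * (h⁻¹).1 := by rw [inv_mul_val, mul_one]; simp only [mul_assoc]
    _ = 0 := by rw [hZ, mul_zero, zero_mul]

lemma fus_finish [Nonempty ι] (hk : 0 < k) {h : GL ι F} (hh : S.On J h.1) {i : T} (hi : i ∈ J) {u φ : Fin k → F} (hu : u ≠ 0) (hφ : φ ≠ 0)
    (huφ : φ ⬝ᵥ u = 0) {y : GL ι F} (hy : y.1 = 1 + h.1 * S.E i (vecMulVec u φ) * (h⁻¹).1) {j : T} {A : Matrix (Fin k) (Fin k) F} (hA : y.1 = S.E j A) :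
    ∃ j ∈ J, ∃ u' φ' : Fin k → F, h.1 * S.E i (vecMulVec u φ) * (h⁻¹).1 = S.E j (vecMulVec u' φ') := by
  set z : Fin k := ⟨0, hk⟩
  have hy1 : y.1 - 1 = h.1 * S.E i (vecMulVec u φ) * (h⁻¹).1 := by rw [hy]; abel
  have hsq : (y.1 - 1) * (y.1 - 1) = 0 := by rw [hy1]; exact sq_conj (E_vmv_sq huφ)
  have hne : y ≠ 1 := by
    intro h1
    rw [h1, Units.val_one, sub_self] at hy1
    have h2 := conj_eq_zero h hy1.symm
    exact vmv_ne_zero hu hφ (E_inj (S := S) (i := i) (by rw [h2, map_zero]))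
  have hrk : (y.1 - 1).rank ≤ (S.E i (single z z 1)).rank := by
    rw [hy1, rank_conj]; exact rank_vmv_le i z u φ
  obtain ⟨u', φ', hu', hφ', h1, h2⟩ := root_of_E hA hsq hne i z hrk
  have h3 : h.1 * S.E i (vecMulVec u φ) * (h⁻¹).1 = S.E j (vecMulVec u' φ') := by
    rw [← hy1, h2]; abel
  refine ⟨j, ?_, u', φ', h3⟩
  by_contra hj
  have h4 : S.On J (S.E j (vecMulVec u' φ')) := by
    rw [← h3]; exact (hh.mul (on_E hi _)).mul (On.inv hh)
  exact not_cmt_of_ne (S := S) (i := j) (vmv_not_scalar hk hu' hφ' h1) (h4 j hj)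

/-- the fusion argument if the permutation is trivial -/
theorem fus_sigma_one [Nonempty ι] (hk : 3 ≤ k) {h : GL ι F} (hh : S.On J h.1) {i : T} (hi : i ∈ J) {u φ : Fin k → F} (hu : u ≠ 0) (hφ : φ ≠ 0)
    (huφ : φ ⬝ᵥ u = 0) {y : GL ι F} (hy : y.1 = 1 + h.1 * S.E i (vecMulVec u φ) * (h⁻¹).1) {σ : Equiv.Perm T} (hσ : S.Perms y σ) (hσ1 : ∀ j, σ j = j) :
    ∃ j ∈ J, ∃ u' φ' : Fin k → F, h.1 * S.E i (vecMulVec u φ) * (h⁻¹).1 = S.E j (vecMulVec u' φ') := by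
  set z : Fin k := ⟨0, by omega⟩
  have hy1 : y.1 - 1 = h.1 * S.E i (vecMulVec u φ) * (h⁻¹).1 := by rw [hy]; abel
  have hsq : (y.1 - 1) * (y.1 - 1) = 0 := by rw [hy1]; exact sq_conj (E_vmv_sq huφ)
  have hne : y ≠ 1 := by
    intro h1
    rw [h1, Units.val_one, sub_self] at hy1
    have h2 := conj_eq_zero h hy1.symm
    exact vmv_ne_zero hu hφ (E_inj (S := S) (i := i) (by rw [h2, map_zero]))
  have hrk : (y.1 - 1).rank ≤ (S.E i (single z z 1)).rank := by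
    rw [hy1, rank_conj]; exact rank_vmv_le i z u φ
  obtain ⟨j, A, hA⟩ := fus_rank hk hsq hne hσ hσ1 i z hrk
  exact fus_finish (by omega) hh hi hu hφ huφ hy hA

theorem fus_of [Fintype F] [Nonempty ι] (hk : 3 ≤ k) (hq : Odd (Fintype.card F) ∨ 4 ≤ k) {h : GL ι F} (hh : S.On J h.1)
    {i : T} (hi : i ∈ J) {u φ : Fin k → F} (hu : u ≠ 0) (hφ : φ ≠ 0) (huφ : φ ⬝ᵥ u = 0) {y : GL ι F}
    (hy : y.1 = 1 + h.1 * S.E i (vecMulVec u φ) * (h⁻¹).1) (hyM : y ∈ S.Mon J) :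
    ∃ j ∈ J, ∃ u' φ' : Fin k → F, h.1 * S.E i (vecMulVec u φ) * (h⁻¹).1 = S.E j (vecMulVec u' φ') := by
  set z : Fin k := ⟨0, by omega⟩
  have hy1 : y.1 - 1 = h.1 * S.E i (vecMulVec u φ) * (h⁻¹).1 := by rw [hy]; abel
  have hsq : (y.1 - 1) * (y.1 - 1) = 0 := by rw [hy1]; exact sq_conj (E_vmv_sq huφ)
  have hne : y ≠ 1 := by
    intro h1
    rw [h1, Units.val_one, sub_self] at hy1
    have h2 := conj_eq_zero h hy1.symm
    exact vmv_ne_zero hu hφ (E_inj (S := S) (i := i) (by rw [h2, map_zero]))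
  have hrk : (y.1 - 1).rank ≤ (S.E i (single z z 1)).rank := by
    rw [hy1, rank_conj]; exact rank_vmv_le i z u φ
  have hyJ : S.On J y.1 := by rw [hy]; exact On.one.add ((hh.mul (on_E hi _)).mul (On.inv hh))
  obtain ⟨σ, hσ, -, -⟩ := perms_of_mon hyM hyJ
  rcases hq with hq | hq
  · obtain ⟨j, A, hA⟩ := fus_odd (by omega) hq hsq hne hσ
    exact fus_finish (by omega) hh hi hu hφ huφ hy hA
  · exact fus_sigma_one hk hh hi hu hφ huφ hy hσ (sigma_one_of_rank hq hσ i z hrk)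

lemma single_root (hk : 3 ≤ k) : ∃ u φ : Fin k → F, u ≠ 0 ∧ φ ≠ 0 ∧ φ ⬝ᵥ u = 0 := by
  set z : Fin k := ⟨0, by omega⟩
  set z1 : Fin k := ⟨1, by omega⟩
  have hz : z ≠ z1 := by simp [z, z1, Fin.ext_iff]
  refine ⟨Pi.single z 1, Pi.single z1 1, ?_, ?_, ?_⟩
  · intro h0; have := congrFun h0 z; rw [Pi.single_eq_same] at this; exact one_ne_zero this
  · intro h0; have := congrFun h0 z1; rw [Pi.single_eq_same] at this; exact one_ne_zero this
  · rw [single_one_dotProduct, Pi.single_eq_of_ne (Ne.symm hz)]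

theorem fus1_of [Fintype F] [Nonempty ι] (hk : 3 ≤ k) (hq : Odd (Fintype.card F) ∨ 4 ≤ k) (hOn : ∀ x ∈ K', S.On J x.1) : S.Fus1 J K' :=
  fun g hg i hi u φ hu hφ huφ y hy hyM => fus_of hk hq (hOn g hg) hi hu hφ huφ hy hyM

theorem fus2_of [Fintype F] [Nonempty ι] (hk : 3 ≤ k) (hq : Odd (Fintype.card F) ∨ 4 ≤ k) : S.Fus2 J := by
  intro h hh hJ hM
  obtain ⟨i, hi⟩ := hJ
  obtain ⟨u, φ, hu, hφ, huφ⟩ := single_root (F := F) hk
  obtain ⟨y, hy, hyM⟩ := hM i hi u φ huφ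
  exact ⟨i, hi, u, φ, hu, hφ, fus_of hk hq hh hi hu hφ huφ hy hyM⟩

/-- a Kronecker sum of small rank lies in one factor -/
lemma factor_of_sum [Nonempty ι] (hk : 3 ≤ k) {Z : Matrix ι ι F} {z : T → Matrix (Fin k) (Fin k) F} (hZ : Z = ∑ j ∈ J, S.E j (z j)) (hZ2 : Z * Z = 0)
    (hZ0 : Z ≠ 0) (i₀ : T) (l₀ : Fin k) (hr : Z.rank ≤ (S.E i₀ (single l₀ l₀ 1)).rank) : ∃ j ∈ J, ∃ a, Z = S.E j a := by
  by_cases hsc : ∀ j ∈ J, ∃ c : F, z j = c • (1 : Matrix (Fin k) (Fin k) F)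
  · exfalso
    choose c hc using hsc
    have h1 : Z = (∑ j : J, c j.1 j.2) • (1 : Matrix ι ι F) := by
      rw [hZ, Finset.sum_smul, ← Finset.sum_coe_sort]
      refine Finset.sum_congr rfl fun j _ => ?_
      rw [hc j.1 j.2, map_smul, map_one]
    rw [h1, smul_mul_smul_comm, one_mul] at hZ2
    have h2 := (smul_eq_zero.1 hZ2).resolve_right one_ne_zero
    have h3 : (∑ j : J, c j.1 j.2) = 0 := by
      rcases mul_self_eq_zero.1 h2 with h; exact h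
    exact hZ0 (by rw [h1, h3, zero_smul])
  push Not at hsc
  obtain ⟨j, hj, hns⟩ := hsc
  set b := ∑ l ∈ J.erase j, S.E l (z l) with hb
  have hbc : Cmt (S.E j) b := Cmt.sum fun l hl => cmt_E (Ne.symm (Finset.ne_of_mem_erase hl)) _
  have hZb : Z = S.E j (z j) + b := by rw [hZ, hb]; exact (Finset.add_sum_erase J (fun l => S.E l (z l)) hj).symm
  obtain ⟨c, hc⟩ := scalar_of_rank (by rw [Fintype.card_fin]; exact hk) hbc l₀ (by
    rw [← hZb]; exact hr.trans (rank_E_eq i₀ j l₀ l₀).le) (by rintro ⟨c, hc⟩; exact hns c hc)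
  refine ⟨j, hj, z j + c • 1, ?_⟩
  rw [hZb, hc, map_add, map_smul, map_one]

/-- independent functionals -/
lemma exists_row_basis (hk : 0 < k) {u : Fin k → F} (hu : u ≠ 0) : ∃ θ : Fin (k - 1) → Fin k → F, (∀ m, θ m ⬝ᵥ u = 0) ∧ LinearIndependent F θ := by
  let L : (Fin k → F) →ₗ[F] F :=
    { toFun := fun ψ => ψ ⬝ᵥ u
      map_add' := fun x y => add_dotProduct _ _ _
      map_smul' := fun c x => smul_dotProduct _ _ _ }
  have hL : LinearMap.range L = ⊤ := by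
    rw [LinearMap.range_eq_top]
    obtain ⟨m, hm⟩ := Function.ne_iff.1 hu
    intro c
    refine ⟨Pi.single m (c * (u m)⁻¹), ?_⟩
    show Pi.single m (c * (u m)⁻¹) ⬝ᵥ u = c
    rw [single_dotProduct, mul_assoc, inv_mul_cancel₀ hm, mul_one]
  have hdim : finrank F (LinearMap.ker L) = k - 1 := by
    have h1 := LinearMap.finrank_range_add_finrank_ker L
    rw [hL, finrank_top, finrank_self, finrank_fintype_fun_eq_card, Fintype.card_fin] at h1
    omega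
  let b := finBasisOfFinrankEq F (LinearMap.ker L) hdim
  refine ⟨fun m => (b m).1, fun m => (b m).2, ?_⟩
  exact b.linearIndependent.map' (LinearMap.ker L).subtype (Submodule.ker_subtype _)

lemma hfree_of [Nonempty ι] (hk : 3 ≤ k) (IH : ∀ i ∈ J, S.Claim (J.erase i)) (hG : S.Good J K') (hFus : S.Fus1 J K') :
    ∀ i ∈ J, ∀ u φ : Fin k → F, u ≠ 0 → φ ≠ 0 → φ ⬝ᵥ u = 0 → ∀ x : GL ι F, x.1 = 1 + S.E i (vecMulVec u φ) →
      ∀ g ∈ K', g⁻¹ * x * g ∈ S.Mon J → g ∈ S.Mon J := by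
  intro i hi u φ hu hφ huφ x hx g hg hgx
  have hg' : g⁻¹ ∈ K' := K'.inv_mem hg
  have hy : (g⁻¹ * x * g).1 = 1 + (g⁻¹).1 * S.E i (vecMulVec u φ) * ((g⁻¹)⁻¹).1 := by
    rw [Units.val_mul, Units.val_mul, hx, mul_add, mul_one, add_mul, inv_mul_val, inv_inv]
  obtain ⟨j, hj, u', φ', hr⟩ := hFus g⁻¹ hg' i hi u φ hu hφ huφ _ hy hgx
  have := block_step hk IH hG.on hG.root hG.coef (hG.on _ hg') (fun i hi u φ huφ => (hG.root i hi u φ huφ).conj' hg') hi hj hu hφ hr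
  rw [← inv_inv g]
  exact Subgroup.inv_mem _ this

/-- the group permutes the factors: trace argument -/
theorem mon_of_kill [Fintype F] [Nonempty ι] (hk : 3 ≤ k) (hkill : 2 < (Fintype.card F - 1) * (k - 1)) (hJ : J.Nonempty)
    (IH : ∀ i ∈ J, S.Claim (J.erase i)) (hG : S.Good J K') (hFus : S.Fus1 J K')
    {τ : Matrix ι ι F →ₗ[F] F} (hτ : ∀ Z Z', S.On J Z → S.On J Z' → τ (Z * Z') = τ (Z' * Z))
    {Z₀ : Matrix ι ι F} (hZ₀ : S.On J Z₀) (hτ₀ : τ Z₀ ≠ 0) : ∀ g ∈ K', g ∈ S.Mon J := by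
  have hOn := hG.on
  have hR := hG.root
  have hC := hG.coef
  set z : Fin k := ⟨0, by omega⟩
  have hself : ∀ g ∈ K', ∀ i ∈ J, ∀ u φ : Fin k → F, φ ⬝ᵥ u = 0 → Mem1 K' (g.1 * S.E i (vecMulVec u φ) * (g⁻¹).1) :=
    fun g hg i hi u φ huφ => (hR i hi u φ huφ).conj' hg
  have hfree := hfree_of hk IH hG hFus
  have hfix : ∀ i ∈ J, ∀ u φ : Fin k → F, φ ⬝ᵥ u = 0 → ∀ b, Cmt (S.E i) b → S.On J b →
      S.FK τ J K' (S.E i (vecMulVec u φ) * b) = S.pr τ J (S.E i (vecMulVec u φ) * b) := by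
    intro i hi u φ huφ b hb hbJ
    by_cases hu : u = 0
    · rw [hu, zero_vecMulVec, map_zero, zero_mul, FK_zero, pr_zero]
    obtain ⟨θ, hθ, hli⟩ := exists_row_basis (F := F) (by omega : 0 < k) hu
    have hXK : RowGrp (S.E i) u θ hθ ≤ K' := rowGrp_le (hR i hi)
    apply FK_eq_pr hτ hOn (X := RowGrp (S.E i) u θ hθ) hXK
    · rintro x ⟨c, hc⟩
      have : x = EU (S.E i) (Classical.choose (exists_of_sq_zero (vmv_sq (row_dot_zero hθ c)))) := by
        apply Units.ext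
        rw [hc, EU_val, Classical.choose_spec (exists_of_sq_zero (vmv_sq (row_dot_zero hθ c))), map_add, map_one]
      rw [this]
      exact EU_mem_mon i _
    · rintro x ⟨c, hc⟩ hx1 g hg hgx
      refine hfree i hi u _ hu ?_ (row_dot_zero hθ c) x hc g hg hgx
      intro h0
      apply hx1
      apply Units.ext
      rw [hc, h0, vecMulVec_zero, map_zero, add_zero, Units.val_one]
    · intro a
      exact rowGrp_kill hu hkill hθ hli K' hXK a
    · exact (on_E hi _).mul hbJ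
    · rintro x ⟨c, hc⟩
      apply cj_eq_self
      rw [hc, add_mul, mul_add, one_mul, mul_one]
      congr 1
      rw [← mul_assoc, ← map_mul, vmv_mul, row_dot_zero hθ, zero_smul, map_zero, zero_mul, mul_assoc, ← hb, ← mul_assoc, ← map_mul, vmv_mul, huφ,
        zero_smul, map_zero, zero_mul]
  intro g hg
  obtain ⟨i, hi⟩ := hJ
  obtain ⟨u, φ, hu, hφ, huφ⟩ := single_root (F := F) hk
  obtain ⟨w, hw⟩ := trace_conclusion (by omega) hτ hZ₀ hτ₀ hOn hfix hg hi huφ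
  have hne0 : g.1 * S.E i (vecMulVec u φ) * (g⁻¹).1 ≠ 0 := by
    intro h0
    exact vmv_ne_zero hu hφ (E_inj (S := S) (i := i) (by rw [conj_eq_zero g h0, map_zero]))
  obtain ⟨j, hj, a, ha⟩ := factor_of_sum hk hw (sq_conj (E_vmv_sq huφ)) hne0 i z (by
    rw [rank_conj]; exact rank_vmv_le i z _ _)
  obtain ⟨y, hy⟩ := exists_of_sq_zero (sq_conj (h := g) (E_vmv_sq (E := S.E i) huφ))
  have hyA : y.1 = S.E j (1 + a) := by rw [hy, map_add, map_one, ha]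
  obtain ⟨j', hj', u', φ', hr⟩ := fus_finish (by omega) (hOn g hg) hi hu hφ huφ hy hyA
  exact block_step hk IH hOn hR hC (hOn _ hg) (hself _ hg) hi hj' hu hφ hr

/-- **The inductive step** -/
theorem claim_of_mon [Nonempty ι] (hk : 3 ≤ k) (J : Finset T) (IH : ∀ i ∈ J, S.Claim (J.erase i)) (hFus : S.Fus2 J)
    (hM : ∀ K' : Subgroup (GL ι F), S.Good J K' → J.Nonempty → ∀ g ∈ K', g ∈ S.Mon J) : S.Claim J := by
  intro K' hOn hR hC h hh hroot
  by_cases hJ : J.Nonempty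
  swap
  · rw [Finset.not_nonempty_iff_eq_empty] at hJ
    subst hJ
    exact ⟨1, fun i => Iff.rfl, fun i hi => absurd hi (Finset.notMem_empty i)⟩
  have hG : S.Good J K' := ⟨hOn, hR, hC⟩
  have hK'M := hM K' hG hJ
  obtain ⟨i, hi, u, φ, hu, hφ, j, hj, u', φ', hr⟩ := hFus h hh hJ (by
    intro i hi u φ huφ
    obtain ⟨y, hyK, hy⟩ := hroot i hi u φ huφ
    exact ⟨y, hy, hK'M y hyK⟩)
  exact block_step hk IH hOn hR hC hh hroot hi hj hu hφ hr

end Sys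

end Cfsg.Agent.Asch.CW
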