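import Mathlib
import Cfsg.Prelude.Def_GeometricClasses
import Cfsg.Agent.Asch.CWInd2
set_option autoImplicit false
set_option linter.unusedSectionVars false
set_option linter.unusedVariables false
set_option linter.style.haveILetI false

/-!
The standard system: partial traces, the claim for all sets of factors.
-/

namespace Cfsg.Agent.Asch.CW

open Matrix Module

open scoped Matrix

variable {k t : ℕ} {F : Type*} [Field F]

lemma piMat_comm_of' {Z : Matrix (Fin t → Fin k) (Fin t → Fin k) F} (g : Fin t → Matrix (Fin k) (Fin k) F) (h : ∀ i, fac i (g i) * Z = Z * fac i (g i)) :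
    piMat g * Z = Z * piMat g := by
  have h1 : piMat (Finset.univ.noncommProd (fun i => Pi.mulSingle i (g i)) (fun i _ j _ _ => Pi.mulSingle_apply_commute g i j)) * Z =
      Z * piMat (Finset.univ.noncommProd (fun i => Pi.mulSingle i (g i)) (fun i _ j _ _ => Pi.mulSingle_apply_commute g i j)) := by
    refine Finset.noncommProd_induction _ _ _ (fun M => piMat M * Z = Z * piMat M) ?_ ?_ ?_
    · intro a b ha hb
      rw [piMat_mul, mul_assoc, hb, ← mul_assoc, ha, mul_assoc]
    · rw [piMat_one, one_mul, mul_one]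
    · intro i _
      exact h i
  rwa [Finset.noncommProd_mulSingle] at h1

/-- the diagonal projection -/
def PJ (F : Type*) [Field F] (hk : 0 < k) (J : Finset (Fin t)) : Matrix (Fin t → Fin k) (Fin t → Fin k) F :=
  piMat (fun i => if i ∈ J then 1 else single ⟨0, hk⟩ ⟨0, hk⟩ 1)

lemma PJ_comm (hk : 0 < k) (J : Finset (Fin t)) {Z : Matrix (Fin t → Fin k) (Fin t → Fin k) F} (hZ : (std k t F).On J Z) : PJ F hk J * Z = Z * PJ F hk J := by
  apply piMat_comm_of'
  intro i
  split_ifs with h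
  · rw [map_one, one_mul, mul_one]
  · exact hZ i h _

/-- the partial trace -/
def tauJ (F : Type*) [Field F] (hk : 0 < k) (J : Finset (Fin t)) : Matrix (Fin t → Fin k) (Fin t → Fin k) F →ₗ[F] F :=
  (Matrix.traceLinearMap (Fin t → Fin k) F F).comp (LinearMap.mulLeft F (PJ F hk J))

lemma tauJ_apply (hk : 0 < k) (J : Finset (Fin t)) (Z : Matrix (Fin t → Fin k) (Fin t → Fin k) F) : tauJ F hk J Z = (PJ F hk J * Z).trace := rfl

lemma tauJ_tracial (hk : 0 < k) (J : Finset (Fin t)) (Z Z' : Matrix (Fin t → Fin k) (Fin t → Fin k) F) (hZ : (std k t F).On J Z)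
    (hZ' : (std k t F).On J Z') : tauJ F hk J (Z * Z') = tauJ F hk J (Z' * Z) := by
  rw [tauJ_apply, tauJ_apply, ← mul_assoc, PJ_comm hk J hZ, mul_assoc, Matrix.trace_mul_comm, mul_assoc]

lemma piMat_comm_fac {g : Fin t → Matrix (Fin k) (Fin k) F} {i : Fin t} (hi : g i = 1) : Cmt (fac (F := F) i) (piMat g) := by
  intro a
  rw [fac_apply, ← piMat_mul, ← piMat_mul]
  congr 1
  funext j
  rw [Pi.mul_apply, Pi.mul_apply]
  by_cases hj : j = i
  · subst hj; rw [hi, one_mul, mul_one]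
  · rw [Pi.mulSingle_eq_of_ne hj, one_mul, mul_one]

lemma exists_tauJ_ne (hk : 0 < k) (J : Finset (Fin t)) : ∃ Z₀, (std k t F).On J Z₀ ∧ tauJ F hk J Z₀ ≠ 0 := by
  refine ⟨piMat (fun i => if i ∈ J then single ⟨0, hk⟩ ⟨0, hk⟩ 1 else 1), ?_, ?_⟩
  · intro i hi
    exact piMat_comm_fac (by rw [if_neg hi])
  · rw [tauJ_apply, PJ, ← piMat_mul]
    have h1 : ((fun i => if i ∈ J then (1 : Matrix (Fin k) (Fin k) F) else single ⟨0, hk⟩ ⟨0, hk⟩ 1) *
        fun i => if i ∈ J then single ⟨0, hk⟩ ⟨0, hk⟩ 1 else 1) = fun i : Fin t => single ((fun _ => ⟨0, hk⟩ : Fin t → Fin k) i) ((fun _ => ⟨0, hk⟩ : Fin t → Fin k) i) (1 : F) := by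
      funext i
      rw [Pi.mul_apply]
      split_ifs
      · rw [one_mul]
      · rw [mul_one]
    rw [h1, piMat_single, trace_single_eq_same]
    exact one_ne_zero

/-- **the claim for the standard system** -/
theorem claim_std [Fintype F] (hk : 3 ≤ k)
    (hFus : ∀ J : Finset (Fin t), (∀ i ∈ J, (std k t F).Claim (J.erase i)) → (std k t F).Fus2 J)
    (hM : ∀ J : Finset (Fin t), (∀ i ∈ J, (std k t F).Claim (J.erase i)) → ∀ K' : Subgroup (GL (Fin t → Fin k) F), (std k t F).Good J K' → J.Nonempty →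
      ∀ g ∈ K', g ∈ (std k t F).Mon J) (J : Finset (Fin t)) : (std k t F).Claim J := by
  haveI : Nonempty (Fin k) := ⟨⟨0, by omega⟩⟩
  induction hn : J.card using Nat.strong_induction_on generalizing J with
  | _ n ih =>
    have IH : ∀ i ∈ J, (std k t F).Claim (J.erase i) := by
      intro i hi
      apply ih _ _ _ rfl
      rw [← hn]; exact Finset.card_erase_lt_of_mem hi
    exact Sys.claim_of_mon hk J IH (hFus J IH) (hM J IH)

/-- the claim in the general case -/
theorem claim_gen [Fintype F] (hk : 3 ≤ k) (hkill : 2 < (Fintype.card F - 1) * (k - 1)) (hq : Odd (Fintype.card F) ∨ 4 ≤ k) (J : Finset (Fin t)) :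
    (std k t F).Claim J := by
  haveI : Nonempty (Fin k) := ⟨⟨0, by omega⟩⟩
  apply claim_std hk
  · intro J _; exact Sys.fus2_of hk hq
  · intro J IH K' hG hJ
    obtain ⟨Z₀, hZ₀, hτ₀⟩ := exists_tauJ_ne (F := F) (by omega : 0 < k) J
    exact Sys.mon_of_kill hk hkill hJ IH hG (Sys.fus1_of hk hq hG.on) (tauJ_tracial (by omega) J) hZ₀ hτ₀

/-- elements permuting the factors of the standard system lie in the tensor wreath subgroup -/
theorem mem_tws_of_mon (hk : 0 < k) (ht : 0 < t) {g : GL (Fin t → Fin k) F} (hg : g ∈ (std k t F).Mon Finset.univ) :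
    g ∈ Geo.tensorWreathStandard k t F := by
  haveI : Nonempty (Fin k) := ⟨⟨0, hk⟩⟩
  obtain ⟨σ, hσ⟩ := Sys.mem_mon_univ.1 hg
  choose B hB using hσ
  -- g = permMat σ * piMat b
  let π : GL (Fin t → Fin k) F := Matrix.GeneralLinearGroup.mkOfDetNeZero _ (det_permMat_ne_zero (F := F) (a := k) σ)
  let p : GL (Fin t → Fin k) F := Matrix.GeneralLinearGroup.mkOfDetNeZero _ (det_piMat_ne_zero (F := F) B)
  have hπ : ∀ i a, π.1 * fac i a = fac (σ i) a * π.1 := by
    intro i a
    show permMat F k σ * piMat (Pi.mulSingle i a) = piMat (Pi.mulSingle (σ i) a) * permMat F k σ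
    rw [permMat_conj]
    congr 2
    funext j
    rw [Function.comp_apply]
    by_cases hj : j = σ i
    · subst hj; rw [Equiv.symm_apply_apply, Pi.mulSingle_eq_same, Pi.mulSingle_eq_same]
    · rw [Pi.mulSingle_eq_of_ne hj, Pi.mulSingle_eq_of_ne]
      rintro h; exact hj (by rw [← h, Equiv.apply_symm_apply])
  have hp : ∀ i a, p.1 * fac i a = fac i ((B i).1 * a * ((B i)⁻¹).1) * p.1 := by
    intro i a
    show piMat (fun i => (B i).1) * piMat (Pi.mulSingle i a) = piMat (Pi.mulSingle i ((B i).1 * a * ((B i)⁻¹).1)) * piMat (fun i => (B i).1)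
    rw [← piMat_mul, ← piMat_mul]
    congr 1
    funext j
    rw [Pi.mul_apply, Pi.mul_apply]
    by_cases hj : j = i
    · subst hj; rw [Pi.mulSingle_eq_same, Pi.mulSingle_eq_same, mul_assoc _ ((B j)⁻¹).1, inv_mul_val, mul_one]
    · rw [Pi.mulSingle_eq_of_ne hj, Pi.mulSingle_eq_of_ne hj, one_mul, mul_one]
  set c : GL (Fin t → Fin k) F := (π * p)⁻¹ * g with hc
  have hgc : g = π * p * c := by rw [hc, mul_inv_cancel_left]
  have hcc : ∀ i, Cmt ((std k t F).E i) c.1 := by
    intro i a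
    obtain ⟨D, hD⟩ : ∃ D, D = (std k t F).E (σ i) ((B i).1 * a * ((B i)⁻¹).1) := ⟨_, rfl⟩
    have h1 : (π * p).1 * (std k t F).E i a = D * (π * p).1 := by
      rw [hD]
      show π.1 * p.1 * fac i a = fac (σ i) ((B i).1 * a * ((B i)⁻¹).1) * (π.1 * p.1)
      rw [mul_assoc, hp, ← mul_assoc, hπ, mul_assoc]
    have h2 : (((π * p)⁻¹).1) * D = (std k t F).E i a * ((π * p)⁻¹).1 := by
      have h3 := congrArg (fun Z => ((π * p)⁻¹).1 * Z * ((π * p)⁻¹).1) h1
      beta_reduce at h3
      rw [← mul_assoc, inv_mul_val, one_mul] at h3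
      rw [h3, mul_assoc, mul_assoc, mul_inv_val, mul_one]
    have h4 := hB i a
    rw [← hD] at h4
    rw [hc, Units.val_mul, ← mul_assoc, ← h2, mul_assoc, ← h4, mul_assoc]
  obtain ⟨lam, hl⟩ := (std k t F).cent c.1 hcc
  have hl0 : lam ≠ 0 := by
    rintro rfl
    have := mul_inv_val c
    rw [hl, zero_smul, zero_mul] at this
    exact zero_ne_one this
  -- absorb the scalar into the first factor
  let i₀ : Fin t := ⟨0, ht⟩
  let u : Fˣ := Units.mk0 lam hl0
  let B' : Fin t → GL (Fin k) F := fun i => if i = i₀ then u • B i else B i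
  apply mem_tensorWreathStandard g σ B'
  rw [hgc, Units.val_mul, Units.val_mul, hl, mul_smul_comm, mul_one, ← mul_smul_comm]
  show permMat F k σ * (lam • piMat fun i => (B i).1) = permMat F k σ * piMat fun i => (B' i).1
  congr 1
  ext x y
  rw [Matrix.smul_apply, piMat_apply, piMat_apply, ← Finset.mul_prod_erase Finset.univ _ (Finset.mem_univ i₀),
    ← Finset.mul_prod_erase Finset.univ (fun i => (B' i).1 (x i) (y i)) (Finset.mem_univ i₀), smul_eq_mul, ← mul_assoc]
  have e1 : (B' i₀).1 (x i₀) (y i₀) = lam * (B i₀).1 (x i₀) (y i₀) := by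
    have : B' i₀ = u • B i₀ := if_pos rfl
    rw [this]; rfl
  have e2 : ∏ i ∈ Finset.univ.erase i₀, (B' i).1 (x i) (y i) = ∏ i ∈ Finset.univ.erase i₀, (B i).1 (x i) (y i) := by
    refine Finset.prod_congr rfl fun i hi => ?_
    have : B' i = B i := if_neg (Finset.ne_of_mem_erase hi)
    rw [this]
  rw [e1, e2]

lemma mon_of_pure {g : GL (Fin t → Fin k) F} (hg : Geo.IsPureTensor k t g) : g ∈ (std k t F).Mon Finset.univ := by
  obtain ⟨B, hB⟩ := hg
  have hg1 : g.1 = piMat (fun i => (B i).1) := by ext x y; exact hB x y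
  rw [Sys.mem_mon_univ]
  refine ⟨1, fun i => ⟨B i, fun a => ?_⟩⟩
  rw [hg1, Equiv.Perm.one_apply]
  show piMat (fun i => (B i).1) * piMat (Pi.mulSingle i a) = piMat (Pi.mulSingle i ((B i).1 * a * ((B i)⁻¹).1)) * piMat (fun i => (B i).1)
  rw [← piMat_mul, ← piMat_mul]
  congr 1
  funext j
  rw [Pi.mul_apply, Pi.mul_apply]
  by_cases hj : j = i
  · subst hj; rw [Pi.mulSingle_eq_same, Pi.mulSingle_eq_same, mul_assoc _ ((B j)⁻¹).1, inv_mul_val, mul_one]
  · rw [Pi.mulSingle_eq_of_ne hj, Pi.mulSingle_eq_of_ne hj, one_mul, mul_one]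

lemma mon_of_perm {g : GL (Fin t → Fin k) F} {σ : Equiv.Perm (Fin t)} (hg : g.1 = permMat F k σ) : (std k t F).Perms g σ := by
  intro i
  refine ⟨1, fun a => ?_⟩
  rw [inv_one, Units.val_one, one_mul, mul_one, hg]
  show permMat F k σ * piMat (Pi.mulSingle i a) = piMat (Pi.mulSingle (σ i) a) * permMat F k σ
  rw [permMat_conj]
  congr 2
  funext j
  rw [Function.comp_apply]
  by_cases hj : j = σ i
  · subst hj; rw [Equiv.symm_apply_apply, Pi.mulSingle_eq_same, Pi.mulSingle_eq_same]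
  · rw [Pi.mulSingle_eq_of_ne hj, Pi.mulSingle_eq_of_ne]
    rintro h; exact hj (by rw [← h, Equiv.apply_symm_apply])

theorem tws_le_mon : Geo.tensorWreathStandard k t F ≤ (std k t F).Mon Finset.univ := by
  rw [Geo.tensorWreathStandard, Subgroup.closure_le]
  rintro g (hg | ⟨σ, hg⟩)
  · exact mon_of_pure hg
  · exact Sys.mem_mon_univ.2 ⟨σ, mon_of_perm (by ext x y; exact hg x y)⟩

end Cfsg.Agent.Asch.CW
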