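import Mathlib
import Cfsg.Prelude.Def_GeometricClasses
import Cfsg.Agent.Asch.CWStd
set_option autoImplicit false
set_option linter.unusedSectionVars false
set_option linter.unusedVariables false
set_option linter.style.haveILetI false

/-!
Alternating forms on the factors.
-/

namespace Cfsg.Agent.Asch.CW

open Matrix Module

open scoped Matrix

/-- a nondegenerate alternating form on `F^k` -/
structure SpF (k : ℕ) (F : Type*) [Field F] where
  A : Matrix (Fin k) (Fin k) F
  A' : Matrix (Fin k) (Fin k) F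
  AA' : A * A' = 1
  A'A : A' * A = 1
  alt : ∀ u, u ⬝ᵥ (A *ᵥ u) = 0

namespace SpF

variable {k : ℕ} {F : Type*} [Field F] (φ : SpF k F)

/-- the form -/
def f (u v : Fin k → F) : F := u ⬝ᵥ (φ.A *ᵥ v)

/-- the row vector -/
def fr (u : Fin k → F) : Fin k → F := u ᵥ* φ.A

/-- the inverse of `fr` -/
def gr (u : Fin k → F) : Fin k → F := u ᵥ* φ.A'

lemma fr_dot (u v : Fin k → F) : φ.fr u ⬝ᵥ v = φ.f u v := by rw [fr, f, dotProduct_mulVec]
lemma f_self (u : Fin k → F) : φ.f u u = 0 := φ.alt u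
lemma f_add_left (u u' v : Fin k → F) : φ.f (u + u') v = φ.f u v + φ.f u' v := by rw [f, add_dotProduct]; rfl
lemma f_add_right (u v v' : Fin k → F) : φ.f u (v + v') = φ.f u v + φ.f u v' := by rw [f, mulVec_add, dotProduct_add]; rfl
lemma f_smul_left (c : F) (u v : Fin k → F) : φ.f (c • u) v = c * φ.f u v := by rw [f, smul_dotProduct]; rfl
lemma f_smul_right (c : F) (u v : Fin k → F) : φ.f u (c • v) = c * φ.f u v := by rw [f, mulVec_smul, dotProduct_smul]; rfl
lemma f_neg (u v : Fin k → F) : φ.f v u = - φ.f u v := by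
  have h := φ.f_self (u + v)
  rw [f_add_left, f_add_right, f_add_right, f_self, f_self, zero_add, add_zero] at h
  exact eq_neg_of_add_eq_zero_right h
lemma f_zero_left (v : Fin k → F) : φ.f 0 v = 0 := by rw [f, zero_dotProduct]
lemma f_zero_right (v : Fin k → F) : φ.f v 0 = 0 := by rw [f, mulVec_zero, dotProduct_zero]
lemma f_neg_left (u v : Fin k → F) : φ.f (-u) v = - φ.f u v := by rw [f, neg_dotProduct]; rfl
lemma f_neg_right (u v : Fin k → F) : φ.f u (-v) = - φ.f u v := by rw [f, mulVec_neg, dotProduct_neg]; rfl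
lemma f_sub_left (u u' v : Fin k → F) : φ.f (u - u') v = φ.f u v - φ.f u' v := by rw [sub_eq_add_neg, f_add_left, f_neg_left, sub_eq_add_neg]
lemma f_sub_right (u v v' : Fin k → F) : φ.f u (v - v') = φ.f u v - φ.f u v' := by rw [sub_eq_add_neg, f_add_right, f_neg_right, sub_eq_add_neg]
lemma f_zero_symm {u v : Fin k → F} (h : φ.f u v = 0) : φ.f v u = 0 := by rw [f_neg, h, neg_zero]

lemma fr_add (u v : Fin k → F) : φ.fr (u + v) = φ.fr u + φ.fr v := add_vecMul _ _ _
lemma fr_smul (c : F) (u : Fin k → F) : φ.fr (c • u) = c • φ.fr u := smul_vecMul _ _ _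
lemma fr_zero : φ.fr 0 = 0 := zero_vecMul _
lemma fr_neg (u : Fin k → F) : φ.fr (-u) = -φ.fr u := neg_vecMul _ _
lemma fr_gr (u : Fin k → F) : φ.fr (φ.gr u) = u := by rw [fr, gr, vecMul_vecMul, φ.A'A, vecMul_one]
lemma gr_fr (u : Fin k → F) : φ.gr (φ.fr u) = u := by rw [fr, gr, vecMul_vecMul, φ.AA', vecMul_one]

lemma fr_ne_zero {u : Fin k → F} (hu : u ≠ 0) : φ.fr u ≠ 0 := by
  intro h
  apply hu
  rw [← φ.gr_fr u, h, gr, zero_vecMul]

lemma exists_hyp {u : Fin k → F} (hu : u ≠ 0) : ∃ v, φ.f u v = 1 := by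
  obtain ⟨m, hm⟩ := Function.ne_iff.1 (φ.fr_ne_zero hu)
  refine ⟨(φ.fr u m)⁻¹ • Pi.single m 1, ?_⟩
  rw [← fr_dot, dotProduct_smul, dotProduct_single_one, smul_eq_mul, inv_mul_cancel₀ hm]

lemma eq_zero_of_f {u : Fin k → F} (h : ∀ v, φ.f u v = 0) : u = 0 := by
  by_contra hu
  obtain ⟨v, hv⟩ := φ.exists_hyp hu
  rw [h] at hv
  exact zero_ne_one hv

/-- elementary operators -/
def et (u v : Fin k → F) : Matrix (Fin k) (Fin k) F := vecMulVec u (φ.fr v)

lemma et_mul (u v x y : Fin k → F) : φ.et u v * φ.et x y = φ.f v x • φ.et u y := by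
  rw [et, et, vmv_mul, fr_dot]; rfl

lemma et_add_left (u u' v : Fin k → F) : φ.et (u + u') v = φ.et u v + φ.et u' v := by rw [et, et, et, add_vecMulVec]
lemma et_add_right (u v v' : Fin k → F) : φ.et u (v + v') = φ.et u v + φ.et u v' := by rw [et, et, et, fr_add, vecMulVec_add]
lemma et_smul_left (c : F) (u v : Fin k → F) : φ.et (c • u) v = c • φ.et u v := by rw [et, et, smul_vecMulVec]
lemma et_smul_right (c : F) (u v : Fin k → F) : φ.et u (c • v) = c • φ.et u v := by rw [et, et, fr_smul, vecMulVec_smul]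
lemma et_neg_left (u v : Fin k → F) : φ.et (-u) v = - φ.et u v := by rw [et, et, neg_vecMulVec]
lemma et_neg_right (u v : Fin k → F) : φ.et u (-v) = - φ.et u v := by rw [et, et, fr_neg, vecMulVec_neg]
lemma et_sub_left (u u' v : Fin k → F) : φ.et (u - u') v = φ.et u v - φ.et u' v := by rw [sub_eq_add_neg, et_add_left, et_neg_left, sub_eq_add_neg]
lemma et_sub_right (u v v' : Fin k → F) : φ.et u (v - v') = φ.et u v - φ.et u v' := by rw [sub_eq_add_neg, et_add_right, et_neg_right, sub_eq_add_neg]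
lemma et_zero_left (v : Fin k → F) : φ.et 0 v = 0 := by rw [et, zero_vecMulVec]
lemma et_zero_right (v : Fin k → F) : φ.et v 0 = 0 := by rw [et, fr_zero, vecMulVec_zero]

lemma et_ne_zero {u v : Fin k → F} (hu : u ≠ 0) (hv : v ≠ 0) : φ.et u v ≠ 0 := vmv_ne_zero hu (φ.fr_ne_zero hv)

lemma et_sq (u : Fin k → F) : φ.et u u * φ.et u u = 0 := by rw [et_mul, f_self, zero_smul]

/-- the adjoint -/
def star (a : Matrix (Fin k) (Fin k) F) : Matrix (Fin k) (Fin k) F := φ.A' * aᵀ * φ.A

lemma star_mul (a b : Matrix (Fin k) (Fin k) F) : φ.star (a * b) = φ.star b * φ.star a := by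
  rw [star, star, star, transpose_mul]
  calc φ.A' * (bᵀ * aᵀ) * φ.A = φ.A' * bᵀ * 1 * aᵀ * φ.A := by simp only [mul_assoc, one_mul]
    _ = _ := by rw [← φ.AA']; simp only [mul_assoc]

lemma star_add (a b : Matrix (Fin k) (Fin k) F) : φ.star (a + b) = φ.star a + φ.star b := by
  rw [star, star, star, transpose_add, mul_add, add_mul]

lemma star_smul (c : F) (a : Matrix (Fin k) (Fin k) F) : φ.star (c • a) = c • φ.star a := by
  rw [star, star, transpose_smul, mul_smul_comm, smul_mul_assoc]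

lemma star_neg (a : Matrix (Fin k) (Fin k) F) : φ.star (-a) = - φ.star a := by
  rw [star, star, transpose_neg, mul_neg, neg_mul]

lemma star_sub (a b : Matrix (Fin k) (Fin k) F) : φ.star (a - b) = φ.star a - φ.star b := by
  rw [sub_eq_add_neg, star_add, star_neg, sub_eq_add_neg]

lemma star_zero : φ.star 0 = 0 := by rw [star, transpose_zero, mul_zero, zero_mul]

lemma star_one : φ.star 1 = 1 := by rw [star, transpose_one, mul_one, φ.A'A]

lemma A_transpose : φ.Aᵀ = -φ.A := by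
  ext i j
  have h := φ.f_neg (Pi.single i 1) (Pi.single j 1)
  have h1 : ∀ i j, φ.f (Pi.single i 1) (Pi.single j 1) = φ.A i j := by
    intro i j
    rw [f, mulVec_single_one, single_one_dotProduct]; rfl
  rw [h1, h1] at h
  rw [transpose_apply, neg_apply]; exact h

lemma star_et (u v : Fin k → F) : φ.star (φ.et u v) = - φ.et v u := by
  rw [star, et, et, transpose_vecMulVec, mul_vecMulVec, vecMulVec_mul]
  have h1 : φ.A' *ᵥ φ.fr v = -v := by
    rw [fr]
    have : v ᵥ* φ.A = φ.Aᵀ *ᵥ v := (mulVec_transpose _ _).symm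
    rw [this, A_transpose, neg_mulVec, mulVec_neg, mulVec_mulVec, φ.A'A, one_mulVec]
  rw [h1, neg_vecMulVec]; rfl

lemma A'_transpose : φ.A'ᵀ = -φ.A' := by
  have h1 : φ.A'ᵀ * φ.Aᵀ = 1 := by rw [← transpose_mul, φ.AA', transpose_one]
  rw [A_transpose, mul_neg] at h1
  have h2 : φ.A'ᵀ * φ.A = -1 := by rw [← h1, neg_neg]
  calc φ.A'ᵀ = φ.A'ᵀ * (φ.A * φ.A') := by rw [φ.AA', mul_one]
    _ = _ := by rw [← mul_assoc, h2, neg_mul, one_mul]

lemma star_star (a : Matrix (Fin k) (Fin k) F) : φ.star (φ.star a) = a := by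
  rw [star, star, transpose_mul, transpose_mul, transpose_transpose, A_transpose, A'_transpose]
  calc φ.A' * (-φ.A * (a * -φ.A')) * φ.A = (φ.A' * φ.A) * a * (φ.A' * φ.A) := by noncomm_ring
    _ = a := by rw [φ.A'A, one_mul, mul_one]

lemma vmv_eq_et (u ψ : Fin k → F) : vecMulVec u ψ = φ.et u (φ.gr ψ) := by rw [et, fr_gr]

/-- span -/
lemma et_induction {P : Matrix (Fin k) (Fin k) F → Prop} (h0 : P 0) (hadd : ∀ a b, P a → P b → P (a + b)) (h : ∀ u v, P (φ.et u v)) (a : Matrix (Fin k) (Fin k) F) :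
    P a := by
  rw [matrix_eq_sum_single a]
  refine Finset.sum_induction _ P hadd h0 fun i _ => Finset.sum_induction _ P hadd h0 fun j _ => ?_
  have : single i j (a i j) = vecMulVec (Pi.single i (a i j)) (Pi.single j 1) := by
    rw [show (Pi.single i (a i j) : Fin k → F) = a i j • Pi.single i 1 by rw [← Pi.single_smul, smul_eq_mul, mul_one], smul_vecMulVec, ← single_eq_vmv,
      smul_single, smul_eq_mul, mul_one]
  rw [this, vmv_eq_et]
  exact h _ _

/-- the transvection -/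
def tv (c : F) (y u : Fin k → F) : Fin k → F := u + (c * φ.f y u) • y

lemma f_tv (c : F) (y u v : Fin k → F) : φ.f (φ.tv c y u) (φ.tv c y v) = φ.f u v := by
  rw [tv, tv, f_add_left, f_add_right, f_add_right, f_smul_left, f_smul_left, f_smul_right, f_smul_right, f_self, φ.f_neg y u]
  ring

lemma tv_tv (c : F) (y u : Fin k → F) : φ.tv c y (φ.tv (-c) y u) = u := by
  rw [tv, tv, f_add_right, f_smul_right, f_self, mul_zero, add_zero, add_assoc, ← add_smul]
  have : -c * φ.f y u + c * φ.f y u = 0 := by ring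
  rw [this, zero_smul, add_zero]

lemma et_conj (c : F) (y u v : Fin k → F) :
    (1 + c • φ.et y y) * φ.et u v * (1 - c • φ.et y y) = φ.et (φ.tv c y u) (φ.tv c y v) := by
  have e1 : (1 + c • φ.et y y) * φ.et u v = φ.et (φ.tv c y u) v := by
    rw [add_mul, one_mul, smul_mul_assoc, et_mul, smul_smul, tv, et_add_left, et_smul_left]
  have h2 : φ.tv c y v = v + (c * φ.f y v) • y := rfl
  rw [e1, mul_sub, mul_one, mul_smul_comm, et_mul, smul_smul, h2, et_add_right, et_smul_right, φ.f_neg y v, mul_neg, neg_smul, sub_neg_eq_add]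

/-- transitivity on nonzero vectors -/
lemma move_all {P : (Fin k → F) → Prop} (hP : ∀ c y u, P u → P (φ.tv c y u)) {u : Fin k → F} (hu : u ≠ 0) (h : P u) {v : Fin k → F} (hv : v ≠ 0) : P v := by
  have step : ∀ {a b : Fin k → F}, φ.f a b ≠ 0 → P a → P b := by
    intro a b hab ha
    have h1 := hP (φ.f b a)⁻¹ (b - a) a ha
    have hba : φ.f b a ≠ 0 := by rw [φ.f_neg a b]; exact neg_ne_zero.2 hab
    have h2 : φ.tv (φ.f b a)⁻¹ (b - a) a = b := by
      rw [tv, f_sub_left, f_self, sub_zero, inv_mul_cancel₀ hba, one_smul, add_sub_cancel]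
    rwa [h2] at h1
  obtain ⟨w, hw1, hw2⟩ : ∃ w, φ.f u w ≠ 0 ∧ φ.f w v ≠ 0 := by
    obtain ⟨a, ha⟩ := φ.exists_hyp hu
    obtain ⟨b, hb⟩ := φ.exists_hyp hv
    by_cases h1 : φ.f a v = 0
    · by_cases h2 : φ.f u b = 0
      · refine ⟨a + b, ?_, ?_⟩
        · rw [f_add_right, ha, h2, add_zero]; exact one_ne_zero
        · rw [f_add_left, h1, zero_add, φ.f_neg, hb]; exact neg_ne_zero.2 one_ne_zero
      · exact ⟨b, h2, by rw [φ.f_neg, hb]; exact neg_ne_zero.2 one_ne_zero⟩
    · exact ⟨a, by rw [ha]; exact one_ne_zero, h1⟩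
  exact step hw2 (step hw1 h)

/-- separating two vectors -/
lemma exists_sep {u v : Fin k → F} (h : v ∉ Submodule.span F {u}) : ∃ z, φ.f u z = 0 ∧ φ.f v z = 1 := by
  have h1 : φ.fr v ∉ Submodule.span F {φ.fr u} := by
    intro h2
    obtain ⟨c, hc⟩ := Submodule.mem_span_singleton.1 h2
    apply h
    rw [← φ.gr_fr v, ← hc, gr, smul_vecMul]
    exact Submodule.smul_mem _ _ (by
      have : φ.fr u ᵥ* φ.A' = u := φ.gr_fr u
      rw [this]; exact Submodule.mem_span_singleton_self u)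
  obtain ⟨z, hz1, hz2⟩ := exists_row_sep h1
  refine ⟨z, ?_, ?_⟩
  · rw [← fr_dot, dotProduct_comm]; exact hz1
  · rw [← fr_dot, dotProduct_comm]; exact hz2

end SpF

end Cfsg.Agent.Asch.CW
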