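import Mathlib
import Cfsg.Prelude.Def_GeometricClasses
import Cfsg.Agent.Asch.CSBase
set_option autoImplicit false
set_option linter.unusedSectionVars false
set_option linter.unusedVariables false
set_option linter.style.haveILetI false

/-!
Symplectic root elements and coefficient spaces.
-/

namespace Cfsg.Agent.Asch.CW

open Matrix Module

open scoped Matrix

section mem

variable {ι : Type} [Fintype ι] [DecidableEq ι] {F : Type*} [Field F] {K : Subgroup (GL ι F)}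

/-- the commutator of two square zero elements -/
lemma Mem1.comm2 {X Y : Matrix ι ι F} (hX : Mem1 K X) (hY : Mem1 K Y) (hX2 : X * X = 0) (hY2 : Y * Y = 0) (hXYX : X * Y * X = 0) (hYXY : Y * X * Y = 0) :
    Mem1 K (X * Y - Y * X) := by
  obtain ⟨x, hx, hxX⟩ := hX
  obtain ⟨y, hy, hyY⟩ := hY
  refine ⟨x * y * (x⁻¹ * y⁻¹), K.mul_mem (K.mul_mem hx hy) (K.mul_mem (K.inv_mem hx) (K.inv_mem hy)), ?_⟩
  rw [Units.val_mul, Units.val_mul, Units.val_mul, Mem1.inv_eq hxX hX2, Mem1.inv_eq hyY hY2, hxX, hyY]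
  have h1 : (1 + X) * (1 + Y) * ((1 - X) * (1 - Y)) = 1 + (X * Y - Y * X) - X * X - Y * Y + X * X * Y - X * Y * X - Y * (X) * (0) + Y * X * Y + X * (Y * X * Y) - X * (Y * Y) + 0 := by
    noncomm_ring
  rw [h1, hX2, hY2, hXYX, hYXY]
  simp

/-- products -/
lemma Mem1.mul {X Y : Matrix ι ι F} (hX : Mem1 K X) (hY : Mem1 K Y) : Mem1 K (X + Y + X * Y) := by
  obtain ⟨x, hx, hxX⟩ := hX
  obtain ⟨y, hy, hyY⟩ := hY
  refine ⟨x * y, K.mul_mem hx hy, ?_⟩
  rw [Units.val_mul, hxX, hyY]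
  noncomm_ring

/-- conjugation by a square zero element -/
lemma Mem1.cj {X Y : Matrix ι ι F} (hX : Mem1 K X) (hY : Mem1 K Y) (hX2 : X * X = 0) : Mem1 K ((1 + X) * Y * (1 - X)) := by
  obtain ⟨x, hx, hxX⟩ := hX
  have := hY.conj' hx
  rwa [Mem1.inv_eq hxX hX2, hxX] at this

end mem

section co

variable {k : ℕ} {ι : Type} [Fintype ι] [DecidableEq ι] {F : Type*} [Field F] {E : Matrix (Fin k) (Fin k) F →ₐ[F] Matrix ι ι F}
  {φ : SpF k F} {K : Subgroup (GL ι F)}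

/-- all symplectic roots -/
def RootsS (φ : SpF k F) (E : Matrix (Fin k) (Fin k) F →ₐ[F] Matrix ι ι F) (K : Subgroup (GL ι F)) : Prop :=
  ∀ (c : F) (u : Fin k → F), Mem1 K (E (c • φ.et u u))

/-- the coefficients are scalars -/
def CoefS (φ : SpF k F) (E : Matrix (Fin k) (Fin k) F →ₐ[F] Matrix ι ι F) (K : Subgroup (GL ι F)) : Prop :=
  ∀ u : Fin k → F, u ≠ 0 → ∀ A, Cmt E A → Mem1 K (E (φ.et u u) * A) → ∃ c : F, A = c • (1 : Matrix ι ι F)

lemma E_mul_A {A A' : Matrix ι ι F} (hA : Cmt E A) (a b : Matrix (Fin k) (Fin k) F) : E a * A * (E b * A') = E (a * b) * (A * A') := by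
  calc E a * A * (E b * A') = E a * (A * E b) * A' := by simp only [mul_assoc]
    _ = (E a * E b) * (A * A') := by rw [← hA]; simp only [mul_assoc]
    _ = _ := by rw [← map_mul]

lemma E_mul_A' (a b : Matrix (Fin k) (Fin k) F) (A : Matrix ι ι F) : E a * (E b * A) = E (a * b) * A := by
  rw [← mul_assoc, ← map_mul]

lemma E_A_mul {A : Matrix ι ι F} (hA : Cmt E A) (a b : Matrix (Fin k) (Fin k) F) : E a * A * E b = E (a * b) * A := by
  rw [mul_assoc, ← hA, ← mul_assoc, ← map_mul]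

lemma E_A_sq {A : Matrix ι ι F} (hA : Cmt E A) {a : Matrix (Fin k) (Fin k) F} (ha : a * a = 0) : E a * A * (E a * A) = 0 := by
  rw [E_mul_A hA, ha, map_zero, zero_mul]

lemma cet_sq (φ : SpF k F) (c : F) (u : Fin k → F) : (c • φ.et u u) * (c • φ.et u u) = 0 := by
  rw [smul_mul_smul_comm, φ.et_sq, smul_zero]

lemma E_sq {a : Matrix (Fin k) (Fin k) F} (ha : a * a = 0) : E a * E a = 0 := by rw [← map_mul, ha, map_zero]

/-- conjugation of a coefficient element by a root -/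
lemma mem_conj_root (hR : RootsS φ E K) {a : Matrix (Fin k) (Fin k) F} {A : Matrix ι ι F} (hA : Cmt E A) (h : Mem1 K (E a * A)) (c : F) (y : Fin k → F) :
    Mem1 K (E ((1 + c • φ.et y y) * a * (1 - c • φ.et y y)) * A) := by
  have h1 := (hR c y).cj h (E_sq (cet_sq φ c y))
  convert h1 using 1
  rw [map_mul, map_mul, map_add, map_sub, map_one]
  have h2 : A * (1 - E (c • φ.et y y)) = (1 - E (c • φ.et y y)) * A := by rw [sub_mul, mul_sub, one_mul, mul_one, hA]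
  calc (1 + E (c • φ.et y y)) * E a * (1 - E (c • φ.et y y)) * A = (1 + E (c • φ.et y y)) * E a * ((1 - E (c • φ.et y y)) * A) := by
        simp only [mul_assoc]
    _ = _ := by rw [← h2]; simp only [mul_assoc]

lemma mem_move (hR : RootsS φ E K) {u v : Fin k → F} {A : Matrix ι ι F} (hA : Cmt E A) (h : Mem1 K (E (φ.et u v) * A)) (c : F) (y : Fin k → F) :
    Mem1 K (E (φ.et (φ.tv c y u) (φ.tv c y v)) * A) := by
  rw [← φ.et_conj]; exact mem_conj_root hR hA h c y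

/-- the coefficient space -/
def coS (φ : SpF k F) (E : Matrix (Fin k) (Fin k) F →ₐ[F] Matrix ι ι F) (K : Subgroup (GL ι F)) : Submodule F (Matrix ι ι F) where
  carrier := {A | Cmt E A ∧ ∀ (c : F) (u : Fin k → F), Mem1 K (E (c • φ.et u u) * A)}
  add_mem' := fun {A B} ⟨h1, h2⟩ ⟨h3, h4⟩ => ⟨h1.add h3, fun c u => by
    rw [mul_add]
    exact (h2 c u).add (h4 c u) (by rw [E_mul_A h1, cet_sq, map_zero, zero_mul])⟩
  zero_mem' := ⟨Cmt.zero, fun c u => by rw [mul_zero]; exact mem1_zero⟩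
  smul_mem' := fun c' A ⟨h1, h2⟩ => ⟨h1.smul c', fun c u => by
    have := h2 (c' * c) u
    rw [mul_smul, map_smul, smul_mul_assoc] at this
    rw [mul_smul_comm]; exact this⟩

lemma one_mem_coS (hR : RootsS φ E K) : (1 : Matrix ι ι F) ∈ coS φ E K := ⟨Cmt.one, fun c u => by rw [mul_one]; exact hR c u⟩

lemma mem_sq_all (hR : RootsS φ E K) {u : Fin k → F} (hu : u ≠ 0) {A : Matrix ι ι F} (hA : Cmt E A) (h : Mem1 K (E (φ.et u u) * A)) (v : Fin k → F) :
    Mem1 K (E (φ.et v v) * A) := by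
  by_cases hv : v = 0
  · rw [hv, φ.et_zero_left, map_zero, zero_mul]; exact mem1_zero
  · exact φ.move_all (P := fun v => Mem1 K (E (φ.et v v) * A)) (fun c y u h => mem_move hR hA h c y) hu h hv

lemma exists_sq_sub (h2 : (2 : F) ≠ 0) (c : F) : ∃ x y : F, c = x * x - y * y := by
  refine ⟨(c + 1) / 2, (c - 1) / 2, ?_⟩
  field_simp
  ring

/-- one coefficient element suffices -/
lemma coS_of (h2 : (2 : F) ≠ 0) (hR : RootsS φ E K) {u : Fin k → F} (hu : u ≠ 0) {A : Matrix ι ι F} (hA : Cmt E A) (h : Mem1 K (E (φ.et u u) * A)) : A ∈ coS φ E K := by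
  refine ⟨hA, fun c v => ?_⟩
  obtain ⟨x, y, hc⟩ := exists_sq_sub h2 c
  have h1 := mem_sq_all hR hu hA h (x • v)
  have h3 := mem_sq_all hR hu hA h (y • v)
  have e1 : ∀ x : F, φ.et (x • v) (x • v) = (x * x) • φ.et v v := fun x => by rw [φ.et_smul_left, φ.et_smul_right, smul_smul]
  rw [e1] at h1 h3
  have h4 := h3.neg (E_A_sq hA (cet_sq φ _ v))
  have h5 := h1.add h4 (by
    rw [mul_neg, E_mul_A hA, smul_mul_smul_comm, φ.et_sq, smul_zero, map_zero, zero_mul, neg_zero])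
  convert h5 using 1
  rw [hc, sub_smul, map_sub, sub_mul, sub_eq_add_neg]

lemma coefS_iff (h2 : (2 : F) ≠ 0) (hR : RootsS φ E K) [Nonempty (Fin k)] : CoefS φ E K ↔ ∀ A ∈ coS φ E K, ∃ c : F, A = c • (1 : Matrix ι ι F) := by
  constructor
  · intro h A hA
    obtain ⟨m⟩ := ‹Nonempty (Fin k)›
    have h3 := hA.2 1 (Pi.single m 1)
    rw [one_smul] at h3
    exact h _ (by intro h0; have := congrFun h0 m; rw [Pi.single_eq_same] at this; exact one_ne_zero this) A hA.1 h3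
  · intro h u hu A hA hm
    exact h A (coS_of h2 hR hu hA hm)

/-- coefficients are closed under conjugation by commuting elements of `K` -/
lemma coS_conj {A : Matrix ι ι F} (hA : A ∈ coS φ E K) {g : GL ι F} (hg : g ∈ K) (hgc : Cmt E g.1) : g.1 * A * (g⁻¹).1 ∈ coS φ E K := by
  have hgi : Cmt E (g⁻¹).1 := Sys.cmt_mul_inv hgc
  refine ⟨(hgc.mul hA.1).mul hgi, fun c u => ?_⟩
  have h1 := (hA.2 c u).conj' hg
  convert h1 using 1
  rw [← mul_assoc, ← mul_assoc, ← mul_assoc, hgc]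

/-- the operators `D(u, v)` -/
def SpF.D (φ : SpF k F) (u v : Fin k → F) : Matrix (Fin k) (Fin k) F := φ.et u v + φ.et v u

/-- the operators `W(u, v)` -/
def SpF.W (φ : SpF k F) (u v : Fin k → F) : Matrix (Fin k) (Fin k) F := φ.et u v - φ.et v u

lemma SpF.D_eq (φ : SpF k F) (u v : Fin k → F) : φ.D u v = φ.et (u + v) (u + v) - φ.et u u - φ.et v v := by
  rw [SpF.D, φ.et_add_left, φ.et_add_right, φ.et_add_right]; abel

lemma SpF.D_sq (φ : SpF k F) {u v : Fin k → F} (h : φ.f u v = 0) : φ.D u v * φ.D u v = 0 := by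
  rw [SpF.D, add_mul, mul_add, mul_add, φ.et_mul, φ.et_mul, φ.et_mul, φ.et_mul, φ.f_self, φ.f_self, h, φ.f_zero_symm h]; simp

lemma SpF.W_sq (φ : SpF k F) {u v : Fin k → F} (h : φ.f u v = 0) : φ.W u v * φ.W u v = 0 := by
  rw [SpF.W, sub_mul, mul_sub, mul_sub, φ.et_mul, φ.et_mul, φ.et_mul, φ.et_mul, φ.f_self, φ.f_self, h, φ.f_zero_symm h]; simp

lemma mem_D {A : Matrix ι ι F} (hA : A ∈ coS φ E K) {u v : Fin k → F} (h : φ.f u v = 0) (c : F) : Mem1 K (E (c • φ.D u v) * A) := by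
  have h1 := hA.2 c (u + v)
  have h2 := (hA.2 (-c) u)
  have h3 := (hA.2 (-c) v)
  have z1 : φ.et (u + v) (u + v) * φ.et u u = 0 := by
    rw [φ.et_mul, φ.f_add_left, φ.f_self, φ.f_zero_symm h, add_zero, zero_smul]
  have z2 : φ.et (u + v) (u + v) * φ.et v v = 0 := by
    rw [φ.et_mul, φ.f_add_left, φ.f_self, h, add_zero, zero_smul]
  have z3 : φ.et u u * φ.et v v = 0 := by rw [φ.et_mul, h, zero_smul]
  have h4 := h1.add h2 (by rw [E_mul_A hA.1, smul_mul_smul_comm, z1, smul_zero, map_zero, zero_mul])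
  have h5 := h4.add h3 (by
    rw [add_mul, E_mul_A hA.1, E_mul_A hA.1, smul_mul_smul_comm, smul_mul_smul_comm, z2, z3, smul_zero, smul_zero, map_zero, zero_mul, add_zero])
  convert h5 using 1
  rw [φ.D_eq, smul_sub, smul_sub, map_sub, map_sub, neg_smul, neg_smul, map_neg, map_neg]
  noncomm_ring

/-- Jordan products -/
lemma coS_jordan (h2 : (2 : F) ≠ 0) (hk : 4 ≤ k) (hR : RootsS φ E K) {A B : Matrix ι ι F} (hA : A ∈ coS φ E K) (hB : B ∈ coS φ E K) : A * B + B * A ∈ coS φ E K := by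
  obtain ⟨u, z, z', hu, h1, h3, h4⟩ : ∃ u z z' : Fin k → F, u ≠ 0 ∧ φ.f u z = 0 ∧ φ.f u z' = 0 ∧ φ.f z z' = 1 := by
    set u : Fin k → F := Pi.single ⟨0, by omega⟩ 1 with hu
    have hu0 : u ≠ 0 := by intro h0; have := congrFun h0 ⟨0, by omega⟩; rw [hu, Pi.single_eq_same] at this; exact one_ne_zero this
    obtain ⟨v, huv⟩ := φ.exists_hyp hu0
    -- a vector orthogonal to u and v
    obtain ⟨z, hz0, hzu, hzv⟩ := exists_row_zero (F := F) (by rw [Fintype.card_fin]; omega : 3 ≤ Fintype.card (Fin k)) (φ.fr u) (φ.fr v)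
    have hzu' : φ.f u z = 0 := by rw [← φ.fr_dot, dotProduct_comm]; exact hzu
    have hzv' : φ.f v z = 0 := by rw [← φ.fr_dot, dotProduct_comm]; exact hzv
    obtain ⟨w, hw⟩ := φ.exists_hyp hz0
    refine ⟨u, z, w - φ.f u w • v, hu0, hzu', ?_, ?_⟩
    · rw [φ.f_sub_right, φ.f_smul_right, huv, mul_one, sub_self]
    · rw [φ.f_sub_right, φ.f_smul_right, hw, φ.f_zero_symm hzv', mul_zero, sub_zero]
  have hX := mem_D hA h1 1
  have hY := mem_D hB h3 1
  rw [one_smul] at hX hY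
  have e1 : φ.D u z * φ.D u z' = φ.et u u := by
    rw [SpF.D, SpF.D, add_mul, mul_add, mul_add, φ.et_mul, φ.et_mul, φ.et_mul, φ.et_mul, φ.f_self, h3, h4, φ.f_zero_symm h1]; simp
  have e2 : φ.D u z' * φ.D u z = - φ.et u u := by
    rw [SpF.D, SpF.D, add_mul, mul_add, mul_add, φ.et_mul, φ.et_mul, φ.et_mul, φ.et_mul, φ.f_self, h1, φ.f_neg z z', h4, φ.f_zero_symm h3]; simp
  have e3 : φ.et u u * φ.D u z = 0 := by rw [SpF.D, mul_add, φ.et_mul, φ.et_mul, φ.f_self, h1]; simp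
  have e4 : φ.et u u * φ.D u z' = 0 := by rw [SpF.D, mul_add, φ.et_mul, φ.et_mul, φ.f_self, h3]; simp
  have h5 := hX.comm2 hY (E_A_sq hA.1 (φ.D_sq h1)) (E_A_sq hB.1 (φ.D_sq h3))
    (by rw [E_mul_A hA.1, e1, E_mul_A (hA.1.mul hB.1), e3, map_zero, zero_mul])
    (by rw [E_mul_A hB.1, e2, E_mul_A (hB.1.mul hA.1), neg_mul, e4, neg_zero, map_zero, zero_mul])
  rw [E_mul_A hA.1, E_mul_A hB.1, e1, e2, map_neg, neg_mul, sub_neg_eq_add, ← mul_add] at h5
  exact coS_of h2 hR hu ((hA.1.mul hB.1).add (hB.1.mul hA.1)) h5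

/-- products of commuting square zero coefficients -/
lemma coS_mul (h2 : (2 : F) ≠ 0) (hk : 0 < k) (hR : RootsS φ E K) {A B : Matrix ι ι F} (hA : A ∈ coS φ E K) (hB : B ∈ coS φ E K) (hAB : A * B = B * A)
    (hA2 : A * A = 0) (hB2 : B * B = 0) : A * B ∈ coS φ E K := by
  set u : Fin k → F := Pi.single ⟨0, hk⟩ 1 with hu
  have hu0 : u ≠ 0 := by intro h0; have := congrFun h0 ⟨0, hk⟩; rw [hu, Pi.single_eq_same] at this; exact one_ne_zero this
  obtain ⟨v, huv⟩ := φ.exists_hyp hu0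
  have hX := hA.2 1 u
  have hY := hB.2 1 v
  rw [one_smul] at hX hY
  have hABA : A * B * A = 0 := by rw [hAB, mul_assoc, hA2, mul_zero]
  have hBAB : B * A * B = 0 := by rw [← hAB, mul_assoc, hB2, mul_zero]
  have hABAB : A * B * (A * B) = 0 := by rw [← mul_assoc, hABA, zero_mul]
  have hc := hA.1.mul hB.1
  have h5 := hX.comm2 hY (E_A_sq hA.1 (φ.et_sq u)) (E_A_sq hB.1 (φ.et_sq v))
    (by rw [E_mul_A hA.1, E_mul_A hc, hABA, mul_zero])
    (by rw [E_mul_A hB.1, E_mul_A (hB.1.mul hA.1), hBAB, mul_zero])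
  rw [E_mul_A hA.1, E_mul_A hB.1, φ.et_mul, φ.et_mul, huv, φ.f_neg u v, huv, one_smul, neg_smul, one_smul, map_neg, neg_mul, sub_neg_eq_add, ← hAB, ← add_mul,
    ← map_add] at h5
  have h6 := mem_conj_root hR hc h5 1 u
  have h7 := h5.neg (by rw [E_mul_A hc, hABAB, mul_zero])
  have h8 := h6.add h7 (by rw [mul_neg, E_mul_A hc, hABAB, mul_zero, neg_zero])
  have h9 : (1 + (1 : F) • φ.et u u) * (φ.et u v + φ.et v u) * (1 - (1 : F) • φ.et u u) = (φ.et u v + φ.et v u) + (2 : F) • φ.et u u := by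
    rw [mul_add, add_mul, φ.et_conj, φ.et_conj]
    have t1 : φ.tv 1 u u = u := by rw [SpF.tv, φ.f_self, mul_zero, zero_smul, add_zero]
    have t2 : φ.tv 1 u v = v + u := by rw [SpF.tv, huv, mul_one, one_smul]
    rw [t1, t2, φ.et_add_left, φ.et_add_right, two_smul]; abel
  rw [h9, map_add, add_mul, add_neg_cancel_comm, map_smul, smul_mul_assoc, ← mul_smul_comm] at h8
  have h10 := coS_of h2 hR hu0 (hc.smul 2) h8
  have := (coS φ E K).smul_mem (2 : F)⁻¹ h10
  rwa [smul_smul, inv_mul_cancel₀ h2, one_smul] at this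

end co

end Cfsg.Agent.Asch.CW
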