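import Mathlib
import Cfsg.Prelude.Def_GeometricClasses
import Cfsg.Agent.Asch.CSMem
set_option autoImplicit false
set_option linter.unusedSectionVars false
set_option linter.unusedVariables false
set_option linter.style.haveILetI false

/-!
Invariant spaces and extraction of atoms.
-/

namespace Cfsg.Agent.Asch.CW

open Matrix Module

open scoped Matrix

section ctr

variable {k : ℕ} {ι : Type} [Fintype ι] [DecidableEq ι] {F : Type*} [Field F] {E : Matrix (Fin k) (Fin k) F →ₐ[F] Matrix ι ι F} {φ : SpF k F}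

/-- the block with respect to the form -/
def cb (φ : SpF k F) (E : Matrix (Fin k) (Fin k) F →ₐ[F] Matrix ι ι F) (u v : Fin k → F) (Z : Matrix ι ι F) : Matrix ι ι F := ctr E (φ.fr u) v Z

lemma cb_cmt (u v : Fin k → F) (Z : Matrix ι ι F) : Cmt E (cb φ E u v Z) := ctr_cmt _ _ _

/-- `et x u * Z * et v y = et x y * cb u v Z` -/
lemma E_cb (u v x y : Fin k → F) (Z : Matrix ι ι F) : E (φ.et x u) * Z * E (φ.et v y) = E (φ.et x y) * cb φ E u v Z := (E_mul_ctr _ _ _ _ _).symm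

lemma cb_add_left (u u' v : Fin k → F) (Z : Matrix ι ι F) : cb φ E (u + u') v Z = cb φ E u v Z + cb φ E u' v Z := by
  rw [cb, cb, cb, ctr, ctr, ctr, ← Finset.sum_add_distrib]
  refine Finset.sum_congr rfl fun r _ => ?_
  rw [φ.fr_add, vecMulVec_add, map_add, add_mul, add_mul]

lemma cb_add_right (u v v' : Fin k → F) (Z : Matrix ι ι F) : cb φ E u (v + v') Z = cb φ E u v Z + cb φ E u v' Z := by
  rw [cb, cb, cb, ctr, ctr, ctr, ← Finset.sum_add_distrib]
  refine Finset.sum_congr rfl fun r _ => ?_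
  rw [add_vecMulVec, map_add, mul_add]

lemma cb_smul_left (c : F) (u v : Fin k → F) (Z : Matrix ι ι F) : cb φ E (c • u) v Z = c • cb φ E u v Z := by
  rw [cb, cb, ctr, ctr, Finset.smul_sum]
  refine Finset.sum_congr rfl fun r _ => ?_
  rw [φ.fr_smul, vecMulVec_smul, map_smul, smul_mul_assoc, smul_mul_assoc]

lemma cb_smul_right (c : F) (u v : Fin k → F) (Z : Matrix ι ι F) : cb φ E u (c • v) Z = c • cb φ E u v Z := by
  rw [cb, cb, ctr, ctr, Finset.smul_sum]
  refine Finset.sum_congr rfl fun r _ => ?_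
  rw [smul_vecMulVec, map_smul, mul_smul_comm]

lemma cb_zero (u v : Fin k → F) : cb φ E u v 0 = 0 := by
  rw [cb, ctr]; exact Finset.sum_eq_zero fun r _ => by rw [mul_zero, zero_mul]

lemma cb_add (u v : Fin k → F) (Z Z' : Matrix ι ι F) : cb φ E u v (Z + Z') = cb φ E u v Z + cb φ E u v Z' := by
  rw [cb, cb, cb, ctr, ctr, ctr, ← Finset.sum_add_distrib]
  refine Finset.sum_congr rfl fun r _ => ?_
  rw [mul_add, add_mul]

lemma cb_smul (c : F) (u v : Fin k → F) (Z : Matrix ι ι F) : cb φ E u v (c • Z) = c • cb φ E u v Z := by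
  rw [cb, cb, ctr, ctr, Finset.smul_sum]
  refine Finset.sum_congr rfl fun r _ => ?_
  rw [mul_smul_comm, smul_mul_assoc]

lemma cb_neg (u v : Fin k → F) (Z : Matrix ι ι F) : cb φ E u v (-Z) = -cb φ E u v Z := by
  rw [← neg_one_smul F, cb_smul, neg_one_smul]

lemma cb_sub (u v : Fin k → F) (Z Z' : Matrix ι ι F) : cb φ E u v (Z - Z') = cb φ E u v Z - cb φ E u v Z' := by
  rw [sub_eq_add_neg, cb_add, cb_neg, sub_eq_add_neg]

lemma cb_single (l m : Fin k) (Z : Matrix ι ι F) : cb φ E (φ.gr (Pi.single l 1)) (Pi.single m 1) Z = blk E Z l m := by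
  rw [cb, φ.fr_gr, ctr, blk]
  refine Finset.sum_congr rfl fun r _ => ?_
  rw [single_eq_vmv, single_eq_vmv]

lemma cb_ext {Z Z' : Matrix ι ι F} (h : ∀ u v, cb φ E u v Z = cb φ E u v Z') : Z = Z' := by
  apply blk_ext E
  intro l m
  rw [← cb_single (φ := φ), ← cb_single (φ := φ)]
  exact h _ _

lemma cb_E_mul (u v : Fin k → F) (a : Matrix (Fin k) (Fin k) F) {A : Matrix ι ι F} (hA : Cmt E A) : cb φ E u v (E a * A) = (φ.fr u ⬝ᵥ (a *ᵥ v)) • A := by
  rw [cb, ctr]
  have h1 : ∀ r : Fin k, E (vecMulVec (Pi.single r 1) (φ.fr u)) * (E a * A) * E (vecMulVec v (Pi.single r 1)) =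
      (φ.fr u ⬝ᵥ (a *ᵥ v)) • (E (vecMulVec (Pi.single r 1) (Pi.single r 1)) * A) := by
    intro r
    calc E (vecMulVec (Pi.single r 1) (φ.fr u)) * (E a * A) * E (vecMulVec v (Pi.single r 1)) =
        E (vecMulVec (Pi.single r 1) (φ.fr u)) * E a * (A * E (vecMulVec v (Pi.single r 1))) := by simp only [mul_assoc]
      _ = E (vecMulVec (Pi.single r 1) (φ.fr u) * a * vecMulVec v (Pi.single r 1)) * A := by rw [← hA, map_mul, map_mul]; simp only [mul_assoc]
      _ = _ := by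
        rw [vecMulVec_mul, vmv_mul, ← dotProduct_mulVec, map_smul, smul_mul_assoc]
  simp only [h1]
  rw [← Finset.smul_sum, ← Finset.sum_mul, ← map_sum, ← one_eq_sum_vmv, map_one, one_mul]

lemma et_mulVec (φ : SpF k F) (x y v : Fin k → F) : φ.et x y *ᵥ v = φ.f y v • x := by
  rw [SpF.et, vecMulVec_mulVec, φ.fr_dot]; funext i; simp [mul_comm]

lemma cb_et (u v x y : Fin k → F) {A : Matrix ι ι F} (hA : Cmt E A) : cb φ E u v (E (φ.et x y) * A) = (φ.f u x * φ.f y v) • A := by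
  rw [cb_E_mul u v _ hA, et_mulVec, dotProduct_smul, φ.fr_dot, smul_eq_mul, mul_comm]

lemma cb_of_cmt (u v : Fin k → F) {A : Matrix ι ι F} (hA : Cmt E A) : cb φ E u v A = φ.f u v • A := by
  have := cb_E_mul (φ := φ) u v 1 hA
  rwa [map_one, one_mul, one_mulVec, φ.fr_dot] at this

/-- an element with blocks proportional to the form commutes with the factor -/
lemma cmt_of_cb {Z : Matrix ι ι F} (h : ∀ u v, φ.f u v = 0 → cb φ E u v Z = 0) : Cmt E Z := by
  by_cases hk : k = 0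
  · subst hk
    intro a
    have : a = 0 := by ext i; exact i.elim0
    rw [this, map_zero, zero_mul, mul_zero]
  set u₀ : Fin k → F := Pi.single ⟨0, by omega⟩ 1 with hu₀
  have hu0 : u₀ ≠ 0 := by intro h0; have := congrFun h0 ⟨0, by omega⟩; rw [hu₀, Pi.single_eq_same] at this; exact one_ne_zero this
  have h1 : ∀ u v v', φ.f u v = 1 → cb φ E u v' Z = φ.f u v' • cb φ E u v Z := by
    intro u v v' huv
    have h2 := h u (v' - φ.f u v' • v) (by rw [φ.f_sub_right, φ.f_smul_right, huv, mul_one, sub_self])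
    rw [sub_eq_add_neg, cb_add_right, ← neg_smul, cb_smul_right, neg_smul, ← sub_eq_add_neg, sub_eq_zero] at h2
    exact h2
  have h1' : ∀ u v u', φ.f u v = 1 → cb φ E u' v Z = φ.f u' v • cb φ E u v Z := by
    intro u v u' huv
    have h2 := h (u' - φ.f u' v • u) v (by rw [φ.f_sub_left, φ.f_smul_left, huv, mul_one, sub_self])
    rw [sub_eq_add_neg, cb_add_left, ← neg_smul, cb_smul_left, neg_smul, ← sub_eq_add_neg, sub_eq_zero] at h2
    exact h2
  obtain ⟨v₀, hv₀⟩ := φ.exists_hyp hu0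
  set r := cb φ E u₀ v₀ Z with hr
  -- for hyperbolic pairs the block is r
  have hyp : ∀ u v, φ.f u v = 1 → cb φ E u v Z = r := by
    intro u v huv
    have hu : u ≠ 0 := by rintro rfl; rw [φ.f_zero_left] at huv; exact zero_ne_one huv
    obtain ⟨w, hw1, hw2⟩ : ∃ w, φ.f u₀ w ≠ 0 ∧ φ.f u w ≠ 0 := by
      by_cases h3 : φ.f u₀ v = 0
      · by_cases h4 : φ.f u v₀ = 0
        · exact ⟨v₀ + v, by rw [φ.f_add_right, hv₀, h3, add_zero]; exact one_ne_zero, by rw [φ.f_add_right, huv, h4, zero_add]; exact one_ne_zero⟩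
        · exact ⟨v₀, by rw [hv₀]; exact one_ne_zero, h4⟩
      · exact ⟨v, h3, by rw [huv]; exact one_ne_zero⟩
    -- u₀ and u have the same value
    have e1 := h1 u₀ v₀ w hv₀
    have e2 := h1 u v w huv
    have e3 : φ.f ((φ.f u₀ w)⁻¹ • u₀) w = 1 := by rw [φ.f_smul_left, inv_mul_cancel₀ hw1]
    have e4 := h1' _ w u e3
    rw [cb_smul_left, e1, smul_smul, smul_smul, e2] at e4
    rw [mul_assoc, inv_mul_cancel₀ hw1, mul_one] at e4
    exact smul_right_injective _ hw2 e4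
  have hall : ∀ u v, cb φ E u v Z = φ.f u v • r := by
    intro u v
    by_cases hu : u = 0
    · rw [hu, φ.f_zero_left, zero_smul]
      have := cb_smul_left (φ := φ) (E := E) 0 u v Z
      rw [zero_smul, zero_smul] at this
      exact this
    · obtain ⟨v', hv'⟩ := φ.exists_hyp hu
      rw [h1 u v' v hv', hyp u v' hv']
  have hrc : Cmt E r := cb_cmt _ _ _
  have : Z = r := by
    apply cb_ext (φ := φ) (E := E)
    intro u v
    rw [hall, cb_of_cmt u v hrc]
  rw [this]; exact hrc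

end ctr

namespace Sys

variable {k : ℕ} {T ι : Type} [DecidableEq T] [Fintype ι] [DecidableEq ι] {F : Type*} [Field F] {S : Sys k T ι F} {φ : SpF k F}

/-- submodules invariant under the brackets with the roots of the factors in `J` -/
structure InvA (S : Sys k T ι F) (φ : SpF k F) (J : Finset T) (B : Submodule F (Matrix ι ι F)) : Prop where
  on : ∀ b ∈ B, S.On J b
  br : ∀ j ∈ J, ∀ w, ∀ b ∈ B, S.E j (φ.et w w) * b - b * S.E j (φ.et w w) ∈ B
  sq : ∀ j ∈ J, ∀ w, ∀ b ∈ B, S.E j (φ.et w w) * b * S.E j (φ.et w w) ∈ B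

/-- symmetric atoms -/
def mS (S : Sys k T ι F) (φ : SpF k F) (j : T) (B : Submodule F (Matrix ι ι F)) : Submodule F (Matrix ι ι F) where
  carrier := {d | Cmt (S.E j) d ∧ ∀ w, S.E j (φ.et w w) * d ∈ B}
  add_mem' := fun ⟨h1, h2⟩ ⟨h3, h4⟩ => ⟨h1.add h3, fun w => by rw [mul_add]; exact B.add_mem (h2 w) (h4 w)⟩
  zero_mem' := ⟨Cmt.zero, fun w => by rw [mul_zero]; exact B.zero_mem⟩
  smul_mem' := fun c b ⟨h1, h2⟩ => ⟨h1.smul c, fun w => by rw [mul_smul_comm]; exact B.smul_mem c (h2 w)⟩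

/-- alternating atoms -/
def mW (S : Sys k T ι F) (φ : SpF k F) (j : T) (B : Submodule F (Matrix ι ι F)) : Submodule F (Matrix ι ι F) where
  carrier := {d | Cmt (S.E j) d ∧ ∀ u v, φ.f u v = 0 → S.E j (φ.W u v) * d ∈ B}
  add_mem' := fun ⟨h1, h2⟩ ⟨h3, h4⟩ => ⟨h1.add h3, fun u v h => by rw [mul_add]; exact B.add_mem (h2 u v h) (h4 u v h)⟩
  zero_mem' := ⟨Cmt.zero, fun u v h => by rw [mul_zero]; exact B.zero_mem⟩
  smul_mem' := fun c b ⟨h1, h2⟩ => ⟨h1.smul c, fun u v h => by rw [mul_smul_comm]; exact B.smul_mem c (h2 u v h)⟩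

namespace InvA

variable {J : Finset T} {B : Submodule F (Matrix ι ι F)} (hB : S.InvA φ J B)

include hB

lemma conj {j : T} (hj : j ∈ J) (c : F) (y : Fin k → F) {b : Matrix ι ι F} (hb : b ∈ B) :
    S.E j (1 + c • φ.et y y) * b * S.E j (1 - c • φ.et y y) ∈ B := by
  have h1 := B.smul_mem c (hB.br j hj y b hb)
  have h2 := B.smul_mem (c * c) (hB.sq j hj y b hb)
  have h3 := B.sub_mem (B.add_mem hb h1) h2
  convert h3 using 1
  rw [map_add, map_sub, map_one, map_smul]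
  simp only [add_mul, mul_sub, one_mul, mul_one, smul_mul_assoc, mul_smul_comm, smul_sub]
  module

lemma conj_mul {j : T} (hj : j ∈ J) (c : F) (y : Fin k → F) {a : Matrix (Fin k) (Fin k) F} {d : Matrix ι ι F} (hd : Cmt (S.E j) d) (h : S.E j a * d ∈ B) :
    S.E j ((1 + c • φ.et y y) * a * (1 - c • φ.et y y)) * d ∈ B := by
  have h1 := hB.conj hj c y h
  convert h1 using 1
  rw [mul_assoc (S.E j (1 + c • φ.et y y)), mul_assoc (S.E j a), ← hd]
  simp only [map_mul, mul_assoc]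

lemma mem_mS {j : T} (hj : j ∈ J) {w : Fin k → F} (hw : w ≠ 0) {d : Matrix ι ι F} (hd : Cmt (S.E j) d) (h : S.E j (φ.et w w) * d ∈ B) : d ∈ S.mS φ j B := by
  refine ⟨hd, fun v => ?_⟩
  by_cases hv : v = 0
  · rw [hv, φ.et_zero_left, map_zero, zero_mul]; exact B.zero_mem
  refine φ.move_all (P := fun v => S.E j (φ.et v v) * d ∈ B) (fun c y u h => ?_) hw h hv
  have := hB.conj_mul hj c y hd h
  rwa [φ.et_conj] at this

/-- the symmetric module contains all self-adjoint multiples -/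
lemma mS_mul {j : T} {d : Matrix ι ι F} (hd : d ∈ S.mS φ j B) (u v : Fin k → F) : S.E j (φ.D u v) * d ∈ B := by
  rw [φ.D_eq, map_sub, map_sub, sub_mul, sub_mul]
  exact B.sub_mem (B.sub_mem (hd.2 _) (hd.2 _)) (hd.2 _)

lemma mem_mW {j : T} (hj : j ∈ J) {u v : Fin k → F} (huv : φ.f u v = 0) (hli : v ∉ Submodule.span F {u}) (hu : u ≠ 0) {d : Matrix ι ι F} (hd : Cmt (S.E j) d)
    (h : S.E j (φ.W u v) * d ∈ B) : d ∈ S.mW φ j B := by
  have Wconj : ∀ c y a b, (1 + c • φ.et y y) * φ.W a b * (1 - c • φ.et y y) = φ.W (φ.tv c y a) (φ.tv c y b) := by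
    intro c y a b
    have : (1 + c • φ.et y y) * φ.W a b * (1 - c • φ.et y y) = (1 + c • φ.et y y) * φ.et a b * (1 - c • φ.et y y) - (1 + c • φ.et y y) * φ.et b a * (1 - c • φ.et y y) := by
      rw [SpF.W, mul_sub (1 + c • φ.et y y), sub_mul _ _ (1 - c • φ.et y y)]
    rw [this, φ.et_conj, φ.et_conj]; rfl
  have Wadd : ∀ a b b', φ.W a (b + b') = φ.W a b + φ.W a b' := by
    intro a b b'; rw [SpF.W, SpF.W, SpF.W, φ.et_add_left, φ.et_add_right]; abel
  -- step 1: fixed first vector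
  have h1 : ∀ z, φ.f u z = 0 → φ.f z v ≠ 0 → S.E j (φ.W u z) * d ∈ B := by
    intro z huz hzv
    have h2 := hB.conj_mul hj (φ.f z v)⁻¹ (z - v) hd h
    rw [Wconj] at h2
    have t1 : φ.tv (φ.f z v)⁻¹ (z - v) u = u := by
      rw [SpF.tv, φ.f_sub_left, φ.f_zero_symm huz, φ.f_zero_symm huv, sub_zero, mul_zero, zero_smul, add_zero]
    have t2 : φ.tv (φ.f z v)⁻¹ (z - v) v = z := by
      rw [SpF.tv, φ.f_sub_left, φ.f_self, sub_zero, inv_mul_cancel₀ hzv, one_smul, add_sub_cancel]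
    rwa [t1, t2] at h2
  have h2 : ∀ z, φ.f u z = 0 → S.E j (φ.W u z) * d ∈ B := by
    intro z huz
    by_cases hzv : φ.f z v = 0
    · obtain ⟨z', hz1, hz2⟩ := φ.exists_sep hli
      have hz2' : φ.f z' v ≠ 0 := by rw [φ.f_neg v z', hz2]; exact neg_ne_zero.2 one_ne_zero
      have h3 := h1 z' hz1 hz2'
      have h4 := h1 (z + z') (by rw [φ.f_add_right, huz, hz1, add_zero]) (by rw [φ.f_add_left, hzv, zero_add]; exact hz2')
      have h5 := B.sub_mem h4 h3
      rwa [Wadd, map_add, add_mul, add_sub_cancel_right] at h5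
    · exact h1 z huz hzv
  -- step 2: all first vectors
  refine ⟨hd, fun a b hab => ?_⟩
  by_cases ha : a = 0
  · rw [ha, SpF.W, φ.et_zero_left, φ.et_zero_right, sub_zero, map_zero, zero_mul]; exact B.zero_mem
  refine φ.move_all (P := fun a => ∀ b, φ.f a b = 0 → S.E j (φ.W a b) * d ∈ B) (fun c y a h b hab => ?_) hu h2 ha b hab
  have h6 : φ.f a (φ.tv (-c) y b) = 0 := by
    rw [← φ.f_tv c y, φ.tv_tv]; exact hab
  have := hB.conj_mul hj c y hd (h _ h6)
  rwa [Wconj, φ.tv_tv] at this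

lemma cmt_step {i j : T} (hij : i ≠ j) (a : Matrix (Fin k) (Fin k) F) (x : Matrix (Fin k) (Fin k) F) (d : Matrix ι ι F) :
    S.E i x * (S.E j a * d) = S.E j a * (S.E i x * d) := by
  rw [← mul_assoc, ← mul_assoc, S.comm i j hij]

lemma mS_inv {j : T} (hj : j ∈ J) (hk : 0 < k) : S.InvA φ (J.erase j) (S.mS φ j B) where
  on := by
    rintro b ⟨h1, h2⟩
    set w : Fin k → F := Pi.single ⟨0, hk⟩ 1 with hw
    have hw0 : w ≠ 0 := by intro h0; have := congrFun h0 ⟨0, hk⟩; rw [hw, Pi.single_eq_same] at this; exact one_ne_zero this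
    have h3 := coeff_on hj hw0 (φ.fr_ne_zero hw0) h1 (hB.on _ (h2 w))
    intro l hl
    by_cases hlj : l = j
    · subst hlj; exact h1
    · exact h3 l fun h4 => hl (Finset.mem_erase.2 ⟨hlj, h4⟩)
  br := by
    rintro i hi w b ⟨h1, h2⟩
    obtain ⟨hij, hiJ⟩ := Finset.mem_erase.1 hi
    refine ⟨((cmt_E (Ne.symm hij) _).mul h1).sub (h1.mul (cmt_E (Ne.symm hij) _)), fun v => ?_⟩
    have h3 := hB.br i hiJ w _ (h2 v)
    convert h3 using 1
    rw [mul_sub, cmt_step hB hij, mul_assoc]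
  sq := by
    rintro i hi w b ⟨h1, h2⟩
    obtain ⟨hij, hiJ⟩ := Finset.mem_erase.1 hi
    refine ⟨((cmt_E (Ne.symm hij) _).mul h1).mul (cmt_E (Ne.symm hij) _), fun v => ?_⟩
    have h3 := hB.sq i hiJ w _ (h2 v)
    convert h3 using 1
    rw [cmt_step hB hij]; simp only [mul_assoc]

lemma mW_inv {j : T} (hj : j ∈ J) {u v : Fin k → F} (huv : φ.f u v = 0) (hli : v ∉ Submodule.span F {u}) (hu : u ≠ 0) : S.InvA φ (J.erase j) (S.mW φ j B) where
  on := by
    rintro b ⟨h1, h2⟩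
    have h3 : S.On J b := by
      have h4 := hB.on _ (h2 u v huv)
      -- take a block
      obtain ⟨x, hx1⟩ := φ.exists_hyp hu
      obtain ⟨y, hy1, hy2⟩ := φ.exists_sep hli
      -- cb x y (W u v * b) = f x u f v y b - f x v f u y b
      have h5 : cb φ (S.E j) x y (S.E j (φ.W u v) * b) = (-1 : F) • b := by
        rw [SpF.W, map_sub, sub_mul, cb_sub, cb_et _ _ _ _ h1, cb_et _ _ _ _ h1, hy1, mul_zero, zero_smul, sub_zero, hy2, φ.f_neg u x, hx1, mul_one]
      have h6 : S.On J (cb φ (S.E j) x y (S.E j (φ.W u v) * b)) := by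
        rw [cb, ctr]
        exact On.sum fun r _ => ((on_E hj _).mul h4).mul (on_E hj _)
      rw [h5] at h6
      have := h6.smul (-1 : F)
      rwa [smul_smul, neg_one_mul, neg_neg, one_smul] at this
    intro l hl
    by_cases hlj : l = j
    · subst hlj; exact h1
    · exact h3 l fun h4 => hl (Finset.mem_erase.2 ⟨hlj, h4⟩)
  br := by
    rintro i hi w b ⟨h1, h2⟩
    obtain ⟨hij, hiJ⟩ := Finset.mem_erase.1 hi
    refine ⟨((cmt_E (Ne.symm hij) _).mul h1).sub (h1.mul (cmt_E (Ne.symm hij) _)), fun a b' hab => ?_⟩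
    have h3 := hB.br i hiJ w _ (h2 a b' hab)
    convert h3 using 1
    rw [mul_sub, cmt_step hB hij, mul_assoc]
  sq := by
    rintro i hi w b ⟨h1, h2⟩
    obtain ⟨hij, hiJ⟩ := Finset.mem_erase.1 hi
    refine ⟨((cmt_E (Ne.symm hij) _).mul h1).mul (cmt_E (Ne.symm hij) _), fun a b' hab => ?_⟩
    have h3 := hB.sq i hiJ w _ (h2 a b' hab)
    convert h3 using 1
    rw [cmt_step hB hij]; simp only [mul_assoc]

/-- **extraction of atoms** -/
theorem extract {j : T} (hj : j ∈ J) {b : Matrix ι ι F} (hb : b ∈ B) (hnc : ¬ Cmt (S.E j) b) :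
    (∃ w, w ≠ 0 ∧ cb φ (S.E j) w w b ≠ 0 ∧ cb φ (S.E j) w w b ∈ S.mS φ j B) ∨
      ((∀ w, cb φ (S.E j) w w b = 0) ∧ ∃ u v, u ≠ 0 ∧ φ.f u v = 0 ∧ v ∉ Submodule.span F {u} ∧ cb φ (S.E j) u v b ≠ 0 ∧ cb φ (S.E j) u v b ∈ S.mW φ j B) := by
  by_cases h1 : ∃ w, cb φ (S.E j) w w b ≠ 0
  · left
    obtain ⟨w, hw⟩ := h1
    have hw0 : w ≠ 0 := by
      rintro rfl
      apply hw
      have := cb_smul_left (φ := φ) (E := S.E j) 0 0 0 b
      rw [zero_smul, zero_smul] at this
      exact this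
    refine ⟨w, hw0, hw, hB.mem_mS hj hw0 (cb_cmt _ _ _) ?_⟩
    rw [← E_cb]; exact hB.sq j hj w b hb
  · right
    push Not at h1
    refine ⟨h1, ?_⟩
    have hanti : ∀ u v, cb φ (S.E j) v u b = - cb φ (S.E j) u v b := by
      intro u v
      have := h1 (u + v)
      rw [cb_add_left, cb_add_right, cb_add_right, h1, h1, zero_add, add_zero] at this
      exact eq_neg_of_add_eq_zero_right this
    obtain ⟨u, v, huv, hne⟩ : ∃ u v, φ.f u v = 0 ∧ cb φ (S.E j) u v b ≠ 0 := by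
      by_contra hcon
      push Not at hcon
      exact hnc (cmt_of_cb hcon)
    have hu : u ≠ 0 := by
      rintro rfl
      apply hne
      have := cb_smul_left (φ := φ) (E := S.E j) 0 0 v b
      rw [zero_smul, zero_smul] at this
      exact this
    have hli : v ∉ Submodule.span F {u} := by
      intro hcon
      obtain ⟨c, hc⟩ := Submodule.mem_span_singleton.1 hcon
      apply hne
      rw [← hc, cb_smul_right, h1, smul_zero]
    refine ⟨u, v, hu, huv, hli, hne, hB.mem_mW hj huv hli hu (cb_cmt _ _ _) ?_⟩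
    have h2 := hB.br j hj v _ (hB.br j hj u b hb)
    have z1 : S.E j (φ.et v v) * S.E j (φ.et u u) = 0 := by rw [← map_mul, φ.et_mul, φ.f_zero_symm huv, zero_smul, map_zero]
    have z2 : S.E j (φ.et u u) * S.E j (φ.et v v) = 0 := by rw [← map_mul, φ.et_mul, huv, zero_smul, map_zero]
    have h3 : S.E j (φ.et v v) * (S.E j (φ.et u u) * b - b * S.E j (φ.et u u)) - (S.E j (φ.et u u) * b - b * S.E j (φ.et u u)) * S.E j (φ.et v v) =
        -(S.E j (φ.W u v) * cb φ (S.E j) u v b) := by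
      calc S.E j (φ.et v v) * (S.E j (φ.et u u) * b - b * S.E j (φ.et u u)) - (S.E j (φ.et u u) * b - b * S.E j (φ.et u u)) * S.E j (φ.et v v) =
          (S.E j (φ.et v v) * S.E j (φ.et u u)) * b - S.E j (φ.et v v) * b * S.E j (φ.et u u) - S.E j (φ.et u u) * b * S.E j (φ.et v v) +
            b * (S.E j (φ.et u u) * S.E j (φ.et v v)) := by noncomm_ring
        _ = - (S.E j (φ.et v u) * cb φ (S.E j) v u b) - S.E j (φ.et u v) * cb φ (S.E j) u v b := by
          rw [z1, z2, E_cb, E_cb]; simp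
        _ = _ := by rw [hanti u v, SpF.W, map_sub, sub_mul]; noncomm_ring
    rw [h3] at h2
    exact (Submodule.neg_mem_iff _).1 h2

end InvA

/-- the coefficient space is invariant -/
lemma coS_inv [Nonempty ι] (h2 : (2 : F) ≠ 0) (hk : 0 < k) {J : Finset T} {K : Subgroup (GL ι F)} (hK : ∀ x ∈ K, S.On J x.1) (hR : ∀ j ∈ J, RootsS φ (S.E j) K)
    {i : T} (hi : i ∈ J) : S.InvA φ (J.erase i) (coS φ (S.E i) K) := by
  have hconj : ∀ j ∈ J.erase i, ∀ (w : Fin k → F) (A : Matrix ι ι F), A ∈ coS φ (S.E i) K → ∀ c : F,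
      (1 + c • S.E j (φ.et w w)) * A * (1 - c • S.E j (φ.et w w)) ∈ coS φ (S.E i) K := by
    intro j hj w A hA c
    obtain ⟨hji, hjJ⟩ := Finset.mem_erase.1 hj
    obtain ⟨x, hx, hxv⟩ := hR j hjJ c w
    have h3 := coS_conj hA hx (by rw [hxv]; exact Cmt.one.add (cmt_E (Ne.symm hji) _))
    rwa [Mem1.inv_eq hxv (E_sq (cet_sq φ c w)), hxv, map_smul] at h3
  refine ⟨?_, ?_, ?_⟩
  · rintro b ⟨h1, h3⟩
    set w : Fin k → F := Pi.single ⟨0, hk⟩ 1 with hw
    have hw0 : w ≠ 0 := by intro h0; have := congrFun h0 ⟨0, hk⟩; rw [hw, Pi.single_eq_same] at this; exact one_ne_zero this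
    obtain ⟨x, hx, hxv⟩ := h3 1 w
    rw [one_smul] at hxv
    have h4 : S.On J (S.E i (φ.et w w) * b) := by
      have : S.E i (φ.et w w) * b = x.1 - 1 := by rw [hxv]; abel
      rw [this]; exact (hK x hx).sub On.one
    have h5 := coeff_on hi hw0 (φ.fr_ne_zero hw0) h1 h4
    intro l hl
    by_cases hli : l = i
    · subst hli; exact h1
    · exact h5 l fun h6 => hl (Finset.mem_erase.2 ⟨hli, h6⟩)
  · intro j hj w A hA
    have h3 := hconj j hj w A hA 1
    have h4 := hconj j hj w A hA (-1)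
    have h5 := (coS φ (S.E i) K).smul_mem (2 : F)⁻¹ ((coS φ (S.E i) K).sub_mem h3 h4)
    convert h5 using 1
    rw [one_smul, neg_one_smul]
    have : (1 + S.E j (φ.et w w)) * A * (1 - S.E j (φ.et w w)) - (1 + -S.E j (φ.et w w)) * A * (1 - -S.E j (φ.et w w)) =
        (2 : F) • (S.E j (φ.et w w) * A - A * S.E j (φ.et w w)) := by rw [two_smul]; noncomm_ring
    rw [this, smul_smul, inv_mul_cancel₀ h2, one_smul]
  · intro j hj w A hA
    have h3 := hconj j hj w A hA 1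
    have h4 := hconj j hj w A hA (-1)
    have h5 := (coS φ (S.E i) K).smul_mem (-(2 : F)⁻¹) ((coS φ (S.E i) K).sub_mem ((coS φ (S.E i) K).add_mem h3 h4) ((coS φ (S.E i) K).smul_mem 2 hA))
    convert h5 using 1
    rw [one_smul, neg_one_smul]
    have : (1 + S.E j (φ.et w w)) * A * (1 - S.E j (φ.et w w)) + (1 + -S.E j (φ.et w w)) * A * (1 - -S.E j (φ.et w w)) - (2 : F) • A =
        (-(2 : F)) • (S.E j (φ.et w w) * A * S.E j (φ.et w w)) := by rw [neg_smul, two_smul, two_smul]; noncomm_ring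
    rw [this, smul_smul, neg_mul_neg, inv_mul_cancel₀ h2, one_smul]

end Sys

end Cfsg.Agent.Asch.CW
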