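import Mathlib
import Cfsg.Prelude.Def_GeometricClasses
import Cfsg.Agent.Asch.CSExt
set_option autoImplicit false
set_option linter.unusedSectionVars false
set_option linter.unusedVariables false
set_option linter.style.haveILetI false

/-!
Pairs of elements of invariant spaces with nilpotent products.
-/

namespace Cfsg.Agent.Asch.CW

open Matrix Module

open scoped Matrix

namespace Sys

variable {k : ℕ} {T ι : Type} [DecidableEq T] [Fintype ι] [DecidableEq ι] {F : Type*} [Field F] {S : Sys k T ι F} {φ : SpF k F}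

/-- the symmetric module contains all multiples by anti-self-adjoint elements -/
lemma mS_skew (h2 : (2 : F) ≠ 0) {B : Submodule F (Matrix ι ι F)} {j : T} {d : Matrix ι ι F} (hd : d ∈ S.mS φ j B) {a : Matrix (Fin k) (Fin k) F}
    (ha : φ.star a = -a) : S.E j a * d ∈ B := by
  have h1 : ∀ a, S.E j (a - φ.star a) * d ∈ B := by
    intro a
    refine φ.et_induction (P := fun a => S.E j (a - φ.star a) * d ∈ B) ?_ ?_ ?_ a
    · rw [φ.star_zero, sub_zero, map_zero, zero_mul]; exact B.zero_mem
    · intro a b ha hb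
      rw [φ.star_add, add_sub_add_comm, map_add, add_mul]; exact B.add_mem ha hb
    · intro u v
      have h3 : φ.D u v = φ.et (u + v) (u + v) - φ.et u u - φ.et v v := φ.D_eq u v
      rw [φ.star_et, sub_neg_eq_add]
      have : φ.et u v + φ.et v u = φ.D u v := rfl
      rw [this, h3, map_sub, map_sub, sub_mul, sub_mul]
      exact B.sub_mem (B.sub_mem (hd.2 _) (hd.2 _)) (hd.2 _)
  have h3 := h1 a
  rw [ha, sub_neg_eq_add, ← two_smul F, map_smul, smul_mul_assoc] at h3
  have := B.smul_mem (2 : F)⁻¹ h3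
  rwa [smul_smul, inv_mul_cancel₀ h2, one_smul] at this

/-- the alternating module for all pairs -/
lemma exists_W_pair (φ : SpF k F) (hk : 4 ≤ k) {x : Fin k → F} (hx : x ≠ 0) : ∃ y y', φ.f x y = 0 ∧ φ.f x y' = 0 ∧ φ.f y y' = 1 := by
  obtain ⟨v, huv⟩ := φ.exists_hyp hx
  obtain ⟨z, hz0, hzu, hzv⟩ := exists_row_zero (F := F) (by rw [Fintype.card_fin]; omega : 3 ≤ Fintype.card (Fin k)) (φ.fr x) (φ.fr v)
  have hzu' : φ.f x z = 0 := by rw [← φ.fr_dot, dotProduct_comm]; exact hzu
  have hzv' : φ.f v z = 0 := by rw [← φ.fr_dot, dotProduct_comm]; exact hzv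
  obtain ⟨w, hw⟩ := φ.exists_hyp hz0
  refine ⟨z, w - φ.f x w • v, hzu', ?_, ?_⟩
  · rw [φ.f_sub_right, φ.f_smul_right, huv, mul_one, sub_self]
  · rw [φ.f_sub_right, φ.f_smul_right, hw, φ.f_zero_symm hzv', mul_zero, sub_zero]

lemma four_le (φ : SpF k F) {u v : Fin k → F} (hu : u ≠ 0) (huv : φ.f u v = 0) (hli : v ∉ Submodule.span F {u}) : 4 ≤ k := by
  -- u, v, z, z' independent
  obtain ⟨z, hz1, hz2⟩ := φ.exists_sep hli
  have hli' : u ∉ Submodule.span F {v} := by
    intro h
    obtain ⟨c, hc⟩ := Submodule.mem_span_singleton.1 h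
    apply hli
    have hc0 : c ≠ 0 := by rintro rfl; rw [zero_smul] at hc; exact hu hc.symm
    rw [Submodule.mem_span_singleton]
    exact ⟨c⁻¹, by rw [← hc, smul_smul, inv_mul_cancel₀ hc0, one_smul]⟩
  obtain ⟨z', hz1', hz2'⟩ := φ.exists_sep hli'
  have hlin : LinearIndependent F ![u, v, z, z'] := by
    rw [Fintype.linearIndependent_iff]
    intro g hg
    rw [Fin.sum_univ_four] at hg
    simp only [Matrix.cons_val_zero, Matrix.cons_val_one, Matrix.cons_val] at hg
    -- pair with u and v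
    have a1 := congrArg (φ.f u) hg
    have a2 := congrArg (φ.f v) hg
    rw [φ.f_zero_right, φ.f_add_right, φ.f_add_right, φ.f_add_right, φ.f_smul_right, φ.f_smul_right, φ.f_smul_right, φ.f_smul_right] at a1 a2
    rw [φ.f_self, huv, hz1, hz2'] at a1
    rw [φ.f_self, φ.f_zero_symm huv, hz2, hz1'] at a2
    simp only [mul_zero, mul_one, zero_add, add_zero] at a1 a2
    rw [a1, a2, zero_smul, zero_smul, add_zero, add_zero] at hg
    have a3 := congrArg (φ.f z) hg
    have a4 := congrArg (φ.f z') hg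
    rw [φ.f_zero_right, φ.f_add_right, φ.f_smul_right, φ.f_smul_right, φ.f_neg u z, φ.f_neg v z, hz1, hz2] at a3
    rw [φ.f_zero_right, φ.f_add_right, φ.f_smul_right, φ.f_smul_right, φ.f_neg u z', φ.f_neg v z', hz1', hz2'] at a4
    simp at a3 a4
    intro i
    fin_cases i
    · exact a4
    · exact a3
    · exact a2
    · exact a1
  have := hlin.fintype_card_le_finrank
  rw [Fintype.card_fin, finrank_fintype_fun_eq_card, Fintype.card_fin] at this
  exact this

/-- **the unit lemma** -/
theorem unit_lemma (h2 : (2 : F) ≠ 0) (hk : 0 < k) {σ : Matrix (Fin k) (Fin k) F} (hσ : φ.star σ = -σ) (hσ2 : σ * σ = 1)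
    (J : Finset T) {B : Submodule F (Matrix ι ι F)} (hB : S.InvA φ J B) (hB0 : ∃ b ∈ B, b ≠ 0) :
    ∃ (n : ℕ) (G : Set (Matrix ι ι F)), (∀ g ∈ G, S.On J g) ∧ (∀ g ∈ G, ∃ e ∈ B, ∃ e' ∈ B, e * e' = (-1 : F) ^ n • g ∧ e' * e = g) ∧
      ∃ d ∈ Submodule.span F G, d * d = 1 := by
  induction hn : J.card using Nat.strong_induction_on generalizing J B with
  | _ n ih =>
    by_cases hall : ∀ j ∈ J, ∀ b ∈ B, Cmt (S.E j) b
    · obtain ⟨b, hb, hb0⟩ := hB0
      have hsc : ∃ c : F, b = c • (1 : Matrix ι ι F) := by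
        apply S.cent
        intro j
        by_cases hj : j ∈ J
        · exact hall j hj b hb
        · exact hB.on b hb j hj
      obtain ⟨c, hc⟩ := hsc
      have hc0 : c ≠ 0 := by rintro rfl; exact hb0 (by rw [hc, zero_smul])
      have h1 : (1 : Matrix ι ι F) ∈ B := by
        have := B.smul_mem c⁻¹ hb
        rwa [hc, smul_smul, inv_mul_cancel₀ hc0, one_smul] at this
      refine ⟨0, {1}, ?_, ?_, 1, Submodule.subset_span rfl, one_mul 1⟩
      · rintro g rfl; exact On.one
      · rintro g rfl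
        exact ⟨1, h1, 1, h1, by simp, by simp⟩
    · push Not at hall
      obtain ⟨j, hj, b, hb, hnc⟩ := hall
      have hlt : (J.erase j).card < n := by rw [← hn]; exact Finset.card_erase_lt_of_mem hj
      rcases hB.extract hj hb hnc with ⟨w, hw, hne, hmem⟩ | ⟨-, u, v, hu, huv, hli, hne, hmem⟩
      · obtain ⟨m, G, hGon, hG, d, hd, hdd⟩ := ih _ hlt (J.erase j) (hB.mS_inv hj hk) ⟨_, hmem, hne⟩ rfl
        refine ⟨m, G, fun g hg => (hGon g hg).mono (Finset.erase_subset _ _), fun g hg => ?_, d, hd, hdd⟩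
        obtain ⟨e, he, e', he', h3, h4⟩ := hG g hg
        refine ⟨S.E j σ * e, mS_skew h2 he hσ, S.E j σ * e', mS_skew h2 he' hσ, ?_, ?_⟩
        · rw [E_mul_A he.1, hσ2, map_one, one_mul, h3]
        · rw [E_mul_A he'.1, hσ2, map_one, one_mul, h4]
      · have hk4 := four_le φ hu huv hli
        obtain ⟨m, G, hGon, hG, d, hd, hdd⟩ := ih _ hlt (J.erase j) (hB.mW_inv hj huv hli hu) ⟨_, hmem, hne⟩ rfl
        have hjE : j ∉ J.erase j := Finset.notMem_erase _ _
        have hGc : ∀ g ∈ G, Cmt (S.E j) g := fun g hg => hGon g hg j hjE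
        refine ⟨m + 1, {g | ∃ x, ∃ g' ∈ G, g = S.E j (φ.et x x) * g'}, ?_, ?_, S.E j σ * d, ?_, ?_⟩
        · rintro _ ⟨x, g, hg, rfl⟩
          exact (on_E hj _).mul ((hGon g hg).mono (Finset.erase_subset _ _))
        · rintro _ ⟨x, g, hg, rfl⟩
          obtain ⟨e, he, e', he', h3, h4⟩ := hG g hg
          by_cases hx : x = 0
          · refine ⟨0, B.zero_mem, 0, B.zero_mem, ?_, ?_⟩
            · rw [hx, φ.et_zero_left, map_zero, zero_mul, zero_mul, smul_zero]
            · rw [hx, φ.et_zero_left, map_zero, zero_mul, zero_mul]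
          obtain ⟨y, y', h5, h6, h7⟩ := exists_W_pair φ hk4 hx
          have w1 : φ.W x y * φ.W x y' = - φ.et x x := by
            rw [SpF.W, SpF.W, sub_mul, mul_sub, mul_sub, φ.et_mul, φ.et_mul, φ.et_mul, φ.et_mul, φ.f_self, h6, h7, φ.f_zero_symm h5]; simp
          have w2 : φ.W x y' * φ.W x y = φ.et x x := by
            rw [SpF.W, SpF.W, sub_mul, mul_sub, mul_sub, φ.et_mul, φ.et_mul, φ.et_mul, φ.et_mul, φ.f_self, h5, φ.f_neg y y', h7, φ.f_zero_symm h6]; simp
          refine ⟨S.E j (φ.W x y) * e, he.2 x y h5, S.E j (φ.W x y') * e', he'.2 x y' h6, ?_, ?_⟩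
          · rw [E_mul_A he.1, w1, h3, map_neg, pow_succ, mul_smul, mul_smul_comm, neg_mul, neg_one_smul, smul_neg]
          · rw [E_mul_A he'.1, w2, h4]
        · -- σ d in the span
          have hsp : ∀ x, ∀ d ∈ Submodule.span F G, S.E j (φ.et x x) * d ∈ Submodule.span F {g | ∃ x, ∃ g' ∈ G, g = S.E j (φ.et x x) * g'} := by
            intro x d hd
            refine Submodule.span_induction (p := fun d _ => S.E j (φ.et x x) * d ∈ Submodule.span F {g | ∃ x, ∃ g' ∈ G, g = S.E j (φ.et x x) * g'}) ?_ ?_ ?_ ?_ hd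
            · intro g hg; exact Submodule.subset_span ⟨x, g, hg, rfl⟩
            · rw [mul_zero]; exact Submodule.zero_mem _
            · intro a b _ _ ha hb; rw [mul_add]; exact Submodule.add_mem _ ha hb
            · intro c a _ ha; rw [mul_smul_comm]; exact Submodule.smul_mem _ _ ha
          have hdc : Cmt (S.E j) d := by
            refine Submodule.span_induction (p := fun d _ => Cmt (S.E j) d) ?_ ?_ ?_ ?_ hd
            · intro g hg; exact hGc g hg
            · exact Cmt.zero
            · intro a b _ _ ha hb; exact ha.add hb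
            · intro c a _ ha; exact ha.smul c
          exact mS_skew h2 (B := Submodule.span F {g | ∃ x, ∃ g' ∈ G, g = S.E j (φ.et x x) * g'}) (j := j) (d := d) ⟨hdc, fun w => hsp w d hd⟩ hσ
        · have hdc : Cmt (S.E j) d := by
            refine Submodule.span_induction (p := fun d _ => Cmt (S.E j) d) ?_ ?_ ?_ ?_ hd
            · intro g hg; exact hGc g hg
            · exact Cmt.zero
            · intro a b _ _ ha hb; exact ha.add hb
            · intro c a _ ha; exact ha.smul c
          rw [E_mul_A hdc, hσ2, map_one, one_mul, hdd]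

end Sys

end Cfsg.Agent.Asch.CW
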