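import Mathlib
import Cfsg.Prelude.Def_GeometricClasses
import Cfsg.Agent.Asch.CSUnit
set_option autoImplicit false
set_option linter.unusedSectionVars false
set_option linter.unusedVariables false
set_option linter.style.haveILetI false

/-!
Non-scalar coefficients for `k ≥ 4`.
-/

namespace Cfsg.Agent.Asch.CW

open Matrix Module

open scoped Matrix

namespace Sys

variable {k : ℕ} {T ι : Type} [Fintype T] [DecidableEq T] [Fintype ι] [DecidableEq ι] {F : Type*} [Field F] {S : Sys k T ι F} {φ : SpF k F}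
  {K : Subgroup (GL ι F)}

/-- the factor `j` is related to `i` -/
def RelW (S : Sys k T ι F) (φ : SpF k F) (K : Subgroup (GL ι F)) (i j : T) : Prop :=
  i ≠ j ∧ ∀ u v, φ.f u v = 0 → S.E j (φ.W u v) ∈ coS φ (S.E i) K

lemma swapA {i j : T} (hij : i ≠ j) (a b : Matrix (Fin k) (Fin k) F) (A : Matrix ι ι F) : S.E i a * (S.E j b * A) = S.E j b * (S.E i a * A) := by
  rw [← mul_assoc, S.comm i j hij, mul_assoc]

lemma invU [Nonempty ι] (h2 : (2 : F) ≠ 0) (hk : 0 < k) (hR : ∀ i, RootsS φ (S.E i) K) (i : T) : S.InvA φ (Finset.univ.erase i) (coS φ (S.E i) K) :=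
  coS_inv h2 hk (fun x _ l hl => absurd (Finset.mem_univ l) hl) (fun j _ => hR j) (Finset.mem_univ i)

/-- from hyperbolic to isotropic pairs, with a coefficient -/
lemma mW_of_hyp [Nonempty ι] (h2 : (2 : F) ≠ 0) (hk : 4 ≤ k) (hR : ∀ i, RootsS φ (S.E i) K) {i j : T} (hij : i ≠ j) {d : Matrix ι ι F} (hd : Cmt (S.E j) d)
    {w z : Fin k → F} (hwz : φ.f w z = 1) (h : S.E j (φ.W w z) * d ∈ coS φ (S.E i) K) : d ∈ S.mW φ j (coS φ (S.E i) K) := by
  have hInv := invU (S := S) h2 (by omega) hR i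
  have hj : j ∈ Finset.univ.erase i := Finset.mem_erase.2 ⟨Ne.symm hij, Finset.mem_univ _⟩
  have hw : w ≠ 0 := by rintro rfl; rw [φ.f_zero_left] at hwz; exact zero_ne_one hwz
  obtain ⟨y, hy0, hy1, hy2⟩ := exists_row_zero (F := F) (by rw [Fintype.card_fin]; omega : 3 ≤ Fintype.card (Fin k)) (φ.fr w) (φ.fr z)
  have hwy : φ.f w y = 0 := by rw [← φ.fr_dot, dotProduct_comm]; exact hy1
  have hzy : φ.f z y = 0 := by rw [← φ.fr_dot, dotProduct_comm]; exact hy2
  have hli : y ∉ Submodule.span F {w} := by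
    intro hcon
    obtain ⟨c, hc⟩ := Submodule.mem_span_singleton.1 hcon
    rw [← hc, φ.f_smul_right, φ.f_neg w z, hwz, mul_neg, mul_one, neg_eq_zero] at hzy
    exact hy0 (by rw [← hc, hzy, zero_smul])
  refine hInv.mem_mW hj hwy hli hw hd ?_
  have h3 := hInv.conj_mul hj 1 (w + y) hd h
  have e1 : (1 + (1 : F) • φ.et (w + y) (w + y)) * φ.W w z * (1 - (1 : F) • φ.et (w + y) (w + y)) = φ.W w z + φ.W w y := by
    have : (1 + (1 : F) • φ.et (w + y) (w + y)) * φ.W w z * (1 - (1 : F) • φ.et (w + y) (w + y)) =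
        (1 + (1 : F) • φ.et (w + y) (w + y)) * φ.et w z * (1 - (1 : F) • φ.et (w + y) (w + y)) -
          (1 + (1 : F) • φ.et (w + y) (w + y)) * φ.et z w * (1 - (1 : F) • φ.et (w + y) (w + y)) := by
      rw [SpF.W, mul_sub (1 + (1 : F) • φ.et (w + y) (w + y)), sub_mul _ _ (1 - (1 : F) • φ.et (w + y) (w + y))]
    rw [this, φ.et_conj, φ.et_conj]
    have t1 : φ.tv 1 (w + y) w = w := by
      rw [SpF.tv, φ.f_add_left, φ.f_self, φ.f_zero_symm hwy, add_zero, mul_zero, zero_smul, add_zero]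
    have t2 : φ.tv 1 (w + y) z = z + (w + y) := by
      rw [SpF.tv, φ.f_add_left, hwz, φ.f_zero_symm hzy, add_zero, mul_one, one_smul]
    rw [t1, t2, SpF.W, SpF.W, φ.et_add_left, φ.et_add_left, φ.et_add_right, φ.et_add_right]; abel
  rw [e1, map_add, add_mul] at h3
  have := (coS φ (S.E i) K).sub_mem h3 h
  rwa [add_sub_cancel_left] at this

lemma rel_of_hyp [Nonempty ι] (h2 : (2 : F) ≠ 0) (hk : 4 ≤ k) (hR : ∀ i, RootsS φ (S.E i) K) {i j : T} (hij : i ≠ j)
    {w z : Fin k → F} (hwz : φ.f w z = 1) (h : S.E j (φ.W w z) ∈ coS φ (S.E i) K) : S.RelW φ K i j := by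
  have h3 := mW_of_hyp h2 hk hR hij (d := 1) Cmt.one hwz (by rw [mul_one]; exact h)
  refine ⟨hij, fun u v huv => ?_⟩
  have := h3.2 u v huv
  rwa [mul_one] at this

/-- the Lie step -/
lemma lie_step (h2 : (2 : F) ≠ 0) (hR : ∀ i, RootsS φ (S.E i) K) {i j : T} (hij : i ≠ j) {e e' : Matrix ι ι F}
    (he : e ∈ S.mW φ j (coS φ (S.E i) K)) (he' : e' ∈ S.mW φ j (coS φ (S.E i) K)) (hei : Cmt (S.E i) e) (hei' : Cmt (S.E i) e')
    {x y y' u v : Fin k → F} (hx : x ≠ 0) (h5 : φ.f x y = 0) (h6 : φ.f x y' = 0) (h7 : φ.f y y' = 1) (huv : φ.f u v = 1) :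
    S.E i (φ.et v u) * (e' * e) - S.E i (φ.et u v) * (e * e') ∈ coS φ (S.E j) K := by
  have w1 : φ.W x y * φ.W x y' = - φ.et x x := by
    rw [SpF.W, SpF.W, sub_mul, mul_sub, mul_sub, φ.et_mul, φ.et_mul, φ.et_mul, φ.et_mul, φ.f_self, h6, h7, φ.f_zero_symm h5]; simp
  have w2 : φ.W x y' * φ.W x y = φ.et x x := by
    rw [SpF.W, SpF.W, sub_mul, mul_sub, mul_sub, φ.et_mul, φ.et_mul, φ.et_mul, φ.et_mul, φ.f_self, h5, φ.f_neg y y', h7, φ.f_zero_symm h6]; simp
  have w3 : φ.et x x * φ.W x y = 0 := by rw [SpF.W, mul_sub, φ.et_mul, φ.et_mul, φ.f_self, h5]; simp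
  have w4 : φ.et x x * φ.W x y' = 0 := by rw [SpF.W, mul_sub, φ.et_mul, φ.et_mul, φ.f_self, h6]; simp
  have a1 := (he.2 x y h5)
  have a2 := (he'.2 x y' h6)
  have hX := a1.2 1 u
  have hY := a2.2 1 v
  rw [one_smul] at hX hY
  set X := S.E i (φ.et u u) * (S.E j (φ.W x y) * e) with hXd
  set Y := S.E i (φ.et v v) * (S.E j (φ.W x y') * e') with hYd
  have m1 : ∀ {a b : Matrix (Fin k) (Fin k) F} {p q : Matrix (Fin k) (Fin k) F} {c c' : Matrix ι ι F}, Cmt (S.E i) c → Cmt (S.E j) c →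
      S.E i a * (S.E j p * c) * (S.E i b * (S.E j q * c')) = S.E i (a * b) * (S.E j (p * q) * (c * c')) := by
    intro a b p q c c' hc hc'
    have hcc : Cmt (S.E i) (S.E j p * c) := (cmt_E hij _).mul hc
    rw [E_mul_A hcc, E_mul_A hc']
  have hXY : X * Y = S.E i (φ.et u v) * (S.E j (- φ.et x x) * (e * e')) := by
    rw [hXd, hYd, m1 hei he.1, φ.et_mul, huv, one_smul, w1]
  have hYX : Y * X = S.E i (- φ.et v u) * (S.E j (φ.et x x) * (e' * e)) := by
    rw [hXd, hYd, m1 hei' he'.1, φ.et_mul, φ.f_neg u v, huv, neg_smul, one_smul, w2]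
  have hX2 : X * X = 0 := by rw [hXd, m1 hei he.1, φ.et_sq, map_zero, zero_mul]
  have hY2 : Y * Y = 0 := by rw [hYd, m1 hei' he'.1, φ.et_sq, map_zero, zero_mul]
  have hXYX : X * Y * X = 0 := by
    rw [hXY, hXd, m1 (hei.mul hei') (he.1.mul he'.1), neg_mul, w3, neg_zero, map_zero, zero_mul, mul_zero]
  have hYXY : Y * X * Y = 0 := by
    rw [hYX, hYd, m1 (hei'.mul hei) (he'.1.mul he.1), w4, map_zero, zero_mul, mul_zero]
  have h8 := hX.comm2 hY hX2 hY2 hXYX hYXY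
  apply coS_of h2 (hR j) hx
  · exact ((cmt_E (Ne.symm hij) _).mul (he'.1.mul he.1)).sub ((cmt_E (Ne.symm hij) _).mul (he.1.mul he'.1))
  · convert h8 using 1
    rw [hXY, hYX, map_neg, map_neg, mul_sub, swapA (Ne.symm hij), swapA (Ne.symm hij)]
    noncomm_ring

lemma rel_symm' [Nonempty ι] (h2 : (2 : F) ≠ 0) (hk : 4 ≤ k) (hR : ∀ i, RootsS φ (S.E i) K) {i j : T} (h : S.RelW φ K i j) : S.RelW φ K j i := by
  obtain ⟨hij, h⟩ := h
  set x : Fin k → F := Pi.single ⟨0, by omega⟩ 1 with hx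
  have hx0 : x ≠ 0 := by intro h0; have := congrFun h0 ⟨0, by omega⟩; rw [hx, Pi.single_eq_same] at this; exact one_ne_zero this
  obtain ⟨y, y', h5, h6, h7⟩ := exists_W_pair φ hk hx0
  obtain ⟨v, huv⟩ := φ.exists_hyp hx0
  have h1 : (1 : Matrix ι ι F) ∈ S.mW φ j (coS φ (S.E i) K) := ⟨Cmt.one, fun u v huv => by rw [mul_one]; exact h u v huv⟩
  have h3 := lie_step h2 hR hij h1 h1 Cmt.one Cmt.one hx0 h5 h6 h7 huv
  rw [mul_one, mul_one, mul_one] at h3
  apply rel_of_hyp h2 hk hR (Ne.symm hij) huv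
  have := (coS φ (S.E j) K).neg_mem h3
  rwa [neg_sub, ← map_sub] at this

/-- conclusion from a unit coefficient -/
lemma rel_of_unit [Nonempty ι] (h2 : (2 : F) ≠ 0) (hk : 4 ≤ k) (hR : ∀ i, RootsS φ (S.E i) K) {i j : T} (hij : i ≠ j) {d : Matrix ι ι F}
    (hdi : Cmt (S.E i) d) (hdj : Cmt (S.E j) d) (hdd : d * d = 1) {w z : Fin k → F} (hwz : φ.f w z = 1)
    (h : S.E j (φ.W w z) * d ∈ coS φ (S.E i) K ∨ S.E j (φ.D w z) * d ∈ coS φ (S.E i) K) : ∃ i j, S.RelW φ K i j := by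
  have hInv := invU (S := S) h2 (by omega) hR i
  have hj : j ∈ Finset.univ.erase i := Finset.mem_erase.2 ⟨Ne.symm hij, Finset.mem_univ _⟩
  have hw : w ≠ 0 := by rintro rfl; rw [φ.f_zero_left] at hwz; exact zero_ne_one hwz
  rcases h with h | h
  · have h3 := mW_of_hyp h2 hk hR hij hdj hwz h
    obtain ⟨y, y', h5, h6, h7⟩ := exists_W_pair φ hk hw
    have h4 := lie_step h2 hR hij h3 h3 hdi hdi hw h5 h6 h7 hwz
    rw [hdd, mul_one, mul_one] at h4
    refine ⟨j, i, rel_of_hyp h2 hk hR (Ne.symm hij) hwz ?_⟩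
    have := (coS φ (S.E j) K).neg_mem h4
    rwa [neg_sub, ← map_sub] at this
  · have h3 := hInv.br j hj w _ h
    have e1 : φ.et w w * φ.D w z = φ.et w w := by rw [SpF.D, mul_add, φ.et_mul, φ.et_mul, φ.f_self, hwz]; simp
    have e2 : φ.D w z * φ.et w w = -φ.et w w := by rw [SpF.D, add_mul, φ.et_mul, φ.et_mul, φ.f_self, φ.f_neg w z, hwz]; simp
    have h4 : S.E j (φ.et w w) * (S.E j (φ.D w z) * d) - S.E j (φ.D w z) * d * S.E j (φ.et w w) = (2 : F) • (S.E j (φ.et w w) * d) := by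
      rw [E_A_mul hdj, ← mul_assoc, ← map_mul, e1, e2, map_neg, two_smul]; noncomm_ring
    rw [h4] at h3
    have h5 := (coS φ (S.E i) K).smul_mem (2 : F)⁻¹ h3
    rw [smul_smul, inv_mul_cancel₀ h2, one_smul] at h5
    have h6 := hInv.mem_mS hj hw hdj h5
    have h7 := coS_jordan h2 hk (hR i) (h6.2 w) (h6.2 z)
    rw [E_mul_A hdj, E_mul_A hdj, hdd, mul_one, mul_one, φ.et_mul, φ.et_mul, hwz, φ.f_neg w z, hwz, one_smul, neg_smul, one_smul, map_neg, ← sub_eq_add_neg,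
      ← map_sub] at h7
    exact ⟨i, j, rel_of_hyp h2 hk hR hij hwz h7⟩

/-- **a non-scalar coefficient gives a relation** -/
theorem exists_rel [Nonempty ι] (h2 : (2 : F) ≠ 0) (hk : 4 ≤ k) {σ : Matrix (Fin k) (Fin k) F} (hσ : φ.star σ = -σ) (hσ2 : σ * σ = 1)
    (hR : ∀ i, RootsS φ (S.E i) K) {i : T} {A : Matrix ι ι F} (hA : A ∈ coS φ (S.E i) K) (hns : ¬ ∃ c : F, A = c • (1 : Matrix ι ι F)) :
    ∃ i j, S.RelW φ K i j := by
  have hInv := invU (S := S) h2 (by omega) hR i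
  have hex : ∃ j, j ≠ i ∧ ¬ Cmt (S.E j) A := by
    by_contra hcon
    push Not at hcon
    apply hns
    apply S.cent
    intro j
    by_cases hj : j = i
    · rw [hj]; exact hA.1
    · exact hcon j hj
  obtain ⟨j, hji, hnc⟩ := hex
  have hij : i ≠ j := Ne.symm hji
  have hj : j ∈ Finset.univ.erase i := Finset.mem_erase.2 ⟨hji, Finset.mem_univ _⟩
  set u₀ : Fin k → F := Pi.single ⟨0, by omega⟩ 1 with hu₀
  have hu0 : u₀ ≠ 0 := by intro h0; have := congrFun h0 ⟨0, by omega⟩; rw [hu₀, Pi.single_eq_same] at this; exact one_ne_zero this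
  obtain ⟨v₀, huv⟩ := φ.exists_hyp hu0
  have hcm : ∀ {g : Matrix ι ι F}, S.On ((Finset.univ.erase i).erase j) g → Cmt (S.E i) g ∧ Cmt (S.E j) g := by
    intro g hg
    refine ⟨hg i ?_, hg j ?_⟩
    · intro h; exact Finset.notMem_erase i _ (Finset.mem_of_mem_erase h)
    · exact Finset.notMem_erase j _
  rcases hInv.extract hj hA hnc with ⟨w, hw, hne, hmem⟩ | ⟨-, u, v, hu, huv', hli, hne, hmem⟩
  · obtain ⟨n, G, hGon, hG, d, hd, hdd⟩ := unit_lemma h2 (by omega) hσ hσ2 _ (hInv.mS_inv hj (by omega)) ⟨_, hmem, hne⟩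
    have hInv2 := hInv.mS_inv hj (by omega : 0 < k)
    have hdG : S.On ((Finset.univ.erase i).erase j) d := by
      refine Submodule.span_induction (p := fun d _ => S.On ((Finset.univ.erase i).erase j) d) ?_ ?_ ?_ ?_ hd
      · intro g hg; exact hGon g hg
      · exact On.zero
      · intro a b _ _ ha hb; exact ha.add hb
      · intro c a _ ha; exact ha.smul c
    have key : ∀ g ∈ Submodule.span F G, (-1 : F) ^ n • (S.E j (φ.et u₀ v₀) * g) - S.E j (φ.et v₀ u₀) * g ∈ coS φ (S.E i) K := by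
      intro g hg
      refine Submodule.span_induction (p := fun g _ => (-1 : F) ^ n • (S.E j (φ.et u₀ v₀) * g) - S.E j (φ.et v₀ u₀) * g ∈ coS φ (S.E i) K) ?_ ?_ ?_ ?_ hg
      · intro g hg
        obtain ⟨e, he, e', he', h3, h4⟩ := hG g hg
        have h5 := coS_jordan h2 hk (hR i) (he.2 u₀) (he'.2 v₀)
        rw [E_mul_A he.1, E_mul_A he'.1, h3, h4, φ.et_mul, φ.et_mul, huv, φ.f_neg u₀ v₀, huv, one_smul, neg_smul, one_smul, map_neg, neg_mul,
          ← sub_eq_add_neg, mul_smul_comm] at h5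
        exact h5
      · rw [mul_zero, mul_zero, smul_zero, sub_zero]; exact Submodule.zero_mem _
      · intro a b _ _ ha hb
        have := Submodule.add_mem _ ha hb
        convert this using 1
        rw [mul_add, mul_add, smul_add]; abel
      · intro c a _ ha
        have := Submodule.smul_mem _ c ha
        convert this using 1
        rw [mul_smul_comm, mul_smul_comm, smul_sub, smul_comm]
    have h6 := key d hd
    rcases neg_one_pow_eq_or F n with hn | hn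
    · rw [hn, one_smul, ← sub_mul, ← map_sub] at h6
      exact rel_of_unit h2 hk hR hij (hcm hdG).1 (hcm hdG).2 hdd huv (Or.inl h6)
    · rw [hn, neg_one_smul, ← neg_add', ← add_mul, ← map_add] at h6
      exact rel_of_unit h2 hk hR hij (hcm hdG).1 (hcm hdG).2 hdd huv (Or.inr ((Submodule.neg_mem_iff _).1 h6))
  · obtain ⟨n, G, hGon, hG, d, hd, hdd⟩ := unit_lemma h2 (by omega) hσ hσ2 _ (hInv.mW_inv hj huv' hli hu) ⟨_, hmem, hne⟩
    have hInv2 := hInv.mW_inv hj huv' hli hu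
    have hdG : S.On ((Finset.univ.erase i).erase j) d := by
      refine Submodule.span_induction (p := fun d _ => S.On ((Finset.univ.erase i).erase j) d) ?_ ?_ ?_ ?_ hd
      · intro g hg; exact hGon g hg
      · exact On.zero
      · intro a b _ _ ha hb; exact ha.add hb
      · intro c a _ ha; exact ha.smul c
    obtain ⟨y, y', h5, h6, h7⟩ := exists_W_pair φ hk hu0
    have key : ∀ g ∈ Submodule.span F G, S.E i (φ.et v₀ u₀) * g - (-1 : F) ^ n • (S.E i (φ.et u₀ v₀) * g) ∈ coS φ (S.E j) K := by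
      intro g hg
      refine Submodule.span_induction (p := fun g _ => S.E i (φ.et v₀ u₀) * g - (-1 : F) ^ n • (S.E i (φ.et u₀ v₀) * g) ∈ coS φ (S.E j) K) ?_ ?_ ?_ ?_ hg
      · intro g hg
        obtain ⟨e, he, e', he', h3, h4⟩ := hG g hg
        have h8 := lie_step h2 hR hij he he' (hcm (hInv2.on _ he)).1 (hcm (hInv2.on _ he')).1 hu0 h5 h6 h7 huv
        rw [h3, h4, mul_smul_comm] at h8
        exact h8
      · rw [mul_zero, mul_zero, smul_zero, sub_zero]; exact Submodule.zero_mem _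
      · intro a b _ _ ha hb
        have := Submodule.add_mem _ ha hb
        convert this using 1
        rw [mul_add, mul_add, smul_add]; abel
      · intro c a _ ha
        have := Submodule.smul_mem _ c ha
        convert this using 1
        rw [mul_smul_comm, mul_smul_comm, smul_sub, smul_comm]
    have h6 := key d hd
    rcases neg_one_pow_eq_or F n with hn | hn
    · rw [hn, one_smul] at h6
      refine rel_of_unit h2 hk hR (Ne.symm hij) (hcm hdG).2 (hcm hdG).1 hdd huv (Or.inl ?_)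
      have := (coS φ (S.E j) K).neg_mem h6
      rwa [neg_sub, ← sub_mul, ← map_sub] at this
    · rw [hn, neg_one_smul, sub_neg_eq_add, ← add_mul, ← map_add, add_comm (φ.et v₀ u₀)] at h6
      exact rel_of_unit h2 hk hR (Ne.symm hij) (hcm hdG).2 (hcm hdG).1 hdd huv (Or.inr h6)

/-- transport -/
lemma relW_conj {i j : T} (h : S.RelW φ K i j) {g : GL ι F} (hg : g ∈ K) {i' j' : T} (hi : ∀ a, g.1 * S.E i a * (g⁻¹).1 = S.E i' a)
    (hj : ∀ a, g.1 * S.E j a * (g⁻¹).1 = S.E j' a) (hij' : i' ≠ j') : S.RelW φ K i' j' := by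
  refine ⟨hij', fun u v huv => ⟨cmt_E hij' _, fun c w => ?_⟩⟩
  have h1 := ((h.2 u v huv).2 c w).conj' hg
  rw [← hi, ← hj]
  convert h1 using 1
  calc g.1 * S.E i (c • φ.et w w) * (g⁻¹).1 * (g.1 * S.E j (φ.W u v) * (g⁻¹).1) = g.1 * S.E i (c • φ.et w w) * ((g⁻¹).1 * g.1) * S.E j (φ.W u v) * (g⁻¹).1 := by
        simp only [mul_assoc]
    _ = _ := by rw [inv_mul_val, mul_one]; simp only [mul_assoc]

/-- the triple relation -/
lemma triple_of_rel (h2 : (2 : F) ≠ 0) (hk : 4 ≤ k) (hR : ∀ i, RootsS φ (S.E i) K) {i j l : T} (hij : i ≠ j) (hil : S.RelW φ K i l) (hjl : S.RelW φ K j l)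
    (x v : Fin k → F) : S.E j (φ.et v v) * S.E l (φ.et x x) ∈ coS φ (S.E i) K := by
  by_cases hx : x = 0
  · rw [hx, φ.et_zero_left, map_zero, mul_zero]; exact Submodule.zero_mem _
  obtain ⟨y, y', h5, h6, h7⟩ := exists_W_pair φ hk hx
  have w1 : φ.W x y * φ.W x y' = - φ.et x x := by
    rw [SpF.W, SpF.W, sub_mul, mul_sub, mul_sub, φ.et_mul, φ.et_mul, φ.et_mul, φ.et_mul, φ.f_self, h6, h7, φ.f_zero_symm h5]; simp
  have w2 : φ.W x y' * φ.W x y = φ.et x x := by
    rw [SpF.W, SpF.W, sub_mul, mul_sub, mul_sub, φ.et_mul, φ.et_mul, φ.et_mul, φ.et_mul, φ.f_self, h5, φ.f_neg y y', h7, φ.f_zero_symm h6]; simp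
  obtain ⟨u, hu0⟩ : ∃ u : Fin k → F, u ≠ 0 := ⟨x, hx⟩
  have hX := (hil.2 x y h5).2 1 u
  have hY := (hjl.2 x y' h6).2 1 v
  rw [one_smul] at hX hY
  set X := S.E i (φ.et u u) * S.E l (φ.W x y) with hXd
  set Y := S.E j (φ.et v v) * S.E l (φ.W x y') with hYd
  have cl : ∀ {p : T} (_ : p ≠ l) (a b : Matrix (Fin k) (Fin k) F), S.E l a * S.E p b = S.E p b * S.E l a := fun hp a b => S.comm l _ (Ne.symm hp) a b
  have hXY : X * Y = S.E i (φ.et u u) * S.E j (φ.et v v) * S.E l (- φ.et x x) := by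
    rw [hXd, hYd, ← w1, map_mul]
    calc S.E i (φ.et u u) * S.E l (φ.W x y) * (S.E j (φ.et v v) * S.E l (φ.W x y')) =
        S.E i (φ.et u u) * (S.E l (φ.W x y) * S.E j (φ.et v v)) * S.E l (φ.W x y') := by simp only [mul_assoc]
      _ = _ := by rw [cl hjl.1]; simp only [mul_assoc]
  have hYX : Y * X = S.E i (φ.et u u) * S.E j (φ.et v v) * S.E l (φ.et x x) := by
    rw [hXd, hYd, ← w2, map_mul]
    calc S.E j (φ.et v v) * S.E l (φ.W x y') * (S.E i (φ.et u u) * S.E l (φ.W x y)) =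
        S.E j (φ.et v v) * (S.E l (φ.W x y') * S.E i (φ.et u u)) * S.E l (φ.W x y) := by simp only [mul_assoc]
      _ = (S.E j (φ.et v v) * S.E i (φ.et u u)) * (S.E l (φ.W x y') * S.E l (φ.W x y)) := by rw [cl hil.1]; simp only [mul_assoc]
      _ = _ := by rw [S.comm j i (Ne.symm hij)]
  have sqz : ∀ {p : T} (_ : p ≠ l) (w : Fin k → F) (a : Matrix (Fin k) (Fin k) F), S.E p (φ.et w w) * S.E l a * (S.E p (φ.et w w) * S.E l a) = 0 := by
    intro p hp w a
    calc S.E p (φ.et w w) * S.E l a * (S.E p (φ.et w w) * S.E l a) = S.E p (φ.et w w) * (S.E l a * S.E p (φ.et w w)) * S.E l a := by simp only [mul_assoc]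
      _ = (S.E p (φ.et w w) * S.E p (φ.et w w)) * S.E l a * S.E l a := by rw [cl hp]; simp only [mul_assoc]
      _ = 0 := by rw [← map_mul, φ.et_sq, map_zero, zero_mul, zero_mul]
  have hXYX : X * Y * X = 0 := by
    rw [mul_assoc, hYX, hXd]
    calc S.E i (φ.et u u) * S.E l (φ.W x y) * (S.E i (φ.et u u) * S.E j (φ.et v v) * S.E l (φ.et x x)) =
        S.E i (φ.et u u) * (S.E l (φ.W x y) * S.E i (φ.et u u)) * (S.E j (φ.et v v) * S.E l (φ.et x x)) := by simp only [mul_assoc]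
      _ = (S.E i (φ.et u u) * S.E i (φ.et u u)) * S.E l (φ.W x y) * (S.E j (φ.et v v) * S.E l (φ.et x x)) := by rw [cl hil.1]; simp only [mul_assoc]
      _ = 0 := by rw [← map_mul, φ.et_sq, map_zero, zero_mul, zero_mul]
  have hYXY : Y * X * Y = 0 := by
    rw [mul_assoc, hXY, hYd]
    calc S.E j (φ.et v v) * S.E l (φ.W x y') * (S.E i (φ.et u u) * S.E j (φ.et v v) * S.E l (-φ.et x x)) =
        S.E j (φ.et v v) * S.E l (φ.W x y') * ((S.E i (φ.et u u) * S.E j (φ.et v v)) * S.E l (-φ.et x x)) := by simp only [mul_assoc]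
      _ = S.E j (φ.et v v) * (S.E l (φ.W x y') * S.E j (φ.et v v)) * S.E i (φ.et u u) * S.E l (-φ.et x x) := by rw [S.comm i j hij]; simp only [mul_assoc]
      _ = (S.E j (φ.et v v) * S.E j (φ.et v v)) * S.E l (φ.W x y') * S.E i (φ.et u u) * S.E l (-φ.et x x) := by rw [cl hjl.1]; simp only [mul_assoc]
      _ = 0 := by rw [← map_mul, φ.et_sq, map_zero, zero_mul, zero_mul, zero_mul]
  have h8 := hX.comm2 hY (sqz hil.1 u _) (sqz hjl.1 v _) hXYX hYXY
  have e9 : X * Y - Y * X = S.E i (φ.et u u) * ((-2 : F) • (S.E j (φ.et v v) * S.E l (φ.et x x))) := by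
    rw [hXY, hYX, map_neg, neg_smul, two_smul]; noncomm_ring
  rw [e9] at h8
  have hc : Cmt (S.E i) ((-2 : F) • (S.E j (φ.et v v) * S.E l (φ.et x x))) := ((cmt_E hij _).mul (cmt_E hil.1 _)).smul _
  have h9 := coS_of h2 (hR i) hu0 hc h8
  have := (coS φ (S.E i) K).smul_mem (-2 : F)⁻¹ h9
  rwa [smul_smul, inv_mul_cancel₀ (neg_ne_zero.2 h2), one_smul] at this

end Sys

end Cfsg.Agent.Asch.CW
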