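import Mathlib
import Cfsg.Prelude.Def_GeometricClasses
import Cfsg.Agent.Asch.CSRel
set_option autoImplicit false
set_option linter.unusedSectionVars false
set_option linter.unusedVariables false
set_option linter.style.haveILetI false

/-!
The adjoint involution on the whole algebra.
-/

namespace Cfsg.Agent.Asch.CW

open Matrix Module

open scoped Matrix

/-- an involution compatible with the adjoint of the factors -/
structure SSt {k : ℕ} {T ι : Type} [Fintype ι] [DecidableEq ι] {F : Type*} [Field F] (S : Sys k T ι F) (φ : SpF k F) where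
  st : Matrix ι ι F →ₗ[F] Matrix ι ι F
  st_mul : ∀ X Y, st (X * Y) = st Y * st X
  st_st : ∀ X, st (st X) = X
  st_E : ∀ i a, st (S.E i a) = S.E i (φ.star a)

namespace SSt

variable {k : ℕ} {T ι : Type} [Fintype ι] [DecidableEq ι] {F : Type*} [Field F] {S : Sys k T ι F} {φ : SpF k F} (Θ : SSt S φ)

lemma st_one : Θ.st 1 = 1 := by
  have h1 : Θ.st (Θ.st 1 * 1) = Θ.st 1 * Θ.st (Θ.st 1) := Θ.st_mul _ _
  rw [mul_one, Θ.st_st, mul_one] at h1
  exact h1.symm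

lemma st_neg (X : Matrix ι ι F) : Θ.st (-X) = - Θ.st X := map_neg _ _
lemma st_sub (X Y : Matrix ι ι F) : Θ.st (X - Y) = Θ.st X - Θ.st Y := map_sub _ _ _
lemma st_add (X Y : Matrix ι ι F) : Θ.st (X + Y) = Θ.st X + Θ.st Y := map_add _ _ _

lemma st_et (i : T) (u v : Fin k → F) : Θ.st (S.E i (φ.et u v)) = - S.E i (φ.et v u) := by rw [Θ.st_E, φ.star_et, map_neg]

/-- elements commuting with a factor -/
lemma st_cmt {i : T} {X : Matrix ι ι F} (h : Cmt (S.E i) X) : Cmt (S.E i) (Θ.st X) := by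
  intro a
  have h1 := congrArg Θ.st (h (φ.star a))
  rw [Θ.st_mul, Θ.st_mul, Θ.st_E, φ.star_star] at h1
  exact h1.symm

lemma st_on {J : Finset T} {X : Matrix ι ι F} (h : S.On J X) : S.On J (Θ.st X) := fun i hi => Θ.st_cmt (h i hi)

/-- similitudes -/
def Sim (g : GL ι F) : Prop := ∃ c : F, Θ.st g.1 * g.1 = c • (1 : Matrix ι ι F)

/-- isometries -/
def Iso (g : GL ι F) : Prop := Θ.st g.1 * g.1 = 1

variable {Θ}

lemma Iso.sim {g : GL ι F} (h : Θ.Iso g) : Θ.Sim g := ⟨1, by rw [one_smul]; exact h⟩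

lemma Sim.st_eq [Nonempty ι] {g : GL ι F} (h : Θ.Sim g) : ∃ c : F, c ≠ 0 ∧ Θ.st g.1 = c • (g⁻¹).1 ∧ Θ.st (g⁻¹).1 = c⁻¹ • g.1 := by
  obtain ⟨c, hc⟩ := h
  have h1 : Θ.st g.1 = c • (g⁻¹).1 := by
    calc Θ.st g.1 = Θ.st g.1 * (g.1 * (g⁻¹).1) := by rw [mul_inv_val, mul_one]
      _ = c • (g⁻¹).1 := by rw [← mul_assoc, hc, smul_mul_assoc, one_mul]
  have h2 : Θ.st (g⁻¹).1 * Θ.st g.1 = 1 := by rw [← Θ.st_mul, mul_inv_val, Θ.st_one]
  have h2' : Θ.st g.1 * Θ.st (g⁻¹).1 = 1 := by rw [← Θ.st_mul, inv_mul_val, Θ.st_one]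
  have hc0 : c ≠ 0 := by
    rintro rfl
    rw [h1, zero_smul, mul_zero] at h2
    exact zero_ne_one h2
  refine ⟨c, hc0, h1, ?_⟩
  rw [h1, smul_mul_assoc] at h2'
  calc Θ.st (g⁻¹).1 = g.1 * ((g⁻¹).1 * Θ.st (g⁻¹).1) := by rw [← mul_assoc, mul_inv_val, one_mul]
    _ = g.1 * (c⁻¹ • (c • ((g⁻¹).1 * Θ.st (g⁻¹).1))) := by rw [smul_smul, inv_mul_cancel₀ hc0, one_smul]
    _ = _ := by rw [h2', mul_smul_comm, mul_one]

lemma Sim.st_conj [Nonempty ι] {g : GL ι F} (h : Θ.Sim g) (X : Matrix ι ι F) : Θ.st (g.1 * X * (g⁻¹).1) = g.1 * Θ.st X * (g⁻¹).1 := by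
  obtain ⟨c, hc0, h1, h2⟩ := h.st_eq
  rw [Θ.st_mul, Θ.st_mul, h1, h2, mul_smul_comm, smul_mul_assoc, mul_smul_comm, smul_smul, inv_mul_cancel₀ hc0, one_smul, mul_assoc]

lemma sim_of_conj {g : GL ι F} (h : ∀ i a, ∃ j b, g.1 * S.E i a * (g⁻¹).1 = S.E j b ∧ g.1 * S.E i (φ.star a) * (g⁻¹).1 = S.E j (φ.star b)) : Θ.Sim g := by
  apply S.cent
  intro i a
  -- st g * g commutes with E i a
  obtain ⟨j, b, h1, h2⟩ := h i (φ.star a)
  rw [φ.star_star] at h2
  have h3 := congrArg Θ.st h1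
  rw [Θ.st_E, Θ.st_mul, Θ.st_mul, Θ.st_E, φ.star_star, ← h2] at h3
  -- st g⁻¹ * (E a * st g) = g * E a * g⁻¹
  have h4 : Θ.st g.1 * Θ.st (g⁻¹).1 = 1 := by rw [← Θ.st_mul, inv_mul_val, Θ.st_one]
  have h5 : S.E i a * Θ.st g.1 = Θ.st g.1 * (g.1 * S.E i a * (g⁻¹).1) := by
    rw [← h3, ← mul_assoc, h4, one_mul]
  calc S.E i a * (Θ.st g.1 * g.1) = (S.E i a * Θ.st g.1) * g.1 := by rw [mul_assoc]
    _ = Θ.st g.1 * (g.1 * S.E i a) * ((g⁻¹).1 * g.1) := by rw [h5]; simp only [mul_assoc]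
    _ = _ := by rw [inv_mul_val, mul_one, mul_assoc]

lemma Sim.mul [Nonempty ι] {g h : GL ι F} (hg : Θ.Sim g) (hh : Θ.Sim h) : Θ.Sim (g * h) := by
  obtain ⟨c, hc⟩ := hg
  obtain ⟨d, hd⟩ := hh
  refine ⟨c * d, ?_⟩
  rw [Units.val_mul, Θ.st_mul]
  calc Θ.st h.1 * Θ.st g.1 * (g.1 * h.1) = Θ.st h.1 * (Θ.st g.1 * g.1) * h.1 := by simp only [mul_assoc]
    _ = _ := by rw [hc, mul_smul_comm, mul_one, smul_mul_assoc, hd, smul_smul]

lemma Sim.inv [Nonempty ι] {g : GL ι F} (hg : Θ.Sim g) : Θ.Sim g⁻¹ := by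
  obtain ⟨c, hc0, h1, h2⟩ := hg.st_eq
  exact ⟨c⁻¹, by rw [h2, smul_mul_assoc, mul_inv_val]⟩

lemma Iso.mul {g h : GL ι F} (hg : Θ.Iso g) (hh : Θ.Iso h) : Θ.Iso (g * h) := by
  unfold Iso at *
  rw [Units.val_mul, Θ.st_mul]
  calc Θ.st h.1 * Θ.st g.1 * (g.1 * h.1) = Θ.st h.1 * (Θ.st g.1 * g.1) * h.1 := by simp only [mul_assoc]
    _ = _ := by rw [hg, mul_one, hh]

lemma Iso.inv [Nonempty ι] {g : GL ι F} (hg : Θ.Iso g) : Θ.Iso g⁻¹ := by
  have h1 : Θ.st g.1 = (g⁻¹).1 := by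
    calc Θ.st g.1 = Θ.st g.1 * (g.1 * (g⁻¹).1) := by rw [mul_inv_val, mul_one]
      _ = _ := by rw [← mul_assoc, hg, one_mul]
  unfold Iso
  rw [← h1, Θ.st_st, h1, mul_inv_val]

/-- square zero isometries -/
lemma Iso.st_neg_of_sq [Nonempty ι] {x : GL ι F} (hx : Θ.Iso x) {Z : Matrix ι ι F} (hxZ : x.1 = 1 + Z) (hZ : Z * Z = 0) : Θ.st Z = -Z := by
  have h1 : (x⁻¹).1 = 1 - Z := Mem1.inv_eq hxZ hZ
  have h2 : Θ.st x.1 = (x⁻¹).1 := by
    calc Θ.st x.1 = Θ.st x.1 * (x.1 * (x⁻¹).1) := by rw [mul_inv_val, mul_one]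
      _ = _ := by rw [← mul_assoc, hx, one_mul]
  rw [h1, hxZ, Θ.st_add, Θ.st_one] at h2
  have := add_left_cancel (a := (1 : Matrix ι ι F)) (by rw [h2, sub_eq_add_neg] : 1 + Θ.st Z = 1 + -Z)
  exact this

/-- blocks and the adjoint -/
lemma cb_st (i : T) (u v : Fin k → F) (Z : Matrix ι ι F) : cb φ (S.E i) u v (Θ.st Z) = - Θ.st (cb φ (S.E i) v u Z) := by
  by_cases hk : k = 0
  · subst hk
    have h1 : ∀ (u v : Fin 0 → F) (Z : Matrix ι ι F), cb φ (S.E i) u v Z = 0 := by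
      intro u v Z; rw [cb, ctr]; simp
    rw [h1, h1, map_zero, neg_zero]
  set x : Fin k → F := Pi.single ⟨0, by omega⟩ 1 with hx
  have hx0 : x ≠ 0 := by intro h0; have := congrFun h0 ⟨0, by omega⟩; rw [hx, Pi.single_eq_same] at this; exact one_ne_zero this
  have h1 := E_cb (φ := φ) (E := S.E i) v u x x Z
  have h2 := congrArg Θ.st h1
  rw [Θ.st_mul, Θ.st_mul, Θ.st_mul, Θ.st_et, Θ.st_et, Θ.st_et] at h2
  have h3 : S.E i (φ.et x u) * Θ.st Z * S.E i (φ.et v x) = - (S.E i (φ.et x x) * Θ.st (cb φ (S.E i) v u Z)) := by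
    rw [Θ.st_cmt (cb_cmt v u Z)]
    calc S.E i (φ.et x u) * Θ.st Z * S.E i (φ.et v x) = -S.E i (φ.et x u) * (Θ.st Z * -S.E i (φ.et v x)) := by noncomm_ring
      _ = _ := by rw [h2]; noncomm_ring
  rw [E_cb] at h3
  have h4 : S.E i (φ.et x x) * (cb φ (S.E i) u v (Θ.st Z) + Θ.st (cb φ (S.E i) v u Z)) = 0 := by
    rw [mul_add, h3, neg_add_cancel]
  have h5 := eq_zero_of_E_mul (S.E i) ((cb_cmt u v (Θ.st Z)).add (Θ.st_cmt (cb_cmt v u Z))) (φ.et_ne_zero hx0 hx0) h4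
  exact eq_neg_of_add_eq_zero_left h5

/-- elements which are alternating at all factors are self-adjoint -/
theorem st_eq_of_alt [DecidableEq T] (J : Finset T) {Z : Matrix ι ι F} (hZ : S.On J Z) (h : ∀ i ∈ J, ∀ w, cb φ (S.E i) w w Z = 0) : Θ.st Z = Z := by
  induction hn : J.card using Nat.strong_induction_on generalizing J Z with
  | _ n ih =>
    by_cases hJ : J = ∅
    · subst hJ
      obtain ⟨c, hc⟩ := Sys.on_empty hZ
      rw [hc, map_smul, Θ.st_one]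
    obtain ⟨i, hi⟩ := Finset.nonempty_iff_ne_empty.2 hJ
    have hlt : (J.erase i).card < n := by rw [← hn]; exact Finset.card_erase_lt_of_mem hi
    have hanti : ∀ u v, cb φ (S.E i) v u Z = - cb φ (S.E i) u v Z := by
      intro u v
      have := h i hi (u + v)
      rw [cb_add_left, cb_add_right, cb_add_right, h i hi, h i hi, zero_add, add_zero] at this
      exact eq_neg_of_add_eq_zero_right this
    apply cb_ext (φ := φ) (E := S.E i)
    intro u v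
    rw [cb_st, hanti u v, map_neg, neg_neg]
    apply ih _ hlt (J.erase i) _ _ rfl
    · intro l hl
      by_cases hli : l = i
      · subst hli; exact cb_cmt _ _ _
      · have hlJ : l ∉ J := fun h2 => hl (Finset.mem_erase.2 ⟨hli, h2⟩)
        rw [cb, ctr]
        exact Cmt.sum fun r _ => ((Sys.cmt_E hli _).mul (hZ l hlJ)).mul (Sys.cmt_E hli _)
    · intro l hl w
      obtain ⟨hli, hlJ⟩ := Finset.mem_erase.1 hl
      -- blocks of different factors commute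
      have h1 : S.E l (φ.et w w) * cb φ (S.E l) w w (cb φ (S.E i) u v Z) = 0 := by
        rw [← E_cb, cb, ctr, Finset.mul_sum, Finset.sum_mul]
        apply Finset.sum_eq_zero
        intro r _
        have c1 : ∀ a b, S.E l a * S.E i b = S.E i b * S.E l a := fun a b => S.comm l i hli a b
        calc S.E l (φ.et w w) * (S.E i (vecMulVec (Pi.single r 1) (φ.fr u)) * Z * S.E i (vecMulVec v (Pi.single r 1))) * S.E l (φ.et w w) =
            (S.E l (φ.et w w) * S.E i (vecMulVec (Pi.single r 1) (φ.fr u))) * Z * (S.E i (vecMulVec v (Pi.single r 1)) * S.E l (φ.et w w)) := by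
              simp only [mul_assoc]
          _ = S.E i (vecMulVec (Pi.single r 1) (φ.fr u)) * (S.E l (φ.et w w) * Z * S.E l (φ.et w w)) * S.E i (vecMulVec v (Pi.single r 1)) := by
              rw [c1, ← c1 (φ.et w w) (vecMulVec v (Pi.single r 1))]; simp only [mul_assoc]
          _ = 0 := by rw [E_cb, h l hlJ w, mul_zero, mul_zero, zero_mul]
      by_cases hw : w = 0
      · rw [hw]
        have := cb_smul_left (φ := φ) (E := S.E l) 0 0 0 (cb φ (S.E i) u v Z)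
        rw [zero_smul, zero_smul] at this
        exact this
      · exact eq_zero_of_E_mul (S.E l) (cb_cmt _ _ _) (φ.et_ne_zero hw hw) h1

end SSt

end Cfsg.Agent.Asch.CW
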