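import Mathlib
import Cfsg.Prelude.Def_GeometricClasses
import Cfsg.Agent.Asch.CSStar
set_option autoImplicit false
set_option linter.unusedSectionVars false
set_option linter.unusedVariables false
set_option linter.style.haveILetI false

/-!
The alternating coefficients vanish.
-/

namespace Cfsg.Agent.Asch.CW

open Matrix Module

open scoped Matrix

section table

variable {k : ℕ} {F : Type*} [Field F] (φ : SpF k F)

lemma W_add (u v v' : Fin k → F) : φ.W u (v + v') = φ.W u v + φ.W u v' := by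
  rw [SpF.W, SpF.W, SpF.W, φ.et_add_left, φ.et_add_right]; abel

lemma W_smul (c : F) (u v : Fin k → F) : φ.W u (c • v) = c • φ.W u v := by
  rw [SpF.W, SpF.W, φ.et_smul_left, φ.et_smul_right, smul_sub]

lemma W_self (u : Fin k → F) : φ.W u u = 0 := sub_self _

lemma W_mul_W {u z z' : Fin k → F} (h : φ.f u z = 0) (h' : φ.f u z' = 0) : φ.W u z * φ.W u z' = -(φ.f z z' • φ.et u u) := by
  rw [SpF.W, SpF.W, sub_mul, mul_sub, mul_sub, φ.et_mul, φ.et_mul, φ.et_mul, φ.et_mul, φ.f_self, h', φ.f_zero_symm h]; simp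

lemma W_mul_et {u z : Fin k → F} (h : φ.f u z = 0) : φ.W u z * φ.et u u = 0 := by
  rw [SpF.W, sub_mul, φ.et_mul, φ.et_mul, φ.f_self, φ.f_zero_symm h]; simp

lemma et_mul_W {u z : Fin k → F} (h : φ.f u z = 0) : φ.et u u * φ.W u z = 0 := by
  rw [SpF.W, mul_sub, φ.et_mul, φ.et_mul, φ.f_self, h]; simp

lemma W_conj (c : F) (y u v : Fin k → F) : (1 + c • φ.et y y) * φ.W u v * (1 - c • φ.et y y) = φ.W (φ.tv c y u) (φ.tv c y v) := by
  have : (1 + c • φ.et y y) * φ.W u v * (1 - c • φ.et y y) = (1 + c • φ.et y y) * φ.et u v * (1 - c • φ.et y y) - (1 + c • φ.et y y) * φ.et v u * (1 - c • φ.et y y) := by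
    rw [SpF.W, mul_sub (1 + c • φ.et y y), sub_mul _ _ (1 - c • φ.et y y)]
  rw [this, φ.et_conj, φ.et_conj]; rfl

lemma star_W (u v : Fin k → F) : φ.star (φ.W u v) = φ.W u v := by
  rw [SpF.W, φ.star_sub, φ.star_et, φ.star_et]; abel

lemma star_D (u v : Fin k → F) : φ.star (φ.D u v) = - φ.D u v := by
  rw [SpF.D, φ.star_add, φ.star_et, φ.star_et]; abel

end table

section mB

variable {k : ℕ} {ι : Type} [Fintype ι] [DecidableEq ι] {F : Type*} [Field F] {E : Matrix (Fin k) (Fin k) F →ₐ[F] Matrix ι ι F} {φ : SpF k F}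
  {K : Subgroup (GL ι F)}

/-- the element with alternating coefficient -/
def QE (E : Matrix (Fin k) (Fin k) F →ₐ[F] Matrix ι ι F) (φ : SpF k F) (u z : Fin k → F) (a a₁ : Matrix ι ι F) : Matrix ι ι F :=
  E (φ.W u z) * a + E (φ.et u u) * a₁

lemma QE_mul {u z z' : Fin k → F} (h : φ.f u z = 0) (h' : φ.f u z' = 0) {a a₁ b b₁ : Matrix ι ι F} (ha : Cmt E a) (ha₁ : Cmt E a₁) :
    QE E φ u z a a₁ * QE E φ u z' b b₁ = - (φ.f z z' • (E (φ.et u u) * (a * b))) := by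
  rw [QE, QE, add_mul, mul_add, mul_add, E_mul_A ha, E_mul_A ha, E_mul_A ha₁, E_mul_A ha₁, W_mul_W φ h h', W_mul_et φ h, et_mul_W φ h', φ.et_sq, map_neg,
    map_smul, map_zero, neg_mul, smul_mul_assoc]
  simp

lemma QE_sq {u z : Fin k → F} (h : φ.f u z = 0) {a a₁ : Matrix ι ι F} (ha : Cmt E a) (ha₁ : Cmt E a₁) : QE E φ u z a a₁ * QE E φ u z a a₁ = 0 := by
  rw [QE_mul h h ha ha₁, φ.f_self, zero_smul, neg_zero]

/-- the space of alternating coefficients -/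
def mB (φ : SpF k F) (E : Matrix (Fin k) (Fin k) F →ₐ[F] Matrix ι ι F) (K : Subgroup (GL ι F)) (u : Fin k → F) : Submodule F (Matrix ι ι F) where
  carrier := {a | Cmt E a ∧ ∀ z, φ.f u z = 0 → ∃ a₁, Cmt E a₁ ∧ Mem1 K (QE E φ u z a a₁)}
  add_mem' := by
    rintro a b ⟨ha, h1⟩ ⟨hb, h2⟩
    refine ⟨ha.add hb, fun z hz => ?_⟩
    obtain ⟨a₁, ha₁, h3⟩ := h1 z hz
    obtain ⟨b₁, hb₁, h4⟩ := h2 z hz
    refine ⟨a₁ + b₁, ha₁.add hb₁, ?_⟩
    have := h3.add h4 (by rw [QE_mul hz hz ha ha₁, φ.f_self, zero_smul, neg_zero])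
    convert this using 1
    rw [QE, QE, QE, mul_add, mul_add]; abel
  zero_mem' := ⟨Cmt.zero, fun z _ => ⟨0, Cmt.zero, by rw [QE, mul_zero, mul_zero, add_zero]; exact mem1_zero⟩⟩
  smul_mem' := by
    rintro c a ⟨ha, h1⟩
    refine ⟨ha.smul c, fun z hz => ?_⟩
    obtain ⟨a₁, ha₁, h3⟩ := h1 (c • z) (by rw [φ.f_smul_right, hz, mul_zero])
    refine ⟨a₁, ha₁, ?_⟩
    convert h3 using 1
    rw [QE, QE, W_smul, map_smul, smul_mul_assoc, mul_smul_comm]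

/-- one element suffices -/
lemma mem_mB (hR : RootsS φ E K) {u z : Fin k → F} (hz : φ.f u z = 0) (hli : z ∉ Submodule.span F {u}) {a a₁ : Matrix ι ι F} (ha : Cmt E a) (ha₁ : Cmt E a₁)
    (h : Mem1 K (QE E φ u z a a₁)) : a ∈ mB φ E K u := by
  have hconj : ∀ (c : F) (y : Fin k → F), φ.f u y = 0 → Mem1 K (QE E φ u (φ.tv c y z) a a₁) := by
    intro c y hy
    have h1 := (hR c y).cj h (E_sq (cet_sq φ c y))
    convert h1 using 1
    have tu : φ.tv c y u = u := by rw [SpF.tv, φ.f_zero_symm hy, mul_zero, zero_smul, add_zero]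
    have e : ∀ (x : Matrix (Fin k) (Fin k) F) {A : Matrix ι ι F}, Cmt E A → (1 + E (c • φ.et y y)) * (E x * A) * (1 - E (c • φ.et y y)) =
        E ((1 + c • φ.et y y) * x * (1 - c • φ.et y y)) * A := by
      intro x A hA
      rw [map_mul, map_mul, map_add, map_sub, map_one]
      have h2 : A * (1 - E (c • φ.et y y)) = (1 - E (c • φ.et y y)) * A := by rw [sub_mul, mul_sub, one_mul, mul_one, hA]
      calc (1 + E (c • φ.et y y)) * (E x * A) * (1 - E (c • φ.et y y)) = (1 + E (c • φ.et y y)) * E x * (A * (1 - E (c • φ.et y y))) := by simp only [mul_assoc]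
        _ = _ := by rw [h2]; simp only [mul_assoc]
    rw [QE, QE, mul_add (1 + E (c • φ.et y y)), add_mul _ _ (1 - E (c • φ.et y y)), e _ ha, e _ ha₁, W_conj, φ.et_conj, tu]
  -- vectors not orthogonal to z
  have h1 : ∀ y, φ.f u y = 0 → φ.f y z ≠ 0 → ∃ a₂, Cmt E a₂ ∧ Mem1 K (QE E φ u y a a₂) := by
    intro y hy hyz
    have h3 := hconj (φ.f y z)⁻¹ y hy
    have t : φ.tv (φ.f y z)⁻¹ y z = z + y := by rw [SpF.tv, inv_mul_cancel₀ hyz, one_smul]
    rw [t] at h3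
    have h4 := h3.mul (h.neg (QE_sq hz ha ha₁))
    rw [mul_neg, QE_mul (by rw [φ.f_add_right, hz, hy, add_zero]) hz ha ha₁, neg_neg] at h4
    refine ⟨φ.f (z + y) z • (a * a), (ha.mul ha).smul _, ?_⟩
    convert h4 using 1
    rw [QE, QE, QE, W_add, map_add, mul_smul_comm]
    noncomm_ring
  refine ⟨ha, fun y hy => ?_⟩
  by_cases hyz : φ.f y z = 0
  · obtain ⟨x, hx1, hx2⟩ := φ.exists_sep hli
    have hxz : φ.f x z ≠ 0 := by rw [φ.f_neg z x, hx2]; exact neg_ne_zero.2 one_ne_zero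
    obtain ⟨a₂, ha₂, h5⟩ := h1 x hx1 hxz
    obtain ⟨a₃, ha₃, h6⟩ := h1 (y + x) (by rw [φ.f_add_right, hy, hx1, add_zero]) (by rw [φ.f_add_left, hyz, zero_add]; exact hxz)
    have h7 := h6.mul (h5.neg (QE_sq hx1 ha ha₂))
    rw [mul_neg, QE_mul (by rw [φ.f_add_right, hy, hx1, add_zero]) hx1 ha ha₃, neg_neg] at h7
    refine ⟨a₃ - a₂ + φ.f (y + x) x • (a * a), (ha₃.sub ha₂).add ((ha.mul ha).smul _), ?_⟩
    convert h7 using 1
    rw [QE, QE, QE, W_add, map_add, mul_add, mul_smul_comm]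
    noncomm_ring
  · exact h1 y hy hyz

end mB

namespace Sys

variable {k : ℕ} {T ι : Type} [DecidableEq T] [Fintype ι] [DecidableEq ι] {F : Type*} [Field F] {S : Sys k T ι F} {φ : SpF k F}
  {J : Finset T} {K : Subgroup (GL ι F)}

lemma exists_indep (φ : SpF k F) (hk : 4 ≤ k) {u : Fin k → F} (hu : u ≠ 0) : ∃ z z', φ.f u z = 0 ∧ φ.f u z' = 0 ∧ φ.f z z' = 1 ∧ z ∉ Submodule.span F {u} := by
  obtain ⟨z, z', h1, h2, h3⟩ := exists_W_pair φ hk hu
  refine ⟨z, z', h1, h2, h3, fun hcon => ?_⟩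
  obtain ⟨c, hc⟩ := Submodule.mem_span_singleton.1 hcon
  rw [← hc, φ.f_smul_left, h2, mul_zero] at h3
  exact zero_ne_one h3

lemma mB_inv [Nonempty ι] (h2 : (2 : F) ≠ 0) (hk : 4 ≤ k) (hK : ∀ x ∈ K, S.On J x.1) (hR : ∀ j ∈ J, RootsS φ (S.E j) K)
    {i : T} (hi : i ∈ J) {u : Fin k → F} (hu : u ≠ 0) : S.InvA φ (J.erase i) (mB φ (S.E i) K u) := by
  have hconj : ∀ j ∈ J.erase i, ∀ (w : Fin k → F) (A : Matrix ι ι F), A ∈ mB φ (S.E i) K u → ∀ c : F,
      (1 + c • S.E j (φ.et w w)) * A * (1 - c • S.E j (φ.et w w)) ∈ mB φ (S.E i) K u := by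
    intro j hj w A hA c
    obtain ⟨hji, hjJ⟩ := Finset.mem_erase.1 hj
    obtain ⟨x, hx, hxv⟩ := hR j hjJ c w
    have hxi : (x⁻¹).1 = 1 - S.E j (c • φ.et w w) := Mem1.inv_eq hxv (E_sq (cet_sq φ c w))
    have hxc : Cmt (S.E i) x.1 := by rw [hxv]; exact Cmt.one.add (cmt_E (Ne.symm hji) _)
    have hxc' : Cmt (S.E i) (x⁻¹).1 := cmt_mul_inv hxc
    have hgoal : x.1 * A * (x⁻¹).1 ∈ mB φ (S.E i) K u := by
      refine ⟨(hxc.mul hA.1).mul hxc', fun z hz => ?_⟩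
      obtain ⟨a₁, ha₁, h3⟩ := hA.2 z hz
      refine ⟨x.1 * a₁ * (x⁻¹).1, (hxc.mul ha₁).mul hxc', ?_⟩
      have h4 := h3.conj' hx
      convert h4 using 1
      have e : ∀ (p : Matrix (Fin k) (Fin k) F) (q : Matrix ι ι F), x.1 * (S.E i p * q) * (x⁻¹).1 = S.E i p * (x.1 * q * (x⁻¹).1) := by
        intro p q
        rw [← mul_assoc, ← hxc]; simp only [mul_assoc]
      rw [QE, QE, mul_add x.1, add_mul _ _ (x⁻¹).1, e, e]
    rwa [hxi, hxv, map_smul] at hgoal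
  refine ⟨?_, ?_, ?_⟩
  · rintro b ⟨h1, h3⟩
    obtain ⟨z, z', hz, hz', hzz, hli⟩ := exists_indep φ hk hu
    obtain ⟨a₁, ha₁, x, hx, hxv⟩ := h3 z hz
    have h4 : S.On J (QE (S.E i) φ u z b a₁) := by
      have : QE (S.E i) φ u z b a₁ = x.1 - 1 := by rw [hxv]; abel
      rw [this]; exact (hK x hx).sub On.one
    obtain ⟨x', hx'⟩ := φ.exists_hyp hu
    have h5 : cb φ (S.E i) x' z' (QE (S.E i) φ u z b a₁) = (-1 : F) • b := by
      rw [QE, cb_add, SpF.W, map_sub, sub_mul, cb_sub, cb_et _ _ _ _ h1, cb_et _ _ _ _ h1, cb_et _ _ _ _ ha₁, hz', hzz, φ.f_neg u x', hx']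
      simp
    have h6 : S.On J (cb φ (S.E i) x' z' (QE (S.E i) φ u z b a₁)) := by
      rw [cb, ctr]
      exact On.sum fun r _ => ((on_E hi _).mul h4).mul (on_E hi _)
    rw [h5] at h6
    have h7 := h6.smul (-1 : F)
    rw [smul_smul, neg_one_mul, neg_neg, one_smul] at h7
    intro l hl
    by_cases hli : l = i
    · subst hli; exact h1
    · exact h7 l fun h8 => hl (Finset.mem_erase.2 ⟨hli, h8⟩)
  · intro j hj w A hA
    have h3 := hconj j hj w A hA 1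
    have h4 := hconj j hj w A hA (-1)
    have h5 := (mB φ (S.E i) K u).smul_mem (2 : F)⁻¹ ((mB φ (S.E i) K u).sub_mem h3 h4)
    convert h5 using 1
    rw [one_smul, neg_one_smul]
    have : (1 + S.E j (φ.et w w)) * A * (1 - S.E j (φ.et w w)) - (1 + -S.E j (φ.et w w)) * A * (1 - -S.E j (φ.et w w)) =
        (2 : F) • (S.E j (φ.et w w) * A - A * S.E j (φ.et w w)) := by rw [two_smul]; noncomm_ring
    rw [this, smul_smul, inv_mul_cancel₀ h2, one_smul]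
  · intro j hj w A hA
    have h3 := hconj j hj w A hA 1
    have h4 := hconj j hj w A hA (-1)
    have h5 := (mB φ (S.E i) K u).smul_mem (-(2 : F)⁻¹) ((mB φ (S.E i) K u).sub_mem ((mB φ (S.E i) K u).add_mem h3 h4) ((mB φ (S.E i) K u).smul_mem 2 hA))
    convert h5 using 1
    rw [one_smul, neg_one_smul]
    have : (1 + S.E j (φ.et w w)) * A * (1 - S.E j (φ.et w w)) + (1 + -S.E j (φ.et w w)) * A * (1 - -S.E j (φ.et w w)) - (2 : F) • A =
        (-(2 : F)) • (S.E j (φ.et w w) * A * S.E j (φ.et w w)) := by rw [neg_smul, two_smul, two_smul]; noncomm_ring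
    rw [this, smul_smul, neg_mul_neg, inv_mul_cancel₀ h2, one_smul]

/-- **alternating coefficients vanish** -/
theorem mB_zero [Nonempty ι] (Θ : SSt S φ) (h2 : (2 : F) ≠ 0) (hk : 4 ≤ k) {σ : Matrix (Fin k) (Fin k) F} (hσ : φ.star σ = -σ) (hσ2 : σ * σ = 1)
    (hK : ∀ x ∈ K, S.On J x.1) (hI : ∀ x ∈ K, Θ.Iso x) (hR : ∀ j ∈ J, RootsS φ (S.E j) K) {i : T} (hi : i ∈ J) (hC : CoefS φ (S.E i) K)
    {u : Fin k → F} (hu : u ≠ 0) {a : Matrix ι ι F} (ha : a ∈ mB φ (S.E i) K u) : a = 0 := by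
  by_contra hne
  obtain ⟨z, z', hz, hz', hzz, hli⟩ := exists_indep φ hk hu
  have hInv := mB_inv (φ := φ) h2 hk hK hR hi hu
  -- anti-self-adjoint
  have hst : Θ.st a = -a := by
    obtain ⟨a₁, ha₁, x, hx, hxv⟩ := ha.2 z hz
    have h1 := (hI x hx).st_neg_of_sq hxv (QE_sq hz ha.1 ha₁)
    obtain ⟨x', hx'⟩ := φ.exists_hyp hu
    have h3 := congrArg (cb φ (S.E i) x' z') h1
    have e1 : ∀ {b b₁ : Matrix ι ι F}, Cmt (S.E i) b → Cmt (S.E i) b₁ → cb φ (S.E i) x' z' (QE (S.E i) φ u z b b₁) = - b := by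
      intro b b₁ hb hb₁
      rw [QE, cb_add, SpF.W, map_sub, sub_mul, cb_sub, cb_et _ _ _ _ hb, cb_et _ _ _ _ hb, cb_et _ _ _ _ hb₁, hz', hzz, φ.f_neg u x', hx']
      simp
    have e2 : Θ.st (QE (S.E i) φ u z a a₁) = QE (S.E i) φ u z (Θ.st a) (-Θ.st a₁) := by
      rw [QE, QE, Θ.st_add, Θ.st_mul, Θ.st_mul, Θ.st_E, star_W, Θ.st_et, Θ.st_cmt ha.1, mul_neg, mul_neg, Θ.st_cmt ha₁]
    rw [e2, e1 (Θ.st_cmt ha.1) (Θ.st_cmt ha₁).neg, cb_neg, e1 ha.1 ha₁] at h3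
    rw [neg_neg] at h3
    exact neg_eq_iff_eq_neg.1 h3
  -- Jordan products are scalars
  have hJ : ∀ a ∈ mB φ (S.E i) K u, ∀ b ∈ mB φ (S.E i) K u, ∃ c : F, a * b + b * a = c • (1 : Matrix ι ι F) := by
    intro a ha b hb
    obtain ⟨a₁, ha₁, h3⟩ := ha.2 z hz
    obtain ⟨b₁, hb₁, h4⟩ := hb.2 z' hz'
    have q1 := QE_mul (E := S.E i) (b := b) (b₁ := b₁) hz hz' ha.1 ha₁
    have q2 := QE_mul (E := S.E i) (b := a) (b₁ := a₁) hz' hz hb.1 hb₁
    rw [hzz, one_smul] at q1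
    rw [φ.f_neg z z', hzz, neg_one_smul, neg_neg] at q2
    have z1 : ∀ {c d d₁ : Matrix ι ι F} {y : Fin k → F}, φ.f u y = 0 → Cmt (S.E i) c → S.E i (φ.et u u) * c * QE (S.E i) φ u y d d₁ = 0 := by
      intro c d d₁ y hy hc
      rw [QE, mul_add, E_mul_A hc, E_mul_A hc, et_mul_W φ hy, φ.et_sq, map_zero, zero_mul, zero_mul, add_zero]
    have h5 := h3.comm2 h4 (QE_sq hz ha.1 ha₁) (QE_sq hz' hb.1 hb₁) (by rw [q1, neg_mul, z1 hz (ha.1.mul hb.1), neg_zero])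
      (by rw [q2, z1 hz' (hb.1.mul ha.1)])
    rw [q1, q2] at h5
    have h6 : -(S.E i (φ.et u u) * (a * b)) - S.E i (φ.et u u) * (b * a) = S.E i (φ.et u u) * (-(a * b + b * a)) := by noncomm_ring
    rw [h6] at h5
    obtain ⟨c, hc⟩ := hC u hu _ ((ha.1.mul hb.1).add (hb.1.mul ha.1)).neg h5
    exact ⟨-c, by rw [neg_smul, ← hc, neg_neg]⟩
  -- a symmetric atom
  obtain ⟨l, hl, w, hw⟩ : ∃ l ∈ J.erase i, ∃ w, cb φ (S.E l) w w a ≠ 0 := by
    by_contra hcon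
    push Not at hcon
    have h3 := SSt.st_eq_of_alt (Θ := Θ) (J.erase i) (hInv.on a ha) hcon
    rw [hst] at h3
    have h4 : (2 : F) • a = 0 := by
      rw [two_smul]; nth_rewrite 1 [← h3]; exact neg_add_cancel a
    exact hne ((smul_eq_zero.1 h4).resolve_left h2)
  have hw0 : w ≠ 0 := by
    rintro rfl
    apply hw
    have := cb_smul_left (φ := φ) (E := S.E l) 0 0 0 a
    rw [zero_smul, zero_smul] at this
    exact this
  have hmem : cb φ (S.E l) w w a ∈ S.mS φ l (mB φ (S.E i) K u) := by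
    refine hInv.mem_mS hl hw0 (cb_cmt _ _ _) ?_
    rw [← E_cb]; exact hInv.sq l hl w a ha
  -- all products vanish
  have hprod : ∀ d ∈ S.mS φ l (mB φ (S.E i) K u), ∀ d' ∈ S.mS φ l (mB φ (S.E i) K u), d * d' = 0 := by
    intro d hd d' hd'
    obtain ⟨y, hy⟩ := φ.exists_hyp hw0
    obtain ⟨c, hc⟩ := hJ _ (hd.2 w) _ (hd'.2 y)
    rw [E_mul_A hd.1, E_mul_A hd'.1, φ.et_mul, φ.et_mul, hy, φ.f_neg w y, hy, one_smul, neg_smul, one_smul, map_neg, neg_mul] at hc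
    -- the complement
    obtain ⟨x₀, hx0, hx1, hx2⟩ := exists_row_zero (F := F) (by rw [Fintype.card_fin]; omega : 3 ≤ Fintype.card (Fin k)) (φ.fr w) (φ.fr y)
    have hwx : φ.f w x₀ = 0 := by rw [← φ.fr_dot, dotProduct_comm]; exact hx1
    have hyx : φ.f y x₀ = 0 := by rw [← φ.fr_dot, dotProduct_comm]; exact hx2
    obtain ⟨y₀, hy0⟩ := φ.exists_hyp hx0
    have hdd := hd.1.mul hd'.1
    have hdd' := hd'.1.mul hd.1
    have h3 := congrArg (cb φ (S.E l) x₀ y₀) hc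
    rw [cb_add, cb_neg, cb_et _ _ _ _ hdd, cb_et _ _ _ _ hdd', cb_smul, cb_of_cmt _ _ Cmt.one, φ.f_zero_symm hwx, φ.f_zero_symm hyx, zero_mul, zero_mul,
      zero_smul, zero_smul, neg_zero, add_zero, hy0, one_smul] at h3
    have hc0 : c = 0 := by
      rcases smul_eq_zero.1 h3.symm with h | h
      · exact h
      · exact absurd h one_ne_zero
    have h4 := congrArg (cb φ (S.E l) y w) hc
    rw [cb_add, cb_neg, cb_et _ _ _ _ hdd, cb_et _ _ _ _ hdd', hc0, zero_smul, cb_zero, φ.f_neg w y, hy, φ.f_self, zero_mul, zero_smul, neg_zero, add_zero,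
      neg_mul_neg, one_mul, one_smul] at h4
    exact h4
  obtain ⟨n, G, -, hG, d, hd, hdd⟩ := unit_lemma h2 (by omega) hσ hσ2 _ (hInv.mS_inv hl (by omega)) ⟨_, hmem, hw⟩
  have hG0 : ∀ g ∈ Submodule.span F G, g = 0 := by
    intro g hg
    refine Submodule.span_induction (p := fun g _ => g = 0) ?_ rfl ?_ ?_ hg
    · intro g hg
      obtain ⟨e, he, e', he', -, h4⟩ := hG g hg
      rw [← h4]; exact hprod _ he' _ he
    · intro a b _ _ ha hb; rw [ha, hb, add_zero]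
    · intro c a _ ha; rw [ha, smul_zero]
  rw [hG0 d hd, zero_mul] at hdd
  exact zero_ne_one hdd

end Sys

end Cfsg.Agent.Asch.CW
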