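import Mathlib
import Cfsg.Prelude.Def_GeometricClasses
import Cfsg.Agent.Asch.CSAlt
set_option autoImplicit false
set_option linter.unusedSectionVars false
set_option linter.unusedVariables false
set_option linter.style.haveILetI false

/-!
Tori and the transfer of unipotent coefficients.
-/

namespace Cfsg.Agent.Asch.CW

open Matrix Module

open scoped Matrix

section inK

variable {ι : Type} [Fintype ι] [DecidableEq ι] {F : Type*} [Field F] {K : Subgroup (GL ι F)}

/-- a matrix is an element of the group -/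
def InK (K : Subgroup (GL ι F)) (X : Matrix ι ι F) : Prop := ∃ g ∈ K, g.1 = X

lemma InK.mul {X Y : Matrix ι ι F} (hX : InK K X) (hY : InK K Y) : InK K (X * Y) := by
  obtain ⟨g, hg, rfl⟩ := hX
  obtain ⟨h, hh, rfl⟩ := hY
  exact ⟨g * h, K.mul_mem hg hh, rfl⟩

lemma inK_iff {Z : Matrix ι ι F} : InK K (1 + Z) ↔ Mem1 K Z := Iff.rfl

lemma InK.mem1 {X Z : Matrix ι ι F} (h : InK K X) (hX : X = 1 + Z) : Mem1 K Z := by
  rw [hX] at h; exact h

variable {A B : Matrix ι ι F} (hAA : A * A = 0) (hBB : B * B = 0) (hABA : A * B * A = -A) (hBAB : B * A * B = -B)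

include hAA hABA in
lemma w_mul {c : F} (hc : c ≠ 0) : (1 + c • A) * (1 + c⁻¹ • B) * (1 + c • A) = 1 + A * B + B * A + c • A + c⁻¹ • B := by
  have e1 : (1 + c • A) * (1 + c⁻¹ • B) = 1 + c • A + c⁻¹ • B + A * B := by
    have e0 : (c • A) * (c⁻¹ • B) = A * B := by rw [smul_mul_smul_comm, mul_inv_cancel₀ hc, one_smul]
    rw [mul_add (1 + c • A), mul_one, add_mul, one_mul, e0]; abel
  rw [e1, mul_add, mul_one, add_mul, add_mul, add_mul, one_mul, smul_mul_smul_comm, smul_mul_smul_comm, inv_mul_cancel₀ hc, one_smul, mul_smul_comm, hAA, hABA,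
    smul_zero, smul_neg]
  abel

include hAA hBB hABA hBAB in
lemma tor_mul (c : F) : (1 + A * B + B * A + c • A + c⁻¹ • B) * (1 + A * B + B * A - A - B) = 1 + A * B + B * A - c • (A * B) - c⁻¹ • (B * A) := by
  have h1 : (1 + A * B + B * A) * A = 0 := by rw [add_mul, add_mul, one_mul, hABA, mul_assoc B, hAA, mul_zero]; abel
  have h2 : (1 + A * B + B * A) * B = 0 := by rw [add_mul, add_mul, one_mul, hBAB, mul_assoc A, hBB, mul_zero]; abel
  have h3 : A * (1 + A * B + B * A) = 0 := by rw [mul_add, mul_add, mul_one, ← mul_assoc, ← mul_assoc, hABA, hAA, zero_mul]; abel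
  have h4 : B * (1 + A * B + B * A) = 0 := by rw [mul_add, mul_add, mul_one, ← mul_assoc, ← mul_assoc, hBAB, hBB, zero_mul]; abel
  have h5 : (1 + A * B + B * A) * (1 + A * B + B * A) = 1 + A * B + B * A := by
    conv_lhs => rw [mul_add (1 + A * B + B * A), mul_add (1 + A * B + B * A), ← mul_assoc, ← mul_assoc, h1, h2, zero_mul, zero_mul, mul_one, add_zero, add_zero]
  calc (1 + A * B + B * A + c • A + c⁻¹ • B) * (1 + A * B + B * A - A - B) =
      (1 + A * B + B * A) * (1 + A * B + B * A) - (1 + A * B + B * A) * A - (1 + A * B + B * A) * B + c • (A * (1 + A * B + B * A)) - c • (A * A) - c • (A * B) +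
        c⁻¹ • (B * (1 + A * B + B * A)) - c⁻¹ • (B * A) - c⁻¹ • (B * B) := by
          rw [mul_sub, mul_sub, add_mul _ _ (1 + A * B + B * A), add_mul _ _ (1 + A * B + B * A), add_mul _ _ A, add_mul _ _ A, add_mul _ _ B, add_mul _ _ B,
            smul_mul_assoc, smul_mul_assoc, smul_mul_assoc, smul_mul_assoc, smul_mul_assoc, smul_mul_assoc]
          abel
    _ = _ := by rw [h5, h1, h2, h3, h4, hAA, hBB]; simp only [smul_zero]; abel

include hAA hBB hABA hBAB in
lemma tor_mem {c : F} (hc : c ≠ 0) (hA : ∀ c : F, InK K (1 + c • A)) (hB : ∀ c : F, InK K (1 + c • B)) :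
    InK K (1 + A * B + B * A - c • (A * B) - c⁻¹ • (B * A)) := by
  have h1 := ((hA c).mul (hB c⁻¹)).mul (hA c)
  have h2 := ((hA (-1)).mul (hB (-1)⁻¹)).mul (hA (-1))
  rw [w_mul hAA hABA hc] at h1
  rw [w_mul hAA hABA (by norm_num : (-1 : F) ≠ 0)] at h2
  have h3 := h1.mul h2
  have e : (1 + A * B + B * A + (-1 : F) • A + (-1 : F)⁻¹ • B) = 1 + A * B + B * A - A - B := by
    rw [inv_neg, inv_one, neg_one_smul, neg_one_smul]; abel
  rw [e, tor_mul hAA hBB hABA hBAB] at h3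
  exact h3

include hAA hBB hABA hBAB in
lemma tau_mem (hA : ∀ c : F, InK K (1 + c • A)) (hB : ∀ c : F, InK K (1 + c • B)) : InK K (1 + (2 : F) • (A * B + B * A)) := by
  have h1 := tor_mem hAA hBB hABA hBAB (c := -1) (by norm_num) hA hB
  convert h1 using 1
  rw [inv_neg, inv_one, neg_one_smul, neg_one_smul, two_smul]; abel

end inK

section tt

variable {k : ℕ} {ι : Type} [Fintype ι] [DecidableEq ι] {F : Type*} [Field F] {E : Matrix (Fin k) (Fin k) F →ₐ[F] Matrix ι ι F} {φ : SpF k F}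
  {K : Subgroup (GL ι F)}

lemma et_tri (u v : Fin k → F) (h : φ.f u v = 1) : φ.et u u * φ.et v v * φ.et u u = -φ.et u u := by
  rw [φ.et_mul, h, one_smul, φ.et_mul, φ.f_neg u v, h, neg_smul, one_smul]

lemma et_tri' (u v : Fin k → F) (h : φ.f u v = 1) : φ.et v v * φ.et u u * φ.et v v = -φ.et v v := by
  rw [φ.et_mul, φ.f_neg u v, h, neg_one_smul, neg_mul, φ.et_mul, h, one_smul]

lemma tor_alg {P R n : Matrix ι ι F} (hPP : P * P = -P) (hRR : R * R = -R) (hPR : P * R = 0) (hRP : R * P = 0) (hPn : P * n = -n) (hRn : R * n = 0) {α β : F}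
    (hαβ : β * α = α + β) : (1 + β • P + α • R) * (1 + α • (P + n) + β • (R - n)) = 1 + (β * β - 2 * β) • n := by
  have e : (1 + β • P + α • R) * (1 + α • (P + n) + β • (R - n)) =
      1 + α • (P + n) + β • (R - n) + β • P + (β * α) • (P * P + P * n) + (β * β) • (P * R - P * n) + α • R + (α * α) • (R * P + R * n) + (β * α) • (R * R - R * n) := by
    simp only [add_mul, mul_add, mul_sub, sub_mul, one_mul, mul_one, smul_mul_assoc, mul_smul_comm, smul_smul, smul_add, smul_sub]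
    rw [mul_comm α β]
    abel
  rw [e, hPP, hRR, hPR, hRP, hPn, hRn, hαβ]
  module

/-- the torus argument -/
lemma tt_torus (hR : RootsS φ E K) {u v : Fin k → F} (huv : φ.f u v = 1) {x : Matrix ι ι F} (hx : Cmt E x)
    (hY : ∀ c : F, Mem1 K ((1 + E (φ.et u u) * x) * E (c • φ.et v v) * (1 - E (φ.et u u) * x))) {c : F} (hc : c ≠ 0) :
    Mem1 K ((c⁻¹ * c⁻¹ - 1) • (E (φ.et u u) * x)) := by
  set A := E (φ.et u u) with hA
  set B := E (φ.et v v) with hB
  set n := A * x with hn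
  have hAA : A * A = 0 := E_sq (φ.et_sq u)
  have hBB : B * B = 0 := E_sq (φ.et_sq v)
  have hABA : A * B * A = -A := by rw [hA, hB, ← map_mul, ← map_mul, et_tri u v huv, map_neg]
  have hBAB : B * A * B = -B := by rw [hA, hB, ← map_mul, ← map_mul, et_tri' u v huv, map_neg]
  have hAx : A * x = x * A := hx _
  have hBx : B * x = x * B := hx _
  have hnn : n * n = 0 := by rw [hn, mul_assoc, ← mul_assoc x, ← hAx, mul_assoc A, ← mul_assoc, hAA, zero_mul]
  have hnA : n * A = 0 := by rw [hn, mul_assoc, ← hAx, ← mul_assoc, hAA, zero_mul]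
  have hAn : A * n = 0 := by rw [hn, ← mul_assoc, hAA, zero_mul]
  have h1n : (1 - n) * (1 + n) = 1 := by rw [sub_mul, one_mul, mul_add, mul_one, hnn]; abel
  set B' := (1 + n) * B * (1 - n) with hB'
  have hAn1 : A * (1 + n) = A := by rw [mul_add, mul_one, hAn, add_zero]
  have hnA1 : (1 - n) * A = A := by rw [sub_mul, one_mul, hnA, sub_zero]
  have hAB' : A * B' = A * B + n := by
    have e : A * B' = A * (1 + n) * B * (1 - n) := by rw [hB']; simp only [mul_assoc]
    rw [e, hAn1, mul_sub, mul_one, hn]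
    have : A * B * (A * x) = -(A * x) := by rw [← mul_assoc, hABA, neg_mul]
    rw [this, sub_neg_eq_add]
  have hB'A : B' * A = B * A - n := by
    rw [hB', mul_assoc, hnA1, add_mul, one_mul, add_mul, hn]
    have : A * x * B * A = -(A * x) := by rw [mul_assoc A, ← hBx, mul_assoc, mul_assoc, ← hAx, ← mul_assoc, ← mul_assoc, hABA, neg_mul]
    rw [this]; abel
  have hB'B' : B' * B' = 0 := by
    calc B' * B' = (1 + n) * B * ((1 - n) * (1 + n)) * B * (1 - n) := by rw [hB']; simp only [mul_assoc]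
      _ = (1 + n) * (B * B) * (1 - n) := by rw [h1n, mul_one]; simp only [mul_assoc]
      _ = 0 := by rw [hBB, mul_zero, zero_mul]
  have hAB'A : A * B' * A = -A := by rw [hAB', add_mul, hABA, hnA, add_zero]
  have hB'AB' : B' * A * B' = -B' := by
    calc B' * A * B' = (1 + n) * B * ((1 - n) * A * (1 + n)) * B * (1 - n) := by rw [hB']; simp only [mul_assoc]
      _ = (1 + n) * (B * A * B) * (1 - n) := by rw [hnA1, hAn1]; simp only [mul_assoc]
      _ = -B' := by rw [hBAB, hB', mul_neg, neg_mul]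
  have iA : ∀ c : F, InK K (1 + c • A) := fun c => by rw [hA, ← map_smul]; exact hR c u
  have iB : ∀ c : F, InK K (1 + c • B) := fun c => by rw [hB, ← map_smul]; exact hR c v
  have iB' : ∀ c : F, InK K (1 + c • B') := fun c => by
    have := hY c
    rw [map_smul, mul_smul_comm, smul_mul_assoc] at this
    exact this
  have t1 := tor_mem hAA hBB hABA hBAB (inv_ne_zero hc) iA iB
  have t2 := tor_mem hAA hB'B' hAB'A hB'AB' hc iA iB'
  have t3 := t1.mul t2
  refine t3.mem1 ?_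
  rw [hAB', hB'A, inv_inv]
  have hcc : c * c⁻¹ = 1 := mul_inv_cancel₀ hc
  have key := tor_alg (P := A * B) (R := B * A) (n := n) (α := 1 - c) (β := 1 - c⁻¹) (by rw [← mul_assoc, hABA, neg_mul]) (by rw [← mul_assoc, hBAB, neg_mul])
    (by rw [mul_assoc, ← mul_assoc B, hBB, zero_mul, mul_zero]) (by rw [mul_assoc, ← mul_assoc A, hAA, zero_mul, mul_zero])
    (by rw [hn, ← mul_assoc, hABA, neg_mul]) (by rw [mul_assoc, hAn, mul_zero]) (by linear_combination hcc)
  have e1 : 1 + A * B + B * A - c⁻¹ • (A * B) - c • (B * A) = 1 + (1 - c⁻¹) • (A * B) + (1 - c) • (B * A) := by module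
  have e2 : 1 + (A * B + n) + (B * A - n) - c • (A * B + n) - c⁻¹ • (B * A - n) = 1 + (1 - c) • (A * B + n) + (1 - c⁻¹) • (B * A - n) := by module
  rw [e1, e2, key]
  congr 2
  ring

/-- the argument for `k ≥ 4` -/
lemma tt_four (h2 : (2 : F) ≠ 0) (hk : 4 ≤ k) (hR : RootsS φ E K) {u v : Fin k → F} (huv : φ.f u v = 1) {x : Matrix ι ι F} (hx : Cmt E x)
    (hY : ∀ c : F, Mem1 K ((1 + E (φ.et u u) * x) * E (c • φ.et v v) * (1 - E (φ.et u u) * x))) : x ∈ coS φ E K := by
  obtain ⟨z₀, hz0, hz1, hz2⟩ := exists_row_zero (F := F) (by rw [Fintype.card_fin]; omega : 3 ≤ Fintype.card (Fin k)) (φ.fr u) (φ.fr v)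
  have huz0 : φ.f u z₀ = 0 := by rw [← φ.fr_dot, dotProduct_comm]; exact hz1
  have hvz0 : φ.f v z₀ = 0 := by rw [← φ.fr_dot, dotProduct_comm]; exact hz2
  set n := E (φ.et u u) * x with hn
  have hnn : n * n = 0 := E_A_sq hx (φ.et_sq u)
  have h1n : (1 - n) * (1 + n) = 1 := by rw [sub_mul, one_mul, mul_add, mul_one, hnn]; abel
  have key : ∀ z, φ.f u z = 0 → φ.f v z = 0 → Mem1 K (E (φ.D u z) * x - E (φ.et z z) * x) := by
    intro z huz hvz
    have h3 : ∀ {a b : Fin k → F}, φ.f a b = 0 → ∀ c : F, Mem1 K (E (c • φ.D a b)) := by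
      intro a b hab c
      have := mem_D (one_mem_coS hR) hab c
      rwa [mul_one] at this
    have hD := h3 huz 1
    rw [one_smul] at hD
    have hs := hY (-1)
    have hs2 : ((1 + n) * E ((-1 : F) • φ.et v v) * (1 - n)) * ((1 + n) * E ((-1 : F) • φ.et v v) * (1 - n)) = 0 := by
      calc ((1 + n) * E ((-1 : F) • φ.et v v) * (1 - n)) * ((1 + n) * E ((-1 : F) • φ.et v v) * (1 - n)) =
          (1 + n) * E ((-1 : F) • φ.et v v) * ((1 - n) * (1 + n)) * E ((-1 : F) • φ.et v v) * (1 - n) := by simp only [mul_assoc]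
        _ = (1 + n) * (E ((-1 : F) • φ.et v v) * E ((-1 : F) • φ.et v v)) * (1 - n) := by rw [h1n, mul_one]; simp only [mul_assoc]
        _ = 0 := by rw [E_sq (cet_sq φ _ _), mul_zero, zero_mul]
    have h4 := hs.cj hD hs2
    -- n and D commute trivially
    have nD : n * E (φ.D u z) = 0 := by
      rw [hn, E_A_mul hx, SpF.D, mul_add, φ.et_mul, φ.et_mul, φ.f_self, huz]; simp
    have Dn : E (φ.D u z) * n = 0 := by
      rw [hn, E_mul_A', SpF.D, add_mul, φ.et_mul, φ.et_mul, φ.f_self, φ.f_zero_symm huz]; simp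
    have hD1 : E (φ.D u z) = (1 + n) * E (φ.D u z) * (1 - n) := by
      rw [add_mul, one_mul, nD, add_zero, mul_sub, mul_one, Dn, sub_zero]
    have e1 : (1 + (1 + n) * E ((-1 : F) • φ.et v v) * (1 - n)) * E (φ.D u z) * (1 - (1 + n) * E ((-1 : F) • φ.et v v) * (1 - n)) =
        (1 + n) * E ((1 + (-1 : F) • φ.et v v) * φ.D u z * (1 - (-1 : F) • φ.et v v)) * (1 - n) := by
      have hnp : (1 + n) * (1 - n) = 1 := by rw [add_mul, one_mul, mul_sub, mul_one, hnn]; abel
      have f1 : 1 + (1 + n) * E ((-1 : F) • φ.et v v) * (1 - n) = (1 + n) * E (1 + (-1 : F) • φ.et v v) * (1 - n) := by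
        rw [map_add, map_one, mul_add (1 + n) 1, mul_one, add_mul (1 + n) _ (1 - n), hnp]
      have f2 : 1 - (1 + n) * E ((-1 : F) • φ.et v v) * (1 - n) = (1 + n) * E (1 - (-1 : F) • φ.et v v) * (1 - n) := by
        rw [map_sub, map_one, mul_sub (1 + n) 1, mul_one, sub_mul (1 + n) _ (1 - n), hnp]
      rw [f1, f2]
      nth_rewrite 1 [hD1]
      calc (1 + n) * E (1 + (-1 : F) • φ.et v v) * (1 - n) * ((1 + n) * E (φ.D u z) * (1 - n)) * ((1 + n) * E (1 - (-1 : F) • φ.et v v) * (1 - n)) =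
          (1 + n) * E (1 + (-1 : F) • φ.et v v) * ((1 - n) * (1 + n)) * E (φ.D u z) * ((1 - n) * (1 + n)) * E (1 - (-1 : F) • φ.et v v) * (1 - n) := by
            simp only [mul_assoc]
        _ = _ := by rw [h1n, mul_one, mul_one]; simp only [map_mul, mul_assoc]
    have e2 : (1 + (-1 : F) • φ.et v v) * φ.D u z * (1 - (-1 : F) • φ.et v v) = φ.D (u + v) z := by
      rw [SpF.D, mul_add, add_mul, φ.et_conj, φ.et_conj]
      have t1 : φ.tv (-1) v u = u + v := by rw [SpF.tv, φ.f_neg u v, huv, neg_mul_neg, one_mul, one_smul]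
      have t2 : φ.tv (-1) v z = z := by rw [SpF.tv, hvz, mul_zero, zero_smul, add_zero]
      rw [t1, t2]; rfl
    have e3 : (1 + n) * E (φ.D (u + v) z) * (1 - n) = E (φ.D (u + v) z) + E (φ.D u z) * x := by
      have f1 : φ.D (u + v) z = φ.D u z + φ.D v z := by rw [SpF.D, SpF.D, SpF.D, φ.et_add_left, φ.et_add_right]; abel
      have nDv : n * E (φ.D v z) = E (φ.et u z) * x := by
        rw [hn, E_A_mul hx, SpF.D, mul_add, φ.et_mul, φ.et_mul, huv, huz]; simp
      have Dvn : E (φ.D v z) * n = -(E (φ.et z u) * x) := by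
        rw [hn, E_mul_A', SpF.D, add_mul, φ.et_mul, φ.et_mul, φ.f_neg u v, huv, φ.f_zero_symm huz]; simp
      have nDvn : n * E (φ.D v z) * n = 0 := by
        rw [nDv, hn, E_mul_A hx, φ.et_mul, φ.f_zero_symm huz, zero_smul, map_zero, zero_mul]
      rw [f1, map_add]
      calc (1 + n) * (E (φ.D u z) + E (φ.D v z)) * (1 - n) = (1 + n) * E (φ.D u z) * (1 - n) + (E (φ.D v z) + n * E (φ.D v z) - E (φ.D v z) * n - n * E (φ.D v z) * n) := by
            noncomm_ring
        _ = _ := by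
            rw [← hD1, nDvn, nDv, Dvn, SpF.D, SpF.D, map_add, map_add]; noncomm_ring
    rw [e1, e2, e3] at h4
    have h5 := h4.mul (h3 (a := u + v) (b := z) (by rw [φ.f_add_left, huz, hvz, add_zero]) (-1))
    convert h5 using 1
    have f2 : φ.D (u + v) z * φ.D (u + v) z = 0 := φ.D_sq (by rw [φ.f_add_left, huz, hvz, add_zero])
    have f3 : φ.D u z * φ.D (u + v) z = φ.et z z := by
      rw [SpF.D, SpF.D, add_mul, mul_add, mul_add, φ.et_mul, φ.et_mul, φ.et_mul, φ.et_mul, φ.f_add_right, φ.f_add_right, φ.f_zero_symm huz, φ.f_zero_symm hvz,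
        φ.f_self, φ.f_self, huv, huz]
      simp
    have f4 : (E (φ.D (u + v) z) + E (φ.D u z) * x) * E ((-1 : F) • φ.D (u + v) z) = -(E (φ.et z z) * x) := by
      rw [neg_one_smul, map_neg, mul_neg, add_mul, ← map_mul, f2, map_zero, zero_add, E_A_mul hx, f3]
    rw [f4, neg_one_smul, map_neg]
    abel
  have h3 := key z₀ huz0 hvz0
  have h4 := key (-z₀) (by rw [φ.f_neg_right, huz0, neg_zero]) (by rw [φ.f_neg_right, hvz0, neg_zero])
  have e1 : φ.D u (-z₀) = - φ.D u z₀ := by rw [SpF.D, SpF.D, φ.et_neg_left, φ.et_neg_right]; abel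
  have e2 : φ.et (-z₀) (-z₀) = φ.et z₀ z₀ := by rw [φ.et_neg_left, φ.et_neg_right, neg_neg]
  rw [e1, e2, map_neg, neg_mul] at h4
  have z1 : φ.D u z₀ * φ.et z₀ z₀ = 0 := by rw [SpF.D, add_mul, φ.et_mul, φ.et_mul, φ.f_self, huz0]; simp
  have z2 : φ.et z₀ z₀ * φ.D u z₀ = 0 := by rw [SpF.D, mul_add, φ.et_mul, φ.et_mul, φ.f_self, φ.f_zero_symm huz0]; simp
  have h5 := h3.add h4 (by
    have : (E (φ.D u z₀) * x - E (φ.et z₀ z₀) * x) * (-(E (φ.D u z₀) * x) - E (φ.et z₀ z₀) * x) =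
        -(E (φ.D u z₀) * x * (E (φ.D u z₀) * x)) - E (φ.D u z₀) * x * (E (φ.et z₀ z₀) * x) + E (φ.et z₀ z₀) * x * (E (φ.D u z₀) * x) +
          E (φ.et z₀ z₀) * x * (E (φ.et z₀ z₀) * x) := by noncomm_ring
    rw [this, E_mul_A hx, E_mul_A hx, E_mul_A hx, E_mul_A hx, φ.D_sq huz0, z1, z2, φ.et_sq]
    simp)
  have e3 : E (φ.D u z₀) * x - E (φ.et z₀ z₀) * x + (-(E (φ.D u z₀) * x) - E (φ.et z₀ z₀) * x) = E (φ.et z₀ z₀) * ((-2 : F) • x) := by
    rw [mul_smul_comm, neg_smul, two_smul]; abel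
  rw [e3] at h5
  have h6 := coS_of h2 hR hz0 (hx.smul _) h5
  have := (coS φ E K).smul_mem (-2 : F)⁻¹ h6
  rwa [smul_smul, inv_mul_cancel₀ (neg_ne_zero.2 h2), one_smul] at this

end tt

end Cfsg.Agent.Asch.CW
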