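import Mathlib
import Cfsg.Prelude.Def_GeometricClasses
import Cfsg.Agent.Asch.CSTor
set_option autoImplicit false
set_option linter.unusedSectionVars false
set_option linter.unusedVariables false
set_option linter.unusedSimpArgs false
set_option linter.style.haveILetI false

/-!
The block lemma in the symplectic case.
-/

namespace Cfsg.Agent.Asch.CW

open Matrix Module

open scoped Matrix

lemma ras {R : Type*} [Semigroup R] {a b c : R} (h : a * b = c) (x : R) : a * (b * x) = c * x := by rw [← mul_assoc, h]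

section alg

variable {F : Type*} [Field F] {R : Type*} [Ring R] [Algebra F R]

lemma alg_y_inv {b b' : R} (h1 : b * b = 0) (h2 : b * b' = 0) (h3 : b' * b' = 0) :
    (1 + (2 : F) • b - (2 : F) • b' - (2 : F) • (b' * b)) * (1 - (2 : F) • b + (2 : F) • b' - (2 : F) • (b' * b)) = 1 := by
  simp only [mul_add, mul_sub, add_mul, sub_mul, one_mul, mul_one, smul_mul_assoc, mul_smul_comm, mul_assoc, h1, h2, h3, ras h1, ras h2, ras h3, zero_mul, mul_zero,
    smul_zero, smul_smul]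
  module

lemma alg_y_conj {b b' X Y : R} (h1 : b * b = 0) (h2 : b * b' = 0) (h3 : b' * b' = 0) (h4 : b * X = 0) (h5 : b * Y = 0) (h6 : b' * X = 0) (h7 : Y * b = 0)
    (h8 : X * b' = 0) (h9 : Y * b' = 0) :
    (1 - (2 : F) • b + (2 : F) • b' - (2 : F) • (b' * b)) * (X + Y) * (1 + (2 : F) • b - (2 : F) • b' - (2 : F) • (b' * b)) = X + Y + (2 : F) • (X * b) + (2 : F) • (b' * Y) := by
  simp only [mul_add, mul_sub, add_mul, sub_mul, one_mul, mul_one, smul_mul_assoc, mul_smul_comm, mul_assoc, h1, h2, h3, ras h1, ras h2, ras h3, zero_mul, mul_zero,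
    smul_zero, smul_smul, h4, h5, h6, h7, h8, h9, ras h4, ras h5, ras h6, ras h7, ras h8, ras h9]
  module

lemma alg_s_comm {b b' s : R} (h1 : b * b = 0) (h2 : b * b' = 0) (h3 : b' * b' = 0) (h4 : s * s = 0) (h5 : b * s = 0) (h6 : s * b' = 0) :
    (1 + s) * (1 - (2 : F) • b + (2 : F) • b' - (2 : F) • (b' * b)) * (1 - s) * (1 + (2 : F) • b - (2 : F) • b' - (2 : F) • (b' * b)) =
      1 - (2 : F) • (s * b) - (2 : F) • (b' * s) - (4 : F) • (b' * (s * b)) := by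
  simp only [mul_add, mul_sub, add_mul, sub_mul, one_mul, mul_one, smul_mul_assoc, mul_smul_comm, mul_assoc, h1, h2, h3, ras h1, ras h2, ras h3, zero_mul, mul_zero,
    smul_zero, smul_smul, h4, h5, h6, ras h4, ras h5, ras h6]
  module

lemma alg_y_eq {ε δ n m : R} (h1 : ε * ε = ε) (h2 : δ * δ = δ) (h3 : ε * δ = 0) (h4 : δ * ε = 0) (h5 : n * ε = n) (h6 : ε * n = 0) (h7 : δ * m = m) (h8 : m * δ = 0)
    (h9 : δ * n + m * ε + m * n = 0) :
    (1 - (2 : F) • (ε + δ)) * (1 - (2 : F) • (ε + n + (δ + m))) = 1 - (2 : F) • (n - δ * n) + (2 : F) • (m - m * ε) - (2 : F) • ((m - m * ε) * (n - δ * n)) := by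
  have hεm : ε * m = 0 := by rw [← h7, ← mul_assoc, h3, zero_mul]
  have hnδ : n * δ = 0 := by rw [← h5, mul_assoc, h3, mul_zero]
  have e1 : (m - m * ε) * (n - δ * n) = m * n := by
    rw [sub_mul, mul_sub, ← mul_assoc m δ, h8, zero_mul, sub_zero, mul_assoc m ε, mul_sub, h6, ← mul_assoc ε δ, h3, zero_mul, sub_zero, mul_zero, sub_zero]
  have e2 : m * n = -(δ * n) - m * ε := by
    have : m * n = (δ * n + m * ε + m * n) - δ * n - m * ε := by abel
    rw [this, h9]; abel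
  rw [e1, e2]
  simp only [mul_add, mul_sub, add_mul, sub_mul, one_mul, mul_one, smul_mul_assoc, mul_smul_comm, h1, h2, h3, h4, h6, h7, hεm, smul_zero, smul_smul, smul_add]
  module

end alg

namespace Sys

variable {k : ℕ} {T ι : Type} [DecidableEq T] [Fintype ι] [DecidableEq ι] {F : Type*} [Field F] {S : Sys k T ι F} {φ : SpF k F} {J : Finset T}
  {K : Subgroup (GL ι F)}

lemma not_mem_span_of_hyp {u v z : Fin k → F} (huv : φ.f u v = 1) (hvz : φ.f v z = 0) (hz : z ≠ 0) : z ∉ Submodule.span F {u} := by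
  intro h
  obtain ⟨c, rfl⟩ := Submodule.mem_span_singleton.1 h
  rw [φ.f_smul_right, φ.f_neg u v, huv] at hvz
  have : c = 0 := by linear_combination -hvz
  rw [this, zero_smul] at hz
  exact hz rfl

/-- Lemma Q -/
theorem lemQ [Nonempty ι] (Θ : SSt S φ) (h2 : (2 : F) ≠ 0) {σ : Matrix (Fin k) (Fin k) F} (hσ : φ.star σ = -σ) (hσ2 : σ * σ = 1)
    (hK : ∀ x ∈ K, S.On J x.1) (hI : ∀ x ∈ K, Θ.Iso x) (hR : ∀ j ∈ J, RootsS φ (S.E j) K) {i : T} (hi : i ∈ J) (hC : CoefS φ (S.E i) K)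
    {u v : Fin k → F} (huv : φ.f u v = 1) {b : Matrix ι ι F} (hb1 : b * S.E i (φ.et v u) = b) (hb2 : S.E i (φ.et v u) * b = 0)
    (hb3 : S.E i (φ.et u v) * b = 0) (hy : InK K (1 - (2 : F) • b + (2 : F) • Θ.st b - (2 : F) • (Θ.st b * b))) {z : Fin k → F}
    (huz : φ.f u z = 0) (hvz : φ.f v z = 0) : ∃ c : F, cb φ (S.E i) z v b = c • (1 : Matrix ι ι F) := by
  by_cases hz : z = 0
  · refine ⟨0, ?_⟩
    have := cb_smul_left (E := S.E i) (φ := φ) (0 : F) z v b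
    rw [hz, zero_smul, zero_smul] at this
    rw [hz, this, zero_smul]
  have hu : u ≠ 0 := by rintro rfl; rw [φ.f_zero_left] at huv; exact zero_ne_one huv
  have hli := not_mem_span_of_hyp huv hvz hz
  have hk : 4 ≤ k := four_le φ hu huz hli
  have hzu := φ.f_zero_symm huz
  have hzv := φ.f_zero_symm hvz
  have hvu : φ.f v u = -1 := by rw [φ.f_neg u v, huv]
  obtain ⟨b', hb'⟩ : ∃ b', b' = Θ.st b := ⟨_, rfl⟩
  rw [← hb'] at hy
  have sb' : Θ.st b' = b := by rw [hb', Θ.st_st]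
  -- basic relations
  have hE1 : ∀ x, S.E i (φ.et x u) * b = 0 := fun x => by
    have : φ.et x u = φ.et x u * φ.et v u := by rw [φ.et_mul, huv, one_smul]
    rw [this, map_mul, mul_assoc, hb2, mul_zero]
  have hE3 : ∀ w y, φ.f u w = 0 → b * S.E i (φ.et w y) = 0 := fun w y hw => by
    rw [← hb1, mul_assoc, ← map_mul, φ.et_mul, hw, zero_smul, map_zero, mul_zero]
  have hE4 : ∀ x y, φ.f u y = 0 → S.E i (φ.et x y) * b' = 0 := fun x y hy => by
    have h := congrArg Θ.st (hE3 y x hy)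
    rw [Θ.st_mul, Θ.st_et, map_zero, ← hb', neg_mul, neg_eq_zero] at h
    exact h
  have hE5 : ∀ x, b' * S.E i (φ.et u x) = 0 := fun x => by
    have h := congrArg Θ.st (hE1 x)
    rw [Θ.st_mul, Θ.st_et, map_zero, ← hb', mul_neg, neg_eq_zero] at h
    exact h
  have hbb : b * b = 0 := by
    calc b * b = b * S.E i (φ.et v u) * b := by rw [hb1]
      _ = 0 := by rw [mul_assoc, hb2, mul_zero]
  have hbb' : b * b' = 0 := by
    calc b * b' = b * S.E i (φ.et v u) * b' := by rw [hb1]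
      _ = 0 := by rw [mul_assoc, hE4 v u (φ.f_self u), mul_zero]
  have hb'b' : b' * b' = 0 := by rw [hb', ← Θ.st_mul, hbb, map_zero]
  -- the element y
  obtain ⟨y, hyK, hy1⟩ := hy
  have hyi : (y⁻¹).1 = 1 + (2 : F) • b - (2 : F) • b' - (2 : F) • (b' * b) := by
    have h1 : (1 + (2 : F) • b - (2 : F) • b' - (2 : F) • (b' * b)) * y.1 = 1 := by rw [hy1]; exact alg_y_inv hbb hbb' hb'b'
    calc (y⁻¹).1 = (1 + (2 : F) • b - (2 : F) • b' - (2 : F) • (b' * b)) * y.1 * (y⁻¹).1 := by rw [h1, one_mul]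
      _ = _ := by rw [mul_assoc, mul_inv_val, mul_one]
  obtain ⟨B, hB⟩ : ∃ B, B = cb φ (S.E i) z v b := ⟨_, rfl⟩
  have hBc : Cmt (S.E i) B := by rw [hB]; exact cb_cmt _ _ _
  have hBs : Cmt (S.E i) (Θ.st B) := Θ.st_cmt hBc
  have hzb : ∀ x, S.E i (φ.et x z) * b = S.E i (φ.et x u) * B := fun x => by
    calc S.E i (φ.et x z) * b = S.E i (φ.et x z) * b * S.E i (φ.et v u) := by rw [mul_assoc, hb1]
      _ = _ := by rw [E_cb, hB]
  have hb'z : ∀ x, b' * S.E i (φ.et z x) = S.E i (φ.et u x) * Θ.st B := fun x => by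
    have h := congrArg Θ.st (hzb x)
    rw [Θ.st_mul, Θ.st_mul, Θ.st_et, Θ.st_et, ← hb', mul_neg, mul_neg, neg_inj, ← hBs] at h
    exact h
  -- step (i)
  have hscal : ∃ κ : F, B + Θ.st B = (2 * κ) • (1 : Matrix ι ι F) := by
    have hD : Mem1 K (S.E i (φ.et u z) + S.E i (φ.et z u)) := by
      have := mem_D (one_mem_coS (hR i hi)) huz 1
      rwa [mul_one, one_smul, SpF.D, map_add] at this
    have h1 := hD.conj' hyK
    rw [hy1, hyi, alg_y_conj hbb hbb' hb'b' (hE3 u z (φ.f_self u)) (hE3 z u huz) (hE5 z) (hE1 z) (hE4 u z huz) (hE4 z u (φ.f_self u)), hzb, hb'z] at h1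
    have hDn := mem_D (one_mem_coS (hR i hi)) huz (-1)
    rw [mul_one, neg_one_smul, SpF.D, map_neg, map_add] at hDn
    have hDD : (S.E i (φ.et u z) + S.E i (φ.et z u)) * (S.E i (φ.et u z) + S.E i (φ.et z u)) = 0 := by
      have := congrArg (S.E i) (φ.D_sq huz)
      rwa [map_mul, map_zero, SpF.D, map_add] at this
    have huD : S.E i (φ.et u u) * (S.E i (φ.et u z) + S.E i (φ.et z u)) = 0 := by
      rw [mul_add, ← map_mul, ← map_mul, φ.et_mul, φ.et_mul, φ.f_self, huz, zero_smul, zero_smul, map_zero, add_zero]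
    have hcm : Cmt (S.E i) (B + Θ.st B) := hBc.add hBs
    have h3 := h1.mul hDn
    have e : S.E i (φ.et u z) + S.E i (φ.et z u) + (2 : F) • (S.E i (φ.et u u) * B) + (2 : F) • (S.E i (φ.et u u) * Θ.st B) + -(S.E i (φ.et u z) + S.E i (φ.et z u)) +
        (S.E i (φ.et u z) + S.E i (φ.et z u) + (2 : F) • (S.E i (φ.et u u) * B) + (2 : F) • (S.E i (φ.et u u) * Θ.st B)) * -(S.E i (φ.et u z) + S.E i (φ.et z u)) =
        S.E i (φ.et u u) * ((2 : F) • (B + Θ.st B)) := by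
      have e1 : S.E i (φ.et u z) + S.E i (φ.et z u) + (2 : F) • (S.E i (φ.et u u) * B) + (2 : F) • (S.E i (φ.et u u) * Θ.st B) =
          S.E i (φ.et u z) + S.E i (φ.et z u) + (2 : F) • ((B + Θ.st B) * S.E i (φ.et u u)) := by
        rw [← hcm, mul_add, smul_add]; abel
      have e2 : (S.E i (φ.et u z) + S.E i (φ.et z u) + (2 : F) • ((B + Θ.st B) * S.E i (φ.et u u))) * (S.E i (φ.et u z) + S.E i (φ.et z u)) = 0 := by
        rw [add_mul, hDD, smul_mul_assoc, mul_assoc, huD, mul_zero, smul_zero, add_zero]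
      rw [e1, mul_neg, e2, neg_zero, add_zero, ← hcm, mul_smul_comm]
      abel
    rw [e] at h3
    obtain ⟨c, hc⟩ := hC u hu _ (hcm.smul _) h3
    refine ⟨c / 4, ?_⟩
    have h4 : B + Θ.st B = (2 : F)⁻¹ • ((2 : F) • (B + Θ.st B)) := by rw [smul_smul, inv_mul_cancel₀ h2, one_smul]
    rw [h4, hc, smul_smul]
    congr 1
    have h4' : (4 : F) ≠ 0 := by
      have : (4 : F) = 2 * 2 := by norm_num
      rw [this]; exact mul_ne_zero h2 h2
    field_simp
    ring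
  obtain ⟨κ, hκ⟩ := hscal
  -- step (ii)
  have hs : Mem1 K (S.E i (φ.et z z)) := by
    have := hR i hi 1 z
    rwa [one_smul] at this
  have hss : S.E i (φ.et z z) * S.E i (φ.et z z) = 0 := E_sq (φ.et_sq z)
  obtain ⟨g, hgK, hg1⟩ := hs
  have hgi := Mem1.inv_eq hg1 hss
  have h5 : g * y * g⁻¹ * y⁻¹ ∈ K := K.mul_mem (K.mul_mem (K.mul_mem hgK hyK) (K.inv_mem hgK)) (K.inv_mem hyK)
  have h6 : Mem1 K (-((2 : F) • (S.E i (φ.et z u) * B)) - (2 : F) • (S.E i (φ.et u z) * Θ.st B) - (4 : F) • (S.E i (φ.et u u) * (Θ.st B * B))) := by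
    refine ⟨_, h5, ?_⟩
    rw [Units.val_mul, Units.val_mul, Units.val_mul, hg1, hgi, hy1, hyi, alg_s_comm hbb hbb' hb'b' hss (hE3 z z huz) (hE4 z z huz), hzb z, hb'z z]
    have : b' * (S.E i (φ.et z u) * B) = S.E i (φ.et u u) * (Θ.st B * B) := by
      rw [← mul_assoc, hb'z u, mul_assoc]
    rw [this]; abel
  obtain ⟨a, ha⟩ : ∃ a, a = B - κ • (1 : Matrix ι ι F) := ⟨_, rfl⟩
  have hac : Cmt (S.E i) a := by rw [ha]; exact hBc.sub (Cmt.one.smul κ)
  have hBa : B = a + κ • (1 : Matrix ι ι F) := by rw [ha]; abel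
  have hsB : Θ.st B = κ • (1 : Matrix ι ι F) - a := by
    have : Θ.st B = (2 * κ) • (1 : Matrix ι ι F) - B := by rw [← hκ]; abel
    rw [this, hBa, mul_smul, two_smul]; abel
  have h7 := mem_D (one_mem_coS (hR i hi)) huz (2 * κ)
  rw [mul_one] at h7
  have h8 : Mem1 K (QE (S.E i) φ u z ((2 : F) • a) (-((4 : F) • (Θ.st B * B)))) := by
    have h9 := h6.add h7 (by
      have t : ∀ p q : Fin k → F, φ.et p q * φ.D u z = φ.f q u • φ.et p z + φ.f q z • φ.et p u := fun p q => by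
        rw [SpF.D, mul_add, φ.et_mul, φ.et_mul]
      have t1 : ∀ p q : Fin k → F, φ.f q u = 0 → φ.f q z = 0 → ∀ X, Cmt (S.E i) X → S.E i (φ.et p q) * X * S.E i ((2 * κ) • φ.D u z) = 0 := by
        intro p q h1 h2 X hX
        rw [E_A_mul hX, mul_smul_comm, t, h1, h2, zero_smul, zero_smul, add_zero, smul_zero, map_zero, zero_mul]
      rw [sub_mul, sub_mul, neg_mul, smul_mul_assoc, smul_mul_assoc, smul_mul_assoc, t1 z u (φ.f_self u) huz B hBc, t1 u z hzu (φ.f_self z) _ hBs,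
        t1 u u (φ.f_self u) huz _ (hBs.mul hBc), smul_zero, smul_zero]
      abel)
    convert h9 using 1
    rw [QE, SpF.W, SpF.D]
    have e1 : S.E i (φ.et z u) * B = S.E i (φ.et z u) * a + κ • S.E i (φ.et z u) := by rw [hBa, mul_add, mul_smul_comm, mul_one]
    have e2 : S.E i (φ.et u z) * Θ.st B = κ • S.E i (φ.et u z) - S.E i (φ.et u z) * a := by rw [hsB, mul_sub, mul_smul_comm, mul_one]
    rw [e1, e2, map_sub, map_smul, map_add, sub_mul, mul_smul_comm, mul_smul_comm, mul_neg, mul_smul_comm]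
    module
  have h9 := mem_mB (hR i hi) huz hli (hac.smul 2) (((hBs.mul hBc).smul 4).neg) h8
  have h10 := mB_zero Θ h2 hk hσ hσ2 hK hI hR hi hC hu h9
  have h11 : a = 0 := by
    have : a = (2 : F)⁻¹ • ((2 : F) • a) := by rw [smul_smul, inv_mul_cancel₀ h2, one_smul]
    rw [this, h10, smul_zero]
  exact ⟨κ, by rw [← hB, hBa, h11, zero_add]⟩

/-- a vector representing a linear form -/
lemma exists_rep (φ : SpF k F) (κ : (Fin k → F) → F) (hadd : ∀ x y, κ (x + y) = κ x + κ y) (hsmul : ∀ (c : F) x, κ (c • x) = c * κ x) :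
    ∃ ψ, ∀ x, φ.f x ψ = κ x := by
  let κ' : (Fin k → F) →ₗ[F] F := { toFun := κ, map_add' := hadd, map_smul' := fun c x => by rw [hsmul]; rfl }
  refine ⟨φ.A' *ᵥ (fun j => κ (Pi.single j 1)), fun x => ?_⟩
  have h1 : κ x = ∑ j, x j * κ (Pi.single j 1) := by
    have : κ' x = κ' (∑ j, x j • (Pi.single j 1 : Fin k → F)) := by
      congr 1
      funext l
      rw [Finset.sum_apply, Finset.sum_eq_single l]
      · simp
      · intro b _ hb; simp [Pi.single_apply, hb.symm]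
      · simp
    rw [map_sum] at this
    calc κ x = κ' x := rfl
      _ = _ := by rw [this]; refine Finset.sum_congr rfl fun j _ => ?_; rw [map_smul]; rfl
  rw [SpF.f, mulVec_mulVec, φ.AA', one_mulVec, h1]
  rfl

/-- the block lemma, symplectic version -/
theorem block_S [Nonempty ι] (Θ : SSt S φ) (h2 : (2 : F) ≠ 0) {σ : Matrix (Fin k) (Fin k) F} (hσ : φ.star σ = -σ) (hσ2 : σ * σ = 1)
    (hq : (∃ c : F, c ≠ 0 ∧ c * c ≠ 1) ∨ 4 ≤ k)
    (hK : ∀ x ∈ K, S.On J x.1) (hI : ∀ x ∈ K, Θ.Iso x) (hR : ∀ j ∈ J, RootsS φ (S.E j) K) {i : T} (hi : i ∈ J) (hC : CoefS φ (S.E i) K)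
    {h : GL ι F} (hsim : Θ.Sim h) (hroot : ∀ (c : F) u, Mem1 K (h.1 * S.E i (c • φ.et u u) * (h⁻¹).1)) {u₀ u : Fin k → F} {γ : F} (hu₀ : u₀ ≠ 0) (hγ : γ ≠ 0)
    (hu : u ≠ 0) (hr : h.1 * S.E i (φ.et u₀ u₀) * (h⁻¹).1 = γ • S.E i (φ.et u u)) : ∀ a, ∃ z, h.1 * S.E i a * (h⁻¹).1 = S.E i z := by
  obtain ⟨Φ, hΦ⟩ : ∃ Φ : Matrix (Fin k) (Fin k) F → Matrix ι ι F, ∀ a, Φ a = h.1 * S.E i a * (h⁻¹).1 := ⟨_, fun _ => rfl⟩
  have Φmul : ∀ a b, Φ a * Φ b = Φ (a * b) := fun a b => by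
    rw [hΦ, hΦ, hΦ, map_mul]
    calc h.1 * S.E i a * (h⁻¹).1 * (h.1 * S.E i b * (h⁻¹).1) = h.1 * S.E i a * ((h⁻¹).1 * h.1) * S.E i b * (h⁻¹).1 := by simp only [mul_assoc]
      _ = _ := by rw [inv_mul_val, mul_one]; simp only [mul_assoc]
  have Φadd : ∀ a b, Φ (a + b) = Φ a + Φ b := fun a b => by rw [hΦ, hΦ, hΦ, map_add, mul_add, add_mul]
  have Φsmul : ∀ (c : F) a, Φ (c • a) = c • Φ a := fun c a => by rw [hΦ, hΦ, map_smul, mul_smul_comm, smul_mul_assoc]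
  have Φ0 : Φ 0 = 0 := by rw [hΦ, map_zero, mul_zero, zero_mul]
  have Φneg : ∀ a, Φ (-a) = -Φ a := fun a => by rw [← neg_one_smul F, Φsmul, neg_one_smul]
  have Φst : ∀ a, Θ.st (Φ a) = Φ (φ.star a) := fun a => by rw [hΦ, hΦ, hsim.st_conj, Θ.st_E]
  rw [← hΦ] at hr
  have hEu : S.E i (φ.et u u) = γ⁻¹ • Φ (φ.et u₀ u₀) := by rw [hr, smul_smul, inv_mul_cancel₀ hγ, one_smul]
  obtain ⟨v, huv⟩ := φ.exists_hyp hu
  have hvu : φ.f v u = -1 := by rw [φ.f_neg u v, huv]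
  have main : ∀ v₀, φ.f u₀ v₀ = 1 → (∃ z, Φ (φ.et v₀ u₀) = S.E i z) ∧ (∃ z, Φ (φ.et u₀ v₀) = S.E i z) ∧ (∃ z, Φ (φ.et v₀ v₀) = S.E i z) := by
    intro v₀ huv₀
    have hvu₀ : φ.f v₀ u₀ = -1 := by rw [φ.f_neg u₀ v₀, huv₀]
    obtain ⟨ε, hε⟩ : ∃ ε, ε = S.E i (φ.et v u) := ⟨_, rfl⟩
    obtain ⟨δ, hδ⟩ : ∃ δ, δ = -S.E i (φ.et u v) := ⟨_, rfl⟩
    obtain ⟨n, hn⟩ : ∃ n, n = Φ (φ.et v₀ u₀) - ε := ⟨_, rfl⟩
    obtain ⟨m, hm⟩ : ∃ m, m = -Φ (φ.et u₀ v₀) - δ := ⟨_, rfl⟩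
    have stε : Θ.st ε = δ := by rw [hε, hδ, Θ.st_et]
    have stn : Θ.st n = m := by rw [hn, hm, Θ.st_sub, stε, Φst, φ.star_et, Φneg]
    have e1 : ε * ε = ε := by rw [hε, ← map_mul, φ.et_mul, huv, one_smul]
    have e2 : δ * δ = δ := by rw [← stε, ← Θ.st_mul, e1]
    have e3 : ε * δ = 0 := by rw [hε, hδ, mul_neg, ← map_mul, φ.et_mul, φ.f_self, zero_smul, map_zero, neg_zero]
    have e4 : δ * ε = 0 := by rw [hε, hδ, neg_mul, ← map_mul, φ.et_mul, φ.f_self, zero_smul, map_zero, neg_zero]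
    have a1 : ε * Φ (φ.et v₀ u₀) = ε := by
      have : φ.et v u = -(φ.et v v * φ.et u u) := by rw [φ.et_mul, hvu, neg_one_smul, neg_neg]
      rw [hε, this, map_neg, map_mul, hEu, neg_mul, mul_smul_comm, smul_mul_assoc, mul_assoc, Φmul, φ.et_mul, huv₀, one_smul]
    have a2 : Φ (φ.et v₀ u₀) * ε = Φ (φ.et v₀ u₀) := by
      have : φ.et v₀ u₀ = -(φ.et v₀ v₀ * φ.et u₀ u₀) := by rw [φ.et_mul, hvu₀, neg_one_smul, neg_neg]
      rw [this, Φneg, ← Φmul, hr, hε, neg_mul, mul_smul_comm, smul_mul_assoc, mul_assoc, ← map_mul, φ.et_mul, huv, one_smul]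
    have e5 : n * ε = n := by rw [hn, sub_mul, a2, e1]
    have e6 : ε * n = 0 := by rw [hn, mul_sub, a1, e1, sub_self]
    have e7 : δ * m = m := by rw [← stn, ← stε, ← Θ.st_mul, e5]
    have e8 : m * δ = 0 := by rw [← stn, ← stε, ← Θ.st_mul, e6, map_zero]
    have e9 : δ * n + m * ε + m * n = 0 := by
      have h1 : (δ + m) * (ε + n) = 0 := by
        have : δ + m = -Φ (φ.et u₀ v₀) := by rw [hm]; abel
        have h' : ε + n = Φ (φ.et v₀ u₀) := by rw [hn]; abel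
        rw [this, h', neg_mul, Φmul, φ.et_mul, φ.f_self, zero_smul, Φ0, neg_zero]
      have h3 : (δ + m) * (ε + n) = δ * ε + (δ * n + m * ε + m * n) := by noncomm_ring
      rw [h3, e4, zero_add] at h1
      exact h1
    obtain ⟨b, hb⟩ : ∃ b, b = n - δ * n := ⟨_, rfl⟩
    have stb : Θ.st b = m - m * ε := by
      have : Θ.st δ = ε := by rw [← stε, Θ.st_st]
      rw [hb, Θ.st_sub, Θ.st_mul, stn, this]
    -- the element y
    have hy : InK K (1 - (2 : F) • b + (2 : F) • Θ.st b - (2 : F) • (Θ.st b * b)) := by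
      have i1 : InK K (1 + (2 : F) • (S.E i (φ.et u u) * S.E i (φ.et v v) + S.E i (φ.et v v) * S.E i (φ.et u u))) := by
        refine tau_mem (E_sq (φ.et_sq u)) (E_sq (φ.et_sq v)) (by rw [← map_mul, ← map_mul, et_tri u v huv, map_neg]) (by rw [← map_mul, ← map_mul, et_tri' u v huv, map_neg])
          (fun c => ?_) (fun c => ?_)
        · rw [← map_smul]; exact hR i hi c u
        · rw [← map_smul]; exact hR i hi c v
      have i2 : InK K (1 + (2 : F) • (Φ (φ.et u₀ u₀) * Φ (φ.et v₀ v₀) + Φ (φ.et v₀ v₀) * Φ (φ.et u₀ u₀))) := by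
        refine tau_mem (by rw [Φmul, φ.et_sq, Φ0]) (by rw [Φmul, φ.et_sq, Φ0]) (by rw [Φmul, Φmul, et_tri u₀ v₀ huv₀, Φneg])
          (by rw [Φmul, Φmul, et_tri' u₀ v₀ huv₀, Φneg]) (fun c => ?_) (fun c => ?_)
        · rw [← Φsmul, hΦ]; exact hroot c u₀
        · rw [← Φsmul, hΦ]; exact hroot c v₀
      have i3 := i1.mul i2
      have j1 : 1 + (2 : F) • (S.E i (φ.et u u) * S.E i (φ.et v v) + S.E i (φ.et v v) * S.E i (φ.et u u)) = 1 - (2 : F) • (ε + δ) := by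
        rw [← map_mul, ← map_mul, φ.et_mul, φ.et_mul, huv, hvu, one_smul, neg_one_smul, map_neg, hε, hδ]; module
      have j2 : 1 + (2 : F) • (Φ (φ.et u₀ u₀) * Φ (φ.et v₀ v₀) + Φ (φ.et v₀ v₀) * Φ (φ.et u₀ u₀)) = 1 - (2 : F) • (ε + n + (δ + m)) := by
        rw [Φmul, Φmul, φ.et_mul, φ.et_mul, huv₀, hvu₀, one_smul, neg_one_smul, Φneg, hn, hm]; module
      rw [j1, j2, alg_y_eq e1 e2 e3 e4 e5 e6 e7 e8 e9] at i3
      rw [stb, hb]
      exact i3
    have b1 : b * S.E i (φ.et v u) = b := by rw [← hε, hb, sub_mul, mul_assoc, e5]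
    have b2 : S.E i (φ.et v u) * b = 0 := by rw [← hε, hb, mul_sub, e6, ← mul_assoc, e3, zero_mul, sub_zero]
    have b3 : S.E i (φ.et u v) * b = 0 := by
      have : S.E i (φ.et u v) = -δ := by rw [hδ, neg_neg]
      rw [this, hb, neg_mul, mul_sub, ← mul_assoc, e2, sub_self, neg_zero]
    have hQ := fun {z : Fin k → F} (h1 : φ.f u z = 0) (h3 : φ.f v z = 0) => lemQ Θ h2 hσ hσ2 hK hI hR hi hC huv b1 b2 b3 hy h1 h3
    -- b is a scalar column
    obtain ⟨i0⟩ := ‹Nonempty ι›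
    obtain ⟨ψ, hψ⟩ := exists_rep φ (fun x => cb φ (S.E i) x v b i0 i0) (fun x y => by rw [cb_add_left]; rfl) (fun c x => by rw [cb_smul_left]; rfl)
    have et0 : ∀ {x y : Fin k → F}, S.E i (φ.et u u) * cb φ (S.E i) x y b = 0 → cb φ (S.E i) x y b = 0 := fun h =>
      eq_zero_of_E_mul (S.E i) (cb_cmt _ _ _) (φ.et_ne_zero hu hu) h
    have cbu : ∀ y, cb φ (S.E i) u y b = 0 := fun y => et0 (by
      rw [← E_cb]
      have : φ.et u u = φ.et u u * φ.et v u := by rw [φ.et_mul, huv, one_smul]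
      rw [this, map_mul, mul_assoc _ _ b, b2, mul_zero, zero_mul])
    have cbv : ∀ y, cb φ (S.E i) v y b = 0 := fun y => et0 (by
      rw [← E_cb]
      have : φ.et u v = -(φ.et u v * φ.et u v) := by rw [φ.et_mul, hvu, neg_one_smul, neg_neg]
      rw [this, map_neg, map_mul, neg_mul, mul_assoc _ _ b, b3, mul_zero, neg_zero, zero_mul])
    have cbr : ∀ x y, φ.f u y = 0 → cb φ (S.E i) x y b = 0 := fun x y hy => et0 (by
      rw [← E_cb]
      have : b * S.E i (φ.et y u) = 0 := by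
        rw [← b1, mul_assoc, ← map_mul, φ.et_mul, hy, zero_smul, map_zero, mul_zero]
      rw [mul_assoc, this, mul_zero])
    have cbx : ∀ x, cb φ (S.E i) x v b = φ.f x ψ • (1 : Matrix ι ι F) := by
      intro x
      obtain ⟨z, hz⟩ : ∃ z, z = x - φ.f x v • u + φ.f x u • v := ⟨_, rfl⟩
      have z1 : φ.f u z = 0 := by
        rw [hz, φ.f_add_right, φ.f_sub_right, φ.f_smul_right, φ.f_smul_right, φ.f_self, huv, φ.f_neg x u]; ring
      have z2 : φ.f v z = 0 := by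
        rw [hz, φ.f_add_right, φ.f_sub_right, φ.f_smul_right, φ.f_smul_right, φ.f_self, hvu, φ.f_neg x v]; ring
      obtain ⟨c, hc⟩ := hQ z1 z2
      have hx : cb φ (S.E i) x v b = c • (1 : Matrix ι ι F) := by
        have : x = z + (φ.f x v • u + (-φ.f x u) • v) := by rw [hz]; module
        conv_lhs => rw [this]
        rw [cb_add_left, cb_add_left, cb_smul_left, cb_smul_left, cbu, cbv, smul_zero, smul_zero, add_zero, add_zero, hc]
      have : φ.f x ψ = c := by rw [hψ, hx, Matrix.smul_apply, one_apply_eq, smul_eq_mul, mul_one]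
      rw [hx, this]
    have hbE : b = S.E i (φ.et ψ u) := by
      refine cb_ext (E := S.E i) (φ := φ) fun x y => ?_
      have h1 := cb_et (E := S.E i) (φ := φ) x y ψ u (Cmt.one (E := S.E i))
      rw [mul_one] at h1
      rw [h1]
      have hy' : y = φ.f u y • v + (y - φ.f u y • v) := by abel
      have h3 : φ.f u (y - φ.f u y • v) = 0 := by rw [φ.f_sub_right, φ.f_smul_right, huv, mul_one, sub_self]
      conv_lhs => rw [hy']
      rw [cb_add_right, cb_smul_right, cbr x _ h3, add_zero, cbx, smul_smul, mul_comm]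
    -- the shape of ε_Φ
    obtain ⟨x, hx⟩ : ∃ x, x = -cb φ (S.E i) v v n := ⟨_, rfl⟩
    have hxc : Cmt (S.E i) x := by rw [hx]; exact (cb_cmt _ _ _).neg
    have hfu : φ.f u ψ = 0 := by rw [hψ, cbu]; rfl
    have huv' : φ.f u (v + ψ) = 1 := by rw [φ.f_add_right, huv, hfu, add_zero]
    have hεΦ : Φ (φ.et v₀ u₀) = S.E i (φ.et (v + ψ) u) + S.E i (φ.et u u) * x := by
      have h1 : δ * n = S.E i (φ.et u u) * x := by
        calc δ * n = -(S.E i (φ.et u v) * n * S.E i (φ.et v u)) := by rw [mul_assoc, ← hε, e5, hδ, neg_mul]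
          _ = _ := by rw [E_cb, hx, mul_neg]
      have h3 : Φ (φ.et v₀ u₀) = ε + (b + δ * n) := by rw [hb, hn]; abel
      rw [h3, h1, hε, hbE, φ.et_add_left, map_add]; abel
    have hδΦ : Φ (φ.et u₀ v₀) = S.E i (φ.et u (v + ψ)) + S.E i (φ.et u u) * Θ.st x := by
      have h1 := congrArg Θ.st hεΦ
      rw [Φst, φ.star_et, Φneg, Θ.st_add, Θ.st_mul, Θ.st_et, Θ.st_et, mul_neg, ← Θ.st_cmt hxc, ← neg_add, neg_inj] at h1
      exact h1
    obtain ⟨w, hw⟩ : ∃ w, w = v + ψ := ⟨_, rfl⟩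
    rw [← hw] at huv' hεΦ hδΦ
    have hwu : φ.f w u = -1 := by rw [φ.f_neg u w, huv']
    have hsx : Θ.st x = x := by
      have h1 : Φ (φ.et u₀ v₀) * Φ (φ.et v₀ u₀) = 0 := by rw [Φmul, φ.et_mul, φ.f_self, zero_smul, Φ0]
      have hsc : Cmt (S.E i) (Θ.st x) := Θ.st_cmt hxc
      rw [hδΦ, hεΦ, add_mul, mul_add, mul_add, ← map_mul, E_mul_A', E_A_mul hsc, E_mul_A hsc, φ.et_mul, φ.et_mul, φ.et_mul, φ.et_mul, φ.f_self, φ.f_self,
        hwu, huv', zero_smul, one_smul, neg_one_smul, map_zero, map_neg, zero_mul, zero_add, add_zero, neg_mul, neg_add_eq_sub, ← mul_sub] at h1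
      have := eq_zero_of_E_mul (S.E i) (hsc.sub hxc) (φ.et_ne_zero hu hu) h1
      exact sub_eq_zero.1 this
    rw [hsx] at hδΦ
    obtain ⟨N, hN⟩ : ∃ N, N = S.E i (φ.et u u) * x := ⟨_, rfl⟩
    have hNN : N * N = 0 := by rw [hN]; exact E_A_sq hxc (φ.et_sq u)
    have N1 : (1 - N) * (1 + N) = 1 := by rw [sub_mul, one_mul, mul_add, mul_one, hNN]; abel
    have cN : ∀ a b, (1 + N) * S.E i a * (1 - N) * ((1 + N) * S.E i b * (1 - N)) = (1 + N) * S.E i (a * b) * (1 - N) := fun a b => by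
      calc (1 + N) * S.E i a * (1 - N) * ((1 + N) * S.E i b * (1 - N)) = (1 + N) * S.E i a * ((1 - N) * (1 + N)) * S.E i b * (1 - N) := by simp only [mul_assoc]
        _ = _ := by rw [N1, mul_one, map_mul]; simp only [mul_assoc]
    have f1 : Φ (φ.et v₀ u₀) = (1 + N) * S.E i (φ.et w u) * (1 - N) := by
      have g1 : N * S.E i (φ.et w u) = N := by rw [hN, E_A_mul hxc, φ.et_mul, huv', one_smul]
      have g2 : S.E i (φ.et w u) * N = 0 := by rw [hN, E_mul_A', φ.et_mul, φ.f_self, zero_smul, map_zero, zero_mul]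
      rw [hεΦ, ← hN, add_mul, one_mul, g1, add_mul, mul_sub, mul_sub, mul_one, mul_one, g2, hNN]; abel
    have f2 : Φ (φ.et u₀ v₀) = (1 + N) * S.E i (φ.et u w) * (1 - N) := by
      have g1 : N * S.E i (φ.et u w) = 0 := by rw [hN, E_A_mul hxc, φ.et_mul, φ.f_self, zero_smul, map_zero, zero_mul]
      have g2 : S.E i (φ.et u w) * N = -N := by rw [hN, E_mul_A', φ.et_mul, hwu, neg_one_smul, map_neg, neg_mul]
      rw [hδΦ, ← hN, add_mul, one_mul, g1, add_zero, mul_sub, mul_one, g2]; abel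
    have f3 : S.E i (φ.et u u) = (1 + N) * S.E i (φ.et u u) * (1 - N) := by
      have g1 : N * S.E i (φ.et u u) = 0 := by rw [hN, E_A_mul hxc, φ.et_mul, φ.f_self, zero_smul, map_zero, zero_mul]
      have g2 : S.E i (φ.et u u) * N = 0 := by rw [hN, E_mul_A', φ.et_mul, φ.f_self, zero_smul, map_zero, zero_mul]
      rw [add_mul, one_mul, g1, add_zero, mul_sub, mul_one, g2, sub_zero]
    obtain ⟨V, hV⟩ : ∃ V, V = (1 + N) * S.E i (φ.et w w) * (1 - N) := ⟨_, rfl⟩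
    have f4 : V = γ • Φ (φ.et v₀ v₀) := by
      have g1 : Φ (φ.et v₀ u₀) * V = V := by rw [f1, hV, cN, φ.et_mul, huv', one_smul]
      have g2 : S.E i (φ.et u u) * V = Φ (φ.et u₀ v₀) := by rw [f3, hV, cN, φ.et_mul, huv', one_smul, f2]
      have g3 : Φ (φ.et v₀ u₀) = -(γ • (Φ (φ.et v₀ v₀) * S.E i (φ.et u u))) := by
        have : φ.et v₀ u₀ = -(φ.et v₀ v₀ * φ.et u₀ u₀) := by rw [φ.et_mul, hvu₀, neg_one_smul, neg_neg]
        rw [this, Φneg, ← Φmul, hr, mul_smul_comm]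
      have g4 : Φ (φ.et v₀ v₀) * Φ (φ.et u₀ v₀) = -Φ (φ.et v₀ v₀) := by rw [Φmul, φ.et_mul, hvu₀, neg_one_smul, Φneg]
      rw [g3, neg_mul, smul_mul_assoc, mul_assoc, g2, g4, smul_neg, neg_neg] at g1
      exact g1.symm
    -- the coefficient is a scalar
    have hY : ∀ c : F, Mem1 K ((1 + S.E i (φ.et u u) * x) * S.E i (c • φ.et w w) * (1 - S.E i (φ.et u u) * x)) := by
      intro c
      have h1 := hroot (c * γ) v₀
      rw [← hΦ, Φsmul, mul_smul, ← f4, hV, hN] at h1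
      rwa [map_smul, mul_smul_comm, smul_mul_assoc]
    have hxs : ∃ ξ : F, x = ξ • (1 : Matrix ι ι F) := by
      have hk0 : Nonempty (Fin k) := by
        by_contra h0
        rw [not_nonempty_iff] at h0
        exact hu (Subsingleton.elim _ _)
      have hC' := (coefS_iff h2 (hR i hi)).1 hC
      rcases hq with ⟨c, hc0, hc1⟩ | hk
      · have h1 := tt_torus (hR i hi) huv' hxc hY hc0
        rw [← mul_smul_comm] at h1
        obtain ⟨d, hd⟩ := hC u hu _ (hxc.smul _) h1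
        have hne : c⁻¹ * c⁻¹ - 1 ≠ 0 := by
          intro h0
          apply hc1
          have h3 : c⁻¹ * c⁻¹ = 1 := by linear_combination h0
          calc c * c = c * c * (c⁻¹ * c⁻¹) := by rw [h3, mul_one]
            _ = 1 := by field_simp
        refine ⟨(c⁻¹ * c⁻¹ - 1)⁻¹ * d, ?_⟩
        rw [mul_smul, ← hd, smul_smul, inv_mul_cancel₀ hne, one_smul]
      · exact hC' x (tt_four h2 hk (hR i hi) huv' hxc hY)
    obtain ⟨ξ, hξ⟩ := hxs
    have hNE : N = S.E i (ξ • φ.et u u) := by rw [hN, hξ, mul_smul_comm, mul_one, map_smul]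
    refine ⟨⟨(1 + ξ • φ.et u u) * φ.et w u * (1 - ξ • φ.et u u), ?_⟩, ⟨(1 + ξ • φ.et u u) * φ.et u w * (1 - ξ • φ.et u u), ?_⟩,
      ⟨γ⁻¹ • ((1 + ξ • φ.et u u) * φ.et w w * (1 - ξ • φ.et u u)), ?_⟩⟩
    · rw [f1, hNE, map_mul, map_mul, map_add, map_sub, map_one]
    · rw [f2, hNE, map_mul, map_mul, map_add, map_sub, map_one]
    · rw [map_smul, map_mul, map_mul, map_add, map_sub, map_one, ← hNE, ← hV, f4, smul_smul, inv_mul_cancel₀ hγ, one_smul]
  -- conclusion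
  have P : ∀ a, (∃ z, Φ a = S.E i z) := by
    obtain ⟨v₁, hv₁⟩ := φ.exists_hyp hu₀
    have hv₁' : φ.f v₁ u₀ = -1 := by rw [φ.f_neg u₀ v₁, hv₁]
    have padd : ∀ a b, (∃ z, Φ a = S.E i z) → (∃ z, Φ b = S.E i z) → ∃ z, Φ (a + b) = S.E i z := fun a b ⟨z, hz⟩ ⟨z', hz'⟩ => ⟨z + z', by rw [Φadd, hz, hz', map_add]⟩
    have psmul : ∀ (c : F) a, (∃ z, Φ a = S.E i z) → ∃ z, Φ (c • a) = S.E i z := fun c a ⟨z, hz⟩ => ⟨c • z, by rw [Φsmul, hz, map_smul]⟩
    have pmul : ∀ a b, (∃ z, Φ a = S.E i z) → (∃ z, Φ b = S.E i z) → ∃ z, Φ (a * b) = S.E i z := fun a b ⟨z, hz⟩ ⟨z', hz'⟩ => ⟨z * z', by rw [← Φmul, hz, hz', map_mul]⟩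
    have hdec : ∀ x, x = (x + (1 - φ.f u₀ x) • v₁) + (-(1 - φ.f u₀ x)) • v₁ := fun x => by module
    have hf1 : ∀ x, φ.f u₀ (x + (1 - φ.f u₀ x) • v₁) = 1 := fun x => by rw [φ.f_add_right, φ.f_smul_right, hv₁]; ring
    have p1 : ∀ x, ∃ z, Φ (φ.et x u₀) = S.E i z := fun x => by
      rw [hdec x, φ.et_add_left, φ.et_smul_left]
      exact padd _ _ (main _ (hf1 x)).1 (psmul _ _ (main _ hv₁).1)
    have p2 : ∀ x, ∃ z, Φ (φ.et u₀ x) = S.E i z := fun x => by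
      rw [hdec x, φ.et_add_right, φ.et_smul_right]
      exact padd _ _ (main _ (hf1 x)).2.1 (psmul _ _ (main _ hv₁).2.1)
    refine fun a => φ.et_induction (P := fun a => ∃ z, Φ a = S.E i z) ⟨0, by rw [Φ0, map_zero]⟩ padd (fun x y => ?_) a
    have h1 : φ.et x y = (-1 : F) • (φ.et x u₀ * φ.et v₁ v₁ * φ.et u₀ y) := by
      rw [φ.et_mul, hv₁, one_smul, φ.et_mul, hv₁', smul_smul, neg_one_mul, neg_neg, one_smul]
    rw [h1]
    exact psmul _ _ (pmul _ _ (pmul _ _ (p1 x) (main _ hv₁).2.2) (p2 y))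
  intro a
  rw [← hΦ]
  exact P a

end Sys

end Cfsg.Agent.Asch.CW
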