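import Mathlib
import Cfsg.Prelude.Def_GeometricClasses
import Cfsg.Agent.Asch.CSBlock
import Cfsg.Agent.Asch.CWInd2
set_option autoImplicit false
set_option linter.unusedSectionVars false
set_option linter.unusedVariables false
set_option linter.unusedSimpArgs false
set_option linter.style.haveILetI false

/-!
The induction in the symplectic case.
-/

namespace Cfsg.Agent.Asch.CW

open Matrix Module

open scoped Matrix

/-- standing assumptions on the form -/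
structure CtxS {k : ℕ} {F : Type*} [Field F] (φ : SpF k F) : Prop where
  h2 : (2 : F) ≠ 0
  hσ : ∃ σ : Matrix (Fin k) (Fin k) F, φ.star σ = -σ ∧ σ * σ = 1
  hq : (∃ c : F, c ≠ 0 ∧ c * c ≠ 1) ∨ 4 ≤ k

namespace Sys

variable {k : ℕ} {T ι : Type} [DecidableEq T] [Fintype ι] [DecidableEq ι] {F : Type*} [Field F] {S : Sys k T ι F} {φ : SpF k F} {J : Finset T}
  {K K' : Subgroup (GL ι F)} {Θ : SSt S φ}

/-- the inductive claim, symplectic version -/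
def ClaimS (Θ : SSt S φ) (J : Finset T) : Prop :=
  ∀ K' : Subgroup (GL ι F), (∀ x ∈ K', S.On J x.1) → (∀ x ∈ K', Θ.Iso x) → (∀ i ∈ J, RootsS φ (S.E i) K') → (∀ i ∈ J, CoefS φ (S.E i) K') →
    ∀ h : GL ι F, S.On J h.1 → Θ.Sim h → (∀ i ∈ J, ∀ (c : F) (u : Fin k → F), Mem1 K' (h.1 * S.E i (c • φ.et u u) * (h⁻¹).1)) → h ∈ S.Mon J

/-- the subgroup of isometries of the centraliser of a factor -/
def subS (Θ : SSt S φ) [Nonempty ι] (i : T) (K' : Subgroup (GL ι F)) : Subgroup (GL ι F) where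
  carrier := {a | a ∈ S.subC i K' ∧ Θ.Iso a}
  mul_mem' := fun {a b} ⟨h1, h2⟩ ⟨h3, h4⟩ => ⟨(S.subC i K').mul_mem h1 h3, h2.mul h4⟩
  one_mem' := ⟨(S.subC i K').one_mem, by show Θ.st (1 : GL ι F).1 * (1 : GL ι F).1 = 1; rw [Units.val_one, Θ.st_one, mul_one]⟩
  inv_mem' := fun {a} ⟨h1, h2⟩ => ⟨(S.subC i K').inv_mem h1, h2.inv⟩

lemma mem_subC {i : T} {a : GL ι F} : a ∈ S.subC i K' ↔ Cmt (S.E i) a.1 ∧ ∃ B, EU (S.E i) B * a ∈ K' := Iff.rfl

lemma cmt_conj_iff {E : Matrix (Fin k) (Fin k) F →ₐ[F] Matrix ι ι F} {h : GL ι F} {B : GL (Fin k) F}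
    (hB : ∀ a, h.1 * E a * (h⁻¹).1 = E (B.1 * a * (B⁻¹).1)) : Cmt E ((EU E B)⁻¹ * h).1 := by
  intro x
  have h1 : h.1 * E x = E (B.1 * x * (B⁻¹).1) * h.1 := conj_eq_iff.1 (hB x)
  rw [Units.val_mul, mul_assoc, h1, EU_inv_val, ← mul_assoc, ← mul_assoc, ← map_mul, ← map_mul]
  congr 2
  rw [← mul_assoc, ← mul_assoc, inv_mul_val, one_mul]

/-- the step when a root of a factor goes to a root of the same factor -/
theorem block_step_sameS [Nonempty ι] (hX : CtxS φ) {i : T} (hi : i ∈ J) (IH : ClaimS Θ (J.erase i))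
    (hK' : ∀ x ∈ K', S.On J x.1) (hI : ∀ x ∈ K', Θ.Iso x) (hR : ∀ i ∈ J, RootsS φ (S.E i) K') (hC : ∀ i ∈ J, CoefS φ (S.E i) K')
    {h : GL ι F} (hh : S.On J h.1) (hs : Θ.Sim h)
    (hroot : ∀ i ∈ J, ∀ (c : F) (u : Fin k → F), Mem1 K' (h.1 * S.E i (c • φ.et u u) * (h⁻¹).1))
    {u₀ u : Fin k → F} {γ : F} (hu₀ : u₀ ≠ 0) (hγ : γ ≠ 0) (hu : u ≠ 0) (hr : h.1 * S.E i (φ.et u₀ u₀) * (h⁻¹).1 = γ • S.E i (φ.et u u)) :
    h ∈ S.Mon J := by
  obtain ⟨σ, hσ, hσ2⟩ := hX.hσ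
  have hk0 : k ≠ 0 := by rintro rfl; exact hu (Subsingleton.elim _ _)
  haveI : Nonempty (Fin k) := ⟨⟨0, Nat.pos_of_ne_zero hk0⟩⟩
  have hblock := block_S Θ hX.h2 hσ hσ2 hX.hq hK' hI hR hi (hC i hi) hs (hroot i hi) hu₀ hγ hu hr
  obtain ⟨B, hB⟩ := exists_conj_of_alg hk0 hblock
  obtain ⟨a, haB⟩ : ∃ a, a = (EU (S.E i) B)⁻¹ * h := ⟨_, rfl⟩
  have hBa : h = EU (S.E i) B * a := by rw [haB, mul_inv_cancel_left]
  have ha : Cmt (S.E i) a.1 := by rw [haB]; exact cmt_conj_iff hB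
  have haJ : S.On (J.erase i) a.1 := by
    have h1 : S.On J a.1 := by
      rw [haB, Units.val_mul]
      exact (On.inv (on_EU hi B)).mul hh
    intro l hl
    by_cases hli : l = i
    · subst hli; exact ha
    · exact h1 l fun h2 => hl (Finset.mem_erase.2 ⟨hli, h2⟩)
  have hEUc : ∀ {Z : Matrix ι ι F}, Cmt (S.E i) Z → (EU (S.E i) B).1 * Z * ((EU (S.E i) B)⁻¹).1 = Z := by
    intro Z hZ
    rw [EU_val, hZ, mul_assoc, ← EU_val, mul_inv_val, mul_one]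
  -- similarity of the factor
  have hsB : Θ.Sim (EU (S.E i) B) := by
    apply SSt.sim_of_conj
    intro l x
    by_cases hl : l = i
    · subst hl
      refine ⟨l, B.1 * x * (B⁻¹).1, ?_, ?_⟩
      · rw [EU_val, EU_inv_val, ← map_mul, ← map_mul]
      · rw [EU_val, EU_inv_val, ← map_mul, ← map_mul, ← hB, ← Θ.st_E, ← Θ.st_E, ← hB, hs.st_conj]
    · exact ⟨l, x, hEUc (cmt_E (Ne.symm hl) _), hEUc (cmt_E (Ne.symm hl) _)⟩
  have hsa : Θ.Sim a := by rw [haB]; exact hsB.inv.mul hs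
  have hamon : a ∈ S.Mon (J.erase i) := by
    apply IH (subS Θ i K')
    · rintro x ⟨⟨hx, D, hD⟩, -⟩ l hl
      by_cases hli : l = i
      · subst hli; exact hx
      · have h1 : S.On J x.1 := by
          have : x = (EU (S.E i) D)⁻¹ * (EU (S.E i) D * x) := by rw [inv_mul_cancel_left]
          rw [this, Units.val_mul]
          exact (On.inv (on_EU hi D)).mul (hK' _ hD)
        exact h1 l fun h2 => hl (Finset.mem_erase.2 ⟨hli, h2⟩)
    · exact fun x hx => hx.2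
    · intro j hj c v
      obtain ⟨hji, hjJ⟩ := Finset.mem_erase.1 hj
      obtain ⟨x, hx, hxv⟩ := hR j hjJ c v
      refine ⟨x, ⟨⟨?_, 1, ?_⟩, hI x hx⟩, hxv⟩
      · rw [hxv]; exact Cmt.one.add (cmt_E (Ne.symm hji) _)
      · have h1 : EU (S.E i) 1 = 1 := map_one (Units.map _)
        rw [h1, one_mul]; exact hx
    · intro j hj v hv0 A hA hmem
      obtain ⟨hji, hjJ⟩ := Finset.mem_erase.1 hj
      obtain ⟨x, ⟨⟨hxc, D, hD⟩, hxI⟩, hxv⟩ := hmem
      obtain ⟨w, hvw⟩ := φ.exists_hyp hv0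
      have hAA : S.E j (φ.et v v) * A * (S.E j (φ.et v v) * A) = 0 := E_A_sq hA (φ.et_sq v)
      have hxi := Mem1.inv_eq hxv hAA
      have hY : ∀ c : F, Mem1 K' ((1 + S.E j (φ.et v v) * A) * S.E j (c • φ.et w w) * (1 - S.E j (φ.et v v) * A)) := by
        intro c
        obtain ⟨y, hy, hyw⟩ := hR j hjJ c w
        have hxE : EU (S.E i) D * x = x * EU (S.E i) D := EU_comm_of_cmt hxc D
        have hyE : EU (S.E i) D * y = y * EU (S.E i) D := by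
          apply EU_comm_of_cmt
          rw [hyw]; exact Cmt.one.add (cmt_E (Ne.symm hji) _)
        have h3 : x * y * x⁻¹ = (EU (S.E i) D * x) * y * (EU (S.E i) D * x)⁻¹ := by
          rw [hxE, _root_.mul_inv_rev]
          calc x * y * x⁻¹ = x * (y * EU (S.E i) D) * (EU (S.E i) D)⁻¹ * x⁻¹ := by group
            _ = _ := by rw [← hyE]; group
        refine ⟨x * y * x⁻¹, by rw [h3]; exact K'.mul_mem (K'.mul_mem hD hy) (K'.inv_mem hD), ?_⟩
        rw [Units.val_mul, Units.val_mul, hyw, mul_add, mul_one, add_mul, mul_inv_val, hxv, hxi]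
      rcases hX.hq with ⟨c, hc0, hc1⟩ | hk
      · have h1 := tt_torus (hR j hjJ) hvw hA hY hc0
        rw [← mul_smul_comm] at h1
        obtain ⟨d, hd⟩ := hC j hjJ v hv0 _ (hA.smul _) h1
        have hne : c⁻¹ * c⁻¹ - 1 ≠ 0 := by
          intro h0
          apply hc1
          have h3 : c⁻¹ * c⁻¹ = 1 := by linear_combination h0
          calc c * c = c * c * (c⁻¹ * c⁻¹) := by rw [h3, mul_one]
            _ = 1 := by field_simp
        refine ⟨(c⁻¹ * c⁻¹ - 1)⁻¹ * d, ?_⟩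
        rw [mul_smul, ← hd, smul_smul, inv_mul_cancel₀ hne, one_smul]
      · exact (coefS_iff hX.h2 (hR j hjJ)).1 (hC j hjJ) A (tt_four hX.h2 hk (hR j hjJ) hvw hA hY)
    · exact haJ
    · exact hsa
    · intro j hj c v
      obtain ⟨hji, hjJ⟩ := Finset.mem_erase.1 hj
      have hc : Cmt (S.E i) (a.1 * S.E j (c • φ.et v v) * (a⁻¹).1) := conj_cmt ha (cmt_E (Ne.symm hji) _)
      obtain ⟨x, hx, hxv⟩ := hroot j hjJ c v
      have h1 : h.1 * S.E j (c • φ.et v v) * (h⁻¹).1 = a.1 * S.E j (c • φ.et v v) * (a⁻¹).1 := by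
        rw [hBa, _root_.mul_inv_rev, Units.val_mul, Units.val_mul]
        rw [← hEUc hc]
        simp only [mul_assoc]
      rw [h1] at hxv
      refine ⟨x, ⟨⟨?_, 1, ?_⟩, hI x hx⟩, hxv⟩
      · rw [hxv]; exact Cmt.one.add hc
      · have h1 : EU (S.E i) 1 = 1 := map_one (Units.map _)
        rw [h1, one_mul]; exact hx
  rw [hBa]
  apply Subgroup.mul_mem _ (EU_mem_mon i B)
  obtain ⟨σ, hσ, hσ1, hσ2⟩ := perms_of_mon hamon haJ
  apply mon_of_perms hσ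
  intro l
  by_cases hl : l ∈ J.erase i
  · have := (hσ2 l).2 hl
    exact ⟨fun _ => Finset.mem_of_mem_erase hl, fun _ => Finset.mem_of_mem_erase this⟩
  · rw [hσ1 l hl]

lemma flip_conj {i j : T} (hij : i ≠ j) (l : T) (a : Matrix (Fin k) (Fin k) F) :
    (S.flip hij).1 * S.E l a * ((S.flip hij)⁻¹).1 = S.E (Equiv.swap i j l) a := by
  by_cases hli : l = i
  · subst hli; rw [Equiv.swap_apply_left]; exact flip_conj_left hij a
  by_cases hlj : l = j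
  · subst hlj; rw [Equiv.swap_apply_right]; exact flip_conj_right hij a
  rw [Equiv.swap_apply_of_ne_of_ne hli hlj]
  exact conj_eq_iff.2 (flip_cmt hij hli hlj a).symm

lemma flip_sim {i j : T} (hij : i ≠ j) : Θ.Sim (S.flip hij) :=
  SSt.sim_of_conj fun l a => ⟨_, a, flip_conj hij l a, flip_conj hij l _⟩

lemma mem1_comap {π : GL ι F} {Z : Matrix ι ι F} (h : Mem1 K' (π.1 * Z * (π⁻¹).1)) : Mem1 (K'.comap (MulAut.conj π).toMonoidHom) Z := by
  obtain ⟨x, hx, hxZ⟩ := h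
  refine ⟨π⁻¹ * x * π, ?_, ?_⟩
  · show π * (π⁻¹ * x * π) * π⁻¹ ∈ K'
    have : π * (π⁻¹ * x * π) * π⁻¹ = x := by group
    rw [this]; exact hx
  · rw [Units.val_mul, Units.val_mul, hxZ, mul_add, mul_one, add_mul, inv_mul_val]
    congr 1
    calc (π⁻¹).1 * (π.1 * Z * (π⁻¹).1) * π.1 = ((π⁻¹).1 * π.1) * Z * ((π⁻¹).1 * π.1) := by simp only [mul_assoc]
      _ = Z := by rw [inv_mul_val, one_mul, mul_one]

lemma comap_mem1 {π : GL ι F} {Z : Matrix ι ι F} (h : Mem1 (K'.comap (MulAut.conj π).toMonoidHom) Z) : Mem1 K' (π.1 * Z * (π⁻¹).1) :=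
  h.conj fun x hx => hx

/-- the block step, symplectic version -/
theorem block_stepS [Fintype T] [Nonempty ι] (hX : CtxS φ) (IH : ∀ i ∈ J, ClaimS Θ (J.erase i))
    (hK' : ∀ x ∈ K', S.On J x.1) (hI : ∀ x ∈ K', Θ.Iso x) (hR : ∀ i ∈ J, RootsS φ (S.E i) K') (hC : ∀ i ∈ J, CoefS φ (S.E i) K')
    {h : GL ι F} (hh : S.On J h.1) (hs : Θ.Sim h)
    (hroot : ∀ i ∈ J, ∀ (c : F) (u : Fin k → F), Mem1 K' (h.1 * S.E i (c • φ.et u u) * (h⁻¹).1)) {i j : T} (hi : i ∈ J) (hj : j ∈ J)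
    {u₀ u : Fin k → F} {γ : F} (hu₀ : u₀ ≠ 0) (hγ : γ ≠ 0) (hu : u ≠ 0) (hr : h.1 * S.E i (φ.et u₀ u₀) * (h⁻¹).1 = γ • S.E j (φ.et u u)) :
    h ∈ S.Mon J := by
  by_cases hij : i = j
  · subst hij
    exact block_step_sameS hX hi (IH i hi) hK' hI hR hC hh hs hroot hu₀ hγ hu hr
  obtain ⟨π, hπ⟩ : ∃ π, π = S.flip hij := ⟨_, rfl⟩
  have hπon : S.On J π.1 := by rw [hπ]; exact flip_on hij hi hj
  have hπc : ∀ l a, π.1 * S.E l a * (π⁻¹).1 = S.E (Equiv.swap i j l) a := by rw [hπ]; exact flip_conj hij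
  have hπs : Θ.Sim π := by rw [hπ]; exact flip_sim hij
  have hinv : π⁻¹ = π := by rw [hπ]; exact Units.ext rfl
  have hsw : ∀ l, Equiv.swap i j l ∈ J ↔ l ∈ J := swap_mem_iff hi hj
  have h2 : π * h ∈ S.Mon J := by
    refine block_step_sameS (K' := K'.comap (MulAut.conj π).toMonoidHom) (Θ := Θ) hX hi (IH i hi) ?_ ?_ ?_ ?_ (h := π * h) ?_ (hπs.mul hs) ?_ hu₀ hγ hu ?_
    · intro x hx
      have h3 := hK' _ (show π * x * π⁻¹ ∈ K' from hx)
      have h4 : x = π⁻¹ * (π * x * π⁻¹) * π := by group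
      rw [h4, Units.val_mul, Units.val_mul]
      exact ((On.inv hπon).mul h3).mul hπon
    · intro x hx
      have h3 := hI _ (show π * x * π⁻¹ ∈ K' from hx)
      have h4 : x.1 = (π⁻¹).1 * (π * x * π⁻¹).1 * ((π⁻¹)⁻¹).1 := by
        rw [inv_inv, ← Units.val_mul, ← Units.val_mul]; congr 1; group
      show Θ.st x.1 * x.1 = 1
      rw [h4, hπs.inv.st_conj]
      calc (π⁻¹).1 * Θ.st (π * x * π⁻¹).1 * ((π⁻¹)⁻¹).1 * ((π⁻¹).1 * (π * x * π⁻¹).1 * ((π⁻¹)⁻¹).1) =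
          (π⁻¹).1 * Θ.st (π * x * π⁻¹).1 * (((π⁻¹)⁻¹).1 * (π⁻¹).1) * (π * x * π⁻¹).1 * ((π⁻¹)⁻¹).1 := by simp only [mul_assoc]
        _ = (π⁻¹).1 * (Θ.st (π * x * π⁻¹).1 * (π * x * π⁻¹).1) * ((π⁻¹)⁻¹).1 := by rw [inv_mul_val, mul_one]; simp only [mul_assoc]
        _ = 1 := by rw [show Θ.st (π * x * π⁻¹).1 * (π * x * π⁻¹).1 = 1 from h3, mul_one, mul_inv_val]
    · intro l hl c v
      apply mem1_comap
      rw [hπc]
      exact hR _ ((hsw l).2 hl) c v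
    · intro l hl v hv0 A hA hmem
      have h3 := comap_mem1 hmem
      have h4 : π.1 * (S.E l (φ.et v v) * A) * (π⁻¹).1 = S.E (Equiv.swap i j l) (φ.et v v) * (π.1 * A * (π⁻¹).1) := by
        rw [← hπc]
        calc π.1 * (S.E l (φ.et v v) * A) * (π⁻¹).1 = π.1 * S.E l (φ.et v v) * ((π⁻¹).1 * π.1) * A * (π⁻¹).1 := by rw [inv_mul_val, mul_one]; simp only [mul_assoc]
          _ = _ := by simp only [mul_assoc]
      rw [h4] at h3
      have h5 : Cmt (S.E (Equiv.swap i j l)) (π.1 * A * (π⁻¹).1) := by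
        intro x
        rw [← hπc]
        calc π.1 * S.E l x * (π⁻¹).1 * (π.1 * A * (π⁻¹).1) = π.1 * S.E l x * ((π⁻¹).1 * π.1) * A * (π⁻¹).1 := by simp only [mul_assoc]
          _ = π.1 * (S.E l x * A) * (π⁻¹).1 := by rw [inv_mul_val, mul_one]; simp only [mul_assoc]
          _ = π.1 * (A * S.E l x) * (π⁻¹).1 := by rw [hA]
          _ = π.1 * A * ((π⁻¹).1 * π.1) * S.E l x * (π⁻¹).1 := by rw [inv_mul_val, mul_one]; simp only [mul_assoc]
          _ = _ := by simp only [mul_assoc]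
      obtain ⟨c, hc⟩ := hC _ ((hsw l).2 hl) v hv0 _ h5 h3
      refine ⟨c, ?_⟩
      have h6 : A = (π⁻¹).1 * (π.1 * A * (π⁻¹).1) * π.1 := by
        calc A = ((π⁻¹).1 * π.1) * A * ((π⁻¹).1 * π.1) := by rw [inv_mul_val, one_mul, mul_one]
          _ = _ := by simp only [mul_assoc]
      rw [h6, hc, mul_smul_comm, mul_one, smul_mul_assoc, inv_mul_val]
    · rw [Units.val_mul]; exact hπon.mul hh
    · intro l hl c v
      apply mem1_comap
      have h3 := hroot l hl c v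
      have : π.1 * ((π * h).1 * S.E l (c • φ.et v v) * ((π * h)⁻¹).1) * (π⁻¹).1 = h.1 * S.E l (c • φ.et v v) * (h⁻¹).1 := by
        have e1 : π.1 * (π * h).1 = h.1 := by rw [← Units.val_mul, ← mul_assoc]; nth_rewrite 1 [← hinv]; rw [inv_mul_cancel, one_mul]
        have e2 : ((π * h)⁻¹).1 * (π⁻¹).1 = (h⁻¹).1 := by
          rw [← Units.val_mul, _root_.mul_inv_rev]; nth_rewrite 2 [hinv]; rw [mul_assoc, inv_mul_cancel, mul_one]
        calc π.1 * ((π * h).1 * S.E l (c • φ.et v v) * ((π * h)⁻¹).1) * (π⁻¹).1 = (π.1 * (π * h).1) * S.E l (c • φ.et v v) * (((π * h)⁻¹).1 * (π⁻¹).1) := by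
              simp only [mul_assoc]
          _ = _ := by rw [e1, e2]
      rw [this]; exact h3
    · have : (π * h).1 * S.E i (φ.et u₀ u₀) * ((π * h)⁻¹).1 = π.1 * (h.1 * S.E i (φ.et u₀ u₀) * (h⁻¹).1) * (π⁻¹).1 := by
        rw [_root_.mul_inv_rev, Units.val_mul, Units.val_mul]; simp only [mul_assoc]
      rw [this, hr, mul_smul_comm, smul_mul_assoc, hπc, Equiv.swap_apply_right]
  have h3 : h = π⁻¹ * (π * h) := by group
  rw [h3]
  exact Subgroup.mul_mem _ (Subgroup.inv_mem _ (by rw [hπ]; exact flip_mem_mon hij hi hj)) h2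

section fus

variable [Fintype T]

/-- the data for the inductive step -/
structure GoodS (Θ : SSt S φ) (J : Finset T) (K' : Subgroup (GL ι F)) : Prop where
  on : ∀ x ∈ K', S.On J x.1
  iso : ∀ x ∈ K', Θ.Iso x
  root : ∀ i ∈ J, RootsS φ (S.E i) K'
  coef : ∀ i ∈ J, CoefS φ (S.E i) K'

lemma fr_dot_self (φ : SpF k F) (u : Fin k → F) : φ.fr u ⬝ᵥ u = 0 := by rw [φ.fr_dot, φ.f_self]

/-- the shape of the root elements -/
lemma root_shape [Nonempty ι] {j : T} {u' φ' : Fin k → F} (hne : S.E j (vecMulVec u' φ') ≠ 0)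
    (hst : Θ.st (S.E j (vecMulVec u' φ')) = -S.E j (vecMulVec u' φ')) : ∃ (γ : F) (u : Fin k → F), γ ≠ 0 ∧ u ≠ 0 ∧ vecMulVec u' φ' = γ • φ.et u u := by
  rw [φ.vmv_eq_et] at hne hst ⊢
  obtain ⟨w, hw⟩ : ∃ w, w = φ.gr φ' := ⟨_, rfl⟩
  rw [← hw] at hne hst ⊢
  rw [Θ.st_et, neg_inj] at hst
  have hu' : u' ≠ 0 := by rintro rfl; exact hne (by rw [φ.et_zero_left, map_zero])
  have h1 : φ.et w u' = φ.et u' w := E_inj (S := S) hst
  obtain ⟨x, hx⟩ := φ.exists_hyp hu'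
  have h3 := congrArg (fun M => M *ᵥ x) h1
  simp only [et_mulVec] at h3
  rw [hx, one_smul] at h3
  refine ⟨φ.f w x, u', ?_, hu', ?_⟩
  · intro h0
    rw [h0, zero_smul] at h3
    exact hne (by rw [h3, φ.et_zero_right, map_zero])
  · conv_lhs => rw [h3]
    rw [φ.et_smul_right]

theorem fusS [Fintype F] [Nonempty ι] (hk : 2 ≤ k) (hq : Odd (Fintype.card F)) {h : GL ι F} (hh : S.On J h.1) (hs : Θ.Sim h)
    {i : T} (hi : i ∈ J) {u : Fin k → F} (hu : u ≠ 0) {c : F} (hc : c ≠ 0) {y : GL ι F}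
    (hy : y.1 = 1 + h.1 * S.E i (c • φ.et u u) * (h⁻¹).1) (hyM : y ∈ S.Mon J) :
    ∃ j ∈ J, ∃ (γ : F) (u' : Fin k → F), γ ≠ 0 ∧ u' ≠ 0 ∧ h.1 * S.E i (φ.et u u) * (h⁻¹).1 = γ • S.E j (φ.et u' u') := by
  set z : Fin k := ⟨0, by omega⟩
  have hv : c • φ.et u u = vecMulVec (c • u) (φ.fr u) := by rw [← φ.et_smul_left]; rfl
  have hcu : c • u ≠ 0 := smul_ne_zero hc hu
  have hfr : φ.fr u ≠ 0 := φ.fr_ne_zero hu
  have hdot : φ.fr u ⬝ᵥ (c • u) = 0 := by rw [dotProduct_smul, fr_dot_self, smul_zero]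
  rw [hv] at hy
  have hy1 : y.1 - 1 = h.1 * S.E i (vecMulVec (c • u) (φ.fr u)) * (h⁻¹).1 := by rw [hy]; abel
  have hsq : (y.1 - 1) * (y.1 - 1) = 0 := by rw [hy1]; exact sq_conj (E_vmv_sq hdot)
  have hne : y ≠ 1 := by
    intro h1
    rw [h1, Units.val_one, sub_self] at hy1
    have h2 := conj_eq_zero h hy1.symm
    exact vmv_ne_zero hcu hfr (E_inj (S := S) (i := i) (by rw [h2, map_zero]))
  have hyJ : S.On J y.1 := by rw [hy]; exact On.one.add ((hh.mul (on_E hi _)).mul (On.inv hh))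
  obtain ⟨σ, hσ, -, -⟩ := perms_of_mon hyM hyJ
  obtain ⟨j, A, hA⟩ := fus_odd hk hq hsq hne hσ
  obtain ⟨j, hj, u', φ', hr⟩ := fus_finish (by omega) hh hi hcu hfr hdot hy hA
  have hne2 : S.E j (vecMulVec u' φ') ≠ 0 := by
    rw [← hr]
    intro h0
    exact vmv_ne_zero hcu hfr (E_inj (S := S) (i := i) (by rw [conj_eq_zero h h0, map_zero]))
  obtain ⟨γ, w, hγ, hw, hsh⟩ := root_shape (Θ := Θ) hne2 (by
    rw [← hr, hs.st_conj, Θ.st_E, ← hv, φ.star_smul, φ.star_et, smul_neg, map_neg, mul_neg, neg_mul])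
  refine ⟨j, hj, c⁻¹ * γ, w, mul_ne_zero (inv_ne_zero hc) hγ, hw, ?_⟩
  rw [hsh, ← hv, map_smul, map_smul, mul_smul_comm, smul_mul_assoc] at hr
  rw [mul_smul, ← hr, smul_smul, inv_mul_cancel₀ hc, one_smul]

lemma hfree_ofS [Fintype F] [Nonempty ι] (hk : 2 ≤ k) (hq : Odd (Fintype.card F)) (hX : CtxS φ) (IH : ∀ i ∈ J, ClaimS Θ (J.erase i)) (hG : GoodS Θ J K')
    {i : T} (hi : i ∈ J) {u : Fin k → F} (hu : u ≠ 0) {c : F} (hc : c ≠ 0) {x : GL ι F} (hx : x.1 = 1 + S.E i (c • φ.et u u))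
    {g : GL ι F} (hg : g ∈ K') (hgx : g⁻¹ * x * g ∈ S.Mon J) : g ∈ S.Mon J := by
  have hg' : g⁻¹ ∈ K' := K'.inv_mem hg
  have hy : (g⁻¹ * x * g).1 = 1 + (g⁻¹).1 * S.E i (c • φ.et u u) * ((g⁻¹)⁻¹).1 := by
    rw [Units.val_mul, Units.val_mul, hx, mul_add, mul_one, add_mul, inv_mul_val, inv_inv]
  obtain ⟨j, hj, γ, u', hγ, hu', hr⟩ := fusS (Θ := Θ) hk hq (hG.on _ hg') (hG.iso _ hg').sim hi hu hc hy hgx
  have := block_stepS hX IH hG.on hG.iso hG.root hG.coef (hG.on _ hg') (hG.iso _ hg').sim (fun i hi c u => (hG.root i hi c u).conj' hg') hi hj hu hγ hu' hr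
  rw [← inv_inv g]
  exact Subgroup.inv_mem _ this

/-- **The inductive step** -/
theorem claim_of_monS [Fintype F] [Nonempty ι] (hk : 2 ≤ k) (hq : Odd (Fintype.card F)) (hX : CtxS φ) (J : Finset T) (IH : ∀ i ∈ J, ClaimS Θ (J.erase i))
    (hM : ∀ K' : Subgroup (GL ι F), GoodS Θ J K' → J.Nonempty → ∀ g ∈ K', g ∈ S.Mon J) : ClaimS Θ J := by
  intro K' hOn hI hR hC h hh hs hroot
  by_cases hJ : J.Nonempty
  swap
  · rw [Finset.not_nonempty_iff_eq_empty] at hJ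
    subst hJ
    exact ⟨1, fun i => Iff.rfl, fun i hi => absurd hi (Finset.notMem_empty i)⟩
  have hG : GoodS Θ J K' := ⟨hOn, hI, hR, hC⟩
  have hK'M := hM K' hG hJ
  obtain ⟨i, hi⟩ := hJ
  have hu : (Pi.single (⟨0, by omega⟩ : Fin k) (1 : F) : Fin k → F) ≠ 0 := by
    intro h0; have := congrFun h0 (⟨0, by omega⟩ : Fin k); rw [Pi.single_eq_same] at this; exact one_ne_zero this
  obtain ⟨y, hyK, hy⟩ := hroot i hi 1 (Pi.single (⟨0, by omega⟩ : Fin k) (1 : F))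
  obtain ⟨j, hj, γ, u', hγ, hu', hr⟩ := fusS (Θ := Θ) hk hq hh hs hi hu one_ne_zero hy (hK'M y hyK)
  exact block_stepS hX IH hOn hI hR hC hh hs hroot hi hj hu hγ hu' hr

end fus

end Sys

end Cfsg.Agent.Asch.CW
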