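import Mathlib
import Cfsg.Prelude.Def_GeometricClasses
import Cfsg.Agent.Asch.CSInd
import Cfsg.Agent.Asch.CWTr2
set_option autoImplicit false
set_option linter.unusedSectionVars false
set_option linter.unusedVariables false
set_option linter.unusedSimpArgs false
set_option linter.style.haveILetI false

/-!
Orbit sums for the extraspecial group, field with three elements.
-/

namespace Cfsg.Agent.Asch.CW

open Matrix Module

open scoped Matrix

section perm3

/-- sums of invariant functions in characteristic three -/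
lemma sum_perm3 {Y A : Type*} [DecidableEq Y] [AddCommGroup A] (h3 : ∀ a : A, a + a + a = 0) (g : Equiv.Perm Y) (hg : ∀ y, g (g (g y)) = y) (H : Y → A) :
    ∀ (n : ℕ) (s : Finset Y), s.card = n → (∀ y ∈ s, g y ∈ s) → (∀ y ∈ s, H (g y) = H y) →
      ∑ y ∈ s, H y = ∑ y ∈ s.filter (fun y => g y = y), H y := by
  intro n
  induction n using Nat.strong_induction_on with
  | _ n ih =>
    intro s hs hgs hH
    by_cases hall : ∀ y ∈ s, g y = y
    · rw [Finset.filter_true_of_mem hall]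
    push Not at hall
    obtain ⟨y, hy, hne⟩ := hall
    have h1 : g (g y) ≠ y := by
      intro h
      apply hne
      have := hg y
      rw [h] at this
      exact this
    have h2 : g (g y) ≠ g y := fun h => hne (g.injective h)
    have hgy := hgs y hy
    have hggy := hgs _ hgy
    obtain ⟨O, hO⟩ : ∃ O : Finset Y, O = {y, g y, g (g y)} := ⟨_, rfl⟩
    have hOs : O ⊆ s := by
      intro w hw
      rw [hO, Finset.mem_insert, Finset.mem_insert, Finset.mem_singleton] at hw
      rcases hw with rfl | rfl | rfl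
      exacts [hy, hgy, hggy]
    have hOinv : ∀ w, g w ∈ O → w ∈ O := by
      intro w hw
      rw [hO, Finset.mem_insert, Finset.mem_insert, Finset.mem_singleton] at hw ⊢
      rcases hw with h | h | h
      · right; right
        have : g w = g (g (g y)) := by rw [h, hg]
        exact g.injective this
      · left; exact g.injective h
      · right; left; exact g.injective h
    have hsum : ∑ w ∈ O, H w = 0 := by
      rw [hO, Finset.sum_insert, Finset.sum_insert, Finset.sum_singleton, hH _ hgy, hH _ hy, ← add_assoc]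
      · exact h3 _
      · rw [Finset.mem_singleton]; exact fun h => h2 h.symm
      · rw [Finset.mem_insert, Finset.mem_singleton]
        rintro (h | h)
        · exact hne h.symm
        · exact h1 h.symm
    have hyO : y ∈ O := by rw [hO]; exact Finset.mem_insert_self _ _
    have hcard : (s \ O).card < n := by
      rw [← hs]
      apply Finset.card_lt_card
      refine ⟨Finset.sdiff_subset, fun h => ?_⟩
      have := h hy
      rw [Finset.mem_sdiff] at this
      exact this.2 hyO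
    have h4 := ih _ hcard (s \ O) rfl (by
      intro w hw
      rw [Finset.mem_sdiff] at hw ⊢
      exact ⟨hgs _ hw.1, fun h => hw.2 (hOinv _ h)⟩) (fun w hw => hH _ (Finset.mem_sdiff.1 hw).1)
    have h5 : ∑ w ∈ s, H w = ∑ w ∈ s \ O, H w := by
      rw [← Finset.sum_sdiff hOs, hsum, add_zero]
    rw [h5, h4]
    apply Finset.sum_congr _ fun _ _ => rfl
    ext w
    rw [Finset.mem_filter, Finset.mem_filter, Finset.mem_sdiff]
    constructor
    · rintro ⟨⟨h6, -⟩, h7⟩; exact ⟨h6, h7⟩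
    · rintro ⟨h6, h7⟩
      refine ⟨⟨h6, fun h8 => ?_⟩, h7⟩
      rw [hO, Finset.mem_insert, Finset.mem_insert, Finset.mem_singleton] at h8
      rcases h8 with rfl | rfl | rfl
      · exact hne h7
      · exact h2 h7
      · rw [hg] at h7; exact h1 h7.symm

/-- the sum over the orbits of an extraspecial group -/
theorem sum_heis {Ω A : Type*} [Fintype Ω] [DecidableEq Ω] [AddCommGroup A] (h3 : ∀ a : A, a + a + a = 0) (x y y' : Equiv.Perm Ω)
    (hx : x ^ 3 = 1) (hy : y ^ 3 = 1) (hy' : y' ^ 3 = 1) (hxy : Commute x y) (hxy' : Commute x y') (hcomm : y * y' = x * (y' * y)) (N : Ω)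
    (hxN : x N = N) (hyN : y N = N) (hyN' : y' N = N) (hfree : ∀ c, x c = c → c = N) (h H : Ω → A)
    (hsum : ∀ c, h c + h (x c) + h (x (x c)) = H c) (hHy : ∀ c, H (y c) = H c) (hHy' : ∀ c, H (y' c) = H c) : ∑ c, h c = h N := by
  have cube : ∀ {p : Equiv.Perm Ω}, p ^ 3 = 1 → ∀ c, p (p (p c)) = c := fun {p} hp c => by
    have : (p ^ 3) c = c := by rw [hp]; rfl
    rwa [pow_succ, pow_two] at this
  have xc := cube hx
  have yc := cube hy
  have yc' := cube hy'
  have fixN : ∀ {p : Equiv.Perm Ω}, p N = N → ∀ c, p c = N → c = N := fun {p} hp c hc => p.injective (hc.trans hp.symm)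
  obtain ⟨π, hπ⟩ : ∃ π : Ω → Finset Ω, ∀ c, π c = {c, x c, x (x c)} := ⟨_, fun _ => rfl⟩
  have memπ : ∀ c d, d ∈ π c ↔ d = c ∨ d = x c ∨ d = x (x c) := fun c d => by
    rw [hπ, Finset.mem_insert, Finset.mem_insert, Finset.mem_singleton]
  have self : ∀ c, c ∈ π c := fun c => (memπ c c).2 (Or.inl rfl)
  have πx : ∀ c, π (x c) = π c := by
    intro c
    ext d
    rw [memπ, memπ, xc]
    tauto
  have πeq : ∀ c d, π c = π d ↔ c ∈ π d := by
    intro c d
    constructor
    · intro h; rw [← h]; exact self c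
    · intro h
      rcases (memπ d c).1 h with rfl | rfl | rfl
      · rfl
      · rw [πx]
      · rw [πx, πx]
  have neN : ∀ c d, c ≠ N → d ∈ π c → d ≠ N := by
    intro c d hc hd
    rcases (memπ c d).1 hd with rfl | rfl | rfl
    · exact hc
    · exact fun h => hc (fixN hxN _ h)
    · exact fun h => hc (fixN hxN _ (fixN hxN _ h))
  have hx1 : ∀ c, c ≠ N → x c ≠ c := fun c hc h => hc (hfree c h)
  have hx2 : ∀ c, c ≠ N → x (x c) ≠ c := fun c hc h => by
    apply hx1 c hc
    have := xc c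
    rw [h] at this
    exact this
  obtain ⟨H', hH'⟩ : ∃ H' : Finset Ω → A, ∀ ω, H' ω = ∑ c ∈ ω, h c := ⟨_, fun _ => rfl⟩
  have H'π : ∀ c, c ≠ N → H' (π c) = H c := by
    intro c hc
    rw [hH', hπ, Finset.sum_insert, Finset.sum_insert, Finset.sum_singleton, ← add_assoc, hsum]
    · rw [Finset.mem_singleton]; exact fun h => hx1 _ hc (x.injective h).symm
    · rw [Finset.mem_insert, Finset.mem_singleton]
      rintro (h | h)
      · exact hx1 c hc h.symm
      · exact hx2 c hc h.symm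
  obtain ⟨s, hs⟩ : ∃ s, s = (Finset.univ.erase N).image π := ⟨_, rfl⟩
  have mems : ∀ ω, ω ∈ s ↔ ∃ c, c ≠ N ∧ π c = ω := by
    intro ω
    rw [hs, Finset.mem_image]
    simp only [Finset.mem_erase, Finset.mem_univ, and_true]
  have e1 : ∑ c ∈ Finset.univ.erase N, h c = ∑ ω ∈ s, H' ω := by
    rw [← Finset.sum_fiberwise_of_maps_to (s := Finset.univ.erase N) (t := s) (g := π) (fun c hc => (mems _).2 ⟨c, Finset.ne_of_mem_erase hc, rfl⟩) h]
    refine Finset.sum_congr rfl fun ω hω => ?_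
    obtain ⟨c, hc, rfl⟩ := (mems ω).1 hω
    rw [hH']
    apply Finset.sum_congr _ fun _ _ => rfl
    ext d
    rw [Finset.mem_filter, Finset.mem_erase, πeq]
    exact ⟨fun h => h.2, fun h => ⟨⟨neN c d hc h, Finset.mem_univ _⟩, h⟩⟩
  -- induced permutations
  have ind : ∀ {p : Equiv.Perm Ω}, Commute x p → ∀ c, Equiv.finsetCongr p (π c) = π (p c) := by
    intro p hp c
    have hp' : ∀ c, x (p c) = p (x c) := fun c => by
      have := congrArg (fun q : Equiv.Perm Ω => q c) hp.eq
      simpa using this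
    ext d
    rw [Equiv.finsetCongr_apply, Finset.mem_map, memπ]
    constructor
    · rintro ⟨e, he, rfl⟩
      rcases (memπ c e).1 he with rfl | rfl | rfl
      · left; rfl
      · right; left; rw [hp']; rfl
      · right; right; rw [hp', hp']; rfl
    · rintro (rfl | rfl | rfl)
      · exact ⟨c, self c, rfl⟩
      · exact ⟨x c, (memπ _ _).2 (Or.inr (Or.inl rfl)), (hp' c).symm⟩
      · exact ⟨x (x c), (memπ _ _).2 (Or.inr (Or.inr rfl)), by rw [hp', hp']; rfl⟩
  have cubeF : ∀ {p : Equiv.Perm Ω}, (∀ c, p (p (p c)) = c) → ∀ ω, Equiv.finsetCongr p (Equiv.finsetCongr p (Equiv.finsetCongr p ω)) = ω := by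
    intro p hp ω
    ext d
    simp only [Equiv.finsetCongr_apply, Finset.mem_map_equiv]
    have : p.symm (p.symm (p.symm d)) = d := by
      rw [Equiv.symm_apply_eq, Equiv.symm_apply_eq, Equiv.symm_apply_eq, hp]
    rw [this]
  have e2 := sum_perm3 h3 (Equiv.finsetCongr y) (cubeF yc) H' _ s rfl (by
    intro ω hω
    obtain ⟨c, hc, rfl⟩ := (mems ω).1 hω
    rw [ind hxy]
    exact (mems _).2 ⟨y c, fun h => hc (fixN hyN _ h), rfl⟩) (by
    intro ω hω
    obtain ⟨c, hc, rfl⟩ := (mems ω).1 hω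
    rw [ind hxy, H'π _ hc, H'π _ fun h => hc (fixN hyN _ h), hHy])
  have hcm : ∀ c, y (y' c) = x (y' (y c)) := fun c => by
    have := congrArg (fun q : Equiv.Perm Ω => q c) hcomm
    simpa using this
  have e3 := sum_perm3 h3 (Equiv.finsetCongr y') (cubeF yc') H' _ (s.filter fun ω => Equiv.finsetCongr y ω = ω) rfl (by
    intro ω hω
    rw [Finset.mem_filter] at hω ⊢
    obtain ⟨c, hc, rfl⟩ := (mems ω).1 hω.1
    refine ⟨?_, ?_⟩
    · rw [ind hxy']; exact (mems _).2 ⟨y' c, fun h => hc (fixN hyN' _ h), rfl⟩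
    · rw [ind hxy', ind hxy, hcm, πx, ← ind hxy', ← ind hxy', ← ind hxy, hω.2]) (by
    intro ω hω
    rw [Finset.mem_filter] at hω
    obtain ⟨c, hc, rfl⟩ := (mems ω).1 hω.1
    rw [ind hxy', H'π _ hc, H'π _ fun h => hc (fixN hyN' _ h), hHy'])
  have e4 : ((s.filter fun ω => Equiv.finsetCongr y ω = ω).filter fun ω => Equiv.finsetCongr y' ω = ω) = ∅ := by
    rw [Finset.eq_empty_iff_forall_notMem]
    intro ω hω
    rw [Finset.mem_filter, Finset.mem_filter] at hω
    obtain ⟨⟨h1, h2⟩, h4⟩ := hω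
    obtain ⟨c, hc, rfl⟩ := (mems ω).1 h1
    rw [ind hxy, πeq] at h2
    rw [ind hxy', πeq] at h4
    have pw : ∀ d, d ∈ π c → ∃ a : ℕ, d = (x ^ a) c := by
      intro d hd
      rcases (memπ c d).1 hd with rfl | rfl | rfl
      · exact ⟨0, by rw [pow_zero]; rfl⟩
      · exact ⟨1, by rw [pow_one]⟩
      · exact ⟨2, by rw [pow_two]; rfl⟩
    obtain ⟨a, ha⟩ := pw _ h2
    obtain ⟨b, hb⟩ := pw _ h4
    have c1 : ∀ d, y ((x ^ b) d) = (x ^ b) (y d) := fun d => by
      have := congrArg (fun q : Equiv.Perm Ω => q d) (hxy.pow_left b).eq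
      simpa using this.symm
    have c2 : ∀ d, y' ((x ^ a) d) = (x ^ a) (y' d) := fun d => by
      have := congrArg (fun q : Equiv.Perm Ω => q d) (hxy'.pow_left a).eq
      simpa using this.symm
    have h5 := hcm c
    rw [hb, c1, ha, c2, hb] at h5
    have h6 : (x ^ b) ((x ^ a) c) = (x ^ a) ((x ^ b) c) := by
      have : (x ^ b * x ^ a) c = (x ^ a * x ^ b) c := by rw [← pow_add, ← pow_add, add_comm]
      simpa using this
    rw [h6] at h5
    have h7 := hfree _ h5.symm
    have xpN : ∀ a : ℕ, (x ^ a) N = N := by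
      intro a
      induction a with
      | zero => rw [pow_zero]; rfl
      | succ a ih => rw [pow_succ]; show (x ^ a) (x N) = N; rw [hxN, ih]
    exact hc (fixN (xpN b) _ (fixN (xpN a) _ h7))
  rw [← Finset.add_sum_erase Finset.univ h (Finset.mem_univ N), e1, e2, e3, e4, Finset.sum_empty, add_zero]

end perm3

namespace Sys

variable {k : ℕ} {T ι : Type} [Fintype ι] [DecidableEq ι] {F : Type*} [Field F] {S : Sys k T ι F} {J : Finset T} {τ : Matrix ι ι F →ₗ[F] F}
  {K : Subgroup (GL ι F)}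

/-- the version of `FK_eq_pr` for the field with three elements -/
theorem FK_eq_pr3 [Finite F] (h3 : (3 : F) = 0) (hτ : ∀ Z Z', S.On J Z → S.On J Z' → τ (Z * Z') = τ (Z' * Z)) (hK : ∀ g ∈ K, S.On J g.1)
    {x y y' : GL ι F} (hxK : x ∈ K) (hyK : y ∈ K) (hyK' : y' ∈ K) (hxM : x ∈ S.Mon J) (hyM : y ∈ S.Mon J) (hyM' : y' ∈ S.Mon J)
    {e : Matrix ι ι F} (hx : x.1 = 1 + e) (hee : e * e = 0) (hx3 : x ^ 3 = 1) (hy3 : y ^ 3 = 1) (hy3' : y' ^ 3 = 1) (hxy : x * y = y * x) (hxy' : x * y' = y' * x)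
    (hcomm : y * y' = x * (y' * y)) (hey : e * y.1 = e) (hye : (y⁻¹).1 * e = e) (hey' : e * y'.1 = e) (hye' : (y'⁻¹).1 * e = e)
    (hfree : ∀ g ∈ K, g⁻¹ * x * g ∈ S.Mon J → g ∈ S.Mon J)
    {Z : Matrix ι ι F} (hZ : S.On J Z) (hZx : cj x Z = Z) (hZy : cj y Z = Z) (hZy' : cj y' Z = Z) : S.FK τ J K Z = S.pr τ J Z := by
  classical
  haveI : Finite (GL ι F) := inferInstance
  haveI : Finite (K ⧸ (S.Mon J).subgroupOf K) := inferInstance
  haveI : Fintype (K ⧸ (S.Mon J).subgroupOf K) := Fintype.ofFinite _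
  have hact : ∀ {g : GL ι F} (hg : g ∈ K), cj g Z = Z → ∀ c : K ⧸ (S.Mon J).subgroupOf K, S.hfun τ J K Z ((⟨g, hg⟩ : K) • c) = cj g (S.hfun τ J K Z c) := by
    intro g hg hgZ c
    have := hfun_smul hτ hK hZ ⟨g, hg⟩ c
    rw [hgZ] at this
    exact this
  have hN : ∀ {g : GL ι F} (hg : g ∈ K), g ∈ S.Mon J → (⟨g, hg⟩ : K) • (((1 : K) : K ⧸ (S.Mon J).subgroupOf K)) = ((1 : K) : K ⧸ (S.Mon J).subgroupOf K) := by
    intro g hg hgM
    show (((⟨g, hg⟩ : K) * 1 : K) : K ⧸ (S.Mon J).subgroupOf K) = _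
    rw [mul_one, QuotientGroup.eq, mul_one]
    exact Subgroup.inv_mem _ (Subgroup.mem_subgroupOf.2 hgM)
  have hpow : ∀ {g : GL ι F} (hg : g ∈ K), g ^ 3 = 1 → (MulAction.toPerm (⟨g, hg⟩ : K) : Equiv.Perm (K ⧸ (S.Mon J).subgroupOf K)) ^ 3 = 1 := by
    intro g hg h
    have : (⟨g, hg⟩ : K) ^ 3 = 1 := Subtype.ext h
    have h2 := map_pow (MulAction.toPermHom K (K ⧸ (S.Mon J).subgroupOf K)) (⟨g, hg⟩ : K) 3
    rw [this, map_one] at h2
    exact h2.symm
  have hprod : ∀ {g g' : GL ι F} (hg : g ∈ K) (hg' : g' ∈ K), (MulAction.toPerm (⟨g, hg⟩ : K) : Equiv.Perm (K ⧸ (S.Mon J).subgroupOf K)) * MulAction.toPerm (⟨g', hg'⟩ : K) =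
      MulAction.toPerm (⟨g * g', K.mul_mem hg hg'⟩ : K) := by
    intro g g' hg hg'
    exact (map_mul (MulAction.toPermHom K (K ⧸ (S.Mon J).subgroupOf K)) (⟨g, hg⟩ : K) ⟨g', hg'⟩).symm
  have hxi : (x⁻¹).1 = 1 - e := Mem1.inv_eq hx hee
  have h3' : ∀ a : Matrix ι ι F, a + a + a = 0 := by
    intro a
    have : a + a + a = (3 : F) • a := by module
    rw [this, h3, zero_smul]
  have key := sum_heis (Ω := K ⧸ (S.Mon J).subgroupOf K) (A := Matrix ι ι F) h3' (MulAction.toPerm (⟨x, hxK⟩ : K)) (MulAction.toPerm (⟨y, hyK⟩ : K))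
    (MulAction.toPerm (⟨y', hyK'⟩ : K)) (hpow hxK hx3) (hpow hyK hy3) (hpow hyK' hy3')
    (by
      show _ = _
      rw [hprod, hprod]; congr 2)
    (by
      show _ = _
      rw [hprod, hprod]; congr 2)
    (by
      rw [hprod, hprod, hprod]; congr 2)
    ((1 : K) : K ⧸ (S.Mon J).subgroupOf K) (hN hxK hxM) (hN hyK hyM) (hN hyK' hyM')
    (by
      intro c
      induction c using QuotientGroup.induction_on with
      | H g =>
        intro h
        have h1 : ((⟨x, hxK⟩ * g : K) : K ⧸ (S.Mon J).subgroupOf K) = (g : K ⧸ (S.Mon J).subgroupOf K) := h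
        rw [QuotientGroup.eq, Subgroup.mem_subgroupOf] at h1
        have h2 : g.1⁻¹ * x * g.1 ∈ S.Mon J := by
          have := Subgroup.inv_mem _ h1
          have e : (((⟨x, hxK⟩ * g)⁻¹ * g : K) : GL ι F)⁻¹ = g.1⁻¹ * x * g.1 := by
            show ((x * g.1)⁻¹ * g.1)⁻¹ = _
            group
          rw [e] at this
          exact this
        have h4 := hfree g.1 g.2 h2
        rw [QuotientGroup.eq, mul_one, Subgroup.mem_subgroupOf]
        exact Subgroup.inv_mem _ h4)
    (S.hfun τ J K Z) (fun c => e * S.hfun τ J K Z c * e)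
    (by
      intro c
      have q2 : ∀ d : K ⧸ (S.Mon J).subgroupOf K, (MulAction.toPerm (⟨x, hxK⟩ : K)) d = (⟨x, hxK⟩ : K) • d := fun _ => rfl
      rw [q2, q2, hact hxK hZx ((⟨x, hxK⟩ : K) • c), hact hxK hZx c]
      obtain ⟨a, ha⟩ : ∃ a, a = S.hfun τ J K Z c := ⟨_, rfl⟩
      rw [← ha, cj, cj, hx, hxi]
      have s1 : ∀ b : Matrix ι ι F, (1 + e) * b * (1 - e) = b + (e * b - b * e) - e * b * e := fun b => by noncomm_ring
      rw [s1, s1]
      have s2 : ∀ b : Matrix ι ι F, e * (e * b) = 0 := fun b => by rw [← mul_assoc, hee, zero_mul]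
      have s3 : ∀ b : Matrix ι ι F, b * e * e = 0 := fun b => by rw [mul_assoc, hee, mul_zero]
      have : a + (a + (e * a - a * e) - e * a * e) +
          ((a + (e * a - a * e) - e * a * e) + (e * (a + (e * a - a * e) - e * a * e) - (a + (e * a - a * e) - e * a * e) * e) - e * (a + (e * a - a * e) - e * a * e) * e) =
          (3 : F) • (a + e * a - a * e - (2 : F) • (e * a * e)) + e * a * e := by
        simp only [mul_add, mul_sub, add_mul, sub_mul, s2, s3, mul_assoc, hee, mul_zero, ras hee, zero_mul, sub_zero, add_zero]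
        module
      rw [this, h3, zero_smul, zero_add])
    (by
      intro c
      have q2 : ∀ d : K ⧸ (S.Mon J).subgroupOf K, (MulAction.toPerm (⟨y, hyK⟩ : K)) d = (⟨y, hyK⟩ : K) • d := fun _ => rfl
      rw [q2, hact hyK hZy, cj]
      calc e * (y.1 * S.hfun τ J K Z c * (y⁻¹).1) * e = (e * y.1) * S.hfun τ J K Z c * ((y⁻¹).1 * e) := by simp only [mul_assoc]
        _ = _ := by rw [hey, hye])
    (by
      intro c
      have q2 : ∀ d : K ⧸ (S.Mon J).subgroupOf K, (MulAction.toPerm (⟨y', hyK'⟩ : K)) d = (⟨y', hyK'⟩ : K) • d := fun _ => rfl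
      rw [q2, hact hyK' hZy', cj]
      calc e * (y'.1 * S.hfun τ J K Z c * (y'⁻¹).1) * e = (e * y'.1) * S.hfun τ J K Z c * ((y'⁻¹).1 * e) := by simp only [mul_assoc]
        _ = _ := by rw [hey', hye'])
  rw [FK, finsum_eq_sum_of_fintype, key, hfun_mk hτ hK hZ]
  rw [Subgroup.coe_one, inv_one, cj_one, cj_one]

end Sys

end Cfsg.Agent.Asch.CW
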