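import Mathlib
import Cfsg.Prelude.Def_GeometricClasses
import Cfsg.Agent.Asch.CSHeis
import Cfsg.Agent.Asch.CWStd
set_option autoImplicit false
set_option linter.unusedSectionVars false
set_option linter.unusedVariables false
set_option linter.unusedSimpArgs false
set_option linter.style.haveILetI false

/-!
The relative trace argument in the symplectic case.
-/

namespace Cfsg.Agent.Asch.CW

open Matrix Module

open scoped Matrix

namespace Sys

variable {k : ℕ} {T ι : Type} [DecidableEq T] [Fintype ι] [DecidableEq ι] {F : Type*} [Field F] {S : Sys k T ι F} {φ : SpF k F}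
  {J : Finset T} {τ : Matrix ι ι F →ₗ[F] F} {K K' : Subgroup (GL ι F)}

/-- the additive group generated by products of symplectic root vectors -/
def GenS (S : Sys k T ι F) (φ : SpF k F) (J : Finset T) : AddSubgroup (Matrix ι ι F) :=
  AddSubgroup.closure {Z | ∃ i ∈ J, ∃ (u : Fin k → F) (b : Matrix ι ι F), Cmt (S.E i) b ∧ S.On J b ∧ Z = S.E i (φ.et u u) * b}

lemma mem_genS {i : T} (hi : i ∈ J) (u : Fin k → F) {b : Matrix ι ι F} (hb : Cmt (S.E i) b) (hbJ : S.On J b) : S.E i (φ.et u u) * b ∈ S.GenS φ J :=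
  AddSubgroup.subset_closure ⟨i, hi, u, b, hb, hbJ, rfl⟩

lemma genS_skew {i : T} (hi : i ∈ J) {b : Matrix ι ι F} (hb : Cmt (S.E i) b) (hbJ : S.On J b) (a : Matrix (Fin k) (Fin k) F) :
    S.E i (a - φ.star a) * b ∈ S.GenS φ J := by
  refine φ.et_induction (P := fun a => S.E i (a - φ.star a) * b ∈ S.GenS φ J) ?_ ?_ ?_ a
  · rw [φ.star_zero, sub_zero, map_zero, zero_mul]; exact AddSubgroup.zero_mem _
  · intro a c ha hc
    rw [φ.star_add, add_sub_add_comm, map_add, add_mul]; exact AddSubgroup.add_mem _ ha hc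
  · intro u v
    rw [φ.star_et, sub_neg_eq_add]
    have : φ.et u v + φ.et v u = φ.D u v := rfl
    rw [this, φ.D_eq, map_sub, map_sub, sub_mul, sub_mul]
    exact AddSubgroup.sub_mem _ (AddSubgroup.sub_mem _ (mem_genS hi _ hb hbJ) (mem_genS hi _ hb hbJ)) (mem_genS hi _ hb hbJ)

lemma genS_mono_mul {i : T} {J' : Finset T} (hiJ : i ∉ J') {Z : Matrix ι ι F} (hZ : Z ∈ S.GenS φ J') (e : Matrix (Fin k) (Fin k) F) :
    S.E i e * Z ∈ S.GenS φ (insert i J') := by
  refine AddSubgroup.closure_induction (p := fun Z _ => S.E i e * Z ∈ S.GenS φ (insert i J')) ?_ ?_ ?_ ?_ hZ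
  · rintro _ ⟨j, hj, u, b, hb, hbJ, rfl⟩
    have hij : i ≠ j := by rintro rfl; exact hiJ hj
    rw [← mul_assoc, S.comm i j hij, mul_assoc]
    apply mem_genS (Finset.mem_insert_of_mem hj)
    · exact (cmt_E (Ne.symm hij) e).mul hb
    · exact (on_E (Finset.mem_insert_self _ _) e).mul (hbJ.mono (Finset.subset_insert _ _))
  · rw [mul_zero]; exact AddSubgroup.zero_mem _
  · intro a b _ _ ha hb; rw [mul_add]; exact AddSubgroup.add_mem _ ha hb
  · intro a _ ha; rw [mul_neg]; exact AddSubgroup.neg_mem _ ha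

lemma sub_st_mem_gen (Θ : SSt S φ) (J : Finset T) : ∀ Z, S.On J Z → Z - Θ.st Z ∈ S.GenS φ J := by
  induction J using Finset.induction_on with
  | empty =>
    intro Z hZ
    obtain ⟨c, hc⟩ := on_empty hZ
    rw [hc, map_smul, Θ.st_one, sub_self]; exact AddSubgroup.zero_mem _
  | insert i J' hi ih =>
    intro Z hZ
    have hblk : ∀ l m, S.On J' (blk (S.E i) Z l m) := by
      intro l m
      have := hZ.blk i l m
      rwa [Finset.erase_insert hi] at this
    have hcm : ∀ l m, Cmt (S.E i) (blk (S.E i) Z l m) := fun l m => blk_cmt _ _ _ _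
    have h1 : Z - Θ.st Z = ∑ l, ∑ m, (S.E i (single l m 1 - φ.star (single l m 1)) * blk (S.E i) Z l m +
        S.E i (φ.star (single l m 1)) * (blk (S.E i) Z l m - Θ.st (blk (S.E i) Z l m))) := by
      have h2 : ∀ l m, S.E i (single l m 1 - φ.star (single l m 1)) * blk (S.E i) Z l m +
        S.E i (φ.star (single l m 1)) * (blk (S.E i) Z l m - Θ.st (blk (S.E i) Z l m)) =
          S.E i (single l m 1) * blk (S.E i) Z l m - Θ.st (S.E i (single l m 1) * blk (S.E i) Z l m) := by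
        intro l m
        rw [Θ.st_mul, Θ.st_E, ← Θ.st_cmt (hcm l m), map_sub, sub_mul, mul_sub]; abel
      simp only [h2, Finset.sum_sub_distrib]
      rw [sum_blk]
      conv_lhs => rw [← sum_blk (S.E i) Z]
      rw [map_sum]
      simp only [map_sum]
      rw [sum_blk]
    rw [h1]
    apply AddSubgroup.sum_mem
    intro l _
    apply AddSubgroup.sum_mem
    intro m _
    exact AddSubgroup.add_mem _ (genS_skew (Finset.mem_insert_self _ _) (hcm l m) ((hblk l m).mono (Finset.subset_insert _ _)) _)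
      (genS_mono_mul hi (ih _ (hblk l m)) _)

lemma mem_genS_of_skew (Θ : SSt S φ) (h2 : (2 : F) ≠ 0) {Z : Matrix ι ι F} (hZ : S.On J Z) (hs : Θ.st Z = -Z) : Z ∈ S.GenS φ J := by
  have h1 := sub_st_mem_gen Θ J ((2 : F)⁻¹ • Z) (hZ.smul _)
  have h3 : (2 : F)⁻¹ • Z - Θ.st ((2 : F)⁻¹ • Z) = Z := by
    rw [map_smul, hs, smul_neg, sub_neg_eq_add, ← two_smul F, smul_smul, mul_inv_cancel₀ h2, one_smul]
  rwa [h3] at h1

lemma tau_E_mul (hτ : ∀ Z Z', S.On J Z → S.On J Z' → τ (Z * Z') = τ (Z' * Z)) {i : T} (hi : i ∈ J) {Q : Matrix ι ι F} (hQc : Cmt (S.E i) Q) (hQJ : S.On J Q)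
    (z : Fin k) (a : Matrix (Fin k) (Fin k) F) : τ (S.E i a * Q) = a.trace * τ (S.E i (single z z 1) * Q) := by
  have hoff : ∀ {l m : Fin k}, l ≠ m → ∀ {b : Matrix ι ι F}, Cmt (S.E i) b → S.On J b → τ (S.E i (single l m 1) * b) = 0 := by
    intro l m hlm b hb hbJ
    rw [single_eq_vmv]
    apply tau_vmv hτ hi _ hb hbJ
    rw [single_one_dotProduct, Pi.single_eq_of_ne (Ne.symm hlm)]
  have hdiag : ∀ (l m : Fin k) {b : Matrix ι ι F}, Cmt (S.E i) b → S.On J b → τ (S.E i (single l l 1) * b) = τ (S.E i (single m m 1) * b) := by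
    intro l m b hb hbJ
    have h1 : single l l (1 : F) = single l m 1 * single m l 1 := by rw [single_mul_single_same, one_mul]
    rw [h1, map_mul (S.E i), mul_assoc, hτ _ _ (on_E hi _) ((on_E hi _).mul hbJ), mul_assoc, ← hb, ← mul_assoc, ← map_mul (S.E i), single_mul_single_same, one_mul]
  have h1 : τ (S.E i a * Q) = ∑ l, ∑ m, a l m * τ (S.E i (single l m 1) * Q) := by
    conv_lhs => rw [matrix_eq_sum_single a]
    simp only [map_sum, Finset.sum_mul]
    refine Finset.sum_congr rfl fun p _ => Finset.sum_congr rfl fun q _ => ?_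
    have : single p q (a p q) = a p q • single p q (1 : F) := by rw [smul_single, smul_eq_mul, mul_one]
    rw [this, map_smul, smul_mul_assoc, map_smul, smul_eq_mul]
  rw [h1, Matrix.trace, Finset.sum_mul]
  refine Finset.sum_congr rfl fun l _ => ?_
  rw [Finset.sum_eq_single l]
  · rw [hdiag l z hQc hQJ, diag_apply]
  · intro m _ hm
    rw [hoff (Ne.symm hm) hQc hQJ, mul_zero]
  · intro h; exact absurd (Finset.mem_univ _) h

/-- **Conclusion of the relative trace argument**, symplectic version -/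
theorem trace_conclusionS [Finite F] (Θ : SSt S φ) [Nonempty ι] (h2 : (2 : F) ≠ 0) (hτ : ∀ Z Z', S.On J Z → S.On J Z' → τ (Z * Z') = τ (Z' * Z))
    (hK : ∀ g ∈ K, S.On J g.1) (hI : ∀ g ∈ K, Θ.Iso g)
    (hfix : ∀ i ∈ J, ∀ u : Fin k → F, ∀ b, Cmt (S.E i) b → S.On J b → S.FK τ J K (S.E i (φ.et u u) * b) = S.pr τ J (S.E i (φ.et u u) * b))
    {g : GL ι F} (hg : g ∈ K) {i : T} (hi : i ∈ J) {b₀ : Matrix ι ι F} (hb₀ : Cmt (S.E i) b₀) (hb₀J : S.On J b₀) (hst : Θ.st b₀ = b₀) (z : Fin k)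
    (hτ₀ : τ (S.E i (single z z 1) * b₀) ≠ 0) (u : Fin k → F) :
    ∃ z : T → Matrix (Fin k) (Fin k) F, g.1 * S.E i (φ.et u u) * (g⁻¹).1 = ∑ j ∈ J, S.E j (z j) := by
  have hgen : ∀ Z ∈ S.GenS φ J, S.FK τ J K Z = S.pr τ J Z := by
    intro Z hZ
    refine AddSubgroup.closure_induction (p := fun Z _ => S.FK τ J K Z = S.pr τ J Z) ?_ ?_ ?_ ?_ hZ
    · rintro _ ⟨j, hj, u, b, hb, hbJ, rfl⟩
      exact hfix j hj u b hb hbJ
    · rw [FK_zero, pr_zero]
    · intro a b _ _ ha hb; rw [FK_add, pr_add, ha, hb]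
    · intro a _ ha
      have h1 : S.FK τ J K (-a) + S.FK τ J K a = 0 := by rw [← FK_add, neg_add_cancel, FK_zero]
      have h2 : S.pr τ J (-a) + S.pr τ J a = 0 := by rw [← pr_add, neg_add_cancel, pr_zero]
      rw [ha] at h1
      rw [eq_neg_of_add_eq_zero_left h1, eq_neg_of_add_eq_zero_left h2]
  obtain ⟨Z, hZ⟩ : ∃ Z, Z = S.E i (φ.et u u) * b₀ := ⟨_, rfl⟩
  have hZJ : S.On J Z := by rw [hZ]; exact (on_E hi _).mul hb₀J
  have hZs : Θ.st Z = -Z := by rw [hZ, Θ.st_mul, Θ.st_et, hst, mul_neg, hb₀]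
  have hgJ := hK g hg
  have h1 := FK_conj hτ hK hZJ hg
  have hZ' : S.On J (cj g Z) := On.cj hgJ hZJ
  have hZs' : Θ.st (cj g Z) = -cj g Z := by
    rw [cj, (hI g hg).sim.st_conj, hZs, mul_neg, neg_mul]
  rw [hgen Z (mem_genS_of_skew Θ h2 hZJ hZs), hgen _ (mem_genS_of_skew Θ h2 hZ' hZs')] at h1
  obtain ⟨l, hl⟩ : ∃ l, l = τ (S.E i (single z z 1) * b₀) := ⟨_, rfl⟩
  rw [← hl] at hτ₀
  have htr0 : ∀ v : Fin k → F, (φ.et v v).trace = 0 := by
    intro v
    show (vecMulVec v (φ.fr v)).trace = 0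
    rw [trace_vecMulVec, dotProduct_comm, φ.fr_dot, φ.f_self]
  have hpr : S.pr τ J Z = l • S.E i (φ.et u u) := by
    rw [pr, Finset.sum_eq_single i]
    · rw [← map_smul]
      congr 1
      ext p q
      rw [ceM, of_apply, hZ, ← mul_assoc, ← map_mul, tau_E_mul hτ hi hb₀ hb₀J z, ← hl, single_trace, Matrix.smul_apply, smul_eq_mul, mul_comm]
    · intro j hj hji
      have : S.ceM τ j Z = 0 := by
        ext p q
        rw [ceM, of_apply, hZ, ← mul_assoc, S.comm j i hji, mul_assoc, Matrix.zero_apply,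
          tau_E_mul hτ hi ((cmt_E (Ne.symm hji) _).mul hb₀) ((on_E hj _).mul hb₀J) z, htr0, zero_mul]
      rw [this, map_zero]
    · intro h; exact absurd hi h
  rw [hpr, cj, cj, mul_smul_comm, smul_mul_assoc] at h1
  refine ⟨fun j => l⁻¹ • S.ceM τ j (g.1 * Z * (g⁻¹).1), ?_⟩
  simp only [map_smul]
  rw [← Finset.smul_sum, ← show S.pr τ J (g.1 * Z * (g⁻¹).1) = ∑ j ∈ J, S.E j (S.ceM τ j (g.1 * Z * (g⁻¹).1)) from rfl, h1, smul_smul, inv_mul_cancel₀ hτ₀, one_smul]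

/-- the group of long root elements with a given centre kills -/
lemma factor_of_sum2 {S : Sys 2 T ι F} [Nonempty ι] (h2 : (2 : F) ≠ 0) {Z : Matrix ι ι F} {z : T → Matrix (Fin 2) (Fin 2) F} (hZ : Z = ∑ j ∈ J, S.E j (z j)) (hZ2 : Z * Z = 0)
    (hZ0 : Z ≠ 0) : ∃ j ∈ J, ∃ a, Z = S.E j a := by
  by_cases hsc : ∀ j ∈ J, ∃ c : F, z j = c • (1 : Matrix (Fin 2) (Fin 2) F)
  · exfalso
    choose c hc using hsc
    have h1 : Z = (∑ j : J, c j.1 j.2) • (1 : Matrix ι ι F) := by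
      rw [hZ, Finset.sum_smul, ← Finset.sum_coe_sort]
      refine Finset.sum_congr rfl fun j _ => ?_
      rw [hc j.1 j.2, map_smul, map_one]
    rw [h1, smul_mul_smul_comm, one_mul] at hZ2
    have h2 := (smul_eq_zero.1 hZ2).resolve_right one_ne_zero
    have h3 : (∑ j : J, c j.1 j.2) = 0 := by
      rcases mul_self_eq_zero.1 h2 with h; exact h
    exact hZ0 (by rw [h1, h3, zero_smul])
  push Not at hsc
  obtain ⟨j, hj, hns⟩ := hsc
  obtain ⟨d, hd⟩ : ∃ d, d = (z j).trace * (2 : F)⁻¹ := ⟨_, rfl⟩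
  obtain ⟨y, hy⟩ : ∃ y, y = z j - d • (1 : Matrix (Fin 2) (Fin 2) F) := ⟨_, rfl⟩
  obtain ⟨b, hb⟩ : ∃ b, b = ∑ l ∈ J.erase j, S.E l (z l) + d • (1 : Matrix ι ι F) := ⟨_, rfl⟩
  have hbc : Cmt (S.E j) b := by
    rw [hb]
    exact (Cmt.sum fun l hl => cmt_E (Ne.symm (Finset.ne_of_mem_erase hl)) _).add (Cmt.one.smul d)
  have hZb : Z = S.E j y + b := by
    rw [hZ, hb, hy, map_sub, map_smul, map_one, ← Finset.add_sum_erase J (fun l => S.E l (z l)) hj]; abel
  have hyt : y.trace = 0 := by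
    rw [hy, trace_sub, trace_smul, trace_one, Fintype.card_fin, hd, smul_eq_mul]
    push_cast
    rw [mul_assoc, inv_mul_cancel₀ h2, mul_one, sub_self]
  have hyy : ∃ c : F, y * y = c • (1 : Matrix (Fin 2) (Fin 2) F) := by
    rw [Matrix.trace_fin_two] at hyt
    have h11 : y 1 1 = - y 0 0 := by linear_combination hyt
    refine ⟨y 0 0 * y 0 0 + y 0 1 * y 1 0, ?_⟩
    ext p q
    fin_cases p <;> fin_cases q
    · simp [Matrix.mul_apply, Fin.sum_univ_two]
    · simp [Matrix.mul_apply, Fin.sum_univ_two, h11]; ring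
    · simp [Matrix.mul_apply, Fin.sum_univ_two, h11]; ring
    · simp [Matrix.mul_apply, Fin.sum_univ_two, h11]; ring
  obtain ⟨c, hc⟩ := hyy
  have hyns : ¬ ∃ c : F, y = c • (1 : Matrix (Fin 2) (Fin 2) F) := by
    rintro ⟨c', hc'⟩
    apply hns (c' + d)
    have : z j = y + d • (1 : Matrix (Fin 2) (Fin 2) F) := by rw [hy]; abel
    rw [this, hc', add_smul]
  have hyb : S.E j y * b = (2 : F)⁻¹ • (-(c • (1 : Matrix ι ι F)) - b * b) := by
    have h3 : Z * Z = c • (1 : Matrix ι ι F) + (2 : F) • (S.E j y * b) + b * b := by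
      rw [hZb, add_mul, mul_add, mul_add, ← map_mul, hc, map_smul, map_one, ← hbc y, two_smul]; abel
    rw [hZ2] at h3
    have h4 : (2 : F) • (S.E j y * b) = -(c • (1 : Matrix ι ι F)) - b * b := by
      have : (2 : F) • (S.E j y * b) = (c • (1 : Matrix ι ι F) + (2 : F) • (S.E j y * b) + b * b) - c • (1 : Matrix ι ι F) - b * b := by abel
      rw [this, ← h3]; abel
    rw [← h4, smul_smul, inv_mul_cancel₀ h2, one_smul]
  have hcm : Cmt (S.E j) (S.E j y * b) := by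
    rw [hyb]
    exact ((Cmt.one.smul c).neg.sub (hbc.mul hbc)).smul _
  have hb0 : b = 0 := by
    obtain ⟨a, ha⟩ : ∃ a, a * y ≠ y * a := by
      by_contra hcon
      push Not at hcon
      apply hyns
      have : y ∈ Set.range (Matrix.scalar (Fin 2)) := Matrix.mem_range_scalar_of_commute_single (fun i j _ => hcon _)
      obtain ⟨c', hc'⟩ := this
      exact ⟨c', by rw [← hc', Matrix.scalar_apply, ← smul_one_eq_diagonal]⟩
    have h4 : S.E j (a * y - y * a) * b = 0 := by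
      have h5 := hcm a
      rw [E_mul_A', E_A_mul hbc] at h5
      rw [map_sub, sub_mul, h5, sub_self]
    exact eq_zero_of_E_mul (S.E j) hbc (sub_ne_zero.2 ha) h4
  exact ⟨j, hj, y, by rw [hZb, hb0, add_zero]⟩

section mon

variable [Fintype T] [Fintype F]

/-- `K'` permutes the factors -/
theorem mon_of_fixS [Nonempty ι] {Θ : SSt S φ} (hk : 2 ≤ k) (hq : Odd (Fintype.card F)) (hX : CtxS φ) (IH : ∀ i ∈ J, ClaimS Θ (J.erase i)) (hG : GoodS Θ J K') (hJ : J.Nonempty)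
    (hτ : ∀ Z Z', S.On J Z → S.On J Z' → τ (Z * Z') = τ (Z' * Z))
    (hfix : ∀ i ∈ J, ∀ u : Fin k → F, ∀ b, Cmt (S.E i) b → S.On J b → S.FK τ J K' (S.E i (φ.et u u) * b) = S.pr τ J (S.E i (φ.et u u) * b))
    (hb : ∀ i ∈ J, ∃ b₀, Cmt (S.E i) b₀ ∧ S.On J b₀ ∧ Θ.st b₀ = b₀ ∧ ∃ z, τ (S.E i (single z z 1) * b₀) ≠ 0) : ∀ g ∈ K', g ∈ S.Mon J := by
  intro g hg
  obtain ⟨i, hi⟩ := hJ
  obtain ⟨b₀, hb₀, hb₀J, hst, z, hτ₀⟩ := hb i hi
  obtain ⟨u, hu⟩ : ∃ u : Fin k → F, u ≠ 0 := ⟨Pi.single z 1, by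
    intro h0; have := congrFun h0 z; rw [Pi.single_eq_same] at this; exact one_ne_zero this⟩
  obtain ⟨w, hw⟩ := trace_conclusionS Θ hX.h2 hτ hG.on hG.iso hfix hg hi hb₀ hb₀J hst z hτ₀ u
  have hsq : (g.1 * S.E i (φ.et u u) * (g⁻¹).1) * (g.1 * S.E i (φ.et u u) * (g⁻¹).1) = 0 := sq_conj (E_sq (φ.et_sq u))
  have hne0 : g.1 * S.E i (φ.et u u) * (g⁻¹).1 ≠ 0 := by
    intro h0
    exact φ.et_ne_zero hu hu (E_inj (S := S) (i := i) (by rw [conj_eq_zero g h0, map_zero]))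
  have hfac : ∃ j ∈ J, ∃ a, g.1 * S.E i (φ.et u u) * (g⁻¹).1 = S.E j a := by
    rcases Nat.lt_or_ge 2 k with hk3 | hk3
    · exact factor_of_sum hk3 hw hsq hne0 i z (by rw [rank_conj]; exact rank_vmv_le i z _ _)
    · obtain rfl : k = 2 := le_antisymm hk3 hk
      exact factor_of_sum2 hX.h2 hw hsq hne0
  obtain ⟨j, hj, a, ha⟩ := hfac
  have haa : a * a = 0 := E_inj (S := S) (i := j) (by rw [map_mul, ← ha, hsq, map_zero])
  obtain ⟨B, hB⟩ := exists_of_sq_zero haa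
  have hyM : EU (S.E j) B ∈ S.Mon J := EU_mem_mon j B
  obtain ⟨j', hj', γ, u', hγ, hu', hr⟩ := fusS (Θ := Θ) hk hq (hG.on _ hg) (hG.iso _ hg).sim hi hu one_ne_zero (y := EU (S.E j) B)
    (by rw [EU_val, hB, map_add, map_one, one_smul, ha]) hyM
  exact block_stepS hX IH hG.on hG.iso hG.root hG.coef (hG.on _ hg) (hG.iso _ hg).sim (fun i hi c u => (hG.root i hi c u).conj' hg) hi hj' hu hγ hu' hr

/-- the hypothesis of `mon_of_fixS` for fields with at least four elements -/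
theorem hfix_of_four [Nonempty ι] {Θ : SSt S φ} (hk : 2 ≤ k) (hq : Odd (Fintype.card F)) (hq4 : 4 ≤ Fintype.card F) (hX : CtxS φ)
    (IH : ∀ i ∈ J, ClaimS Θ (J.erase i)) (hG : GoodS Θ J K')
    (hτ : ∀ Z Z', S.On J Z → S.On J Z' → τ (Z * Z') = τ (Z' * Z)) :
    ∀ i ∈ J, ∀ u : Fin k → F, ∀ b, Cmt (S.E i) b → S.On J b → S.FK τ J K' (S.E i (φ.et u u) * b) = S.pr τ J (S.E i (φ.et u u) * b) := by
  intro i hi u b hb hbJ
  by_cases hu : u = 0
  · rw [hu, φ.et_zero_left, map_zero, zero_mul, FK_zero, pr_zero]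
  obtain ⟨θ, hθe⟩ : ∃ θ : Fin 1 → Fin k → F, θ = fun _ => φ.fr u := ⟨_, rfl⟩
  have hθ : ∀ m, θ m ⬝ᵥ u = 0 := fun m => by rw [hθe]; exact fr_dot_self φ u
  have hli : LinearIndependent F θ := by
    rw [Fintype.linearIndependent_iff]
    intro c hc m
    rw [Fin.sum_univ_one, hθe] at hc
    have := (smul_eq_zero.1 hc).resolve_right (φ.fr_ne_zero hu)
    rw [Subsingleton.elim m 0]; exact this
  have hsum : ∀ c : Fin 1 → F, vecMulVec u (∑ m, c m • θ m) = c 0 • φ.et u u := fun c => by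
    rw [Fin.sum_univ_one, hθe, vecMulVec_smul]; rfl
  have hXK : RowGrp (S.E i) u θ hθ ≤ K' := by
    rintro x ⟨c, hc⟩
    rw [hsum] at hc
    exact (hG.root i hi (c 0) u).mem hc
  apply FK_eq_pr hτ hG.on (X := RowGrp (S.E i) u θ hθ) hXK
  · rintro x ⟨c, hc⟩
    have : x = EU (S.E i) (Classical.choose (exists_of_sq_zero (vmv_sq (row_dot_zero hθ c)))) := by
      apply Units.ext
      rw [hc, EU_val, Classical.choose_spec (exists_of_sq_zero (vmv_sq (row_dot_zero hθ c))), map_add, map_one]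
    rw [this]
    exact EU_mem_mon i _
  · rintro x ⟨c, hc⟩ hx1 g hg hgx
    rw [hsum] at hc
    refine hfree_ofS (Θ := Θ) hk hq hX IH hG hi hu ?_ hc hg hgx
    intro h0
    apply hx1
    apply Units.ext
    rw [hc, h0, zero_smul, map_zero, add_zero, Units.val_one]
  · intro a
    exact rowGrp_kill hu (by omega) hθ hli K' hXK a
  · exact (on_E hi _).mul hbJ
  · rintro x ⟨c, hc⟩
    rw [hsum] at hc
    apply cj_eq_self
    rw [hc, add_mul, mul_add, one_mul, mul_one]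
    congr 1
    rw [E_mul_A', E_A_mul hb, smul_mul_assoc, mul_smul_comm]

lemma cube_one {N : Matrix ι ι F} (h3 : (3 : F) = 0) (hN : N * N = 0) {g : GL ι F} (hg : g.1 = 1 + N) : g ^ 3 = 1 := by
  apply Units.ext
  rw [Units.val_pow_eq_pow_val, Units.val_one, hg, pow_succ, pow_two]
  have : (1 + N) * (1 + N) * (1 + N) = 1 + (3 : F) • N + ((3 : F) • (N * N) + N * N * N) := by
    rw [show (3 : F) • N = N + N + N by module, show (3 : F) • (N * N) = N * N + N * N + N * N by module]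
    noncomm_ring
  rw [this, h3, hN, zero_smul, zero_smul, zero_mul, add_zero, add_zero, add_zero]

/-- the hypothesis of `mon_of_fixS` for the field with three elements -/
theorem hfix_of_three [Nonempty ι] {Θ : SSt S φ} (hk : 4 ≤ k) (hq : Odd (Fintype.card F)) (h3 : (3 : F) = 0) (hX : CtxS φ)
    (IH : ∀ i ∈ J, ClaimS Θ (J.erase i)) (hG : GoodS Θ J K')
    (hτ : ∀ Z Z', S.On J Z → S.On J Z' → τ (Z * Z') = τ (Z' * Z)) :
    ∀ i ∈ J, ∀ u : Fin k → F, ∀ b, Cmt (S.E i) b → S.On J b → S.FK τ J K' (S.E i (φ.et u u) * b) = S.pr τ J (S.E i (φ.et u u) * b) := by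
  intro i hi u b hb hbJ
  by_cases hu : u = 0
  · rw [hu, φ.et_zero_left, map_zero, zero_mul, FK_zero, pr_zero]
  obtain ⟨w, w₀, huw, huw₀, hww₀⟩ := exists_W_pair φ hk hu
  obtain ⟨w', hw'⟩ : ∃ w', w' = -w₀ := ⟨_, rfl⟩
  have huw' : φ.f u w' = 0 := by rw [hw', φ.f_neg_right, huw₀, neg_zero]
  have hww' : φ.f w w' = -1 := by rw [hw', φ.f_neg_right, hww₀]
  have hR := hG.root i hi
  have mD : ∀ {z : Fin k → F}, φ.f u z = 0 → Mem1 K' (S.E i (φ.D u z)) := fun {z} hz => by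
    have := mem_D (one_mem_coS hR) hz 1
    rwa [mul_one, one_smul] at this
  obtain ⟨x, hxK, hx⟩ := hR 1 u
  rw [one_smul] at hx
  obtain ⟨y, hyK, hy⟩ := mD huw
  obtain ⟨y', hyK', hy'⟩ := mD huw'
  have eD : ∀ {z : Fin k → F}, φ.f u z = 0 → S.E i (φ.et u u) * S.E i (φ.D u z) = 0 := fun {z} hz => by
    rw [← map_mul, SpF.D, mul_add, φ.et_mul, φ.et_mul, φ.f_self, hz, zero_smul, zero_smul, add_zero, map_zero]
  have De : ∀ {z : Fin k → F}, φ.f u z = 0 → S.E i (φ.D u z) * S.E i (φ.et u u) = 0 := fun {z} hz => by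
    rw [← map_mul, SpF.D, add_mul, φ.et_mul, φ.et_mul, φ.f_self, φ.f_zero_symm hz, zero_smul, zero_smul, add_zero, map_zero]
  have DD : ∀ {z : Fin k → F}, φ.f u z = 0 → S.E i (φ.D u z) * S.E i (φ.D u z) = 0 := fun {z} hz => by
    rw [← map_mul, φ.D_sq hz, map_zero]
  have inM : ∀ {a : Matrix (Fin k) (Fin k) F} {g : GL ι F}, a * a = 0 → g.1 = 1 + S.E i a → g ∈ S.Mon J := by
    intro a g ha hg
    obtain ⟨B, hB⟩ := exists_of_sq_zero ha
    have : g = EU (S.E i) B := Units.ext (by rw [hg, EU_val, hB, map_add, map_one])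
    rw [this]; exact EU_mem_mon i B
  have cZ : ∀ {a : Matrix (Fin k) (Fin k) F} {g : GL ι F}, a * φ.et u u = 0 → φ.et u u * a = 0 → g.1 = 1 + S.E i a → cj g (S.E i (φ.et u u) * b) = S.E i (φ.et u u) * b := by
    intro a g h1 h2 hg
    apply cj_eq_self
    rw [hg, add_mul, mul_add, one_mul, mul_one, E_mul_A', E_A_mul hb, h1, h2, map_zero, zero_mul]
  have D0 : ∀ {z : Fin k → F}, φ.f u z = 0 → φ.D u z * φ.et u u = 0 := fun {z} hz => by
    rw [SpF.D, add_mul, φ.et_mul, φ.et_mul, φ.f_self, φ.f_zero_symm hz, zero_smul, zero_smul, add_zero]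
  have D1 : ∀ {z : Fin k → F}, φ.f u z = 0 → φ.et u u * φ.D u z = 0 := fun {z} hz => by
    rw [SpF.D, mul_add, φ.et_mul, φ.et_mul, φ.f_self, hz, zero_smul, zero_smul, add_zero]
  have hyi := Mem1.inv_eq hy (DD huw)
  have hyi' := Mem1.inv_eq hy' (DD huw')
  have hu1 : (1 : F) ≠ 0 := one_ne_zero
  apply FK_eq_pr3 h3 hτ hG.on hxK hyK hyK' (inM (φ.et_sq u) hx) (inM (φ.D_sq huw) hy) (inM (φ.D_sq huw') hy') hx (E_sq (φ.et_sq u))
    (cube_one h3 (E_sq (φ.et_sq u)) hx) (cube_one h3 (DD huw) hy) (cube_one h3 (DD huw') hy')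
  · apply Units.ext
    rw [Units.val_mul, Units.val_mul, hx, hy]; simp only [mul_add, add_mul, mul_one, one_mul, eD huw, De huw]; abel
  · apply Units.ext
    rw [Units.val_mul, Units.val_mul, hx, hy']; simp only [mul_add, add_mul, mul_one, one_mul, eD huw', De huw']; abel
  · apply Units.ext
    rw [Units.val_mul, Units.val_mul, Units.val_mul, hx, hy, hy']
    have hcom : S.E i (φ.D u w) * S.E i (φ.D u w') = S.E i (φ.et u u) + S.E i (φ.D u w') * S.E i (φ.D u w) := by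
      rw [← map_mul, ← map_mul, ← map_add]
      congr 1
      have e1 : φ.D u w * φ.D u w' = -φ.et u u := by
        rw [SpF.D, SpF.D, add_mul, mul_add, mul_add, φ.et_mul, φ.et_mul, φ.et_mul, φ.et_mul, φ.f_self, φ.f_zero_symm huw, huw', hww']
        simp
      have e2 : φ.D u w' * φ.D u w = φ.et u u := by
        rw [SpF.D, SpF.D, add_mul, mul_add, mul_add, φ.et_mul, φ.et_mul, φ.et_mul, φ.et_mul, φ.f_self, φ.f_zero_symm huw', huw, φ.f_neg w w', hww']
        simp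
      rw [e1, e2]
      have : φ.et u u + φ.et u u + φ.et u u = 0 := by
        rw [show φ.et u u + φ.et u u + φ.et u u = (3 : F) • φ.et u u by module, h3, zero_smul]
      rw [neg_eq_iff_add_eq_zero, ← add_assoc]; exact this
    obtain ⟨A, hA⟩ : ∃ A, A = S.E i (φ.et u u) := ⟨_, rfl⟩
    obtain ⟨P, hP⟩ : ∃ P, P = S.E i (φ.D u w) := ⟨_, rfl⟩
    obtain ⟨Q, hQ⟩ : ∃ Q, Q = S.E i (φ.D u w') := ⟨_, rfl⟩
    have q1 : A * P = 0 := by rw [hA, hP]; exact eD huw
    have q2 : A * Q = 0 := by rw [hA, hQ]; exact eD huw'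
    rw [← hA, ← hP, ← hQ] at hcom ⊢
    rw [add_mul, one_mul, mul_add, mul_one, hcom]
    have : A * ((1 + Q) * (1 + P)) = A := by
      rw [← mul_assoc, mul_add A, mul_one, q2, add_zero, mul_add, mul_one, q1, add_zero]
    rw [add_mul 1 A, one_mul, this]
    noncomm_ring
  · rw [hy, mul_add, mul_one, eD huw, add_zero]
  · rw [hyi, sub_mul, one_mul, De huw, sub_zero]
  · rw [hy', mul_add, mul_one, eD huw', add_zero]
  · rw [hyi', sub_mul, one_mul, De huw', sub_zero]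
  · intro g hg hgx
    exact hfree_ofS (Θ := Θ) (by omega) hq hX IH hG hi hu hu1 (by rw [one_smul]; exact hx) hg hgx
  · exact (on_E hi _).mul hbJ
  · exact cZ (φ.et_sq u) (φ.et_sq u) hx
  · exact cZ (D0 huw) (D1 huw) hy
  · exact cZ (D0 huw') (D1 huw') hy'

end mon

end Sys

end Cfsg.Agent.Asch.CW
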