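import Mathlib
import Cfsg.Prelude.Def_GeometricClasses
import Cfsg.Agent.Asch.CSTr
set_option autoImplicit false
set_option linter.unusedSectionVars false
set_option linter.unusedVariables false
set_option linter.unusedSimpArgs false
set_option linter.style.haveILetI false

/-!
The standard system with a symplectic form.
-/

namespace Cfsg.Agent.Asch.CW

open Matrix Module

open scoped Matrix

section sigma

variable {k : ℕ} {F : Type*} [Field F] (φ : SpF k F)

lemma star_transpose (a : Matrix (Fin k) (Fin k) F) : (φ.star a)ᵀ = φ.A * a * φ.A' := by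
  rw [SpF.star, transpose_mul, transpose_mul, transpose_transpose, φ.A_transpose, φ.A'_transpose, neg_mul, mul_neg, mul_neg, neg_neg, mul_assoc]

lemma f_star (a : Matrix (Fin k) (Fin k) F) (u v : Fin k → F) : φ.f (φ.star a *ᵥ u) v = φ.f u (a *ᵥ v) := by
  rw [SpF.f, SpF.f, dotProduct_comm, dotProduct_mulVec, ← mulVec_transpose, star_transpose, mulVec_mulVec, mul_assoc, φ.A'A, mul_one, dotProduct_comm,
    mulVec_mulVec]

lemma et_mul_mat (a : Matrix (Fin k) (Fin k) F) (u v : Fin k → F) : φ.et u v * a = φ.et u (φ.star a *ᵥ v) := by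
  show vecMulVec u (φ.fr v) * a = vecMulVec u (φ.fr (φ.star a *ᵥ v))
  rw [vecMulVec_mul]
  congr 1
  rw [SpF.fr, SpF.fr, vecMul_vecMul, ← vecMul_transpose, star_transpose, vecMul_vecMul, mul_assoc, φ.A'A, mul_one]

lemma mat_mul_et (a : Matrix (Fin k) (Fin k) F) (u v : Fin k → F) : a * φ.et u v = φ.et (a *ᵥ u) v := by
  show a * vecMulVec u (φ.fr v) = vecMulVec (a *ᵥ u) (φ.fr v)
  rw [mul_vecMulVec]

lemma rank_lt_of_proper {p p' : Matrix (Fin k) (Fin k) F} (h1 : p * p' = p') {u : Fin k → F} (hu : p *ᵥ u = u) (hu0 : u ≠ 0) (hu' : p' *ᵥ u = 0)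
    (h2 : p' * p' = p') : p'.rank < p.rank := by
  apply Submodule.finrank_lt_finrank_of_lt
  refine ⟨?_, fun hle => ?_⟩
  · rintro _ ⟨w, rfl⟩
    refine ⟨p' *ᵥ w, ?_⟩
    rw [mulVecLin_apply, mulVecLin_apply, mulVec_mulVec, h1]
  · obtain ⟨w, hw⟩ := hle ⟨u, by rw [mulVecLin_apply, hu]⟩
    rw [mulVecLin_apply] at hw
    apply hu0
    rw [← hw, ← h2, ← mulVec_mulVec, hw, hu']

/-- the skew involution -/
theorem exists_sigma : ∃ σ : Matrix (Fin k) (Fin k) F, φ.star σ = -σ ∧ σ * σ = 1 := by
  have key : ∀ (n : ℕ) (p s : Matrix (Fin k) (Fin k) F), (1 - p).rank = n → φ.star p = p → p * p = p → s * s = p → φ.star s = -s → p * s = s → s * p = s →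
      ∃ σ : Matrix (Fin k) (Fin k) F, φ.star σ = -σ ∧ σ * σ = 1 := by
    intro n
    induction n using Nat.strong_induction_on with
    | _ n ih =>
      intro p s hn hp hpp hss hs hps hsp
      by_cases hp1 : p = 1
      · exact ⟨s, hs, by rw [hss, hp1]⟩
      obtain ⟨w, hw⟩ : ∃ w, (1 - p) *ᵥ w ≠ 0 := by
        by_contra hcon
        push Not at hcon
        apply hp1
        have : (1 - p) = 0 := by
          ext i j
          have := congrFun (hcon (Pi.single j 1)) i
          rwa [mulVec_single_one] at this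
        rw [sub_eq_zero] at this
        exact this.symm
      obtain ⟨u, hu⟩ : ∃ u, u = (1 - p) *ᵥ w := ⟨_, rfl⟩
      rw [← hu] at hw
      have hqq : (1 - p) * (1 - p) = 1 - p := by rw [mul_sub, mul_one, sub_mul, one_mul, hpp, sub_self, sub_zero]
      have hqu : (1 - p) *ᵥ u = u := by rw [hu, mulVec_mulVec, hqq]
      have hpu : p *ᵥ u = 0 := by
        have := hqu
        rw [sub_mulVec, one_mulVec, sub_eq_self] at this
        exact this
      obtain ⟨v₀, hv₀⟩ := φ.exists_hyp hw
      have hstq : φ.star (1 - p) = 1 - p := by rw [φ.star_sub, φ.star_one, hp]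
      obtain ⟨v, hv⟩ : ∃ v, v = (1 - p) *ᵥ v₀ := ⟨_, rfl⟩
      have huv : φ.f u v = 1 := by rw [hv, ← f_star, hstq, hqu, hv₀]
      have hqv : (1 - p) *ᵥ v = v := by rw [hv, mulVec_mulVec, hqq]
      have hpv : p *ᵥ v = 0 := by
        have := hqv
        rw [sub_mulVec, one_mulVec, sub_eq_self] at this
        exact this
      have hvu : φ.f v u = -1 := by rw [φ.f_neg u v, huv]
      obtain ⟨r, hr⟩ : ∃ r, r = φ.et v u - φ.et u v := ⟨_, rfl⟩
      obtain ⟨d, hd⟩ : ∃ d, d = φ.D u v := ⟨_, rfl⟩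
      have hrr : r * r = r := by
        rw [hr, sub_mul, mul_sub, mul_sub, φ.et_mul, φ.et_mul, φ.et_mul, φ.et_mul, huv, hvu, φ.f_self, φ.f_self]
        module
      have hdd : d * d = r := by
        rw [hd, SpF.D, add_mul, mul_add, mul_add, φ.et_mul, φ.et_mul, φ.et_mul, φ.et_mul, huv, hvu, φ.f_self, φ.f_self, hr]
        module
      have pe : ∀ x y, p *ᵥ x = 0 → p * φ.et x y = 0 := fun x y h => by rw [mat_mul_et, h, φ.et_zero_left]
      have ep : ∀ x y, p *ᵥ y = 0 → φ.et x y * p = 0 := fun x y h => by rw [et_mul_mat, hp, h, φ.et_zero_right]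
      have hpr : p * r = 0 := by rw [hr, mul_sub, pe _ _ hpu, pe _ _ hpv, sub_self]
      have hrp : r * p = 0 := by rw [hr, sub_mul, ep _ _ hpu, ep _ _ hpv, sub_self]
      have hpd : p * d = 0 := by rw [hd, SpF.D, mul_add, pe _ _ hpu, pe _ _ hpv, add_zero]
      have hdp : d * p = 0 := by rw [hd, SpF.D, add_mul, ep _ _ hpu, ep _ _ hpv, add_zero]
      have hsd : s * d = 0 := by rw [← hsp, mul_assoc, hpd, mul_zero]
      have hds : d * s = 0 := by rw [← hps, ← mul_assoc, hdp, zero_mul]
      have hsr : s * r = 0 := by rw [← hsp, mul_assoc, hpr, mul_zero]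
      have hrs : r * s = 0 := by rw [← hps, ← mul_assoc, hrp, zero_mul]
      have hrd : r * d = d := by
        rw [hd, hr, SpF.D, sub_mul, mul_add, mul_add, φ.et_mul, φ.et_mul, φ.et_mul, φ.et_mul, huv, hvu, φ.f_self, φ.f_self]; module
      have hdr : d * r = d := by
        rw [hd, hr, SpF.D, add_mul, mul_sub, mul_sub, φ.et_mul, φ.et_mul, φ.et_mul, φ.et_mul, huv, hvu, φ.f_self, φ.f_self]; module
      have hstr : φ.star r = r := by rw [hr, φ.star_sub, φ.star_et, φ.star_et]; abel
      have hstd : φ.star d = -d := by rw [hd, star_D]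
      refine ih _ ?_ (p + r) (s + d) rfl ?_ ?_ ?_ ?_ ?_ ?_
      · rw [← hn]
        refine rank_lt_of_proper (u := u) ?_ hqu hw ?_ ?_
        · have : (1 - p) * (1 - (p + r)) = 1 - p - p - r + p * p + p * r := by noncomm_ring
          rw [this, hpp, hpr]; abel
        · have hru : r *ᵥ u = u := by
            rw [hr, sub_mulVec, et_mulVec, et_mulVec, φ.f_self, hvu]; module
          rw [sub_mulVec, add_mulVec, hpu, hru, one_mulVec, zero_add, sub_self]
        · have : (1 - (p + r)) * (1 - (p + r)) = 1 - p - p - r - r + p * p + p * r + r * p + r * r := by noncomm_ring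
          rw [this, hpp, hpr, hrp, hrr]; abel
      · rw [φ.star_add, hp, hstr]
      · rw [add_mul, mul_add, mul_add, hpp, hpr, hrp, hrr, add_zero, zero_add]
      · rw [add_mul, mul_add, mul_add, hss, hsd, hds, hdd, add_zero, zero_add]
      · rw [φ.star_add, hs, hstd]; abel
      · rw [add_mul, mul_add, mul_add, hps, hpd, hrs, hrd, add_zero, zero_add]
      · rw [add_mul, mul_add, mul_add, hsp, hsr, hdp, hdr, add_zero, zero_add]
  exact key _ 0 0 rfl φ.star_zero (mul_zero 0) (mul_zero 0) (by rw [φ.star_zero, neg_zero]) (mul_zero 0) (mul_zero 0)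

end sigma

section std

variable {k t : ℕ} {F : Type*} [Field F] (φ : SpF k F)

lemma piMat_tr (g : Fin t → Matrix (Fin k) (Fin k) F) : (piMat g)ᵀ = piMat (fun i => (g i)ᵀ) := rfl

lemma piMat_const_mul (a b : Matrix (Fin k) (Fin k) F) : piMat (fun _ : Fin t => a) * piMat (fun _ => b) = piMat (fun _ => a * b) := by
  rw [← piMat_mul]; rfl

lemma piMat_const_one : piMat (fun _ : Fin t => (1 : Matrix (Fin k) (Fin k) F)) = 1 := piMat_one

lemma piMat_neg_one : piMat (fun _ : Fin t => (-1 : Matrix (Fin k) (Fin k) F)) = (-1 : F) ^ t • (1 : Matrix (Fin t → Fin k) (Fin t → Fin k) F) := by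
  rw [← piMat_one]
  ext x y
  rw [Matrix.smul_apply, piMat_apply, piMat_apply]
  simp only [Pi.one_apply, Matrix.neg_apply]
  rw [Finset.prod_neg, Finset.card_univ, Fintype.card_fin, smul_eq_mul]

/-- the adjoint of the standard system -/
def stStd (t : ℕ) (φ : SpF k F) : SSt (std k t F) φ where
  st :=
    { toFun := fun X => piMat (fun _ => φ.A') * Xᵀ * piMat (fun _ => φ.A)
      map_add' := fun X Y => by rw [transpose_add, mul_add, add_mul]
      map_smul' := fun c X => by rw [transpose_smul, mul_smul_comm, smul_mul_assoc]; rfl }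
  st_mul X Y := by
    show piMat (fun _ => φ.A') * (X * Y)ᵀ * piMat (fun _ => φ.A) = piMat (fun _ => φ.A') * Yᵀ * piMat (fun _ => φ.A) * (piMat (fun _ => φ.A') * Xᵀ * piMat (fun _ => φ.A))
    have h : piMat (fun _ : Fin t => φ.A) * piMat (fun _ => φ.A') = 1 := by rw [piMat_const_mul, φ.AA', piMat_const_one]
    rw [transpose_mul]
    calc piMat (fun _ => φ.A') * (Yᵀ * Xᵀ) * piMat (fun _ => φ.A) = piMat (fun _ => φ.A') * Yᵀ * 1 * Xᵀ * piMat (fun _ => φ.A) := by rw [mul_one]; simp only [mul_assoc]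
      _ = _ := by rw [← h]; simp only [mul_assoc]
  st_st X := by
    show piMat (fun _ => φ.A') * (piMat (fun _ => φ.A') * Xᵀ * piMat (fun _ => φ.A))ᵀ * piMat (fun _ => φ.A) = X
    rw [transpose_mul, transpose_mul, transpose_transpose, piMat_tr, piMat_tr, φ.A_transpose, φ.A'_transpose]
    have h1 : piMat (fun _ : Fin t => φ.A') * piMat (fun _ => -φ.A) = (-1 : F) ^ t • 1 := by rw [piMat_const_mul, mul_neg, φ.A'A, piMat_neg_one]
    have h2 : piMat (fun _ : Fin t => -φ.A') * piMat (fun _ => φ.A) = (-1 : F) ^ t • 1 := by rw [piMat_const_mul, neg_mul, φ.A'A, piMat_neg_one]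
    calc piMat (fun _ => φ.A') * (piMat (fun _ => -φ.A) * (X * piMat (fun _ => -φ.A'))) * piMat (fun _ => φ.A) =
        (piMat (fun _ => φ.A') * piMat (fun _ => -φ.A)) * X * (piMat (fun _ => -φ.A') * piMat (fun _ => φ.A)) := by simp only [mul_assoc]
      _ = X := by rw [h1, h2, smul_mul_assoc, one_mul, mul_smul_comm, mul_one, smul_smul, ← mul_pow, neg_one_mul, neg_neg, one_pow, one_smul]
  st_E i a := by
    show piMat (fun _ => φ.A') * (fac i a)ᵀ * piMat (fun _ => φ.A) = fac i (φ.star a)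
    rw [fac_apply, fac_apply, piMat_tr, ← piMat_mul, ← piMat_mul]
    congr 1
    funext j
    rw [Pi.mul_apply, Pi.mul_apply]
    by_cases hj : j = i
    · subst hj; rw [Pi.mulSingle_eq_same, Pi.mulSingle_eq_same]; rfl
    · rw [Pi.mulSingle_eq_of_ne hj, Pi.mulSingle_eq_of_ne hj, transpose_one, mul_one, φ.A'A]

lemma stStd_apply (X : Matrix (Fin t → Fin k) (Fin t → Fin k) F) : (stStd t φ).st X = piMat (fun _ => φ.A') * Xᵀ * piMat (fun _ => φ.A) := rfl

lemma stStd_piMat (g : Fin t → Matrix (Fin k) (Fin k) F) : (stStd t φ).st (piMat g) = piMat (fun i => φ.star (g i)) := by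
  rw [stStd_apply, piMat_tr, ← piMat_mul, ← piMat_mul]; rfl

/-- the trace of a pure tensor -/
lemma trace_piMat (g : Fin t → Matrix (Fin k) (Fin k) F) : (piMat g).trace = ∏ i, (g i).trace := by
  rw [Matrix.trace]
  simp only [diag_apply, piMat_apply, Matrix.trace]
  rw [Finset.prod_univ_sum, Fintype.piFinset_univ]

lemma exists_b0 (hk : 0 < k) (h2 : (2 : F) ≠ 0) (J : Finset (Fin t)) {i : Fin t} (hi : i ∈ J) :
    ∃ b₀, Cmt ((std k t F).E i) b₀ ∧ (std k t F).On J b₀ ∧ (stStd t φ).st b₀ = b₀ ∧ ∃ z, tauJ F hk J ((std k t F).E i (single z z 1) * b₀) ≠ 0 := by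
  classical
  obtain ⟨u, hu⟩ : ∃ u : Fin k → F, u ≠ 0 := ⟨Pi.single ⟨0, hk⟩ 1, by
    intro h0; have := congrFun h0 ⟨0, hk⟩; rw [Pi.single_eq_same] at this; exact one_ne_zero this⟩
  obtain ⟨v, huv⟩ := φ.exists_hyp hu
  obtain ⟨r, hr⟩ : ∃ r, r = φ.et v u - φ.et u v := ⟨_, rfl⟩
  have hrt : r.trace = 2 := by
    have h1 : ∀ x y, (φ.et x y).trace = φ.f y x := fun x y => by
      show (vecMulVec x (φ.fr y)).trace = _
      rw [trace_vecMulVec, dotProduct_comm, φ.fr_dot]
    rw [hr, trace_sub, h1, h1, φ.f_neg u v, huv]; norm_num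
  have hstr : φ.star r = r := by rw [hr, φ.star_sub, φ.star_et, φ.star_et]; abel
  refine ⟨piMat (fun j => if j ∈ J.erase i then r else 1), ?_, ?_, ?_, ⟨0, hk⟩, ?_⟩
  · exact piMat_comm_fac (by rw [if_neg (Finset.notMem_erase _ _)])
  · intro l hl
    exact piMat_comm_fac (by rw [if_neg fun h => hl (Finset.mem_of_mem_erase h)])
  · rw [stStd_piMat]
    congr 1
    funext j
    split_ifs
    · exact hstr
    · exact φ.star_one
  · show tauJ F hk J (fac i (single ⟨0, hk⟩ ⟨0, hk⟩ 1) * _) ≠ 0
    rw [tauJ_apply, PJ, fac_apply, ← piMat_mul, ← piMat_mul, trace_piMat]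
    apply Finset.prod_ne_zero_iff.2
    intro j _
    rw [Pi.mul_apply, Pi.mul_apply]
    by_cases hji : j = i
    · subst hji
      rw [if_pos hi, Pi.mulSingle_eq_same, if_neg (Finset.notMem_erase _ _), mul_one, one_mul, trace_single_eq_same]
      exact one_ne_zero
    · rw [Pi.mulSingle_eq_of_ne hji, one_mul]
      by_cases hj : j ∈ J
      · rw [if_pos hj, if_pos (Finset.mem_erase.2 ⟨hji, hj⟩), one_mul, hrt]; exact h2
      · rw [if_neg hj, if_neg fun h => hj (Finset.mem_of_mem_erase h), mul_one, trace_single_eq_same]; exact one_ne_zero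

/-- **The claim for the standard system**, symplectic case -/
theorem claimS_std [Fintype F] (hk : 2 ≤ k) (hq : Odd (Fintype.card F)) (hex : ¬ (Fintype.card F = 3 ∧ k = 2)) (J : Finset (Fin t)) :
    Sys.ClaimS (stStd t φ) J := by
  haveI : Nonempty (Fin k) := ⟨⟨0, by omega⟩⟩
  have h2 : (2 : F) ≠ 0 := by
    intro h0
    have h1 : ringChar F = 2 := by
      have := ringChar.dvd (R := F) (x := 2) (by exact_mod_cast h0)
      rcases (Nat.dvd_prime Nat.prime_two).1 this with h | h
      · exact absurd h (CharP.ringChar_ne_one)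
      · exact h
    have h3 := (FiniteField.even_card_iff_char_two (F := F)).1 h1
    rw [← Nat.not_odd_iff] at h3
    exact h3 hq
  have hk4 : k ≠ 2 → 4 ≤ k := by
    intro hk2
    obtain ⟨u, hu⟩ : ∃ u : Fin k → F, u ≠ 0 := ⟨Pi.single ⟨0, by omega⟩ 1, by
      intro h0; have := congrFun h0 ⟨0, by omega⟩; rw [Pi.single_eq_same] at this; exact one_ne_zero this⟩
    obtain ⟨v, huv⟩ := φ.exists_hyp hu
    obtain ⟨z, hz0, hzu, hzv⟩ := exists_row_zero (F := F) (by rw [Fintype.card_fin]; omega : 3 ≤ Fintype.card (Fin k)) (φ.fr u) (φ.fr v)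
    have huz : φ.f u z = 0 := by rw [← φ.fr_dot, dotProduct_comm]; exact hzu
    have hvz : φ.f v z = 0 := by rw [← φ.fr_dot, dotProduct_comm]; exact hzv
    exact Sys.four_le φ hu huz (Sys.not_mem_span_of_hyp huv hvz hz0)
  have hX : CtxS φ := by
    refine ⟨h2, exists_sigma φ, ?_⟩
    by_cases h3 : Fintype.card F = 3
    · exact Or.inr (hk4 fun h => hex ⟨h3, h⟩)
    · left
      have h5 : 4 ≤ Fintype.card F := by
        obtain ⟨n, hn⟩ := hq
        have := Fintype.one_lt_card (α := F)
        omega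
      classical
      obtain ⟨c, hc⟩ : ∃ c, c ∉ ({0, 1, -1} : Finset F) := by
        by_contra hcon
        push Not at hcon
        have h6 : Fintype.card F ≤ ({0, 1, -1} : Finset F).card := Finset.card_le_card (s := Finset.univ) fun c _ => hcon c
        have h7 : ({0, 1, -1} : Finset F).card ≤ 3 := Finset.card_le_three
        omega
      rw [Finset.mem_insert, Finset.mem_insert, Finset.mem_singleton] at hc
      push Not at hc
      refine ⟨c, hc.1, fun h => ?_⟩
      have : (c - 1) * (c + 1) = 0 := by linear_combination h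
      rcases mul_eq_zero.1 this with h | h
      · exact hc.2.1 (by linear_combination h)
      · exact hc.2.2 (by linear_combination h)
  induction hn : J.card using Nat.strong_induction_on generalizing J with
  | _ n ih =>
    have IH : ∀ i ∈ J, Sys.ClaimS (stStd t φ) (J.erase i) := by
      intro i hi
      apply ih _ _ _ rfl
      rw [← hn]; exact Finset.card_erase_lt_of_mem hi
    refine Sys.claim_of_monS hk hq hX J IH fun K' hG hJ => ?_
    have hτ := tauJ_tracial (F := F) (by omega : 0 < k) J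
    refine Sys.mon_of_fixS (Θ := stStd t φ) hk hq hX IH hG hJ hτ ?_ fun i hi => exists_b0 φ (by omega) h2 J hi
    by_cases h3 : Fintype.card F = 3
    · have h30 : (3 : F) = 0 := by
        have := FiniteField.cast_card_eq_zero F
        rw [h3] at this
        exact_mod_cast this
      exact Sys.hfix_of_three (hk4 fun h => hex ⟨h3, h⟩) hq h30 hX IH hG hτ
    · have h5 : 4 ≤ Fintype.card F := by
        obtain ⟨n, hn⟩ := hq
        have := Fintype.one_lt_card (α := F)
        omega
      exact Sys.hfix_of_four hk hq h5 hX IH hG hτ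

end std

end Cfsg.Agent.Asch.CW
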