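import Mathlib
import Cfsg.Prelude.Def_GeometricClasses
import Cfsg.Agent.Asch.CSStd
set_option autoImplicit false
set_option linter.unusedSectionVars false
set_option linter.unusedVariables false
set_option linter.unusedSimpArgs false
set_option linter.style.haveILetI false

/-!
Nonscalar coefficients generate everything: symplectic case, odd power.
-/

namespace Cfsg.Agent.Asch.CW

open Matrix Module

open scoped Matrix

section prod

variable {k t : ℕ} {F : Type*} [Field F] (φ : SpF k F)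

/-- partial pure tensors -/
def pD (D : Finset (Fin t)) (x : Fin t → Fin k → F) : Matrix (Fin t → Fin k) (Fin t → Fin k) F :=
  piMat (fun j => if j ∈ D then φ.et (x j) (x j) else 1)

lemma pD_empty (x : Fin t → Fin k → F) : pD φ ∅ x = 1 := by
  rw [pD, ← piMat_one]; congr 1

lemma fac_mul_piMat (j : Fin t) (a : Matrix (Fin k) (Fin k) F) (g : Fin t → Matrix (Fin k) (Fin k) F) :
    fac j a * piMat g = piMat (Function.update g j (a * g j)) := by
  rw [fac_apply, ← piMat_mul]; congr 1; funext l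
  rw [Pi.mul_apply]
  by_cases h : l = j
  · subst h; rw [Pi.mulSingle_eq_same, Function.update_self]
  · rw [Pi.mulSingle_eq_of_ne h, one_mul, Function.update_of_ne h]

lemma pD_insert {D : Finset (Fin t)} {j : Fin t} (hj : j ∉ D) (x : Fin t → Fin k → F) :
    pD φ (insert j D) x = (std k t F).E j (φ.et (x j) (x j)) * pD φ D x := by
  show _ = fac j _ * _
  rw [pD, pD, fac_mul_piMat]; congr 1; funext l
  by_cases h : l = j
  · subst h; rw [Function.update_self, if_pos (Finset.mem_insert_self _ _), if_neg hj, mul_one]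
  · rw [Function.update_of_ne h]; simp only [Finset.mem_insert, h, false_or]

lemma pD_cmt {D : Finset (Fin t)} {i : Fin t} (hi : i ∉ D) (x : Fin t → Fin k → F) : Cmt ((std k t F).E i) (pD φ D x) := piMat_comm_fac (by rw [if_neg hi])

lemma pD_sq {D : Finset (Fin t)} (hD : D.Nonempty) (x : Fin t → Fin k → F) : pD φ D x * pD φ D x = 0 := by
  obtain ⟨j, hj⟩ := hD
  rw [← Finset.insert_erase hj, pD_insert φ (Finset.notMem_erase _ _)]
  exact E_A_sq (pD_cmt φ (Finset.notMem_erase _ _) x) (φ.et_sq _)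

variable {φ} {K : Subgroup (GL (Fin t → Fin k) F)}

lemma pD_mem_of_triple (h2 : (2 : F) ≠ 0) (hk : 0 < k) (hR : ∀ i, RootsS φ ((std k t F).E i) K) {i : Fin t}
    (hP : ∀ j l, j ≠ i → l ≠ i → j ≠ l → ∀ v x, (std k t F).E j (φ.et v v) * (std k t F).E l (φ.et x x) ∈ coS φ ((std k t F).E i) K) :
    ∀ (n : ℕ) (D : Finset (Fin t)), D.card = 2 * (n + 1) → i ∉ D → ∀ x, pD φ D x ∈ coS φ ((std k t F).E i) K := by
  intro n
  induction n with
  | zero =>
    intro D hD hi x
    obtain ⟨j, l, hjl, rfl⟩ := Finset.card_eq_two.1 hD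
    rw [Finset.mem_insert, Finset.mem_singleton, not_or] at hi
    have h1 : ({j, l} : Finset (Fin t)) = insert j (insert l ∅) := rfl
    rw [h1, pD_insert φ (by simpa using hjl), pD_insert φ (Finset.notMem_empty l), pD_empty, mul_one]
    exact hP j l (Ne.symm hi.1) (Ne.symm hi.2) hjl _ _
  | succ n ih =>
    intro D hD hi x
    obtain ⟨j, hj⟩ : D.Nonempty := Finset.card_pos.1 (by omega)
    have h1 : (D.erase j).card = 2 * (n + 1) + 1 := by rw [Finset.card_erase_of_mem hj]; omega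
    obtain ⟨l, hl⟩ : (D.erase j).Nonempty := Finset.card_pos.1 (by omega)
    have h3 : ((D.erase j).erase l).card = 2 * (n + 1) := by rw [Finset.card_erase_of_mem hl]; omega
    have hij : j ≠ i := fun h => hi (h ▸ hj)
    have hlD : l ∈ D := Finset.mem_of_mem_erase hl
    have hil : l ≠ i := fun h => hi (h ▸ hlD)
    have hlj : l ≠ j := Finset.ne_of_mem_erase hl
    obtain ⟨D', hD'⟩ : ∃ D', D' = (D.erase j).erase l := ⟨_, rfl⟩
    rw [← hD'] at h3
    have hlD' : l ∉ D' := by rw [hD']; exact Finset.notMem_erase _ _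
    have hjD' : j ∉ D' := by rw [hD']; exact fun h => Finset.notMem_erase j D (Finset.mem_of_mem_erase h)
    have hiD' : i ∉ D' := by rw [hD']; exact fun h => hi (Finset.mem_of_mem_erase (Finset.mem_of_mem_erase h))
    have hDe : D = insert j (insert l D') := by rw [hD', Finset.insert_erase hl, Finset.insert_erase hj]
    have hne : D'.Nonempty := Finset.card_pos.1 (by omega)
    rw [hDe, pD_insert φ (by rw [Finset.mem_insert, not_or]; exact ⟨Ne.symm hlj, hjD'⟩), pD_insert φ hlD', ← mul_assoc]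
    apply coS_mul h2 hk (hR i) (hP j l hij hil (Ne.symm hlj) _ _) (ih D' h3 hiD' x)
    · rw [mul_assoc, pD_cmt φ hlD', ← mul_assoc, pD_cmt φ hjD', mul_assoc]
    · exact E_A_sq (Sys.cmt_E (Ne.symm hlj) _) (φ.et_sq _)
    · exact pD_sq φ hne x

/-- moving the base -/
lemma coS_conj_idx {T ι : Type} [Fintype ι] [DecidableEq ι] {S : Sys k T ι F} {K : Subgroup (GL ι F)} {i i' : T} {A : Matrix ι ι F} (hA : A ∈ coS φ (S.E i) K)
    {g : GL ι F} (hg : g ∈ K) (hi : ∀ a, g.1 * S.E i a * (g⁻¹).1 = S.E i' a) : g.1 * A * (g⁻¹).1 ∈ coS φ (S.E i') K := by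
  have cj2 : ∀ X Y : Matrix ι ι F, g.1 * (X * Y) * (g⁻¹).1 = g.1 * X * (g⁻¹).1 * (g.1 * Y * (g⁻¹).1) := fun X Y => by
    calc g.1 * (X * Y) * (g⁻¹).1 = g.1 * X * ((g⁻¹).1 * g.1) * Y * (g⁻¹).1 := by rw [inv_mul_val, mul_one]; simp only [mul_assoc]
      _ = _ := by simp only [mul_assoc]
  refine ⟨fun a => ?_, fun c u => ?_⟩
  · rw [← hi, ← cj2, hA.1, cj2]
  · have := (hA.2 c u).conj' hg
    rwa [cj2, hi] at this

/-- triples of factors -/
def T3 (φ : SpF k F) (K : Subgroup (GL (Fin t → Fin k) F)) (b i c : Fin t) : Prop :=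
  ∀ w y, (std k t F).E i (φ.et w w) * (std k t F).E c (φ.et y y) ∈ coS φ ((std k t F).E b) K

lemma T3.swap {b i c : Fin t} (h : T3 φ K b i c) {p q : Fin t} (hpq : p ≠ q) (hf : (std k t F).flip hpq ∈ K) :
    T3 φ K (Equiv.swap p q b) (Equiv.swap p q i) (Equiv.swap p q c) := by
  intro w y
  have h1 := coS_conj_idx (S := std k t F) (h w y) hf (i' := Equiv.swap p q b) (Sys.flip_conj hpq b)
  have cj2 : ∀ X Y : Matrix (Fin t → Fin k) (Fin t → Fin k) F, ((std k t F).flip hpq).1 * (X * Y) * (((std k t F).flip hpq)⁻¹).1 =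
      ((std k t F).flip hpq).1 * X * (((std k t F).flip hpq)⁻¹).1 * (((std k t F).flip hpq).1 * Y * (((std k t F).flip hpq)⁻¹).1) := fun X Y => by
    calc ((std k t F).flip hpq).1 * (X * Y) * (((std k t F).flip hpq)⁻¹).1 =
        ((std k t F).flip hpq).1 * X * ((((std k t F).flip hpq)⁻¹).1 * ((std k t F).flip hpq).1) * Y * (((std k t F).flip hpq)⁻¹).1 := by
          rw [inv_mul_val, mul_one]; simp only [mul_assoc]
      _ = _ := by simp only [mul_assoc]
  rwa [cj2, Sys.flip_conj, Sys.flip_conj] at h1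

lemma T3.all (hflip : ∀ (i j : Fin t) (hij : i ≠ j), (std k t F).flip hij ∈ K) {b i c : Fin t} (hbi : b ≠ i) (hbc : b ≠ c) (hic : i ≠ c) (h : T3 φ K b i c)
    {b' i' c' : Fin t} (hbi' : b' ≠ i') (hbc' : b' ≠ c') (hic' : i' ≠ c') : T3 φ K b' i' c' := by
  have s1 : ∃ i₁ c₁, b' ≠ i₁ ∧ b' ≠ c₁ ∧ i₁ ≠ c₁ ∧ T3 φ K b' i₁ c₁ := by
    by_cases hb : b = b'
    · subst hb; exact ⟨i, c, hbi, hbc, hic, h⟩
    · have h1 := h.swap hb (hflip _ _ hb)
      rw [Equiv.swap_apply_left] at h1
      refine ⟨_, _, ?_, ?_, ?_, h1⟩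
      · exact fun e => hbi ((Equiv.swap b b').injective (by rw [Equiv.swap_apply_left]; exact e))
      · exact fun e => hbc ((Equiv.swap b b').injective (by rw [Equiv.swap_apply_left]; exact e))
      · exact fun e => hic ((Equiv.swap b b').injective e)
  obtain ⟨i₁, c₁, k1, k2, k3, h1⟩ := s1
  have s2 : ∃ c₂, b' ≠ c₂ ∧ i' ≠ c₂ ∧ T3 φ K b' i' c₂ := by
    by_cases hi : i₁ = i'
    · subst hi; exact ⟨c₁, k2, k3, h1⟩
    · have h2 := h1.swap hi (hflip _ _ hi)
      rw [Equiv.swap_apply_left, Equiv.swap_apply_of_ne_of_ne k1 hbi'] at h2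
      refine ⟨_, ?_, ?_, h2⟩
      · exact fun e => k2 ((Equiv.swap i₁ i').injective (by rw [Equiv.swap_apply_of_ne_of_ne k1 hbi']; exact e))
      · intro e
        apply k3
        apply (Equiv.swap i₁ i').injective
        rw [Equiv.swap_apply_left]; exact e
  obtain ⟨c₂, l1, l2, h2⟩ := s2
  by_cases hc : c₂ = c'
  · subst hc; exact h2
  · have h3 := h2.swap hc (hflip _ _ hc)
    rwa [Equiv.swap_apply_left, Equiv.swap_apply_of_ne_of_ne l1 hbc', Equiv.swap_apply_of_ne_of_ne l2 hic'] at h3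

/-- the case `k ≥ 4` -/
theorem triple_four (h2 : (2 : F) ≠ 0) (hk : 4 ≤ k) {σ : Matrix (Fin k) (Fin k) F} (hσ : φ.star σ = -σ) (hσ2 : σ * σ = 1)
    (hR : ∀ i, RootsS φ ((std k t F).E i) K) (hflip : ∀ (i j : Fin t) (hij : i ≠ j), (std k t F).flip hij ∈ K)
    {i : Fin t} {A : Matrix (Fin t → Fin k) (Fin t → Fin k) F} (hA : A ∈ coS φ ((std k t F).E i) K)
    (hns : ¬ ∃ c : F, A = c • (1 : Matrix (Fin t → Fin k) (Fin t → Fin k) F)) {b i' c : Fin t} (hbi : b ≠ i') (hbc : b ≠ c) (hic : i' ≠ c) : T3 φ K b i' c := by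
  haveI : Nonempty (Fin k) := ⟨⟨0, by omega⟩⟩
  obtain ⟨i₀, j₀, h0⟩ := Sys.exists_rel h2 hk hσ hσ2 hR hA hns
  have step1 : ∀ {i j j' : Fin t}, (std k t F).RelW φ K i j → j' ≠ i → (std k t F).RelW φ K i j' := by
    intro i j j' h hj'
    by_cases hj : j = j'
    · subst hj; exact h
    · refine Sys.relW_conj h (hflip _ _ hj) (i' := i) (j' := j') (fun a => ?_) (fun a => ?_) (Ne.symm hj')
      · rw [Sys.flip_conj, Equiv.swap_apply_of_ne_of_ne h.1 (Ne.symm hj')]
      · rw [Sys.flip_conj, Equiv.swap_apply_left]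
  have step2 : ∀ {i j i' : Fin t}, (std k t F).RelW φ K i j → i' ≠ j → (std k t F).RelW φ K i' j := by
    intro i j i' h hi'
    by_cases hi : i = i'
    · subst hi; exact h
    · refine Sys.relW_conj h (hflip _ _ hi) (i' := i') (j' := j) (fun a => ?_) (fun a => ?_) hi'
      · rw [Sys.flip_conj, Equiv.swap_apply_left]
      · rw [Sys.flip_conj, Equiv.swap_apply_of_ne_of_ne (Ne.symm h.1) (Ne.symm hi')]
  have all : ∀ i j : Fin t, i ≠ j → (std k t F).RelW φ K i j := by
    intro i j hij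
    by_cases hj : j = i₀
    · subst hj
      exact step2 (Sys.rel_symm' h2 hk hR h0) hij
    · exact step2 (step1 h0 hj) hij
  intro w y
  exact Sys.triple_of_rel h2 hk hR hbi (all b c hbc) (all i' c hic) y w

/-- pure tensors in invariant modules, two-dimensional factors -/
theorem exists_prod (hk : k < 4) (hk0 : 0 < k) : ∀ (n : ℕ) (J : Finset (Fin t)) (B : Submodule F (Matrix (Fin t → Fin k) (Fin t → Fin k) F)), J.card = n →
    (std k t F).InvA φ J B → ∀ b ∈ B, b ≠ 0 → ∃ D ⊆ J, (∀ x, pD φ D x ∈ B) ∧ ((¬ ∃ c : F, b = c • (1 : Matrix (Fin t → Fin k) (Fin t → Fin k) F)) → D.Nonempty) := by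
  intro n
  induction n using Nat.strong_induction_on with
  | _ n ih =>
    intro J B hn hB b hb hb0
    by_cases hc : ∀ j ∈ J, Cmt ((std k t F).E j) b
    · obtain ⟨c, hc'⟩ : ∃ c : F, b = c • (1 : Matrix (Fin t → Fin k) (Fin t → Fin k) F) := by
        apply Sys.on_empty (S := std k t F)
        intro j _
        by_cases hj : j ∈ J
        · exact hc j hj
        · exact hB.on b hb j hj
      refine ⟨∅, Finset.empty_subset _, fun x => ?_, fun h => absurd ⟨c, hc'⟩ h⟩
      rw [pD_empty]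
      have hc0 : c ≠ 0 := by rintro rfl; exact hb0 (by rw [hc', zero_smul])
      have := B.smul_mem c⁻¹ hb
      rwa [hc', smul_smul, inv_mul_cancel₀ hc0, one_smul] at this
    · push Not at hc
      obtain ⟨j, hj, hnc⟩ := hc
      rcases hB.extract hj hb hnc with ⟨w, hw, hne, hmem⟩ | ⟨-, u, v, hu, huv, hli, -, -⟩
      · obtain ⟨D, hD, hx, -⟩ := ih _ (by rw [← hn]; exact Finset.card_erase_lt_of_mem hj) (J.erase j) _ rfl (hB.mS_inv hj hk0) _ hmem hne
        have hjD : j ∉ D := fun h => Finset.notMem_erase j J (hD h)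
        refine ⟨insert j D, ?_, fun x => ?_, fun _ => Finset.insert_nonempty _ _⟩
        · exact Finset.insert_subset hj (hD.trans (Finset.erase_subset _ _))
        · rw [pD_insert φ hjD]
          exact (hx x).2 _
      · exact absurd (Sys.four_le φ hu huv hli) (by omega)

/-- replacing symmetric atoms by the skew involution -/
lemma sigma_mem (h2 : (2 : F) ≠ 0) {σ : Matrix (Fin k) (Fin k) F} (hσ : φ.star σ = -σ) {B : Submodule F (Matrix (Fin t → Fin k) (Fin t → Fin k) F)}
    {D : Finset (Fin t)} (hD : ∀ x, pD φ D x ∈ B) (D' : Finset (Fin t)) : D' ⊆ D → ∀ x : Fin t → Fin k → F,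
      piMat (fun j => if j ∈ D' then σ else if j ∈ D then φ.et (x j) (x j) else 1) ∈ B := by
  induction D' using Finset.induction_on with
  | empty =>
    intro _ x
    have := hD x
    rw [pD] at this
    exact this
  | insert j D' hj ih =>
    intro hsub x
    have hjD : j ∈ D := hsub (Finset.mem_insert_self _ _)
    have ih' := ih ((Finset.subset_insert _ _).trans hsub)
    obtain ⟨R, hR⟩ : ∃ R, R = piMat (fun l => if l = j then 1 else if l ∈ D' then σ else if l ∈ D then φ.et (x l) (x l) else 1) := ⟨_, rfl⟩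
    have hRm : R ∈ (std k t F).mS φ j B := by
      refine ⟨by rw [hR]; exact piMat_comm_fac (by rw [if_pos rfl]), fun w => ?_⟩
      have h1 := ih' (Function.update x j w)
      convert h1 using 1
      rw [hR]
      show fac j _ * _ = _
      rw [fac_mul_piMat]
      congr 1
      funext l
      by_cases hl : l = j
      · subst hl; rw [Function.update_self, if_pos rfl, mul_one, Function.update_self, if_neg hj, if_pos hjD]
      · rw [Function.update_of_ne hl, Function.update_of_ne hl, if_neg hl]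
    have h1 := Sys.mS_skew h2 hRm hσ
    convert h1 using 1
    rw [hR]
    show _ = fac j _ * _
    rw [fac_mul_piMat]
    congr 1
    funext l
    by_cases hl : l = j
    · subst hl; rw [Function.update_self, if_pos (Finset.mem_insert_self _ _), if_pos rfl, mul_one]
    · rw [Function.update_of_ne hl, if_neg hl]
      simp only [Finset.mem_insert, hl, false_or]

/-- from products of any length to triples -/
theorem triple_two (h2 : (2 : F) ≠ 0) (hk0 : 0 < k) {σ : Matrix (Fin k) (Fin k) F} (hσ : φ.star σ = -σ) (hσ2 : σ * σ = 1)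
    (hR : ∀ i, RootsS φ ((std k t F).E i) K) (hflip : ∀ (i j : Fin t) (hij : i ≠ j), (std k t F).flip hij ∈ K)
    {i : Fin t} {D : Finset (Fin t)} (hi : i ∉ D) (hD : ∀ x, pD φ D x ∈ coS φ ((std k t F).E i) K) {b c : Fin t} (hb : b ∈ D) (hc : c ∉ D) (hci : c ≠ i) :
    T3 φ K b i c := by
  haveI : Nonempty (Fin k) := ⟨⟨0, hk0⟩⟩
  have hbi : b ≠ i := fun h => hi (h ▸ hb)
  have hbc : b ≠ c := fun h => hc (h ▸ hb)
  obtain ⟨x, hx⟩ : ∃ x : Fin k → F, x ≠ 0 := ⟨Pi.single ⟨0, hk0⟩ 1, by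
    intro h0; have := congrFun h0 ⟨0, hk0⟩; rw [Pi.single_eq_same] at this; exact one_ne_zero this⟩
  intro w y
  obtain ⟨v, hxv⟩ := φ.exists_hyp hx
  obtain ⟨Sg, hSg⟩ : ∃ Sg : Matrix (Fin t → Fin k) (Fin t → Fin k) F, Sg = piMat (fun j => if j ∈ D.erase b then σ else 1) := ⟨_, rfl⟩
  have cS : ∀ l, l ∉ D.erase b → Cmt ((std k t F).E l) Sg := fun l hl => by rw [hSg]; exact piMat_comm_fac (by rw [if_neg hl])
  have cSi : Cmt ((std k t F).E i) Sg := cS i fun h => hi (Finset.mem_of_mem_erase h)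
  have cSb : Cmt ((std k t F).E b) Sg := cS b (Finset.notMem_erase _ _)
  have cSc : Cmt ((std k t F).E c) Sg := cS c fun h => hc (Finset.mem_of_mem_erase h)
  have hSS : Sg * Sg = 1 := by
    rw [hSg, ← piMat_mul, ← piMat_one]
    congr 1
    funext l
    rw [Pi.mul_apply]
    split_ifs
    · exact hσ2
    · exact mul_one 1
  have hX : ∀ z, Sg * (std k t F).E b (φ.et z z) ∈ coS φ ((std k t F).E i) K := by
    intro z
    have h1 := sigma_mem h2 hσ hD (D.erase b) (Finset.erase_subset _ _) (fun _ => z)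
    convert h1 using 1
    rw [← cSb, hSg]
    show fac b _ * _ = _
    rw [fac_mul_piMat]
    congr 1
    funext l
    by_cases hl : l = b
    · subst hl; rw [Function.update_self, if_neg (Finset.notMem_erase _ _), if_neg (Finset.notMem_erase _ _), if_pos hb, mul_one]
    · rw [Function.update_of_ne hl]
      by_cases h3 : l ∈ D
      · rw [if_pos (Finset.mem_erase.2 ⟨hl, h3⟩), if_pos (Finset.mem_erase.2 ⟨hl, h3⟩)]
      · rw [if_neg fun h => h3 (Finset.mem_of_mem_erase h), if_neg fun h => h3 (Finset.mem_of_mem_erase h), if_neg h3]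
  have hY : Sg * (std k t F).E c (φ.et y y) ∈ coS φ ((std k t F).E i) K := by
    have hg := hflip b c hbc
    have h1 := coS_conj (hX y) hg (Sys.flip_cmt (S := std k t F) hbc (Ne.symm hbi) (Ne.symm hci))
    have h3 : ((std k t F).flip hbc).1 * Sg = Sg * ((std k t F).flip hbc).1 := by
      rw [hSg]
      symm
      apply piMat_comm_of'
      intro l
      split_ifs with hl
      · exact Sys.flip_cmt (S := std k t F) hbc (Finset.ne_of_mem_erase hl) (fun h => hc (h ▸ Finset.mem_of_mem_erase hl)) σ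
      · rw [map_one, one_mul, mul_one]
    have h4 : ((std k t F).flip hbc).1 * (Sg * (std k t F).E b (φ.et y y)) * (((std k t F).flip hbc)⁻¹).1 = Sg * (std k t F).E c (φ.et y y) := by
      rw [← mul_assoc, h3, mul_assoc, mul_assoc, ← mul_assoc ((std k t F).flip hbc).1, Sys.flip_conj_left]
    rwa [h4] at h1
  -- the commutator
  obtain ⟨sb, hsb⟩ : ∃ sb, sb = (std k t F).E b (φ.et x x) := ⟨_, rfl⟩
  obtain ⟨sc, hsc⟩ : ∃ sc, sc = (std k t F).E c (φ.et y y) := ⟨_, rfl⟩
  have hsbb : sb * sb = 0 := by rw [hsb]; exact E_sq (φ.et_sq x)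
  have hscc : sc * sc = 0 := by rw [hsc]; exact E_sq (φ.et_sq y)
  have hsbc : sb * sc = sc * sb := by rw [hsb, hsc]; exact Sys.cmt_E hbc _ _
  have hSb : Sg * sb = sb * Sg := by rw [hsb]; exact (cSb _).symm
  have hSc : Sg * sc = sc * Sg := by rw [hsc]; exact (cSc _).symm
  have mX := (hX x).2 1 x
  have mY := hY.2 1 v
  rw [one_smul, ← hsb] at mX
  rw [one_smul, ← hsc] at mY
  have hcX : Cmt ((std k t F).E i) (Sg * sb) := by rw [hsb]; exact (hX x).1
  have hcY : Cmt ((std k t F).E i) (Sg * sc) := by rw [hsc]; exact hY.1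
  have a1 : Sg * sb * (Sg * sc) = sb * sc := by
    rw [hSb, mul_assoc, ← mul_assoc Sg, hSS, one_mul]
  have a2 : Sg * sc * (Sg * sb) = sb * sc := by
    rw [hSc, mul_assoc, ← mul_assoc Sg, hSS, one_mul, hsbc]
  have hcbc : Cmt ((std k t F).E i) (sb * sc) := by
    rw [hsb, hsc]; exact (Sys.cmt_E (Ne.symm hbi) _).mul (Sys.cmt_E (Ne.symm hci) _)
  have a3 : sb * sc * (Sg * sb) = 0 := by
    rw [hsbc, hSb, mul_assoc, ← mul_assoc sb, hsbb, zero_mul, mul_zero]
  have a4 : sb * sc * (Sg * sc) = 0 := by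
    rw [hSc, mul_assoc, ← mul_assoc sc, hscc, zero_mul, mul_zero]
  have XY : (std k t F).E i (φ.et x x) * (Sg * sb) * ((std k t F).E i (φ.et v v) * (Sg * sc)) = (std k t F).E i (φ.et x v) * (sb * sc) := by
    rw [E_mul_A hcX, a1, φ.et_mul, hxv, one_smul]
  have YX : (std k t F).E i (φ.et v v) * (Sg * sc) * ((std k t F).E i (φ.et x x) * (Sg * sb)) = -((std k t F).E i (φ.et v x) * (sb * sc)) := by
    rw [E_mul_A hcY, a2, φ.et_mul, φ.f_neg x v, hxv, neg_one_smul, map_neg, neg_mul]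
  have h5 := mX.comm2 mY (E_A_sq hcX (φ.et_sq x)) (E_A_sq hcY (φ.et_sq v)) (by rw [XY, E_mul_A hcbc, a3, mul_zero])
    (by rw [YX, neg_mul, E_mul_A hcbc, a4, mul_zero, neg_zero])
  rw [XY, YX, sub_neg_eq_add, ← add_mul, ← map_add] at h5
  -- base change
  have h6 : (std k t F).E i (φ.et x v + φ.et v x) * sc ∈ coS φ ((std k t F).E b) K := by
    have hcm : Cmt ((std k t F).E b) ((std k t F).E i (φ.et x v + φ.et v x) * sc) := by
      rw [hsc]; exact (Sys.cmt_E hbi _).mul (Sys.cmt_E hbc _)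
    apply coS_of h2 (hR b) hx hcm
    convert h5 using 1
    rw [hsb, ← mul_assoc, ← mul_assoc, (std k t F).comm b i hbi]
  have hInv := Sys.invU (S := std k t F) h2 hk0 hR b
  have hib : i ∈ Finset.univ.erase b := Finset.mem_erase.2 ⟨Ne.symm hbi, Finset.mem_univ _⟩
  have h7 := hInv.sq i hib (x + v) _ h6
  have hsci : Cmt ((std k t F).E i) sc := by rw [hsc]; exact Sys.cmt_E (Ne.symm hci) _
  have hx0 : φ.f (x + v) x = -1 := by rw [φ.f_add_left, φ.f_self, φ.f_neg x v, hxv, zero_add]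
  have hv0 : φ.f (x + v) v = 1 := by rw [φ.f_add_left, φ.f_self, hxv, add_zero]
  have hx1 : φ.f x (x + v) = 1 := by rw [φ.f_add_right, φ.f_self, hxv, zero_add]
  have hv1 : φ.f v (x + v) = -1 := by rw [φ.f_add_right, φ.f_self, φ.f_neg x v, hxv, add_zero]
  have h8 : (std k t F).E i (φ.et (x + v) (x + v)) * ((std k t F).E i (φ.et x v + φ.et v x) * sc) * (std k t F).E i (φ.et (x + v) (x + v)) =
      (std k t F).E i (φ.et (x + v) (x + v)) * ((2 : F) • sc) := by
    rw [E_mul_A', E_A_mul hsci]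
    have : φ.et (x + v) (x + v) * (φ.et x v + φ.et v x) * φ.et (x + v) (x + v) = (2 : F) • φ.et (x + v) (x + v) := by
      rw [mul_add, φ.et_mul, φ.et_mul, hx0, hv0, add_mul, smul_mul_assoc, smul_mul_assoc, φ.et_mul, φ.et_mul, hx1, hv1]
      module
    rw [this, map_smul, smul_mul_assoc, mul_smul_comm]
  rw [h8] at h7
  have hxv0 : x + v ≠ 0 := by
    intro h0; rw [h0, φ.f_zero_left] at hv0; exact zero_ne_one hv0
  have h9 := hInv.mem_mS hib hxv0 (hsci.smul 2) h7
  have h10 := (Submodule.smul_mem _ (2 : F)⁻¹ h9 : (2 : F)⁻¹ • (2 : F) • sc ∈ _)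
  rw [smul_smul, inv_mul_cancel₀ h2, one_smul] at h10
  rw [← hsc]
  exact h10.2 w

/-- **nonscalar coefficients give all pure transvections** -/
theorem pure_of_ns (h2 : (2 : F) ≠ 0) (hk : k = 2 ∨ 4 ≤ k) {σ : Matrix (Fin k) (Fin k) F} (hσ : φ.star σ = -σ) (hσ2 : σ * σ = 1) (ht : Odd t) (ht3 : 3 ≤ t)
    (hR : ∀ i, RootsS φ ((std k t F).E i) K) (hflip : ∀ (i j : Fin t) (hij : i ≠ j), (std k t F).flip hij ∈ K)
    {i : Fin t} {A : Matrix (Fin t → Fin k) (Fin t → Fin k) F} (hA : A ∈ coS φ ((std k t F).E i) K)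
    (hns : ¬ ∃ c : F, A = c • (1 : Matrix (Fin t → Fin k) (Fin t → Fin k) F)) (c : F) (x : Fin t → Fin k → F) :
    Mem1 K (c • piMat (fun j => φ.et (x j) (x j))) := by
  have hk0 : 0 < k := by omega
  haveI : Nonempty (Fin k) := ⟨⟨0, hk0⟩⟩
  have fin : ∀ i, (∀ x, pD φ (Finset.univ.erase i) x ∈ coS φ ((std k t F).E i) K) → Mem1 K (c • piMat (fun j => φ.et (x j) (x j))) := by
    intro i hi
    have h1 := (hi x).2 c (x i)
    convert h1 using 1
    rw [map_smul, smul_mul_assoc, ← pD_insert φ (Finset.notMem_erase _ _), Finset.insert_erase (Finset.mem_univ i), pD]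
    congr 2
    funext j
    rw [if_pos (Finset.mem_univ j)]
  have three : (∀ {b i' c : Fin t}, b ≠ i' → b ≠ c → i' ≠ c → T3 φ K b i' c) → Mem1 K (c • piMat (fun j => φ.et (x j) (x j))) := by
    intro hT
    apply fin i
    intro x
    obtain ⟨n, hn⟩ := ht
    refine pD_mem_of_triple h2 hk0 hR (i := i) (fun j l hj hl hjl v x => hT (Ne.symm hj) (Ne.symm hl) hjl v x) (n - 1) _ ?_ (Finset.notMem_erase _ _) x
    rw [Finset.card_erase_of_mem (Finset.mem_univ i), Finset.card_univ, Fintype.card_fin]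
    omega
  rcases hk with hk | hk
  · have hA0 : A ≠ 0 := fun h => hns ⟨0, by rw [h, zero_smul]⟩
    obtain ⟨D, hD, hx, hne⟩ := exists_prod (φ := φ) (by omega) hk0 _ _ _ rfl (Sys.invU (S := std k t F) h2 hk0 hR i) A hA hA0
    have hiD : i ∉ D := fun h => Finset.notMem_erase i _ (hD h)
    by_cases hDe : D = Finset.univ.erase i
    · exact fin i (by rw [← hDe]; exact hx)
    obtain ⟨d, hd⟩ := hne hns
    obtain ⟨e, he, heD⟩ : ∃ e ∈ Finset.univ.erase i, e ∉ D := by
      by_contra hcon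
      push Not at hcon
      exact hDe (Finset.Subset.antisymm hD hcon)
    have hei := Finset.ne_of_mem_erase he
    have hT := triple_two h2 hk0 hσ hσ2 hR hflip hiD hx hd heD hei
    have q1 : d ≠ i := fun h => hiD (h ▸ hd)
    have q2 : d ≠ e := fun h => heD (h ▸ hd)
    exact three fun h1 h3 h4 => T3.all hflip q1 q2 (Ne.symm hei) hT h1 h3 h4
  · exact three fun h1 h3 h4 => triple_four h2 hk hσ hσ2 hR hflip hA hns h1 h3 h4

end prod

end Cfsg.Agent.Asch.CW
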