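import Mathlib
import Cfsg.Prelude.Def_GeometricClasses
import Cfsg.Agent.Asch.CWStd
set_option autoImplicit false
set_option linter.unusedSectionVars false
set_option linter.unusedVariables false
set_option linter.style.haveILetI false

/-!
Invariant subalgebras of the coefficient algebras.
-/

namespace Cfsg.Agent.Asch.CW

open Matrix Module

open scoped Matrix

namespace Sys

variable {k : ℕ} {T ι : Type} [DecidableEq T] [Fintype ι] [DecidableEq ι] {F : Type*} [Field F] {S : Sys k T ι F}

/-- multiplicatively closed subspaces invariant under the root elements of the factors in `J` -/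
structure InvS (S : Sys k T ι F) (J : Finset T) (B : Submodule F (Matrix ι ι F)) : Prop where
  on : ∀ b ∈ B, S.On J b
  mul : ∀ b ∈ B, ∀ c ∈ B, b * c ∈ B
  conj : ∀ j ∈ J, ∀ u φ : Fin k → F, φ ⬝ᵥ u = 0 → ∀ b ∈ B, (1 + S.E j (vecMulVec u φ)) * b * (1 - S.E j (vecMulVec u φ)) ∈ B

lemma exists_third {k : ℕ} (hk : 3 ≤ k) (l m : Fin k) : ∃ r : Fin k, r ≠ l ∧ r ≠ m := by
  have h1 : ({l, m} : Finset (Fin k)).card < (Finset.univ : Finset (Fin k)).card := by
    rw [Finset.card_univ, Fintype.card_fin]
    exact lt_of_le_of_lt Finset.card_le_two (by omega)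
  obtain ⟨r, -, hr⟩ := Finset.exists_mem_notMem_of_card_lt_card h1
  rw [Finset.mem_insert, Finset.mem_singleton, not_or] at hr
  exact ⟨r, hr.1, hr.2⟩

/-- connectivity of ordered pairs -/
lemma pair_all {k : ℕ} (hk : 3 ≤ k) {P : Fin k → Fin k → Prop} (h1 : ∀ l m l', l ≠ m → l' ≠ l → l' ≠ m → P l m → P l' m)
    (h2 : ∀ l m m', l ≠ m → m' ≠ m → m' ≠ l → P l m → P l m') {l m : Fin k} (hlm : l ≠ m) (h : P l m) (l' m' : Fin k) (hlm' : l' ≠ m') : P l' m' := by
  obtain ⟨r, hrl, hrl'⟩ := exists_third hk l l'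
  have a1 : P l r := by
    by_cases hr : r = m
    · rw [hr]; exact h
    · exact h2 l m r hlm hr hrl h
  have a2 : P l' r := by
    by_cases hl : l' = l
    · rw [hl]; exact a1
    · exact h1 l r l' (Ne.symm hrl) hl (Ne.symm hrl') a1
  by_cases hm : m' = r
  · rw [hm]; exact a2
  · exact h2 l' r m' (Ne.symm hrl') hm (Ne.symm hlm') a2

namespace InvS

variable {J : Finset T} {B : Submodule F (Matrix ι ι F)} (hB : S.InvS J B)

include hB

lemma T_mem {j : T} (hj : j ∈ J) {l m : Fin k} (hlm : l ≠ m) {b : Matrix ι ι F} (hb : b ∈ B) :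
    S.E j (single l m 1) * b - b * S.E j (single l m 1) - S.E j (single l m 1) * b * S.E j (single l m 1) ∈ B := by
  have h := hB.conj j hj (Pi.single l 1) (Pi.single m 1) (by rw [single_one_dotProduct, Pi.single_eq_of_ne (Ne.symm hlm)]) b hb
  rw [← single_eq_vmv] at h
  have h2 := B.sub_mem h hb
  convert h2 using 1
  noncomm_ring

lemma extract (hk : 3 ≤ k) {j : T} (hj : j ∈ J) {b : Matrix ι ι F} (hb : b ∈ B) (hnc : ¬ Cmt (S.E j) b) :
    ∃ l m : Fin k, l ≠ m ∧ ∃ d, d ≠ 0 ∧ Cmt (S.E j) d ∧ S.E j (single l m 1) * d ∈ B := by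
  by_cases hoff : ∃ l m : Fin k, l ≠ m ∧ blk (S.E j) b m l ≠ 0
  · obtain ⟨l, m, hlm, hne⟩ := hoff
    refine ⟨l, m, hlm, blk (S.E j) b m l, hne, blk_cmt _ _ _ _, ?_⟩
    obtain ⟨r, hrl, hrm⟩ := exists_third hk l m
    have t1 := hB.T_mem hj (Ne.symm hrl : l ≠ r) hb
    have t2 := hB.T_mem hj hlm t1
    have t3 := hB.T_mem hj hrm t2
    set s := S.E j (single l m 1) with hs
    set s' := S.E j (single l r 1) with hs'
    set ρ := S.E j (single r m 1) with hρ
    have ss' : s * s' = 0 := by rw [hs, hs', ← map_mul, single_mul_single_of_ne _ _ _ _ (Ne.symm hlm), map_zero]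
    have s's : s' * s = 0 := by rw [hs, hs', ← map_mul, single_mul_single_of_ne _ _ _ _ hrl, map_zero]
    have ρs : ρ * s = 0 := by rw [hρ, hs, ← map_mul, single_mul_single_of_ne _ _ _ _ (Ne.symm hlm), map_zero]
    have ρs' : ρ * s' = 0 := by rw [hρ, hs', ← map_mul, single_mul_single_of_ne _ _ _ _ (Ne.symm hlm), map_zero]
    have sρ : s * ρ = 0 := by rw [hρ, hs, ← map_mul, single_mul_single_of_ne _ _ _ _ (Ne.symm hrm), map_zero]
    have s'ρ : s' * ρ = s := by rw [hρ, hs, hs', ← map_mul, single_mul_single_same, one_mul]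
    have e1 : s * (s' * b - b * s' - s' * b * s') - (s' * b - b * s' - s' * b * s') * s - s * (s' * b - b * s' - s' * b * s') * s =
        -(s * b * s') - s' * b * s := by
      have : s * (s' * b - b * s' - s' * b * s') - (s' * b - b * s' - s' * b * s') * s - s * (s' * b - b * s' - s' * b * s') * s =
        (s * s') * b - s * b * s' - (s * s') * b * s' - s' * b * s + b * (s' * s) + s' * b * (s' * s) - (s * s') * b * s + s * b * (s' * s) +
          (s * s') * b * (s' * s) := by noncomm_ring
      rw [this, ss', s's]; noncomm_ring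
    rw [e1] at t3
    have e2 : ρ * (-(s * b * s') - s' * b * s) - (-(s * b * s') - s' * b * s) * ρ - ρ * (-(s * b * s') - s' * b * s) * ρ = s * b * s := by
      have : ρ * (-(s * b * s') - s' * b * s) - (-(s * b * s') - s' * b * s) * ρ - ρ * (-(s * b * s') - s' * b * s) * ρ =
        -((ρ * s) * b * s') - (ρ * s') * b * s + s * b * (s' * ρ) + s' * b * (s * ρ) + (ρ * s) * b * s' * ρ + (ρ * s') * b * s * ρ := by noncomm_ring
      rw [this, ρs, ρs', sρ, s'ρ]; noncomm_ring
    rw [e2] at t3
    rw [E_single_mul_blk]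
    exact t3
  · push Not at hoff
    have hdiag : ∃ l m : Fin k, l ≠ m ∧ blk (S.E j) b m m ≠ blk (S.E j) b l l := by
      by_contra hcon
      push Not at hcon
      apply hnc
      set z : Fin k := ⟨0, by omega⟩
      have : b = S.E j 1 * blk (S.E j) b z z := by
        apply eq_of_blk_smul (S.E j) 1 _ (blk_cmt _ _ _ _)
        intro l m
        by_cases hlm : l = m
        · subst hlm
          rw [one_apply_eq, one_smul]
          by_cases hl : z = l
          · rw [← hl]
          · exact hcon z l hl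
        · rw [one_apply_ne hlm, zero_smul]
          exact hoff m l (Ne.symm hlm)
      rw [this, map_one, one_mul]
      exact blk_cmt _ _ _ _
    obtain ⟨l, m, hlm, hne⟩ := hdiag
    refine ⟨l, m, hlm, blk (S.E j) b m m - blk (S.E j) b l l, sub_ne_zero.2 hne, (blk_cmt _ _ _ _).sub (blk_cmt _ _ _ _), ?_⟩
    have t1 := hB.T_mem hj hlm hb
    convert t1 using 1
    rw [mul_sub, E_single_mul_blk, E_single_mul_blk]
    have e0 : S.E j (single l m 1) * b * S.E j (single l m 1) = 0 := by
      rw [← E_single_mul_blk, hoff l m hlm, mul_zero]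
    rw [e0, sub_zero]
    -- b commutes up to the diagonal
    have hbs : b = ∑ p, S.E j (single p p 1) * blk (S.E j) b p p := by
      conv_lhs => rw [← sum_blk (S.E j) b]
      refine Finset.sum_congr rfl fun p _ => ?_
      rw [Finset.sum_eq_single p]
      · intro q _ hq
        rw [hoff q p hq, mul_zero]
      · intro h; exact absurd (Finset.mem_univ _) h
    have e1 : S.E j (single l m 1) * b = S.E j (single l m 1) * b * S.E j (single m m 1) := by
      have : S.E j (single l m 1) * b = S.E j (single l m 1) * blk (S.E j) b m m := by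
        conv_lhs => rw [hbs]
        rw [Finset.mul_sum, Finset.sum_eq_single m]
        · rw [← mul_assoc, ← map_mul, single_mul_single_same, one_mul]
        · intro q _ hq
          rw [← mul_assoc, ← map_mul, single_mul_single_of_ne _ _ _ _ (Ne.symm hq), map_zero, zero_mul]
        · intro h; exact absurd (Finset.mem_univ _) h
      rw [this, mul_assoc, ← blk_cmt, ← mul_assoc, ← map_mul, single_mul_single_same, one_mul]
    have e2 : b * S.E j (single l m 1) = S.E j (single l l 1) * b * S.E j (single l m 1) := by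
      have : b * S.E j (single l m 1) = blk (S.E j) b l l * S.E j (single l m 1) := by
        conv_lhs => rw [hbs]
        rw [Finset.sum_mul, Finset.sum_eq_single l]
        · rw [mul_assoc, ← blk_cmt, ← mul_assoc, ← map_mul, single_mul_single_same, one_mul, blk_cmt]
        · intro q _ hq
          rw [mul_assoc, ← blk_cmt, ← mul_assoc, ← map_mul, single_mul_single_of_ne _ _ _ _ hq, map_zero, zero_mul]
        · intro h; exact absurd (Finset.mem_univ _) h
      rw [this, blk_mul_E_single]
    rw [← e1, ← e2]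

/-- the coefficient space -/
def coB (B : Submodule F (Matrix ι ι F)) (S : Sys k T ι F) (j : T) : Submodule F (Matrix ι ι F) where
  carrier := {b | Cmt (S.E j) b ∧ ∀ l m : Fin k, l ≠ m → S.E j (single l m 1) * b ∈ B}
  add_mem' := fun ⟨h1, h2⟩ ⟨h3, h4⟩ => ⟨h1.add h3, fun l m hlm => by rw [mul_add]; exact B.add_mem (h2 l m hlm) (h4 l m hlm)⟩
  zero_mem' := ⟨Cmt.zero, fun l m _ => by rw [mul_zero]; exact B.zero_mem⟩
  smul_mem' := fun c b ⟨h1, h2⟩ => ⟨h1.smul c, fun l m hlm => by rw [mul_smul_comm]; exact B.smul_mem c (h2 l m hlm)⟩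

lemma coB_mem (hk : 3 ≤ k) {j : T} (hj : j ∈ J) {l m : Fin k} (hlm : l ≠ m) {d : Matrix ι ι F} (hd : Cmt (S.E j) d)
    (h : S.E j (single l m 1) * d ∈ B) : d ∈ coB B S j := by
  refine ⟨hd, fun l' m' hlm' => ?_⟩
  refine pair_all hk (P := fun l m => S.E j (single l m 1) * d ∈ B) ?_ ?_ hlm h l' m' hlm'
  · intro l m l' hlm hl hm h
    have t := hB.T_mem hj hl h
    convert t using 1
    have e1 : S.E j (single l' l 1) * (S.E j (single l m 1) * d) = S.E j (single l' m 1) * d := by
      rw [← mul_assoc, ← map_mul, single_mul_single_same, one_mul]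
    have e2 : S.E j (single l m 1) * d * S.E j (single l' l 1) = 0 := by
      rw [mul_assoc, ← hd, ← mul_assoc, ← map_mul, single_mul_single_of_ne _ _ _ _ (Ne.symm hm), map_zero, zero_mul]
    rw [mul_assoc (S.E j (single l' l 1)), e2, e1, mul_zero, sub_zero, sub_zero]
  · intro l m m' hlm hm hl h
    have t := B.neg_mem (hB.T_mem hj (Ne.symm hm : m ≠ m') h)
    convert t using 1
    have e1 : S.E j (single m m' 1) * (S.E j (single l m 1) * d) = 0 := by
      rw [← mul_assoc, ← map_mul, single_mul_single_of_ne _ _ _ _ hl, map_zero, zero_mul]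
    have e2 : S.E j (single l m 1) * d * S.E j (single m m' 1) = S.E j (single l m' 1) * d := by
      rw [mul_assoc, ← hd, ← mul_assoc, ← map_mul, single_mul_single_same, one_mul]
    rw [e1, e2, zero_mul, sub_zero, zero_sub, neg_neg]

lemma coB_inv (hk : 3 ≤ k) {j : T} (hj : j ∈ J) : S.InvS (J.erase j) (coB B S j) where
  on := by
    rintro b ⟨h1, h2⟩
    set z : Fin k := ⟨0, by omega⟩
    set z1 : Fin k := ⟨1, by omega⟩
    have hz : z ≠ z1 := by simp [z, z1, Fin.ext_iff]
    have h3 := hB.on _ (h2 z z1 hz)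
    have h4 := h3.blk j z z1
    rw [blk_E_mul (S.E j) h1, single_apply_same, one_smul] at h4
    exact h4
  mul := by
    rintro b ⟨h1, h2⟩ c ⟨h3, h4⟩
    refine ⟨h1.mul h3, fun l m hlm => ?_⟩
    obtain ⟨r, hrl, hrm⟩ := exists_third hk l m
    have h5 := hB.mul _ (h2 l r (Ne.symm hrl)) _ (h4 r m hrm)
    convert h5 using 1
    calc S.E j (single l m 1) * (b * c) = S.E j (single l r 1) * (S.E j (single r m 1) * b) * c := by
          rw [← mul_assoc, ← mul_assoc, ← map_mul, single_mul_single_same, one_mul]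
      _ = _ := by rw [h1]; simp only [mul_assoc]
  conj := by
    rintro i hi u φ huφ b ⟨h1, h2⟩
    obtain ⟨hij, hiJ⟩ := Finset.mem_erase.1 hi
    refine ⟨(Cmt.one.add (cmt_E (Ne.symm hij) _)).mul h1 |>.mul (Cmt.one.sub (cmt_E (Ne.symm hij) _)), fun l m hlm => ?_⟩
    have h3 := hB.conj i hiJ u φ huφ _ (h2 l m hlm)
    convert h3 using 1
    have h4 : Cmt (S.E j) (1 + S.E i (vecMulVec u φ)) := Cmt.one.add (cmt_E (Ne.symm hij) _)
    rw [← mul_assoc, ← mul_assoc, ← mul_assoc, h4]

omit hB in
/-- a non-zero invariant subalgebra contains one -/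
theorem one_mem (hk : 3 ≤ k) (hB : S.InvS J B) {b : Matrix ι ι F} (hb : b ∈ B) (hb0 : b ≠ 0) : (1 : Matrix ι ι F) ∈ B := by
  induction J using Finset.induction_on generalizing B b with
  | empty =>
    obtain ⟨c, hc⟩ := on_empty (hB.on b hb)
    have hc0 : c ≠ 0 := by rintro rfl; exact hb0 (by rw [hc, zero_smul])
    have := B.smul_mem c⁻¹ hb
    rwa [hc, smul_smul, inv_mul_cancel₀ hc0, one_smul] at this
  | insert j J' hj ih =>
    by_cases hall : ∀ b ∈ B, Cmt (S.E j) b
    · have hB' : S.InvS J' B := by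
        refine ⟨?_, hB.mul, fun i hi => hB.conj i (Finset.mem_insert_of_mem hi)⟩
        intro c hc i hi
        by_cases hij : i = j
        · subst hij; exact hall c hc
        · exact hB.on c hc i (by rw [Finset.mem_insert]; push Not; exact ⟨hij, hi⟩)
      exact ih hB' hb hb0
    · push Not at hall
      obtain ⟨c, hc, hnc⟩ := hall
      obtain ⟨l, m, hlm, d, hd0, hd, hmem⟩ := hB.extract hk (Finset.mem_insert_self _ _) hc hnc
      have h1 := hB.coB_mem hk (Finset.mem_insert_self _ _) hlm hd hmem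
      have h2 := hB.coB_inv hk (Finset.mem_insert_self _ _)
      rw [Finset.erase_insert hj] at h2
      obtain ⟨-, h3⟩ := ih h2 h1 hd0
      have h4 : ∀ l m : Fin k, l ≠ m → S.E j (single l m 1) ∈ B := fun l m hlm => by
        have := h3 l m hlm
        rwa [mul_one] at this
      rw [show (1 : Matrix ι ι F) = ∑ l : Fin k, S.E j (single l l 1) by rw [← map_sum, sum_single_diag, map_one]]
      apply B.sum_mem
      intro l _
      obtain ⟨r, hr, -⟩ := exists_third hk l l
      have h5 := hB.mul _ (h4 l r (Ne.symm hr)) _ (h4 r l hr)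
      rwa [← map_mul, single_mul_single_same, one_mul] at h5

/-- an invariant subalgebra containing an element not commuting with a factor contains the factor -/
theorem factor_mem (hk : 3 ≤ k) {j : T} (hj : j ∈ J) {b : Matrix ι ι F} (hb : b ∈ B) (hnc : ¬ Cmt (S.E j) b) (a : Matrix (Fin k) (Fin k) F) : S.E j a ∈ B := by
  obtain ⟨l, m, hlm, d, hd0, hd, hmem⟩ := hB.extract hk hj hb hnc
  have h1 := hB.coB_mem hk hj hlm hd hmem
  obtain ⟨-, h3⟩ := one_mem hk (hB.coB_inv hk hj) h1 hd0
  have h4 : ∀ l m : Fin k, l ≠ m → S.E j (single l m 1) ∈ B := fun l m hlm => by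
    have := h3 l m hlm
    rwa [mul_one] at this
  have h5 : ∀ l m : Fin k, S.E j (single l m 1) ∈ B := by
    intro l m
    by_cases hlm : l = m
    · subst hlm
      obtain ⟨r, hr, -⟩ := exists_third hk l l
      have h5 := hB.mul _ (h4 l r (Ne.symm hr)) _ (h4 r l hr)
      rwa [← map_mul, single_mul_single_same, one_mul] at h5
    · exact h4 l m hlm
  rw [matrix_eq_sum_single a, map_sum]
  apply B.sum_mem
  intro l _
  rw [map_sum]
  apply B.sum_mem
  intro m _
  have : single l m (a l m) = a l m • single l m (1 : F) := by rw [smul_single, smul_eq_mul, mul_one]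
  rw [this, map_smul]
  exact B.smul_mem _ (h5 l m)

end InvS

end Sys

end Cfsg.Agent.Asch.CW
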