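import Mathlib
import Cfsg.Prelude.Def_GeometricClasses
import Cfsg.Agent.Asch.CWInvS
set_option autoImplicit false
set_option linter.unusedSectionVars false
set_option linter.unusedVariables false
set_option linter.style.haveILetI false

/-!
Overgroups with non-scalar coefficients contain the special linear group.
-/

namespace Cfsg.Agent.Asch.CW

open Matrix Module

open scoped Matrix

section coA

variable {k : ℕ} {ι : Type} [Fintype ι] [DecidableEq ι] {F : Type*} [Field F]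
  {E : Matrix (Fin k) (Fin k) F →ₐ[F] Matrix ι ι F} {K : Subgroup (GL ι F)}

lemma E_mul_A_sq {u φ v ψ : Fin k → F} {A A' : Matrix ι ι F} (hA : Cmt E A) :
    E (vecMulVec u φ) * A * (E (vecMulVec v ψ) * A') = (φ ⬝ᵥ v) • (E (vecMulVec u ψ) * (A * A')) := by
  calc E (vecMulVec u φ) * A * (E (vecMulVec v ψ) * A') = E (vecMulVec u φ) * (A * E (vecMulVec v ψ)) * A' := by simp only [mul_assoc]
    _ = (E (vecMulVec u φ) * E (vecMulVec v ψ)) * (A * A') := by rw [← hA]; simp only [mul_assoc]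
    _ = _ := by rw [← map_mul, vmv_mul, map_smul, smul_mul_assoc]

lemma coA_row1 (hR : Roots E K) {u φ : Fin k → F} (hφ : φ ⬝ᵥ u = 0) {A : Matrix ι ι F} (hA : Cmt E A) (h : Mem1 K (E (vecMulVec u φ) * A))
    {ψ : Fin k → F} (hψ : ψ ⬝ᵥ u = 0) (hsp : φ ∉ Submodule.span F {ψ}) : Mem1 K (E (vecMulVec u ψ) * A) := by
  obtain ⟨w, hw1, hw2⟩ := exists_row_sep hsp
  rw [dotProduct_comm] at hw1 hw2
  have hr := hR w ψ hw1
  have h2 : E (vecMulVec w ψ) = E (vecMulVec w ψ) * 1 := by rw [mul_one]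
  have hc := Mem1.comm h hr (by rw [E_mul_A_sq hA, hφ, zero_smul]) (E_vmv_sq hw1) (by rw [h2, E_mul_A_sq Cmt.one, hψ, zero_smul])
  rw [h2, E_mul_A_sq hA, hw2, one_smul, mul_one] at hc
  exact hc

lemma coA_col1 (hR : Roots E K) {u φ : Fin k → F} (hφ : φ ⬝ᵥ u = 0) {A : Matrix ι ι F} (hA : Cmt E A) (h : Mem1 K (E (vecMulVec u φ) * A))
    {v : Fin k → F} (hv : φ ⬝ᵥ v = 0) (hsp : u ∉ Submodule.span F {v}) : Mem1 K (E (vecMulVec v φ) * A) := by
  obtain ⟨w, hw1, hw2⟩ := exists_row_sep hsp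
  have hr := hR v w hw1
  have h2 : E (vecMulVec v w) = E (vecMulVec v w) * 1 := by rw [mul_one]
  have hc := Mem1.comm hr h (E_vmv_sq hw1) (by rw [E_mul_A_sq hA, hφ, zero_smul]) (by rw [h2, E_mul_A_sq hA, hv, zero_smul])
  rw [h2, E_mul_A_sq Cmt.one, hw2, one_smul, one_mul] at hc
  exact hc

/-- a splitting -/
lemma exists_split (hk : 3 ≤ k) {u φ ψ : Fin k → F} (hφ0 : φ ≠ 0) (hφ : φ ⬝ᵥ u = 0) (hψ : ψ ⬝ᵥ u = 0) (hsp : φ ∈ Submodule.span F {ψ}) :
    ∃ ψ₁ : Fin k → F, ψ₁ ⬝ᵥ u = 0 ∧ φ ∉ Submodule.span F {ψ₁} ∧ φ ∉ Submodule.span F {ψ - ψ₁} := by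
  obtain ⟨m₀, hm₀⟩ := Function.ne_iff.1 hφ0
  obtain ⟨ψ₁, h0, h1, h2⟩ := exists_row_zero (by rw [Fintype.card_fin]; exact hk) u (Pi.single m₀ (1 : F))
  rw [dotProduct_single_one] at h2
  obtain ⟨c, hc⟩ := Submodule.mem_span_singleton.1 hsp
  refine ⟨ψ₁, h1, ?_, ?_⟩
  · intro h
    obtain ⟨d, hd⟩ := Submodule.mem_span_singleton.1 h
    apply hm₀
    rw [← hd, Pi.smul_apply, h2, smul_zero]; rfl
  · intro h
    obtain ⟨d, hd⟩ := Submodule.mem_span_singleton.1 h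
    have e1 : φ m₀ = c * ψ m₀ := by rw [← hc]; rfl
    have e2 : φ m₀ = d * ψ m₀ := by
      rw [← hd, Pi.smul_apply, Pi.sub_apply, h2, sub_zero]; rfl
    have hψm : ψ m₀ ≠ 0 := by
      intro h; apply hm₀; rw [e1, h, mul_zero]; rfl
    have hcd : c = d := mul_right_cancel₀ hψm (e1.symm.trans e2)
    have h3 : d • ψ₁ = 0 := by
      rw [smul_sub, ← hcd, hc, sub_eq_self] at hd
      rw [← hcd]; exact hd
    rcases smul_eq_zero.1 h3 with h4 | h4
    · apply hφ0; rw [← hc, hcd, h4, zero_smul]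
    · exact h0 h4

lemma coA_row (hk : 3 ≤ k) (hR : Roots E K) {u φ : Fin k → F} (hφ0 : φ ≠ 0) (hφ : φ ⬝ᵥ u = 0) {A : Matrix ι ι F} (hA : Cmt E A)
    (h : Mem1 K (E (vecMulVec u φ) * A)) {ψ : Fin k → F} (hψ : ψ ⬝ᵥ u = 0) : Mem1 K (E (vecMulVec u ψ) * A) := by
  by_cases hsp : φ ∈ Submodule.span F {ψ}
  · obtain ⟨ψ₁, h1, h2, h3⟩ := exists_split hk hφ0 hφ hψ hsp
    have hψ2 : (ψ - ψ₁) ⬝ᵥ u = 0 := by rw [sub_dotProduct, hψ, h1, sub_zero]
    have a1 := coA_row1 hR hφ hA h h1 h2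
    have a2 := coA_row1 hR hφ hA h hψ2 h3
    have a3 := a1.add a2 (by rw [E_mul_A_sq hA, h1, zero_smul])
    rw [← add_mul, ← map_add, ← vecMulVec_add, add_sub_cancel] at a3
    exact a3
  · exact coA_row1 hR hφ hA h hψ hsp

lemma coA_col (hk : 3 ≤ k) (hR : Roots E K) {u φ : Fin k → F} (hu0 : u ≠ 0) (hφ : φ ⬝ᵥ u = 0) {A : Matrix ι ι F} (hA : Cmt E A)
    (h : Mem1 K (E (vecMulVec u φ) * A)) {v : Fin k → F} (hv : φ ⬝ᵥ v = 0) : Mem1 K (E (vecMulVec v φ) * A) := by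
  by_cases hsp : u ∈ Submodule.span F {v}
  · rw [dotProduct_comm] at hφ hv
    obtain ⟨v₁, h1, h2, h3⟩ := exists_split hk hu0 hφ hv hsp
    have hv2 : (v - v₁) ⬝ᵥ φ = 0 := by rw [sub_dotProduct, hv, h1, sub_zero]
    rw [dotProduct_comm] at hφ h1 hv2
    have a1 := coA_col1 hR hφ hA h h1 h2
    have a2 := coA_col1 hR hφ hA h hv2 h3
    have a3 := a1.add a2 (by rw [E_mul_A_sq hA, hv2, zero_smul])
    rw [← add_mul, ← map_add, ← add_vecMulVec, add_sub_cancel] at a3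
    exact a3
  · exact coA_col1 hR hφ hA h hv hsp

lemma coA_all (hk : 3 ≤ k) (hR : Roots E K) {u φ : Fin k → F} (hu0 : u ≠ 0) (hφ0 : φ ≠ 0) (hφ : φ ⬝ᵥ u = 0) {A : Matrix ι ι F} (hA : Cmt E A)
    (h : Mem1 K (E (vecMulVec u φ) * A)) (v χ : Fin k → F) (hv : χ ⬝ᵥ v = 0) : Mem1 K (E (vecMulVec v χ) * A) := by
  obtain ⟨ψ, hψ0, hψu, hψv⟩ := exists_row_zero (by rw [Fintype.card_fin]; exact hk) u v
  have a1 := coA_row hk hR hφ0 hφ hA h hψu
  have a2 := coA_col hk hR hu0 hψu hA a1 hψv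
  exact coA_row hk hR hψ0 hψv hA a2 hv

/-- the coefficient space -/
def coA (E : Matrix (Fin k) (Fin k) F →ₐ[F] Matrix ι ι F) (K : Subgroup (GL ι F)) : Submodule F (Matrix ι ι F) where
  carrier := {A | Cmt E A ∧ ∀ u φ : Fin k → F, φ ⬝ᵥ u = 0 → Mem1 K (E (vecMulVec u φ) * A)}
  add_mem' := fun ⟨h1, h2⟩ ⟨h3, h4⟩ => ⟨h1.add h3, fun u φ h => by
    rw [mul_add]; exact (h2 u φ h).add (h4 u φ h) (by rw [E_mul_A_sq h1, h, zero_smul])⟩
  zero_mem' := ⟨Cmt.zero, fun u φ _ => by rw [mul_zero]; exact mem1_zero⟩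
  smul_mem' := fun c b ⟨h1, h2⟩ => ⟨h1.smul c, fun u φ h => by
    rw [mul_smul_comm, ← smul_mul_assoc, ← map_smul, ← smul_vecMulVec]
    exact h2 (c • u) φ (by rw [dotProduct_smul, h, smul_zero])⟩

lemma coA_mul (hk : 3 ≤ k) (hR : Roots E K) {A A' : Matrix ι ι F} (h : A ∈ coA E K) (h' : A' ∈ coA E K) : A * A' ∈ coA E K := by
  obtain ⟨h1, h2⟩ := h
  obtain ⟨h3, h4⟩ := h'
  refine ⟨h1.mul h3, fun v χ hv => ?_⟩
  set z : Fin k := ⟨0, by omega⟩
  set z1 : Fin k := ⟨1, by omega⟩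
  set z2 : Fin k := ⟨2, by omega⟩
  have h01 : z ≠ z1 := by simp [z, z1, Fin.ext_iff]
  have h02 : z ≠ z2 := by simp [z, z2, Fin.ext_iff]
  have h12 : z1 ≠ z2 := by simp [z1, z2, Fin.ext_iff]
  have o01 : (Pi.single z1 1 : Fin k → F) ⬝ᵥ Pi.single z 1 = 0 := by rw [single_one_dotProduct, Pi.single_eq_of_ne (Ne.symm h01)]
  have o12 : (Pi.single z2 1 : Fin k → F) ⬝ᵥ Pi.single z1 1 = 0 := by rw [single_one_dotProduct, Pi.single_eq_of_ne (Ne.symm h12)]
  have o02 : (Pi.single z2 1 : Fin k → F) ⬝ᵥ Pi.single z 1 = 0 := by rw [single_one_dotProduct, Pi.single_eq_of_ne (Ne.symm h02)]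
  have o11 : (Pi.single z1 1 : Fin k → F) ⬝ᵥ Pi.single z1 1 = 1 := by rw [single_one_dotProduct, Pi.single_eq_same]
  have hne : ∀ z : Fin k, (Pi.single z 1 : Fin k → F) ≠ 0 := by
    intro z h0; have := congrFun h0 z; rw [Pi.single_eq_same] at this; exact one_ne_zero this
  have hc := Mem1.comm (h2 _ _ o01) (h4 _ _ o12) (by rw [E_mul_A_sq h1, o01, zero_smul]) (by rw [E_mul_A_sq h3, o12, zero_smul])
    (by rw [E_mul_A_sq h3, o02, zero_smul])
  rw [E_mul_A_sq h1, o11, one_smul] at hc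
  exact coA_all hk hR (hne z) (hne z2) o02 (h1.mul h3) hc v χ hv

lemma one_mem_coA (hR : Roots E K) : (1 : Matrix ι ι F) ∈ coA E K := ⟨Cmt.one, fun u φ h => by rw [mul_one]; exact hR u φ h⟩

end coA

namespace Sys

variable {k : ℕ} {T ι : Type} [Fintype T] [DecidableEq T] [Fintype ι] [DecidableEq ι] {F : Type*} [Field F] {S : Sys k T ι F}
  {K : Subgroup (GL ι F)}

lemma coA_inv (hk : 3 ≤ k) (hR : ∀ i, Roots (S.E i) K) (i : T) : S.InvS (Finset.univ.erase i) (coA (S.E i) K) where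
  on := by
    rintro b ⟨h1, -⟩ j hj
    have : j = i := by
      by_contra h
      exact hj (Finset.mem_erase.2 ⟨h, Finset.mem_univ _⟩)
    rw [this]; exact h1
  mul := fun b hb c hc => coA_mul hk (hR i) hb hc
  conj := by
    rintro j hj u φ huφ b ⟨h1, h2⟩
    obtain ⟨hji, -⟩ := Finset.mem_erase.1 hj
    refine ⟨((Cmt.one.add (cmt_E (Ne.symm hji) _)).mul h1).mul (Cmt.one.sub (cmt_E (Ne.symm hji) _)), fun v χ hv => ?_⟩
    obtain ⟨x, hx, hxv⟩ := hR j u φ huφ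
    have h3 := (h2 v χ hv).conj' hx
    rw [Mem1.inv_eq hxv (E_vmv_sq huφ), hxv] at h3
    convert h3 using 1
    have h4 : Cmt (S.E i) (1 + S.E j (vecMulVec u φ)) := Cmt.one.add (cmt_E (Ne.symm hji) _)
    rw [← mul_assoc, ← mul_assoc, ← mul_assoc, h4]

/-- the factor `j` is contained in the coefficients at `i` -/
def Rel (S : Sys k T ι F) (K : Subgroup (GL ι F)) (i j : T) : Prop := i ≠ j ∧ ∀ a, S.E j a ∈ coA (S.E i) K

lemma rel_symm (hk : 3 ≤ k) (hR : ∀ i, Roots (S.E i) K) {i j : T} (h : S.Rel K i j) : S.Rel K j i := by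
  obtain ⟨hij, h⟩ := h
  refine ⟨Ne.symm hij, ?_⟩
  have h1 : ∀ v χ : Fin k → F, χ ⬝ᵥ v = 0 → S.E i (vecMulVec v χ) ∈ coA (S.E j) K := by
    intro v χ hv
    refine ⟨cmt_E (Ne.symm hij) _, fun u φ huφ => ?_⟩
    rw [S.comm j i (Ne.symm hij)]
    exact (h (vecMulVec u φ)).2 v χ hv
  have h2 : ∀ l m : Fin k, S.E i (single l m 1) ∈ coA (S.E j) K := by
    intro l m
    have h3 : ∀ l m : Fin k, l ≠ m → S.E i (single l m 1) ∈ coA (S.E j) K := by
      intro l m hlm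
      rw [single_eq_vmv]
      exact h1 _ _ (by rw [single_one_dotProduct, Pi.single_eq_of_ne (Ne.symm hlm)])
    by_cases hlm : l = m
    · subst hlm
      obtain ⟨r, hr, -⟩ := exists_third hk l l
      have h5 := coA_mul hk (hR j) (h3 l r (Ne.symm hr)) (h3 r l hr)
      rwa [← map_mul, single_mul_single_same, one_mul] at h5
    · exact h3 l m hlm
  intro a
  rw [matrix_eq_sum_single a, map_sum]
  apply Submodule.sum_mem
  intro l _
  rw [map_sum]
  apply Submodule.sum_mem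
  intro m _
  have : single l m (a l m) = a l m • single l m (1 : F) := by rw [smul_single, smul_eq_mul, mul_one]
  rw [this, map_smul]
  exact Submodule.smul_mem _ _ (h2 l m)

/-- transport of the relation -/
lemma rel_conj {i j : T} (h : S.Rel K i j) {g : GL ι F} (hg : g ∈ K) {i' j' : T} (hi : ∀ a, g.1 * S.E i a * (g⁻¹).1 = S.E i' a)
    (hj : ∀ a, g.1 * S.E j a * (g⁻¹).1 = S.E j' a) (hij' : i' ≠ j') : S.Rel K i' j' := by
  refine ⟨hij', fun a => ⟨cmt_E hij' _, fun u φ huφ => ?_⟩⟩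
  have h1 := ((h.2 a).2 u φ huφ).conj' hg
  rw [← hi, ← hj]
  convert h1 using 1
  calc g.1 * S.E i (vecMulVec u φ) * (g⁻¹).1 * (g.1 * S.E j a * (g⁻¹).1) = g.1 * S.E i (vecMulVec u φ) * ((g⁻¹).1 * g.1) * S.E j a * (g⁻¹).1 := by
        simp only [mul_assoc]
    _ = _ := by rw [inv_mul_val, mul_one]; simp only [mul_assoc]

/-- non-scalar coefficients give the relation for all factors -/
theorem rel_all [Nonempty ι] (hk : 3 ≤ k) (hR : ∀ i, Roots (S.E i) K)
    (hperm : ∀ (i j m : T) (hij : i ≠ j) (hjm : j ≠ m), i ≠ m → (S.flip hij * S.flip hjm) * (S.flip hij * S.flip hjm) ∈ K)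
    {i : T} {A : Matrix ι ι F} (hA : A ∈ coA (S.E i) K) (hns : ¬ ∃ c : F, A = c • (1 : Matrix ι ι F)) (m : T) (hm : i ≠ m) : S.Rel K i m := by
  -- a factor
  have hex : ∃ j, j ≠ i ∧ ¬ Cmt (S.E j) A := by
    by_contra hcon
    push Not at hcon
    apply hns
    apply S.cent
    intro j
    by_cases hj : j = i
    · rw [hj]; exact hA.1
    · exact hcon j hj
  obtain ⟨j, hji, hnc⟩ := hex
  have hrel : S.Rel K i j := ⟨Ne.symm hji, fun a => (coA_inv hk hR i).factor_mem hk (Finset.mem_erase.2 ⟨hji, Finset.mem_univ _⟩) hA hnc a⟩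
  by_cases hmj : m = j
  · rw [hmj]; exact hrel
  -- the three-cycle
  have hij : i ≠ j := Ne.symm hji
  have hjm : j ≠ m := Ne.symm hmj
  have hgK := hperm i j m hij hjm hm
  set x := S.flip hij with hx
  set y := S.flip hjm with hy
  have cj2 : ∀ {p q : GL ι F} {Z W V : Matrix ι ι F}, q.1 * Z * (q⁻¹).1 = W → p.1 * W * (p⁻¹).1 = V → (p * q).1 * Z * ((p * q)⁻¹).1 = V := by
    intro p q Z W V h1 h2
    rw [_root_.mul_inv_rev, Units.val_mul, Units.val_mul, ← h2, ← h1]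
    simp only [mul_assoc]
  have yi : ∀ a, y.1 * S.E i a * (y⁻¹).1 = S.E i a := fun a => conj_eq_iff.2 (flip_cmt hjm hij hm a).symm
  have yj : ∀ a, y.1 * S.E j a * (y⁻¹).1 = S.E m a := flip_conj_left hjm
  have ym : ∀ a, y.1 * S.E m a * (y⁻¹).1 = S.E j a := flip_conj_right hjm
  have xi : ∀ a, x.1 * S.E i a * (x⁻¹).1 = S.E j a := flip_conj_left hij
  have xj : ∀ a, x.1 * S.E j a * (x⁻¹).1 = S.E i a := flip_conj_right hij
  have xm : ∀ a, x.1 * S.E m a * (x⁻¹).1 = S.E m a := fun a => conj_eq_iff.2 (flip_cmt hij (Ne.symm hm) hmj a).symm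
  have ci : ∀ a, ((x * y) * (x * y)).1 * S.E i a * (((x * y) * (x * y))⁻¹).1 = S.E m a :=
    fun a => cj2 (cj2 (yi a) (xi a)) (cj2 (yj a) (xm a))
  have cj : ∀ a, ((x * y) * (x * y)).1 * S.E j a * (((x * y) * (x * y))⁻¹).1 = S.E i a :=
    fun a => cj2 (cj2 (yj a) (xm a)) (cj2 (ym a) (xj a))
  exact rel_symm hk hR (rel_conj hrel hgK ci cj (Ne.symm hm))

end Sys

/-- **the full case** for the standard system -/
theorem full_std {k t : ℕ} {F : Type*} [Field F] (hk : 3 ≤ k) {K : Subgroup (GL (Fin t → Fin k) F)}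
    (hR : ∀ i, Roots ((std k t F).E i) K)
    (hperm : ∀ (i j m : Fin t) (hij : i ≠ j) (hjm : j ≠ m), i ≠ m →
      ((std k t F).flip hij * (std k t F).flip hjm) * ((std k t F).flip hij * (std k t F).flip hjm) ∈ K)
    {i : Fin t} {A : Matrix (Fin t → Fin k) (Fin t → Fin k) F} (hA : A ∈ coA ((std k t F).E i) K)
    (hns : ¬ ∃ c : F, A = c • (1 : Matrix (Fin t → Fin k) (Fin t → Fin k) F)) : Geo.specialLinear (Fin t → Fin k) F ≤ K := by
  haveI : Nonempty (Fin k) := ⟨⟨0, by omega⟩⟩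
  haveI : Nontrivial (Fin k) := Fin.nontrivial_iff_two_le.2 (by omega)
  haveI : Nonempty (Fin t) := ⟨i⟩
  have hrel := Sys.rel_all (S := std k t F) hk hR hperm hA hns
  -- all products of the other factors
  have hprod : ∀ g : Fin t → Matrix (Fin k) (Fin k) F, g i = 1 → piMat g ∈ coA ((std k t F).E i) K := by
    intro g hg
    have h1 : piMat g = piMat (Finset.univ.noncommProd (fun i => Pi.mulSingle i (g i)) (fun i _ j _ _ => Pi.mulSingle_apply_commute g i j)) := by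
      rw [Finset.noncommProd_mulSingle]
    rw [h1]
    refine Finset.noncommProd_induction _ _ _ (fun M => piMat M ∈ coA ((std k t F).E i) K) ?_ ?_ ?_
    · intro a b ha hb
      rw [piMat_mul]
      exact coA_mul hk (hR i) ha hb
    · rw [piMat_one]; exact one_mem_coA (hR i)
    · intro j _
      by_cases hj : i = j
      · subst hj
        rw [hg, Pi.mulSingle_one, piMat_one]; exact one_mem_coA (hR i)
      · exact (hrel j hj).2 (g j)
  have hsplit : ∀ x y : Fin t → Fin k, single x y (1 : F) = (std k t F).E i (single (x i) (y i) 1) *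
      piMat (fun j => if j = i then 1 else single (x j) (y j) 1) := by
    intro x y
    rw [← piMat_single]
    show piMat _ = piMat (Pi.mulSingle i _) * _
    rw [← piMat_mul]
    congr 1
    funext j
    rw [Pi.mul_apply]
    by_cases hj : j = i
    · subst hj; rw [Pi.mulSingle_eq_same, if_pos rfl, mul_one]
    · rw [Pi.mulSingle_eq_of_ne hj, if_neg hj, one_mul]
  have hoff : ∀ x y : Fin t → Fin k, x i ≠ y i → ∀ c : F, Mem1 K (c • single x y (1 : F)) := by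
    intro x y hxy c
    rw [hsplit, ← smul_mul_assoc, ← map_smul, single_eq_vmv, ← smul_vecMulVec]
    exact (hprod (fun j => if j = i then 1 else single (x j) (y j) 1) (if_pos rfl)).2 _ _ (by
      rw [dotProduct_smul, single_one_dotProduct, Pi.single_eq_of_ne (Ne.symm hxy), smul_zero])
  have hall : ∀ x y : Fin t → Fin k, x ≠ y → ∀ c : F, Mem1 K (c • single x y (1 : F)) := by
    intro x y hxy c
    by_cases hi : x i = y i
    · obtain ⟨l, hl⟩ := exists_ne (x i)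
      set z := Function.update x i l with hz
      have hzi : z i = l := Function.update_self _ _ _
      have h1 := hoff x z (by rw [hzi]; exact Ne.symm hl) c
      have h2 := hoff z y (by rw [hzi, ← hi]; exact hl) 1
      rw [one_smul] at h2
      have hxz : x ≠ z := by intro h; apply hl; rw [h, hzi]
      have hzy : z ≠ y := by intro h; apply hl; rw [hi, ← h, hzi]
      have hc := h1.comm h2 (by rw [smul_mul_smul_comm, single_mul_single_of_ne _ _ _ _ (Ne.symm hxz), smul_zero])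
        (by rw [single_mul_single_of_ne _ _ _ _ (Ne.symm hzy)])
        (by rw [mul_smul_comm, single_mul_single_of_ne _ _ _ _ (Ne.symm hxy), smul_zero])
      rw [smul_mul_assoc, single_mul_single_same, one_mul] at hc
      exact hc
    · exact hoff x y hi c
  apply TMax.specialLinear_le_of_elementary
  intro x y hxy c
  obtain ⟨g, hg, hgv⟩ := hall x y hxy c
  exact ⟨g, hg, hgv⟩

end Cfsg.Agent.Asch.CW
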