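import Mathlib
import Cfsg.Prelude.Def_GeometricClasses
import Cfsg.Agent.Asch.CWFull
import Cfsg.Agent.AschCases.ProperSL
set_option autoImplicit false
set_option linter.unusedSectionVars false
set_option linter.unusedVariables false
set_option linter.style.haveILetI false

/-!
Class 7, linear case: overgroups of the tensor wreath subgroup in the special linear group.
-/

namespace Cfsg.Agent.Asch.CW

open Matrix Module Cfsg.Geo

open scoped Matrix MatrixGroups

lemma det_root {k : ℕ} (hk : 0 < k) {ι : Type} [Fintype ι] [DecidableEq ι] {F : Type*} [Field F] {E : Matrix (Fin k) (Fin k) F →ₐ[F] Matrix ι ι F}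
    {u φ : Fin k → F} (h : φ ⬝ᵥ u = 0) : (1 + E (vecMulVec u φ)).det = 1 := by
  set z : Fin k := ⟨0, hk⟩
  have h1 : E (vecMulVec u φ) = E (vecMulVec u (Pi.single z 1)) * E (vecMulVec (Pi.single z 1) φ) := by
    rw [← map_mul, vmv_mul]; simp
  rw [h1, Matrix.det_one_add_mul_comm, ← map_mul, vmv_mul, h, zero_smul, map_zero, add_zero, det_one]

lemma mem_sl_iff {ι : Type} [Fintype ι] [DecidableEq ι] {F : Type*} [Field F] {g : GL ι F} : g ∈ specialLinear ι F ↔ g.1.det = 1 := by
  constructor
  · intro h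
    have h1 : GeneralLinearGroup.det g = 1 := h
    have := congrArg Units.val h1
    exact this
  · intro h
    exact Units.ext h

/-- **overgroups of the tensor wreath group** -/
theorem lin_overgroup {k t : ℕ} {F : Type*} [Field F] (hk : 3 ≤ k) (ht : 0 < t) (hClaim : (std k t F).Claim Finset.univ)
    {K : Subgroup (GL (Fin t → Fin k) F)} (hK : tensorWreathStandard k t F ⊓ specialLinear (Fin t → Fin k) F ≤ K) :
    specialLinear (Fin t → Fin k) F ≤ K ∨ K ≤ tensorWreathStandard k t F := by
  have hR : ∀ i, Roots ((std k t F).E i) K := by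
    intro i u φ h
    obtain ⟨y, hy⟩ := exists_of_sq_zero (vmv_sq h)
    have hx : (EU ((std k t F).E i) y).1 = 1 + (std k t F).E i (vecMulVec u φ) := by rw [EU_val, hy, map_add, map_one]
    refine ⟨_, hK ⟨?_, ?_⟩, hx⟩
    · exact mem_tws_of_mon (by omega) ht (Sys.EU_mem_mon i y)
    · exact mem_sl_iff.2 (by rw [hx]; exact det_root (by omega) h)
  by_cases hC : ∀ i, Coef ((std k t F).E i) K
  · right
    intro g hg
    apply mem_tws_of_mon (by omega) ht
    apply hClaim K (fun x _ i hi => absurd (Finset.mem_univ i) hi) (fun i _ => hR i) (fun i _ => hC i) g (fun i hi => absurd (Finset.mem_univ i) hi)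
    intro i _ u φ h
    exact (hR i u φ h).conj' hg
  · left
    simp only [Coef] at hC
    push Not at hC
    obtain ⟨i, u, φ, hu, hφ, huφ, A, hA, hmem, hns⟩ := hC
    refine full_std hk hR ?_ (i := i) (A := A) ⟨hA, coA_all hk (hR i) hu hφ huφ hA hmem⟩ (by rintro ⟨c, hc⟩; exact hns c hc)
    intro i j m hij hjm him
    have hf : ∀ {a b : Fin t} (hab : a ≠ b), (std k t F).flip hab ∈ tensorWreathStandard k t F := fun hab =>
      mem_tws_of_mon (by omega) ht (Sys.flip_mem_mon hab (Finset.mem_univ _) (Finset.mem_univ _))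
    refine hK ⟨?_, ?_⟩
    · exact Subgroup.mul_mem _ (Subgroup.mul_mem _ (hf hij) (hf hjm)) (Subgroup.mul_mem _ (hf hij) (hf hjm))
    · apply mem_sl_iff.2
      have hd : ∀ {a b : Fin t} (hab : a ≠ b), ((std k t F).flip hab).1.det * ((std k t F).flip hab).1.det = 1 := by
        intro a b hab
        rw [← det_mul, Sys.flip_val, Sys.flipM_sq, det_one]
        exact hab
      rw [Units.val_mul, Units.val_mul, det_mul, det_mul]
      calc ((std k t F).flip hij).1.det * ((std k t F).flip hjm).1.det * (((std k t F).flip hij).1.det * ((std k t F).flip hjm).1.det) =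
          (((std k t F).flip hij).1.det * ((std k t F).flip hij).1.det) * (((std k t F).flip hjm).1.det * ((std k t F).flip hjm).1.det) := by ring
        _ = 1 := by rw [hd, hd, mul_one]

/-- coordinates in the tensor power -/
def rhoW {ι : Type} [Fintype ι] [DecidableEq ι] {F : Type*} [Field F] {m t : ℕ} (e : ι ≃ (Fin t → Fin m)) (P : GL ι F) :
    GL ι F ≃* GL (Fin t → Fin m) F := (MulAut.conj P⁻¹).trans (glReindex e)

section rho

variable {ι : Type} [Fintype ι] [DecidableEq ι] {F : Type*} [Field F] {m t : ℕ}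

lemma rhoW_symm_mem (e : ι ≃ (Fin t → Fin m)) (P : GL ι F)
    (k : GL (Fin t → Fin m) F) (hk : k ∈ tensorWreathStandard m t F) : (rhoW e P).symm k ∈ tensorWreathSubgroup m t e P := by
  refine ⟨glReindex e.symm k, ⟨k, hk, rfl⟩, ?_⟩
  have h : (MulAut.conj P).toMonoidHom (glReindex e.symm k) = P * glReindex e.symm k * P⁻¹ := rfl
  rw [h]
  have h2 : (rhoW e P).symm k = (MulAut.conj P⁻¹).symm ((glReindex e).symm k) := rfl
  rw [h2, MulAut.conj_symm_apply, inv_inv]
  rfl

lemma rhoW_mem (e : ι ≃ (Fin t → Fin m)) (P : GL ι F)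
    (g : GL ι F) (hk : rhoW e P g ∈ tensorWreathStandard m t F) : g ∈ tensorWreathSubgroup m t e P := by
  have := rhoW_symm_mem e P _ hk
  rwa [MulEquiv.symm_apply_apply] at this

lemma rhoW_det (e : ι ≃ (Fin t → Fin m)) (P : GL ι F)
    (g : GL ι F) : GeneralLinearGroup.det (rhoW e P g) = GeneralLinearGroup.det g := by
  have h1 : GeneralLinearGroup.det (MulAut.conj P⁻¹ g) = GeneralLinearGroup.det g := by
    rw [MulAut.conj_apply, map_mul, map_mul, map_inv (GeneralLinearGroup.det : GL ι F →* Fˣ) P⁻¹,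
      mul_right_comm, mul_inv_cancel, one_mul]
  rw [← h1]
  apply Units.ext
  change (Matrix.reindex e e ((MulAut.conj P⁻¹ g : GL ι F) : Matrix ι ι F)).det = _
  rw [Matrix.det_reindex_self]
  rfl

end rho

theorem lin_max {k t : ℕ} {F : Type*} [Field F] (hk : 3 ≤ k) (ht : 2 ≤ t) (hClaim : (std k t F).Claim Finset.univ) (n : ℕ)
    (e : Fin n ≃ (Fin t → Fin k)) (P : GL (Fin n) F) :
    IsMaximalIn (specialLinear (Fin n) F) (tensorWreathSubgroup k t e P ⊓ specialLinear (Fin n) F) := by
  refine ⟨lt_of_le_of_ne inf_le_right fun h => ?_, fun M hM1 hM2 => ?_⟩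
  · exact Cfsg.Agent.AschCases.sl_not_le_tensorWreathSubgroup (by omega) ht e P (inf_eq_right.1 h)
  · have hK : tensorWreathStandard k t F ⊓ specialLinear (Fin t → Fin k) F ≤ M.map (rhoW e P).toMonoidHom := by
      rintro x ⟨hx, hdet⟩
      refine ⟨(rhoW e P).symm x, hM1 ⟨rhoW_symm_mem e P x hx, ?_⟩, (rhoW e P).apply_symm_apply x⟩
      change GeneralLinearGroup.det ((rhoW e P).symm x) = 1
      rw [← rhoW_det e P, MulEquiv.apply_symm_apply]
      exact hdet
    rcases lin_overgroup hk (by omega) hClaim hK with h | h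
    · right
      refine le_antisymm hM2 fun g hg => ?_
      have hg' : GeneralLinearGroup.det g = 1 := hg
      have h2 : rhoW e P g ∈ specialLinear (Fin t → Fin k) F := by
        change GeneralLinearGroup.det (rhoW e P g) = 1
        rw [rhoW_det, hg']
      obtain ⟨g', hg'M, hg'e⟩ := h h2
      have : g' = g := (rhoW e P).injective hg'e
      rwa [← this]
    · left
      refine le_antisymm (le_inf (fun g hg => ?_) hM2) hM1
      exact rhoW_mem e P g (h ⟨g, hg, rfl⟩)

end Cfsg.Agent.Asch.CW
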