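import Mathlib
import Cfsg.Prelude.Def_GeometricClasses
import Cfsg.Agent.Asch.TMaxFinal
set_option autoImplicit false
set_option linter.unusedSectionVars false
set_option linter.style.haveILetI false

/-!
Overgroups of `SL(U) ⊗ SL(W)` in `GL(U ⊗ W)`, for `dim U < dim W`: conclusion.
-/

namespace Cfsg.Agent.Asch.TMax

open Cfsg.Geo Matrix Module

open Cfsg.Agent.AschCases (tp kron_tp)

open scoped Matrix Kronecker MatrixGroups

section uni

variable {n : Type} [Fintype n] [DecidableEq n] {F : Type*} [Field F]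

lemma uni_mul {e φ φ' : n → F} (h : φ ⬝ᵥ e = 0) :
    (1 + vecMulVec e φ) * (1 + vecMulVec e φ') = 1 + vecMulVec e (φ + φ') := by
  rw [mul_add, mul_one, add_mul, one_mul, vecMulVec_mul_vecMulVec, h, zero_smul, vecMulVec_zero, add_zero, vecMulVec_add]
  abel

lemma uni_pow {e φ : n → F} (h : φ ⬝ᵥ e = 0) (k : ℕ) : (1 + vecMulVec e φ) ^ k = 1 + vecMulVec e ((k : F) • φ) := by
  induction k with
  | zero => simp
  | succ k ih =>
    rw [pow_succ, ih, uni_mul (by rw [smul_dotProduct, h, smul_zero])]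
    congr 2
    rw [Nat.cast_succ, add_smul, one_smul]

lemma kron_pow {m : Type} [Fintype m] [DecidableEq m] (A : Matrix m m F) (B : Matrix n n F) (k : ℕ) :
    (A ⊗ₖ B) ^ k = (A ^ k) ⊗ₖ (B ^ k) := by
  induction k with
  | zero => simp
  | succ k ih => rw [pow_succ, ih, pow_succ, pow_succ, mul_kronecker_mul]

lemma isPGroup_zpowers {G : Type*} [Group G] {p : ℕ} {x : G} (h : x ^ p = 1) : IsPGroup p (Subgroup.zpowers x) := by
  rintro ⟨y, k, rfl⟩
  refine ⟨1, Subtype.ext ?_⟩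
  rw [pow_one]
  change (x ^ k) ^ p = 1
  rw [← zpow_natCast, ← _root_.zpow_mul, mul_comm, _root_.zpow_mul, zpow_natCast, h, _root_.one_zpow]

end uni

variable {a b : ℕ} {F : Type*} [Field F]

lemma IsRoot.pow_eq_one {p : ℕ} [CharP F p] {x : GL (Fin a × Fin b) F} (hx : IsRoot x) : x ^ p = 1 := by
  obtain ⟨w, ψ, hw, hψ, hψw, hxe⟩ := hx
  apply Units.ext
  rw [Units.val_pow_eq_pow_val, hxe, kron_pow, one_pow, uni_pow hψw, CharP.cast_eq_zero, zero_smul, vecMulVec_zero, add_zero,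
    one_kronecker_one, Units.val_one]

/-- the abelian `p`-group fixing only the line of `e₀ ⊗ e₀` -/
def baseP (S : Subgroup (GL (Fin a × Fin b) F)) (i₀ : Fin a) (j₀ : Fin b) : Subgroup S where
  carrier := {g | ∃ (φ : Fin a → F) (ψ : Fin b → F), φ i₀ = 0 ∧ ψ j₀ = 0 ∧
    ((g : GL (Fin a × Fin b) F) : Matrix (Fin a × Fin b) (Fin a × Fin b) F) =
      (1 + vecMulVec (Pi.single i₀ 1) φ) ⊗ₖ (1 + vecMulVec (Pi.single j₀ 1) ψ)}
  mul_mem' := by
    rintro g h ⟨φ, ψ, h1, h2, h3⟩ ⟨φ', ψ', h1', h2', h3'⟩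
    refine ⟨φ + φ', ψ + ψ', by simp [h1, h1'], by simp [h2, h2'], ?_⟩
    rw [Subgroup.coe_mul, Units.val_mul, h3, h3', ← mul_kronecker_mul, uni_mul (by simpa using h1), uni_mul (by simpa using h2)]
  one_mem' := ⟨0, 0, rfl, rfl, by simp⟩
  inv_mem' := by
    rintro g ⟨φ, ψ, h1, h2, h3⟩
    refine ⟨-φ, -ψ, by simp [h1], by simp [h2], ?_⟩
    have h4 : ((1 + vecMulVec (Pi.single i₀ 1) φ) ⊗ₖ (1 + vecMulVec (Pi.single j₀ 1) ψ)) *
        ((1 + vecMulVec (Pi.single i₀ 1) (-φ)) ⊗ₖ (1 + vecMulVec (Pi.single j₀ 1) (-ψ))) = (1 : Matrix (Fin a × Fin b) (Fin a × Fin b) F) := by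
      rw [← mul_kronecker_mul, uni_mul (by simpa using h1), uni_mul (by simpa using h2)]
      simp
    rw [← h3] at h4
    rw [Subgroup.coe_inv]
    exact (Units.inv_eq_of_mul_eq_one_right h4)

lemma baseP_isPGroup {p : ℕ} [CharP F p] (S : Subgroup (GL (Fin a × Fin b) F)) (i₀ : Fin a) (j₀ : Fin b) :
    IsPGroup p (baseP S i₀ j₀) := by
  rintro ⟨g, φ, ψ, h1, h2, h3⟩
  refine ⟨1, Subtype.ext (Subtype.ext (Units.ext ?_))⟩
  rw [pow_one]
  change ((g : GL (Fin a × Fin b) F) : Matrix (Fin a × Fin b) (Fin a × Fin b) F) ^ p = 1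
  rw [h3, kron_pow, uni_pow (by simpa using h1), uni_pow (by simpa using h2), CharP.cast_eq_zero, zero_smul, zero_smul,
    vecMulVec_zero, vecMulVec_zero, add_zero, add_zero, one_kronecker_one]

lemma kron_one_mulVec (A : Matrix (Fin a) (Fin a) F) (v : Fin a × Fin b → F) (i : Fin a) (j : Fin b) :
    ((A ⊗ₖ (1 : Matrix (Fin b) (Fin b) F)) *ᵥ v) (i, j) = ∑ k, A i k * v (k, j) := by
  rw [mulVec, dotProduct, Fintype.sum_prod_type]
  apply Finset.sum_congr rfl
  intro k _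
  rw [Finset.sum_eq_single j]
  · rw [kroneckerMap_apply, one_apply_eq, mul_one]
  · intro l _ hl
    rw [kroneckerMap_apply, one_apply_ne (Ne.symm hl), mul_zero, zero_mul]
  · simp

lemma one_kron_mulVec (B : Matrix (Fin b) (Fin b) F) (v : Fin a × Fin b → F) (i : Fin a) (j : Fin b) :
    (((1 : Matrix (Fin a) (Fin a) F) ⊗ₖ B) *ᵥ v) (i, j) = ∑ l, B j l * v (i, l) := by
  rw [mulVec, dotProduct, Fintype.sum_prod_type, Finset.sum_eq_single i]
  · apply Finset.sum_congr rfl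
    intro l _
    rw [kroneckerMap_apply, one_apply_eq, one_mul]
  · intro k _ hk
    apply Finset.sum_eq_zero; intro l _
    rw [kroneckerMap_apply, one_apply_ne (Ne.symm hk), zero_mul, zero_mul]
  · simp

/-- if the sum of two pure tensors is pure, they share a factor -/
lemma pure_add {u u' u'' : Fin a → F} {w w' w'' : Fin b → F} (hu : u ≠ 0) (hw : w ≠ 0)
    (h : tp u w + tp u' w' = tp u'' w'') : (∃ c : F, u' = c • u) ∨ (∃ c : F, w' = c • w) := by
  by_contra hcon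
  push Not at hcon
  obtain ⟨h1, h2⟩ := hcon
  -- separate by linear forms
  have s1 : u' ∉ Submodule.span F {u} := fun h3 => by
    obtain ⟨c, hc⟩ := Submodule.mem_span_singleton.1 h3
    exact h1 c hc.symm
  have s2 : w' ∉ Submodule.span F {w} := fun h3 => by
    obtain ⟨c, hc⟩ := Submodule.mem_span_singleton.1 h3
    exact h2 c hc.symm
  have s3 : u ∉ Submodule.span F {u'} := fun h3 => by
    obtain ⟨c, hc⟩ := Submodule.mem_span_singleton.1 h3
    have hc0 : c ≠ 0 := by rintro rfl; rw [zero_smul] at hc; exact hu hc.symm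
    apply h1 c⁻¹
    rw [← hc, smul_smul, inv_mul_cancel₀ hc0, one_smul]
  have s4 : w ∉ Submodule.span F {w'} := fun h3 => by
    obtain ⟨c, hc⟩ := Submodule.mem_span_singleton.1 h3
    have hc0 : c ≠ 0 := by rintro rfl; rw [zero_smul] at hc; exact hw hc.symm
    apply h2 c⁻¹
    rw [← hc, smul_smul, inv_mul_cancel₀ hc0, one_smul]
  obtain ⟨p1, hp1, hp1'⟩ := GeoMax.exists_dot_of_notMem s1
  obtain ⟨p2, hp2, hp2'⟩ := GeoMax.exists_dot_of_notMem s2
  obtain ⟨p3, hp3, hp3'⟩ := GeoMax.exists_dot_of_notMem s3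
  obtain ⟨p4, hp4, hp4'⟩ := GeoMax.exists_dot_of_notMem s4
  replace hp1 := hp1 _ (Submodule.mem_span_singleton_self _)
  replace hp2 := hp2 _ (Submodule.mem_span_singleton_self _)
  replace hp3 := hp3 _ (Submodule.mem_span_singleton_self _)
  replace hp4 := hp4 _ (Submodule.mem_span_singleton_self _)
  -- contraction
  have hcontr : ∀ (x : Fin a → F) (y : Fin b → F), (x ⬝ᵥ u) * (y ⬝ᵥ w) + (x ⬝ᵥ u') * (y ⬝ᵥ w') = (x ⬝ᵥ u'') * (y ⬝ᵥ w'') := by
    intro x y
    have e : ∀ (z : Fin a → F) (t : Fin b → F), (x ⬝ᵥ z) * (y ⬝ᵥ t) = ∑ i, ∑ j, x i * y j * tp z t (i, j) := by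
      intro z t
      rw [dotProduct, dotProduct, Finset.sum_mul_sum]
      apply Finset.sum_congr rfl; intro i _
      apply Finset.sum_congr rfl; intro j _
      simp only [tp]; ring
    rw [e, e, e, ← h, ← Finset.sum_add_distrib]
    apply Finset.sum_congr rfl; intro i _
    rw [← Finset.sum_add_distrib]
    apply Finset.sum_congr rfl; intro j _
    rw [Pi.add_apply]; ring
  have c12 := hcontr p1 p2
  have c34 := hcontr p3 p4
  have c14 := hcontr p1 p4
  have c32 := hcontr p3 p2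
  rw [hp1, hp2, zero_mul, zero_add] at c12
  rw [hp3, hp4, zero_mul, add_zero] at c34
  rw [hp1, hp4, zero_mul, mul_zero, add_zero] at c14
  rw [hp3, hp2, zero_mul, mul_zero, add_zero] at c32
  have k1 : p1 ⬝ᵥ u'' ≠ 0 := by
    intro h0; rw [h0, zero_mul] at c12; exact mul_ne_zero hp1' hp2' c12
  have k2 : p4 ⬝ᵥ w'' ≠ 0 := by
    intro h0; rw [h0, mul_zero] at c34; exact mul_ne_zero hp3' hp4' c34
  exact mul_ne_zero k1 k2 c14.symm

/-- The main theorem. -/
theorem tensor_overgroup [Finite F] (ha : 2 ≤ a) (hab : a < b) (hq : 3 ≤ a ∨ ∃ c : F, c ≠ 0 ∧ c ≠ 1)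
    {S : Subgroup (GL (Fin a × Fin b) F)} (hS : HasSL S) :
    specialLinear (Fin a × Fin b) F ≤ S ∨ S ≤ kroneckerSubgroup a b F := by
  have h3 : 3 ≤ b := by omega
  rcases hS.tset.coAlg_cases (by rwa [Fintype.card_fin]) (by rwa [Fintype.card_fin]) with hfull | hs
  · exact Or.inl (specialLinear_le_of_full (by omega) (by omega) hS hfull)
  right
  obtain ⟨p, hp⟩ := CharP.exists F
  haveI hpf : Fact p.Prime := ⟨(CharP.char_is_prime_or_zero F p).resolve_right (CharP.char_ne_zero_of_finite F p)⟩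
  haveI : Finite (GL (Fin a × Fin b) F) := inferInstance
  obtain ⟨i₀⟩ : Nonempty (Fin a) := ⟨⟨0, by omega⟩⟩
  obtain ⟨j₀⟩ : Nonempty (Fin b) := ⟨⟨0, by omega⟩⟩
  -- unique fixed points
  have hU : UniqueFix ((kroneckerSubgroup a b F).subgroupOf S) {x : S | IsRoot (x : GL (Fin a × Fin b) F)} := by
    constructor
    · rintro x ⟨w, ψ, hw, hψ, hψw, hxe⟩
      exact mem_kron_of_eq (by omega) (by omega) hxe
    · rintro x hx g hg
      exact mem_kron_of_conj_root (by omega) hab h3 hq hS hs g.2 hx hg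
  -- root elements fixing a given vector
  have hroot : ∀ v : Fin a × Fin b → F, ∃ x ∈ S, IsRoot x ∧ (x : Matrix _ _ F) *ᵥ v = v := by
    intro v
    -- a covector killed by v
    let L : (Fin b → F) →ₗ[F] (Fin a → F) :=
      { toFun := fun ψ i => ∑ j, v (i, j) * ψ j
        map_add' := by intro x y; ext i; simp [mul_add, Finset.sum_add_distrib]
        map_smul' := by intro c x; ext i; simp [Finset.mul_sum, mul_left_comm] }
    have hker : LinearMap.ker L ≠ ⊥ := by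
      intro h
      have h1 := LinearMap.finrank_range_add_finrank_ker L
      rw [h, finrank_bot, add_zero, finrank_fin_fun] at h1
      have h2 := Submodule.finrank_le (LinearMap.range L)
      rw [finrank_fin_fun] at h2
      omega
    obtain ⟨ψ, hψ, hψ0⟩ := Submodule.exists_mem_ne_zero_of_ne_bot hker
    obtain ⟨w, hw, hw0⟩ : ∃ w : Fin b → F, ψ ⬝ᵥ w = 0 ∧ w ≠ 0 := by
      obtain ⟨w, h1, h2⟩ := GeoMax.exists_dot_eq_zero_not_smul (F := F) (by rwa [Fintype.card_fin]) ψ 0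
      exact ⟨w, h1, fun h => h2 0 (by rw [h, zero_smul])⟩
    obtain ⟨x, hx, hxe⟩ := hS.right (1 + vecMulVec w ψ) (det_one_add_vecMulVec hw)
    replace hxe : (x : Matrix _ _ F) = (1 : Matrix (Fin a) (Fin a) F) ⊗ₖ (1 + vecMulVec w ψ) := hxe
    refine ⟨x, hx, ⟨w, ψ, hw0, hψ0, hw, hxe⟩, ?_⟩
    rw [hxe, kronecker_add, one_kronecker_one, add_mulVec, one_mulVec, one_kron_vecMulVec]
    have h0 : (fun i => ∑ j, v (i, j) * ψ j) = 0 := hψ
    rw [h0]
    ext x; simp [tp]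
  -- the Sylow subgroup
  obtain ⟨j₁, hj₁⟩ : ∃ j₁ : Fin b, j₁ ≠ j₀ := by
    haveI : Nontrivial (Fin b) := Fin.nontrivial_iff_two_le.2 (by omega)
    exact exists_ne j₀
  obtain ⟨x₀, hx₀, hx₀e⟩ := hS.right (1 + vecMulVec (Pi.single j₀ 1) (Pi.single j₁ 1)) (det_one_add_vecMulVec (by simp [hj₁]))
  replace hx₀e : (x₀ : Matrix _ _ F) = (1 : Matrix (Fin a) (Fin a) F) ⊗ₖ (1 + vecMulVec (Pi.single j₀ 1) (Pi.single j₁ 1)) := hx₀e
  have hx₀r : IsRoot x₀ := ⟨Pi.single j₀ 1, Pi.single j₁ 1, by simp, by simp, by simp [hj₁], hx₀e⟩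
  have hx₀P : (⟨x₀, hx₀⟩ : S) ∈ baseP S i₀ j₀ := ⟨0, Pi.single j₁ 1, rfl, by simp [Ne.symm hj₁], by
    rw [vecMulVec_zero, add_zero]; exact hx₀e⟩
  obtain ⟨P, hP, hP₀P, hPN, hPM⟩ := hU.exists_sylow (p := p) (x := ⟨x₀, hx₀⟩) hx₀r (baseP_isPGroup S i₀ j₀) hx₀P
  -- fixed vectors
  haveI : Nonempty (Fin a × Fin b) := ⟨(i₀, j₀)⟩
  have hPmap : IsPGroup p (P.map S.subtype) := hP.map S.subtype
  obtain ⟨v, hv0, hv⟩ := exists_fixed_vec (p := p) hPmap
  -- v is a multiple of e₀ ⊗ e₀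
  have hv1 : ∀ i j, i ≠ i₀ → v (i, j) = 0 := by
    intro i j hi
    obtain ⟨x, hx, hxe⟩ := hS.left (1 + vecMulVec (Pi.single i₀ 1) (Pi.single i 1)) (det_one_add_vecMulVec (by simp [hi]))
    replace hxe : (x : Matrix _ _ F) = (1 + vecMulVec (Pi.single i₀ 1) (Pi.single i 1)) ⊗ₖ (1 : Matrix (Fin b) (Fin b) F) := hxe
    have h1 : (⟨x, hx⟩ : S) ∈ baseP S i₀ j₀ := ⟨Pi.single i 1, 0, by simp [Ne.symm hi], rfl, by
      rw [vecMulVec_zero, add_zero]; exact hxe⟩
    have h2 := hv x ⟨⟨x, hx⟩, hP₀P h1, rfl⟩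
    rw [hxe, add_kronecker, one_kronecker_one, add_mulVec, one_mulVec] at h2
    have h4 := congrFun (add_eq_left.1 h2) (i₀, j)
    rw [kron_one_mulVec, Finset.sum_eq_single i (fun k _ hk => by simp [vecMulVec_apply, hk]) (by simp)] at h4
    simpa [vecMulVec_apply] using h4
  have hv2 : ∀ i j, j ≠ j₀ → v (i, j) = 0 := by
    intro i j hj
    obtain ⟨x, hx, hxe⟩ := hS.right (1 + vecMulVec (Pi.single j₀ 1) (Pi.single j 1)) (det_one_add_vecMulVec (by simp [hj]))
    replace hxe : (x : Matrix _ _ F) = (1 : Matrix (Fin a) (Fin a) F) ⊗ₖ (1 + vecMulVec (Pi.single j₀ 1) (Pi.single j 1)) := hxe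
    have h1 : (⟨x, hx⟩ : S) ∈ baseP S i₀ j₀ := ⟨0, Pi.single j 1, rfl, by simp [Ne.symm hj], by
      rw [vecMulVec_zero, add_zero]; exact hxe⟩
    have h2 := hv x ⟨⟨x, hx⟩, hP₀P h1, rfl⟩
    rw [hxe, kronecker_add, one_kronecker_one, add_mulVec, one_mulVec] at h2
    have h4 := congrFun (add_eq_left.1 h2) (i, j₀)
    rw [one_kron_mulVec, Finset.sum_eq_single j (fun k _ hk => by simp [vecMulVec_apply, hk]) (by simp)] at h4
    simpa [vecMulVec_apply] using h4
  set v1 : Fin a × Fin b → F := tp (Pi.single i₀ 1) (Pi.single j₀ 1) with hv1d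
  have hvv : v = v (i₀, j₀) • v1 := by
    ext ⟨i, j⟩
    rw [Pi.smul_apply, hv1d, tp, smul_eq_mul]
    by_cases hi : i = i₀
    · by_cases hj : j = j₀
      · subst hi; subst hj; simp
      · rw [hv2 i j hj]; simp [hj]
    · rw [hv1 i j hi]; simp [hi]
  have hc0 : v (i₀, j₀) ≠ 0 := by
    intro h; rw [h, zero_smul] at hvv; exact hv0 hvv
  have hPfix : ∀ y ∈ P, ((y : GL (Fin a × Fin b) F) : Matrix _ _ F) *ᵥ v1 = v1 := by
    intro y hy
    have h1 := hv (y : GL (Fin a × Fin b) F) ⟨y, hy, rfl⟩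
    rw [hvv, mulVec_smul] at h1
    exact smul_right_injective _ hc0 h1
  -- images of the base tensor are pure
  have hpure0 : ∀ g ∈ S, ∃ (u : Fin a → F) (w : Fin b → F), (g : Matrix _ _ F) *ᵥ v1 = tp u w := by
    intro g hg
    obtain ⟨x', hx', hx'r, hx'f⟩ := hroot ((g : Matrix _ _ F) *ᵥ v1)
    set v' : Fin a × Fin b → F := (g : Matrix (Fin a × Fin b) (Fin a × Fin b) F) *ᵥ v1 with hv'
    let M : Subgroup S :=
      { carrier := {h | ((h : GL (Fin a × Fin b) F) : Matrix (Fin a × Fin b) (Fin a × Fin b) F) *ᵥ v' = v'}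
        mul_mem' := by
          intro x y hx hy
          change (((x * y : S) : GL (Fin a × Fin b) F) : Matrix (Fin a × Fin b) (Fin a × Fin b) F) *ᵥ v' = v'
          rw [Subgroup.coe_mul, Units.val_mul, ← mulVec_mulVec, hy, hx]
        one_mem' := by
          change (((1 : S) : GL (Fin a × Fin b) F) : Matrix (Fin a × Fin b) (Fin a × Fin b) F) *ᵥ v' = v'
          rw [Subgroup.coe_one, Units.val_one, one_mulVec]
        inv_mem' := by
          intro x hx
          change (((x⁻¹ : S) : GL (Fin a × Fin b) F) : Matrix (Fin a × Fin b) (Fin a × Fin b) F) *ᵥ v' = v'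
          have hx2 : ((x : GL (Fin a × Fin b) F) : Matrix (Fin a × Fin b) (Fin a × Fin b) F) *ᵥ v' = v' := hx
          rw [Subgroup.coe_inv]
          nth_rewrite 1 [← hx2]
          exact gl_inv_mulVec' _ _ }
    obtain ⟨m, hm, hmg⟩ := hPM M ⟨g, hg⟩ (by
      intro y hy
      change (((⟨g, hg⟩ * y * (⟨g, hg⟩ : S)⁻¹ : S) : GL (Fin a × Fin b) F) : Matrix (Fin a × Fin b) (Fin a × Fin b) F) *ᵥ v' = v'
      rw [Subgroup.coe_mul, Subgroup.coe_mul, Subgroup.coe_inv, Units.val_mul, Units.val_mul, ← mulVec_mulVec, ← mulVec_mulVec, hv',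
        gl_inv_mulVec', hPfix y hy]) ⟨x', hx'⟩ hx'r hx'f (isPGroup_zpowers (Subtype.ext hx'r.pow_eq_one))
    obtain ⟨A, B, hAB⟩ := hmg
    have hm2 : ((m : GL (Fin a × Fin b) F) : Matrix (Fin a × Fin b) (Fin a × Fin b) F) *ᵥ v' = v' := hm
    refine ⟨(A : Matrix _ _ F) *ᵥ Pi.single i₀ 1, (B : Matrix _ _ F) *ᵥ Pi.single j₀ 1, ?_⟩
    rw [← hm2, hv', mulVec_mulVec, ← Units.val_mul, ← kron_tp, ← hAB]
    rfl
  have hei : (Pi.single i₀ (1 : F) : Fin a → F) ≠ 0 := by intro h; have := congrFun h i₀; simp at this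
  have hej : (Pi.single j₀ (1 : F) : Fin b → F) ≠ 0 := by intro h; have := congrFun h j₀; simp at this
  have hpure : ∀ g ∈ S, ∀ (u : Fin a → F) (w : Fin b → F), ∃ (u' : Fin a → F) (w' : Fin b → F),
      (g : Matrix _ _ F) *ᵥ tp u w = tp u' w' := by
    intro g hg u w
    by_cases hu : u = 0
    · refine ⟨0, 0, ?_⟩
      have e1 : tp u w = 0 := by rw [hu]; ext x; simp [tp]
      have e2 : tp (0 : Fin a → F) (0 : Fin b → F) = 0 := by ext x; simp [tp]
      rw [e1, e2, mulVec_zero]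
    by_cases hw : w = 0
    · refine ⟨0, 0, ?_⟩
      have e1 : tp u w = 0 := by rw [hw]; ext x; simp [tp]
      have e2 : tp (0 : Fin a → F) (0 : Fin b → F) = 0 := by ext x; simp [tp]
      rw [e1, e2, mulVec_zero]
    obtain ⟨A, hA, hAu⟩ := exists_det_one ha hei hu
    obtain ⟨B, hB, hBw⟩ := exists_det_one (by omega) hej hw
    obtain ⟨kA, hkA, hkA'⟩ := hS.left A hA
    obtain ⟨kB, hkB, hkB'⟩ := hS.right B hB
    replace hkA' : (kA : Matrix _ _ F) = A ⊗ₖ (1 : Matrix (Fin b) (Fin b) F) := hkA'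
    replace hkB' : (kB : Matrix _ _ F) = (1 : Matrix (Fin a) (Fin a) F) ⊗ₖ B := hkB'
    obtain ⟨u', w', h⟩ := hpure0 (g * (kA * kB)) (S.mul_mem hg (S.mul_mem hkA hkB))
    refine ⟨u', w', ?_⟩
    rw [← h, Units.val_mul, Units.val_mul, ← mulVec_mulVec, ← mulVec_mulVec, hkA', hkB', hv1d, kron_tp, kron_tp, one_mulVec,
      one_mulVec, hAu, hBw]
  -- conclusion
  intro g hg
  obtain ⟨u1, w1, hg1⟩ := hpure0 g hg
  have hg1' : tp u1 w1 ≠ 0 := by
    rw [← hg1]
    intro h0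
    have h5 : (g : Matrix (Fin a × Fin b) (Fin a × Fin b) F) *ᵥ v1 = (g : Matrix (Fin a × Fin b) (Fin a × Fin b) F) *ᵥ 0 := by
      rw [h0, mulVec_zero]
    exact tp_ne_zero hei hej (GeoMax.gl_mulVec_injective g h5)
  obtain ⟨hu1, hw1⟩ := ne_zero_of_tp hg1'
  -- images of tensors sharing a factor
  have hshare : ∀ (u : Fin a → F) (w : Fin b → F), (∃ u2 w2, tp u w + v1 = tp u2 w2) →
      (g : Matrix _ _ F) *ᵥ tp u w ∈ LinearMap.range (tpL (b := b) u1) ∨
      (g : Matrix _ _ F) *ᵥ tp u w ∈ LinearMap.range (tpR (a := a) w1) := by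
    rintro u w ⟨u2, w2, h⟩
    obtain ⟨u', w', h1⟩ := hpure g hg u w
    obtain ⟨u'', w'', h2⟩ := hpure g hg u2 w2
    rw [← h, mulVec_add, h1, hg1, add_comm] at h2
    rcases pure_add hu1 hw1 h2 with ⟨c, hc⟩ | ⟨c, hc⟩
    · left
      rw [h1, hc]
      exact ⟨c • w', by ext x; simp [tpL_apply, tp]; ring⟩
    · right
      rw [h1, hc]
      exact ⟨c • u', by ext x; simp [tpR_apply, tp]; ring⟩
  -- a subspace in the union
  have hunion : ∀ (X : Submodule F (Fin a × Fin b → F)), (∀ x ∈ X, x ∈ LinearMap.range (tpL (b := b) u1) ∨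
      x ∈ LinearMap.range (tpR (a := a) w1)) → X ≤ LinearMap.range (tpL (b := b) u1) ∨ X ≤ LinearMap.range (tpR (a := a) w1) := by
    intro X hX
    by_contra hcon
    rw [not_or, SetLike.not_le_iff_exists, SetLike.not_le_iff_exists] at hcon
    obtain ⟨⟨x, hx, hx1⟩, ⟨y, hy, hy1⟩⟩ := hcon
    have hx2 := (hX x hx).resolve_left hx1
    have hy2 := (hX y hy).resolve_right hy1
    rcases hX (x + y) (X.add_mem hx hy) with h | h
    · exact hx1 (by simpa using Submodule.sub_mem _ h hy2)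
    · exact hy1 (by simpa using Submodule.sub_mem _ h hx2)
  have hinj : Function.Injective (toLin' (g : Matrix (Fin a × Fin b) (Fin a × Fin b) F)) := fun u v huv =>
    GeoMax.gl_mulVec_injective g huv
  have hfr : ∀ X : Submodule F (Fin a × Fin b → F), finrank F (X.map (toLin' (g : Matrix (Fin a × Fin b) (Fin a × Fin b) F))) = finrank F X :=
    fun X => (LinearEquiv.finrank_eq (Submodule.equivMapOfInjective _ hinj X)).symm
  -- the image of the `L`-subspace
  have hL : (LinearMap.range (tpL (b := b) (Pi.single i₀ (1 : F) : Fin a → F))).map (toLin' (g : Matrix _ _ F)) =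
      LinearMap.range (tpL (b := b) u1) := by
    have h1 : (LinearMap.range (tpL (b := b) (Pi.single i₀ (1 : F) : Fin a → F))).map (toLin' (g : Matrix _ _ F)) ≤
        LinearMap.range (tpL (b := b) u1) := by
      refine (hunion _ ?_).resolve_right ?_
      · rintro _ ⟨_, ⟨w, rfl⟩, rfl⟩
        exact hshare _ w ⟨Pi.single i₀ 1, w + Pi.single j₀ 1, by ext x; simp [tp, hv1d, mul_add]⟩
      · intro h2
        have h3 := Submodule.finrank_mono h2
        rw [hfr, finrank_tpL hei, finrank_tpR hw1] at h3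
        omega
    exact Submodule.eq_of_le_of_finrank_eq h1 (by rw [hfr, finrank_tpL hei, finrank_tpL hu1])
  have hR : (LinearMap.range (tpR (a := a) (Pi.single j₀ (1 : F) : Fin b → F))).map (toLin' (g : Matrix _ _ F)) =
      LinearMap.range (tpR (a := a) w1) := by
    have h1 : (LinearMap.range (tpR (a := a) (Pi.single j₀ (1 : F) : Fin b → F))).map (toLin' (g : Matrix _ _ F)) ≤
        LinearMap.range (tpR (a := a) w1) := by
      refine (hunion _ ?_).resolve_left ?_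
      · rintro _ ⟨_, ⟨u, rfl⟩, rfl⟩
        exact hshare u _ ⟨u + Pi.single i₀ 1, Pi.single j₀ 1, by ext x; simp [tp, hv1d, add_mul]⟩
      · intro h2
        rw [← hL] at h2
        have h3 := (Submodule.map_le_map_iff_of_injective hinj _ _).1 h2
        obtain ⟨i₁, hi₁⟩ : ∃ i₁ : Fin a, i₁ ≠ i₀ := by
          haveI : Nontrivial (Fin a) := Fin.nontrivial_iff_two_le.2 ha
          exact exists_ne i₀
        obtain ⟨w, hw⟩ := h3 (show tp (Pi.single i₁ (1 : F)) (Pi.single j₀ 1) ∈ _ from ⟨Pi.single i₁ 1, rfl⟩)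
        have h4 := congrFun hw (i₁, j₀)
        simp [tpL_apply, tp, hi₁] at h4
    exact Submodule.eq_of_le_of_finrank_eq h1 (by rw [hfr, finrank_tpR hej, finrank_tpR hw1])
  exact mem_kron_of_map (by omega) h3 hq hS hs hg hej hw1 hR

end Cfsg.Agent.Asch.TMax
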