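import Mathlib
import Cfsg.Prelude.Def_GeometricClasses
import Cfsg.Agent.Asch.TMaxThm
set_option autoImplicit false
set_option linter.unusedSectionVars false
set_option linter.style.haveILetI false

/-!
General steps for overgroups of tensor product groups acting on `U ⊗ W`, `dim U < dim W`.
-/

namespace Cfsg.Agent.Asch.TMax

open Cfsg.Geo Matrix Module

open Cfsg.Agent.AschCases (tp kron_tp)

open scoped Matrix Kronecker MatrixGroups

variable {a b : ℕ} {F : Type*} [Field F]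

lemma tp_single (i : Fin a) (j : Fin b) : tp (Pi.single i (1 : F)) (Pi.single j 1) = (Pi.single (i, j) 1 : Fin a × Fin b → F) := by
  ext ⟨x, y⟩
  simp only [tp, Pi.single_apply, Prod.mk.injEq]
  by_cases hx : x = i <;> by_cases hy : y = j <;> simp [hx, hy]

/-- If `g x g⁻¹` is a Kronecker product, for a root element `x` centred at `w`, then `g` maps `U ⊗ w` to some `U ⊗ w'`. -/
lemma exists_map_of_conj_root (ha : 1 ≤ a) (hab : a < b)
    {g x : GL (Fin a × Fin b) F} {w ψ : Fin b → F} (hw : w ≠ 0) (hψ : ψ ≠ 0)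
    (hxe : (x : Matrix _ _ F) = (1 : Matrix (Fin a) (Fin a) F) ⊗ₖ (1 + vecMulVec w ψ))
    (h : g * x * g⁻¹ ∈ kroneckerSubgroup a b F) : ∃ w' : Fin b → F, w' ≠ 0 ∧
      (LinearMap.range (tpR (a := a) w)).map (toLin' (g : Matrix _ _ F)) = LinearMap.range (tpR (a := a) w') := by
  obtain ⟨A, B, hAB⟩ := h
  set y := g * x * g⁻¹ with hy
  -- the range of `y - 1`
  have hx1 : ∀ v : Fin a × Fin b → F, (x : Matrix _ _ F) *ᵥ v - v = tp (fun i => ∑ j, v (i, j) * ψ j) w := by
    intro v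
    rw [hxe, kronecker_add, one_kronecker_one, add_mulVec, one_mulVec, one_kron_vecMulVec, add_sub_cancel_left]
  have hy1 : ∀ v : Fin a × Fin b → F, (y : Matrix (Fin a × Fin b) (Fin a × Fin b) F) *ᵥ v - v =
      (g : Matrix (Fin a × Fin b) (Fin a × Fin b) F) *ᵥ ((x : Matrix (Fin a × Fin b) (Fin a × Fin b) F) *ᵥ
        (((g⁻¹ : GL (Fin a × Fin b) F) : Matrix (Fin a × Fin b) (Fin a × Fin b) F) *ᵥ v)
      - ((g⁻¹ : GL (Fin a × Fin b) F) : Matrix (Fin a × Fin b) (Fin a × Fin b) F) *ᵥ v) := by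
    intro v
    rw [mulVec_sub, gl_mulVec_inv', hy, Units.val_mul, Units.val_mul, ← mulVec_mulVec, ← mulVec_mulVec]
  have hrange : ∀ v : Fin a × Fin b → F, (y : Matrix _ _ F) *ᵥ v - v ∈ (LinearMap.range (tpR (a := a) w)).map (toLin' (g : Matrix _ _ F)) := by
    intro v
    rw [hy1, hx1]
    exact Submodule.mem_map_of_mem (f := toLin' (g : Matrix (Fin a × Fin b) (Fin a × Fin b) F))
      (p := LinearMap.range (tpR (a := a) w)) (mem_range_tpR.2 ⟨_, rfl⟩)
  have hfr : finrank F ((LinearMap.range (tpR (a := a) w)).map (toLin' (g : Matrix (Fin a × Fin b) (Fin a × Fin b) F))) = a := by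
    rw [← LinearEquiv.finrank_eq (Submodule.equivMapOfInjective (toLin' (g : Matrix (Fin a × Fin b) (Fin a × Fin b) F))
      (fun u v huv => GeoMax.gl_mulVec_injective g huv) (LinearMap.range (tpR (a := a) w)))]
    exact finrank_tpR hw
  by_cases hsc : ∃ c : F, (A : Matrix (Fin a) (Fin a) F) = c • (1 : Matrix (Fin a) (Fin a) F)
  swap
  · exfalso
    obtain ⟨u, hu⟩ := exists_not_eigen hsc
    have hu0 : u ≠ 0 := by
      rintro rfl
      exact hu 0 (by rw [mulVec_zero, smul_zero])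
    -- an injective map into the range
    let φ : (Fin b → F) →ₗ[F] (Fin a × Fin b → F) := (toLin' (y : Matrix _ _ F) - LinearMap.id) ∘ₗ tpL u
    have hφ : ∀ z, φ z = tp ((A : Matrix _ _ F) *ᵥ u) ((B : Matrix _ _ F) *ᵥ z) - tp u z := by
      intro z
      change (y : Matrix _ _ F) *ᵥ tp u z - tp u z = _
      rw [hAB, kron_tp]
    have hinj : Function.Injective φ := by
      rw [← LinearMap.ker_eq_bot, LinearMap.ker_eq_bot']
      intro z hz
      by_contra hz0
      rw [hφ, sub_eq_zero] at hz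
      obtain ⟨j, hj⟩ := Function.ne_iff.1 hz0
      rw [Pi.zero_apply] at hj
      have h1 : ∀ i, ((A : Matrix _ _ F) *ᵥ u) i * ((B : Matrix _ _ F) *ᵥ z) j = u i * z j := fun i => congrFun hz (i, j)
      have h2 : ((B : Matrix _ _ F) *ᵥ z) j ≠ 0 := by
        intro h0
        obtain ⟨i, hi⟩ := Function.ne_iff.1 hu0
        have := h1 i
        rw [h0, mul_zero] at this
        exact (mul_ne_zero hi hj) this.symm
      apply hu (z j / ((B : Matrix _ _ F) *ᵥ z) j)
      ext i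
      rw [Pi.smul_apply, smul_eq_mul]
      field_simp
      rw [h1 i]; ring
    have hle : LinearMap.range φ ≤ (LinearMap.range (tpR (a := a) w)).map (toLin' (g : Matrix _ _ F)) := by
      rintro _ ⟨z, rfl⟩
      exact hrange (tp u z)
    have h5 := Submodule.finrank_mono hle
    rw [hfr, LinearMap.finrank_range_of_inj hinj, finrank_fin_fun] at h5
    omega
  obtain ⟨c, hc⟩ := hsc
  -- the difference on pure tensors
  have hy2 : ∀ (u : Fin a → F) (z : Fin b → F), (y : Matrix _ _ F) *ᵥ tp u z - tp u z = tp u (c • (B : Matrix _ _ F) *ᵥ z - z) := by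
    intro u z
    rw [hAB, kron_tp, hc, smul_mulVec, one_mulVec]
    ext ⟨i, j⟩
    simp only [tp, Pi.sub_apply, Pi.smul_apply, smul_eq_mul]
    ring
  obtain ⟨z, hz⟩ : ∃ z : Fin b → F, c • (B : Matrix _ _ F) *ᵥ z - z ≠ 0 := by
    by_contra hcon
    push Not at hcon
    -- then y = 1
    have hy3 : ∀ (u : Fin a → F) (z : Fin b → F), (y : Matrix _ _ F) *ᵥ tp u z = tp u z := by
      intro u z
      have := hy2 u z
      rw [hcon z] at this
      have h0 : tp u (0 : Fin b → F) = 0 := by ext x; simp [tp]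
      rw [h0] at this
      exact sub_eq_zero.1 this
    have hy4 : y = 1 := by
      apply Units.ext
      apply Matrix.ext_of_mulVec_single
      rintro ⟨i, j⟩
      rw [Units.val_one, one_mulVec, ← tp_single, hy3]
    have hx2 : x = 1 := by
      have : x = g⁻¹ * y * g := by rw [hy]; group
      rw [this, hy4]; group
    obtain ⟨j, hj⟩ := Function.ne_iff.1 hψ
    rw [Pi.zero_apply] at hj
    have h6 := hx1 (tp (fun _ => 1) (Pi.single j 1))
    rw [hx2, Units.val_one, one_mulVec, sub_self] at h6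
    have h7 : (fun i : Fin a => ∑ l, tp (fun _ : Fin a => (1 : F)) (Pi.single j 1) (i, l) * ψ l) = fun _ => ψ j := by
      ext i
      simp [tp, Pi.single_apply]
    rw [h7] at h6
    refine tp_ne_zero (a := a) ?_ hw h6.symm
    intro h8
    exact hj (congrFun h8 ⟨0, ha⟩)
  set w' := c • (B : Matrix _ _ F) *ᵥ z - z with hw'
  have hle : LinearMap.range (tpR (a := a) w') ≤ (LinearMap.range (tpR (a := a) w)).map (toLin' (g : Matrix _ _ F)) := by
    rintro _ ⟨u, rfl⟩
    rw [tpR_apply, hw', ← hy2]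
    exact hrange _
  have heq := Submodule.eq_of_le_of_finrank_eq hle (by rw [hfr, finrank_tpR hz])
  exact ⟨w', hz, heq.symm⟩

/-- An invertible map preserving pure tensors permutes the subspaces `U ⊗ w`. -/
lemma exists_map_of_pure (ha : 2 ≤ a) (hab : a < b) {g : GL (Fin a × Fin b) F}
    (hpure : ∀ (u : Fin a → F) (w : Fin b → F), ∃ (u' : Fin a → F) (w' : Fin b → F), (g : Matrix _ _ F) *ᵥ tp u w = tp u' w')
    {w₀ : Fin b → F} (hw₀ : w₀ ≠ 0) : ∃ w' : Fin b → F, w' ≠ 0 ∧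
      (LinearMap.range (tpR (a := a) w₀)).map (toLin' (g : Matrix _ _ F)) = LinearMap.range (tpR (a := a) w') := by
  haveI : Nontrivial (Fin a) := Fin.nontrivial_iff_two_le.2 ha
  obtain ⟨i₀⟩ : Nonempty (Fin a) := ⟨⟨0, by omega⟩⟩
  set u₀ : Fin a → F := Pi.single i₀ 1 with hu₀d
  have hei : u₀ ≠ 0 := by intro h; have := congrFun h i₀; simp [hu₀d] at this
  obtain ⟨u1, w1, hg1⟩ := hpure u₀ w₀
  have hg1' : tp u1 w1 ≠ 0 := by
    rw [← hg1]
    intro h0
    have h5 : (g : Matrix (Fin a × Fin b) (Fin a × Fin b) F) *ᵥ tp u₀ w₀ = (g : Matrix (Fin a × Fin b) (Fin a × Fin b) F) *ᵥ 0 := by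
      rw [h0, mulVec_zero]
    exact tp_ne_zero hei hw₀ (GeoMax.gl_mulVec_injective g h5)
  obtain ⟨hu1, hw1⟩ := ne_zero_of_tp hg1'
  -- images of tensors sharing a factor
  have hshare : ∀ (u : Fin a → F) (w : Fin b → F), (∃ u2 w2, tp u w + tp u₀ w₀ = tp u2 w2) →
      (g : Matrix _ _ F) *ᵥ tp u w ∈ LinearMap.range (tpL (b := b) u1) ∨
      (g : Matrix _ _ F) *ᵥ tp u w ∈ LinearMap.range (tpR (a := a) w1) := by
    rintro u w ⟨u2, w2, h⟩
    obtain ⟨u', w', h1⟩ := hpure u w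
    obtain ⟨u'', w'', h2⟩ := hpure u2 w2
    rw [← h, mulVec_add, h1, hg1, add_comm] at h2
    rcases pure_add hu1 hw1 h2 with ⟨c, hc⟩ | ⟨c, hc⟩
    · left
      rw [h1, hc]
      exact ⟨c • w', by ext x; simp [tpL_apply, tp]; ring⟩
    · right
      rw [h1, hc]
      exact ⟨c • u', by ext x; simp [tpR_apply, tp]; ring⟩
  -- a subspace in the union
  have hunion : ∀ (X : Submodule F (Fin a × Fin b → F)), (∀ x ∈ X, x ∈ LinearMap.range (tpL (b := b) u1) ∨
      x ∈ LinearMap.range (tpR (a := a) w1)) → X ≤ LinearMap.range (tpL (b := b) u1) ∨ X ≤ LinearMap.range (tpR (a := a) w1) := by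
    intro X hX
    by_contra hcon
    rw [not_or, SetLike.not_le_iff_exists, SetLike.not_le_iff_exists] at hcon
    obtain ⟨⟨x, hx, hx1⟩, ⟨y, hy, hy1⟩⟩ := hcon
    have hx2 := (hX x hx).resolve_left hx1
    have hy2 := (hX y hy).resolve_right hy1
    rcases hX (x + y) (X.add_mem hx hy) with h | h
    · exact hx1 (by simpa using Submodule.sub_mem _ h hy2)
    · exact hy1 (by simpa using Submodule.sub_mem _ h hx2)
  have hinj : Function.Injective (toLin' (g : Matrix (Fin a × Fin b) (Fin a × Fin b) F)) := fun u v huv =>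
    GeoMax.gl_mulVec_injective g huv
  have hfr : ∀ X : Submodule F (Fin a × Fin b → F), finrank F (X.map (toLin' (g : Matrix (Fin a × Fin b) (Fin a × Fin b) F))) = finrank F X :=
    fun X => (LinearEquiv.finrank_eq (Submodule.equivMapOfInjective _ hinj X)).symm
  -- the image of the `L`-subspace
  have hL : (LinearMap.range (tpL (b := b) u₀)).map (toLin' (g : Matrix _ _ F)) =
      LinearMap.range (tpL (b := b) u1) := by
    have h1 : (LinearMap.range (tpL (b := b) u₀)).map (toLin' (g : Matrix _ _ F)) ≤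
        LinearMap.range (tpL (b := b) u1) := by
      refine (hunion _ ?_).resolve_right ?_
      · rintro _ ⟨_, ⟨w, rfl⟩, rfl⟩
        exact hshare _ w ⟨u₀, w + w₀, by ext x; simp [tp, mul_add]⟩
      · intro h2
        have h3 := Submodule.finrank_mono h2
        rw [hfr, finrank_tpL hei, finrank_tpR hw1] at h3
        omega
    exact Submodule.eq_of_le_of_finrank_eq h1 (by rw [hfr, finrank_tpL hei, finrank_tpL hu1])
  have h1 : (LinearMap.range (tpR (a := a) w₀)).map (toLin' (g : Matrix _ _ F)) ≤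
      LinearMap.range (tpR (a := a) w1) := by
    refine (hunion _ ?_).resolve_left ?_
    · rintro _ ⟨_, ⟨u, rfl⟩, rfl⟩
      exact hshare u _ ⟨u + u₀, w₀, by ext x; simp [tp, add_mul]⟩
    · intro h2
      rw [← hL] at h2
      have h3 := (Submodule.map_le_map_iff_of_injective hinj _ _).1 h2
      obtain ⟨i₁, hi₁⟩ : ∃ i₁ : Fin a, i₁ ≠ i₀ := exists_ne i₀
      obtain ⟨w, hw⟩ := h3 (show tp (Pi.single i₁ (1 : F)) w₀ ∈ _ from ⟨Pi.single i₁ 1, rfl⟩)
      obtain ⟨j, hj⟩ := Function.ne_iff.1 hw₀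
      have h4 := congrFun hw (i₁, j)
      rw [Pi.zero_apply] at hj
      simp [tpL_apply, tp, hi₁, hu₀d] at h4
      exact hj h4.symm
  exact ⟨w1, hw1, Submodule.eq_of_le_of_finrank_eq h1 (by rw [hfr, finrank_tpR hw₀, finrank_tpR hw1])⟩

/-- The transfer argument for vectors. -/
theorem exists_pure_of_sylow [Finite F] {p : ℕ} [hpf : Fact p.Prime] [CharP F p] {S : Subgroup (GL (Fin a × Fin b) F)}
    {T : Set S} (hU : UniqueFix ((kroneckerSubgroup a b F).subgroupOf S) T) (hT : ∀ x ∈ T, x ^ p = 1)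
    {P₀ : Subgroup S} (hP₀ : IsPGroup p P₀) {x₀ : S} (hx₀ : x₀ ∈ T) (hx₀P : x₀ ∈ P₀) {u₀ : Fin a → F} {w₀ : Fin b → F}
    (hu₀ : u₀ ≠ 0) (hw₀ : w₀ ≠ 0)
    (hfix : ∀ v : Fin a × Fin b → F, (∀ y ∈ P₀, ((y : GL (Fin a × Fin b) F) : Matrix _ _ F) *ᵥ v = v) → ∃ c : F, v = c • tp u₀ w₀)
    (hroot : ∀ v : Fin a × Fin b → F, ∃ x ∈ T, ((x : GL (Fin a × Fin b) F) : Matrix _ _ F) *ᵥ v = v) :
    ∀ g ∈ S, ∃ (u : Fin a → F) (w : Fin b → F), (g : Matrix _ _ F) *ᵥ tp u₀ w₀ = tp u w := by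
  haveI : Finite (GL (Fin a × Fin b) F) := inferInstance
  obtain ⟨P, hP, hP₀P, hPN, hPM⟩ := hU.exists_sylow (p := p) (x := x₀) hx₀ hP₀ hx₀P
  have hne : Nonempty (Fin a × Fin b) := by
    obtain ⟨i, _⟩ := Function.ne_iff.1 hu₀
    obtain ⟨j, _⟩ := Function.ne_iff.1 hw₀
    exact ⟨(i, j)⟩
  have hPmap : IsPGroup p (P.map S.subtype) := hP.map S.subtype
  obtain ⟨v, hv0, hv⟩ := exists_fixed_vec (p := p) hPmap
  set v1 : Fin a × Fin b → F := tp u₀ w₀ with hv1d
  obtain ⟨c, hvv⟩ := hfix v (fun y hy => hv y ⟨y, hP₀P hy, rfl⟩)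
  have hc0 : c ≠ 0 := by
    intro h; rw [h, zero_smul] at hvv; exact hv0 hvv
  have hPfix : ∀ y ∈ P, ((y : GL (Fin a × Fin b) F) : Matrix _ _ F) *ᵥ v1 = v1 := by
    intro y hy
    have h1 := hv (y : GL (Fin a × Fin b) F) ⟨y, hy, rfl⟩
    rw [hvv, mulVec_smul] at h1
    exact smul_right_injective _ hc0 h1
  intro g hg
  obtain ⟨x', hx'r, hx'f⟩ := hroot ((g : Matrix _ _ F) *ᵥ v1)
  set v' : Fin a × Fin b → F := (g : Matrix (Fin a × Fin b) (Fin a × Fin b) F) *ᵥ v1 with hv'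
  let M : Subgroup S :=
    { carrier := {h | ((h : GL (Fin a × Fin b) F) : Matrix (Fin a × Fin b) (Fin a × Fin b) F) *ᵥ v' = v'}
      mul_mem' := by
        intro x y hx hy
        change (((x * y : S) : GL (Fin a × Fin b) F) : Matrix (Fin a × Fin b) (Fin a × Fin b) F) *ᵥ v' = v'
        rw [Subgroup.coe_mul, Units.val_mul, ← mulVec_mulVec, hy, hx]
      one_mem' := by
        change (((1 : S) : GL (Fin a × Fin b) F) : Matrix (Fin a × Fin b) (Fin a × Fin b) F) *ᵥ v' = v'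
        rw [Subgroup.coe_one, Units.val_one, one_mulVec]
      inv_mem' := by
        intro x hx
        change (((x⁻¹ : S) : GL (Fin a × Fin b) F) : Matrix (Fin a × Fin b) (Fin a × Fin b) F) *ᵥ v' = v'
        have hx2 : ((x : GL (Fin a × Fin b) F) : Matrix (Fin a × Fin b) (Fin a × Fin b) F) *ᵥ v' = v' := hx
        rw [Subgroup.coe_inv]
        nth_rewrite 1 [← hx2]
        exact gl_inv_mulVec' _ _ }
  obtain ⟨m, hm, hmg⟩ := hPM M ⟨g, hg⟩ (by
    intro y hy
    change (((⟨g, hg⟩ * y * (⟨g, hg⟩ : S)⁻¹ : S) : GL (Fin a × Fin b) F) : Matrix (Fin a × Fin b) (Fin a × Fin b) F) *ᵥ v' = v'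
    rw [Subgroup.coe_mul, Subgroup.coe_mul, Subgroup.coe_inv, Units.val_mul, Units.val_mul, ← mulVec_mulVec, ← mulVec_mulVec, hv',
      gl_inv_mulVec', hPfix y hy]) x' hx'r hx'f (isPGroup_zpowers (hT x' hx'r))
  obtain ⟨A, B, hAB⟩ := hmg
  have hm2 : ((m : GL (Fin a × Fin b) F) : Matrix (Fin a × Fin b) (Fin a × Fin b) F) *ᵥ v' = v' := hm
  refine ⟨(A : Matrix _ _ F) *ᵥ u₀, (B : Matrix _ _ F) *ᵥ w₀, ?_⟩
  rw [← hm2, hv', mulVec_mulVec, ← Units.val_mul, ← kron_tp, ← hAB]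
  rfl

end Cfsg.Agent.Asch.TMax
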