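import Mathlib
import Cfsg.Prelude.Def_GeometricClasses
import Cfsg.Agent.Asch.TMaxSub
import Cfsg.Agent.Asch.TMaxFinal
import Cfsg.Agent.GeoMax.SympPair
set_option autoImplicit false
set_option linter.unusedSectionVars false
set_option linter.style.haveILetI false

/-!
Subalgebras of a matrix algebra invariant under symplectic transvections.
-/

namespace Cfsg.Agent.Asch.TMax

open Cfsg.Geo Matrix Module

open Cfsg.Agent.GeoMax (isoGL formVec formVec_dotProduct tvec gl_mul_mulVec)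

open Cfsg.Agent.GeoMax.Symp

open scoped Matrix Kronecker MatrixGroups

variable {ι : Type} [Fintype ι] [DecidableEq ι] {F : Type*} [Field F] {f : (ι → F) → (ι → F) → F}

/-- the rank one matrix `x ↦ f(x, v) u` -/
def rk (f : (ι → F) → (ι → F) → F) (u v : ι → F) : Matrix ι ι F := vecMulVec u (formVec f v)

lemma rk_mulVec (hf : IsSymplecticForm f) (u v x : ι → F) : rk f u v *ᵥ x = f x v • u := by
  rw [rk, vecMulVec_mulVec, formVec_dotProduct (linLeft hf)]
  ext i; simp [mul_comm]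

lemma mat_ext {A B : Matrix ι ι F} (h : ∀ x, A *ᵥ x = B *ᵥ x) : A = B := by
  apply Matrix.ext_of_mulVec_single
  intro i
  exact h _

lemma rk_mul_rk (hf : IsSymplecticForm f) (u v u' v' : ι → F) : rk f u v * rk f u' v' = f u' v • rk f u v' := by
  apply mat_ext
  intro x
  rw [← mulVec_mulVec, rk_mulVec hf, rk_mulVec hf, smul_mulVec, rk_mulVec hf, smul_left hf, smul_smul, mul_comm]

/-- `A'` is the adjoint of `A` -/
def IsAdj (f : (ι → F) → (ι → F) → F) (A A' : Matrix ι ι F) : Prop := ∀ x y, f (A *ᵥ x) y = f x (A' *ᵥ y)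

lemma exists_isAdj (hf : IsSymplecticForm f) (A : Matrix ι ι F) : ∃ A', IsAdj f A A' := by
  let L : (ι → F) →ₗ[F] (ι → F) := (formEquiv hf).symm.toLinearMap ∘ₗ (toLin' Aᵀ) ∘ₗ (formEquiv hf).toLinearMap
  refine ⟨LinearMap.toMatrix' L, fun x y => ?_⟩
  rw [← toLin'_apply (LinearMap.toMatrix' L), toLin'_toMatrix']
  change _ = f x ((formEquiv hf).symm (Aᵀ *ᵥ (formEquiv hf y)))
  have h := f_formEquiv_symm hf x (Aᵀ *ᵥ (formEquiv hf y))
  rw [h, formEquiv_apply, ← formVec_dotProduct (linLeft hf), mulVec_transpose, dotProduct_mulVec]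

lemma IsAdj.symm (hf : IsSymplecticForm f) {A A' : Matrix ι ι F} (h : IsAdj f A A') : IsAdj f A' A := by
  intro x y
  rw [skew hf, ← h, skew hf, neg_neg]

lemma right_ext (hf : IsSymplecticForm f) {x y : ι → F} (h : ∀ z, f z x = f z y) : x = y := by
  rw [← sub_eq_zero]
  apply eq_zero_of_forall hf
  intro z
  rw [skew hf, sub_right hf, h, sub_self, neg_zero]

lemma IsAdj.unique (hf : IsSymplecticForm f) {A A' A'' : Matrix ι ι F} (h : IsAdj f A A') (h' : IsAdj f A A'') : A' = A'' := by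
  apply mat_ext
  intro y
  apply right_ext hf
  intro z
  rw [← h, ← h']

lemma isAdj_rk (hf : IsSymplecticForm f) (u v : ι → F) : IsAdj f (rk f u v) (- rk f v u) := by
  intro x y
  rw [rk_mulVec hf, smul_left hf, neg_mulVec, rk_mulVec hf, neg_right hf, smul_right hf, skew hf u y]
  ring

lemma isAdj_one : IsAdj f (1 : Matrix ι ι F) 1 := by
  intro x y; rw [one_mulVec, one_mulVec]

lemma IsAdj.add (hf : IsSymplecticForm f) {A A' B B' : Matrix ι ι F} (h : IsAdj f A A') (h' : IsAdj f B B') :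
    IsAdj f (A + B) (A' + B') := by
  intro x y
  rw [add_mulVec, add_mulVec, add_left hf, add_right hf, h, h']

lemma IsAdj.smul (hf : IsSymplecticForm f) {A A' : Matrix ι ι F} (h : IsAdj f A A') (c : F) :
    IsAdj f (c • A) (c • A') := by
  intro x y
  rw [smul_mulVec, smul_mulVec, smul_left hf, smul_right hf, h]

lemma IsAdj.mul {A A' B B' : Matrix ι ι F} (h : IsAdj f A A') (h' : IsAdj f B B') :
    IsAdj f (A * B) (B' * A') := by
  intro x y
  rw [← mulVec_mulVec, ← mulVec_mulVec, h, h']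

lemma mul_rk (hf : IsSymplecticForm f) (A : Matrix ι ι F) (u v : ι → F) : A * rk f u v = rk f (A *ᵥ u) v := by
  apply mat_ext
  intro x
  rw [← mulVec_mulVec, rk_mulVec hf, rk_mulVec hf, mulVec_smul]

lemma rk_mul (hf : IsSymplecticForm f) {A A' : Matrix ι ι F} (h : IsAdj f A A') (u v : ι → F) : rk f u v * A = rk f u (A' *ᵥ v) := by
  apply mat_ext
  intro x
  rw [← mulVec_mulVec, rk_mulVec hf, rk_mulVec hf, h]

lemma rk_add_left (u u' v : ι → F) : rk f (u + u') v = rk f u v + rk f u' v := by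
  rw [rk, rk, rk, add_vecMulVec]

lemma rk_add_right (hf : IsSymplecticForm f) (u v v' : ι → F) : rk f u (v + v') = rk f u v + rk f u v' := by
  rw [rk, rk, rk, formVec_add hf, vecMulVec_add]

lemma rk_smul_left (c : F) (u v : ι → F) : rk f (c • u) v = c • rk f u v := by
  rw [rk, rk, smul_vecMulVec]

lemma rk_smul_right (hf : IsSymplecticForm f) (c : F) (u v : ι → F) : rk f u (c • v) = c • rk f u v := by
  rw [rk, rk, formVec_smul hf, vecMulVec_smul]

lemma tr_val (hf : IsSymplecticForm f) (v : ι → F) (c : F) : (tr hf v c : Matrix ι ι F) = 1 + c • rk f v v := by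
  apply mat_ext
  intro x
  rw [tr_mulVec, add_mulVec, one_mulVec, smul_mulVec, rk_mulVec hf, smul_smul]

lemma tr_inv_val (hf : IsSymplecticForm f) (v : ι → F) (c : F) : (((tr hf v c)⁻¹ : GL ι F) : Matrix ι ι F) = 1 - c • rk f v v := by
  have h : ((tr hf v c : Matrix ι ι F)) * (1 - c • rk f v v) = 1 := by
    rw [tr_val, add_mul, one_mul, mul_sub, mul_one, smul_mul_smul_comm, rk_mul_rk hf, self hf, zero_smul, smul_zero, sub_zero, sub_add_cancel]
  exact (Units.inv_eq_of_mul_eq_one_right h)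

lemma isoGL_conj_rk (hf : IsSymplecticForm f) {g : GL ι F} (hg : g ∈ isoGL f) (u v : ι → F) :
    (g : Matrix ι ι F) * rk f u v * ((g⁻¹ : GL ι F) : Matrix ι ι F) = rk f ((g : Matrix ι ι F) *ᵥ u) ((g : Matrix ι ι F) *ᵥ v) := by
  have h : IsAdj f ((g⁻¹ : GL ι F) : Matrix ι ι F) (g : Matrix ι ι F) := by
    intro x y
    rw [← GeoMax.mem_isoGL.1 hg, ← gl_mul_mulVec, mul_inv_cancel, Units.val_one, one_mulVec]
  rw [mul_rk hf, rk_mul hf h]

/-- the subalgebra is invariant under symplectic transvections -/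
def TrInv (hf : IsSymplecticForm f) (B : Subalgebra F (Matrix ι ι F)) : Prop :=
  ∀ A ∈ B, ∀ (z : ι → F) (c : F), (tr hf z c : Matrix ι ι F) * A * (((tr hf z c)⁻¹ : GL ι F) : Matrix ι ι F) ∈ B

lemma conj_rk_mem {hf : IsSymplecticForm f} {B : Subalgebra F (Matrix ι ι F)} (hB : TrInv hf B) {u v : ι → F} (h : rk f u v ∈ B)
    (z : ι → F) (c : F) : rk f (u + (c * f u z) • z) (v + (c * f v z) • z) ∈ B := by
  have := hB _ h z c
  rwa [isoGL_conj_rk hf (tr_mem_iso hf z c), tr_mulVec, tr_mulVec] at this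

lemma eq_top_of_rk {hf : IsSymplecticForm f} {B : Subalgebra F (Matrix ι ι F)} (hB : TrInv hf B) {u : ι → F} (hu : u ≠ 0)
    (h : rk f u u ∈ B) : B = ⊤ := by
  have h1 : ∀ v : ι → F, v ≠ 0 → rk f v v ∈ B := by
    apply vec_induction hf (P := fun v => rk f v v ∈ B) hu h
    intro v z c hv
    rw [tr_mulVec]
    exact conj_rk_mem hB hv z c
  have h2 : ∀ u v : ι → F, f u v ≠ 0 → rk f u v ∈ B := by
    intro u v huv
    have hu0 : u ≠ 0 := by rintro rfl; exact huv (zero_left hf v)
    have hv0 : v ≠ 0 := by rintro rfl; exact huv (zero_right hf u)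
    have h3 := B.mul_mem (h1 u hu0) (h1 v hv0)
    rw [rk_mul_rk hf] at h3
    have h4 : f v u ≠ 0 := by rw [skew hf]; exact neg_ne_zero.2 huv
    have h5 := B.smul_mem h3 (f v u)⁻¹
    rwa [smul_smul, inv_mul_cancel₀ h4, one_smul] at h5
  have h3 : ∀ u v : ι → F, rk f u v ∈ B := by
    intro u v
    by_cases huv : f u v = 0
    · by_cases hu0 : u = 0
      · rw [hu0]
        have : rk f 0 v = 0 := by apply mat_ext; intro x; rw [rk_mulVec hf, smul_zero, zero_mulVec]
        rw [this]; exact B.zero_mem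
      · obtain ⟨z, hz⟩ := exists_ne_zero hf hu0
        have e : rk f u v = rk f u (v + z) - rk f u z := by rw [rk_add_right hf, add_sub_cancel_right]
        rw [e]
        refine B.sub_mem (h2 _ _ ?_) (h2 _ _ hz)
        rw [add_right hf, huv, zero_add]; exact hz
    · exact h2 u v huv
  apply eq_top_of_sgl
  intro k l
  obtain ⟨y, hy⟩ := exists_formVec_eq hf (Pi.single l (1 : F))
  have h4 := h3 (Pi.single k 1) y
  rw [rk, hy] at h4
  convert h4 using 1
  ext i j
  simp only [single_apply, vecMulVec_apply, Pi.single_apply, mul_ite, mul_one, mul_zero]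
  by_cases hi : k = i <;> by_cases hj : l = j <;> simp [hi, hj, eq_comm]

lemma exists_y (hf : IsSymplecticForm f) {u z : ι → F} (hz : z ∉ Submodule.span F {u}) : ∃ y, f y u = 0 ∧ f z y ≠ 0 := by
  obtain ⟨y, h1, h2, _⟩ := exists_sep hf hz hz
  exact ⟨y, by rw [skew hf, h1, neg_zero], h2⟩

lemma rk_self_of_pair {hf : IsSymplecticForm f} {B : Subalgebra F (Matrix ι ι F)} (hB : TrInv hf B)
    {u z : ι → F} (hzu : f z u = 0) (hz : z ∉ Submodule.span F {u}) {α β : F} (h : α ≠ 0 ∨ β ≠ 0)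
    (hadj : ∀ A ∈ B, ∀ A', IsAdj f A A' → A' ∈ B)
    (hm : α • rk f u z + β • rk f z u ∈ B) : rk f u u ∈ B := by
  obtain ⟨y, hyu, hzy⟩ := exists_y hf hz
  -- conjugate by the transvection at `y`
  have h1 := hB _ hm y 1
  rw [mul_add, add_mul, mul_smul_comm, mul_smul_comm, smul_mul_assoc, smul_mul_assoc, isoGL_conj_rk hf (tr_mem_iso hf y 1),
    isoGL_conj_rk hf (tr_mem_iso hf y 1), tr_mulVec, tr_mulVec, show f u y = 0 by rw [skew hf, hyu, neg_zero], mul_zero, zero_smul,
    add_zero, one_mul, rk_add_right hf, rk_add_left, rk_smul_right hf, rk_smul_left] at h1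
  have h2 := B.sub_mem h1 hm
  have h3 : α • rk f u y + β • rk f y u ∈ B := by
    have h4 := B.smul_mem h2 (f z y)⁻¹
    convert h4 using 1
    rw [smul_add, smul_add, add_sub_add_comm, add_sub_cancel_left, add_sub_cancel_left, smul_add, smul_comm α, smul_comm β,
      ← smul_add, ← smul_add, smul_smul, inv_mul_cancel₀ hzy, one_smul]
  have hyz : f y z ≠ 0 := by rw [skew hf]; exact neg_ne_zero.2 hzy
  by_cases hα : α = 0
  · subst hα
    have hβ : β ≠ 0 := h.resolve_left (fun h => h rfl)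
    rw [zero_smul, zero_add] at hm h3
    have h5 := B.smul_mem hm β⁻¹
    have h6 := B.smul_mem h3 β⁻¹
    rw [smul_smul, inv_mul_cancel₀ hβ, one_smul] at h5 h6
    have h7 := hadj _ h5 _ (isAdj_rk hf z u)
    have h8 := B.mul_mem h7 h6
    rw [neg_mul, rk_mul_rk hf] at h8
    have h9 := B.smul_mem (B.neg_mem h8) (f y z)⁻¹
    rwa [neg_neg, smul_smul, inv_mul_cancel₀ hyz, one_smul] at h9
  by_cases hβ : β = 0
  · subst hβ
    rw [zero_smul, add_zero] at hm h3
    have h5 := B.smul_mem hm α⁻¹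
    have h6 := B.smul_mem h3 α⁻¹
    rw [smul_smul, inv_mul_cancel₀ hα, one_smul] at h5 h6
    have h7 := hadj _ h6 _ (isAdj_rk hf u y)
    have h8 := B.mul_mem h5 h7
    rw [mul_neg, rk_mul_rk hf] at h8
    have h9 := B.smul_mem (B.neg_mem h8) (f y z)⁻¹
    rwa [neg_neg, smul_smul, inv_mul_cancel₀ hyz, one_smul] at h9
  · have h8 := B.mul_mem hm h3
    have huy : f u y = 0 := by rw [skew hf, hyu, neg_zero]
    have huz : f u z = 0 := by rw [skew hf, hzu, neg_zero]
    have e : (α • rk f u z + β • rk f z u) * (α • rk f u y + β • rk f y u) = (α * β * f y z) • rk f u u := by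
      rw [add_mul, mul_add, mul_add, smul_mul_smul_comm, smul_mul_smul_comm, smul_mul_smul_comm, smul_mul_smul_comm,
        rk_mul_rk hf, rk_mul_rk hf, rk_mul_rk hf, rk_mul_rk hf, huz, self hf, hyu, zero_smul, zero_smul, zero_smul, smul_zero, smul_zero,
        smul_zero, smul_smul]
      abel
    rw [e] at h8
    have hne : α * β * f y z ≠ 0 := mul_ne_zero (mul_ne_zero hα hβ) hyz
    have h9 := B.smul_mem h8 (α * β * f y z)⁻¹
    rwa [smul_smul, inv_mul_cancel₀ hne, one_smul] at h9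

lemma exists_z (hf : IsSymplecticForm f) {u r : ι → F} (hu : u ≠ 0) (hr : r ∉ Submodule.span F {u}) (h : f r u = 0 ∨ 3 ≤ Fintype.card ι) :
    ∃ z, f z u = 0 ∧ f r z ≠ 0 ∧ z ∉ Submodule.span F {u} := by
  obtain ⟨z1, h1, h2⟩ := exists_y hf hr
  by_cases hz1 : z1 ∈ Submodule.span F {u}
  · obtain ⟨c, rfl⟩ := Submodule.mem_span_singleton.1 hz1
    have hru : f r u ≠ 0 := by
      intro h0; apply h2; rw [smul_right hf, h0, mul_zero]
    have h3 := h.resolve_left hru
    obtain ⟨z2, hz2, hz2'⟩ := exists_perp_notMem hf [u] [u] (by simp; omega)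
    have hz2u : f z2 u = 0 := hz2' u (by simp)
    have hz2m : z2 ∉ Submodule.span F {u} := by simpa using hz2
    by_cases h4 : f r z2 = 0
    · refine ⟨u + z2, by rw [add_left hf, self hf, hz2u, add_zero], by rw [add_right hf, h4, add_zero]; exact hru, fun h5 => hz2m ?_⟩
      have := Submodule.sub_mem _ h5 (Submodule.mem_span_singleton_self u)
      rwa [add_sub_cancel_left] at this
    · exact ⟨z2, hz2u, h4, hz2m⟩
  · exact ⟨z1, h1, h2, hz1⟩

/-- A subalgebra invariant under symplectic transvections and adjoints containing a non-scalar matrix is everything. -/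
theorem eq_top_of_trInv {hf : IsSymplecticForm f} {B : Subalgebra F (Matrix ι ι F)} (hB : TrInv hf B)
    (hadj : ∀ A ∈ B, ∀ A', IsAdj f A A' → A' ∈ B) (hq : 3 ≤ Fintype.card ι ∨ ∃ c : F, c ≠ 0 ∧ c ≠ 1)
    {A : Matrix ι ι F} (hA : A ∈ B) (hns : ¬ ∃ c : F, A = c • (1 : Matrix ι ι F)) : B = ⊤ := by
  obtain ⟨u, hu⟩ := exists_not_eigen hns
  have hu0 : u ≠ 0 := by
    rintro rfl
    exact hu 0 (by rw [mulVec_zero, smul_zero])
  apply eq_top_of_rk hB hu0
  obtain ⟨A', hA'⟩ := exists_isAdj hf A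
  -- conjugates by transvections at `u`
  have hX : ∀ c : F, c • (rk f u (A' *ᵥ u) - rk f (A *ᵥ u) u) - (c * c * f (A *ᵥ u) u) • rk f u u ∈ B := by
    intro c
    have h1 := B.sub_mem (hB _ hA u c) hA
    have e : (tr hf u c : Matrix ι ι F) * A * (((tr hf u c)⁻¹ : GL ι F) : Matrix ι ι F) - A =
        c • (rk f u (A' *ᵥ u) - rk f (A *ᵥ u) u) - (c * c * f (A *ᵥ u) u) • rk f u u := by
      rw [tr_val, tr_inv_val, add_mul, one_mul, smul_mul_assoc, rk_mul hf hA', mul_sub, mul_one, mul_smul_comm, add_mul, mul_rk hf,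
        smul_mul_assoc, rk_mul_rk hf, show f u (A' *ᵥ u) = f (A *ᵥ u) u from (hA' u u).symm, smul_smul, smul_add, smul_sub, smul_smul, ← mul_assoc]
      abel
    rwa [e] at h1
  by_cases h0 : f (A *ᵥ u) u ≠ 0 ∧ ∃ c : F, c ≠ 0 ∧ c ≠ 1
  · obtain ⟨h0, c, hc0, hc1⟩ := h0
    have h1 := B.sub_mem (B.smul_mem (hX 1) c) (hX c)
    have e : c • ((1 : F) • (rk f u (A' *ᵥ u) - rk f (A *ᵥ u) u) - (1 * 1 * f (A *ᵥ u) u) • rk f u u) -
        (c • (rk f u (A' *ᵥ u) - rk f (A *ᵥ u) u) - (c * c * f (A *ᵥ u) u) • rk f u u) = (c * (c - 1) * f (A *ᵥ u) u) • rk f u u := by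
      module
    rw [e] at h1
    have hne : c * (c - 1) * f (A *ᵥ u) u ≠ 0 := mul_ne_zero (mul_ne_zero hc0 (sub_ne_zero.2 hc1)) h0
    have h9 := B.smul_mem h1 (c * (c - 1) * f (A *ᵥ u) u)⁻¹
    rwa [smul_smul, inv_mul_cancel₀ hne, one_smul] at h9
  · -- the element `rk u p - rk r u`
    set r := A *ᵥ u + f (A *ᵥ u) u • u with hr
    set p := A' *ᵥ u with hp
    have hrm : r ∉ Submodule.span F {u} := by
      intro h
      have h2 := Submodule.sub_mem _ h (Submodule.smul_mem _ (f (A *ᵥ u) u) (Submodule.mem_span_singleton_self u))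
      rw [hr, add_sub_cancel_right] at h2
      obtain ⟨c, hc⟩ := Submodule.mem_span_singleton.1 h2
      exact hu c hc.symm
    have h3 : f r u = 0 ∨ 3 ≤ Fintype.card ι := by
      rcases hq with h | h
      · exact Or.inr h
      · left
        have : f (A *ᵥ u) u = 0 := by
          by_contra h1
          exact h0 ⟨h1, h⟩
        rw [hr, add_left hf, smul_left hf, self hf, mul_zero, add_zero, this]
    have hm : rk f u p - rk f r u ∈ B := by
      have := hX 1
      convert this using 1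
      rw [hr, rk_add_left, rk_smul_left]
      module
    obtain ⟨z, hzu, hrz, hzm⟩ := exists_z hf hu0 hrm h3
    -- conjugate by the transvection at `z`
    have h4 := B.sub_mem (hB _ hm z 1) hm
    have huz : f u z = 0 := by rw [skew hf, hzu, neg_zero]
    have e : (tr hf z 1 : Matrix ι ι F) * (rk f u p - rk f r u) * (((tr hf z 1)⁻¹ : GL ι F) : Matrix ι ι F) - (rk f u p - rk f r u) =
        f p z • rk f u z + (- f r z) • rk f z u := by
      rw [mul_sub, sub_mul, isoGL_conj_rk hf (tr_mem_iso hf z 1), isoGL_conj_rk hf (tr_mem_iso hf z 1), tr_mulVec, tr_mulVec, tr_mulVec,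
        huz, mul_zero, zero_smul, add_zero, one_mul, one_mul, rk_add_right hf, rk_add_left, rk_smul_right hf, rk_smul_left, neg_smul]
      abel
    rw [e] at h4
    exact rk_self_of_pair hB hzu hzm (Or.inr (neg_ne_zero.2 hrz)) hadj h4

/-- A matrix commuting with the symplectic transvections up to scalars is scalar. -/
theorem scalar_of_comm_sp (hf : IsSymplecticForm f) {P : Matrix ι ι F} (hq : 3 ≤ Fintype.card ι ∨ ∃ c : F, c ≠ 0 ∧ c ≠ 1)
    (h : ∀ (u : ι → F) (c : F), ∃ l : F, (1 + c • rk f u u) * P - P * (1 + c • rk f u u) = l • (1 + c • rk f u u)) :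
    ∃ c : F, P = c • (1 : Matrix ι ι F) := by
  by_contra hns
  obtain ⟨u, hu⟩ := exists_not_eigen hns
  have hu0 : u ≠ 0 := by
    rintro rfl
    exact hu 0 (by rw [mulVec_zero, smul_zero])
  obtain ⟨P', hP'⟩ := exists_isAdj hf P
  have hcomm : ∀ c : F, ∃ l : F, c • (rk f u (P' *ᵥ u) - rk f (P *ᵥ u) u) = l • (1 + c • rk f u u) := by
    intro c
    obtain ⟨l, hl⟩ := h u c
    refine ⟨l, ?_⟩
    rw [← hl, add_mul, one_mul, mul_add, mul_one, smul_mul_assoc, mul_smul_comm, rk_mul hf hP', mul_rk hf, smul_sub]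
    abel
  obtain ⟨l, hl⟩ := hcomm 1
  rw [one_smul, one_smul] at hl
  have hl0 : l = 0 := by
    rcases hq with h3 | ⟨c, hc0, hc1⟩
    · obtain ⟨w, hw, hw'⟩ := exists_perp_notMem hf [u, P' *ᵥ u] [] (by simp; omega)
      have hw0 : w ≠ 0 := by
        rintro rfl
        exact hw (Submodule.zero_mem _)
      have e1 := congrArg (fun M => M *ᵥ w) hl
      rw [sub_mulVec, rk_mulVec hf, rk_mulVec hf, smul_mulVec, add_mulVec, one_mulVec, rk_mulVec hf, hw' u (by simp),
        hw' (P' *ᵥ u) (by simp), zero_smul, zero_smul, sub_zero, add_zero] at e1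
      exact (smul_eq_zero.1 e1.symm).resolve_right hw0
    · obtain ⟨l', hl'⟩ := hcomm c
      obtain ⟨y, hy⟩ := exists_ne_zero hf hu0
      have hyu : f y u ≠ 0 := by rw [skew hf]; exact neg_ne_zero.2 hy
      rw [hl] at hl'
      -- compare
      have e1 := congrArg (fun M => M *ᵥ u) hl'
      rw [smul_mulVec, smul_mulVec, smul_mulVec, add_mulVec, add_mulVec, one_mulVec, smul_mulVec, rk_mulVec hf, self hf, zero_smul, add_zero,
        smul_zero, add_zero, smul_smul] at e1
      have e2 : c * l = l' := smul_left_injective F hu0 e1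
      have e3 := congrArg (fun M => M *ᵥ y) hl'
      rw [smul_mulVec, smul_mulVec, smul_mulVec, add_mulVec, add_mulVec, one_mulVec, smul_mulVec, rk_mulVec hf, ← e2] at e3
      have e4 : (c * l * (1 - c) * f y u) • u = 0 := by
        have e5 : c • l • (y + f y u • u) - (c * l) • (y + c • f y u • u) = (c * l * (1 - c) * f y u) • u := by module
        rw [← e5, e3, sub_self]
      have e6 := (smul_eq_zero.1 e4).resolve_right hu0
      have h1 : (1 - c) ≠ 0 := sub_ne_zero.2 (Ne.symm hc1)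
      rcases mul_eq_zero.1 e6 with h7 | h7
      · rcases mul_eq_zero.1 h7 with h8 | h8
        · exact (mul_eq_zero.1 h8).resolve_left hc0
        · exact absurd h8 h1
      · exact absurd h7 hyu
  rw [hl0, zero_smul, sub_eq_zero] at hl
  obtain ⟨y, hy⟩ := exists_ne_zero hf hu0
  have hyu : f y u ≠ 0 := by rw [skew hf]; exact neg_ne_zero.2 hy
  have e1 := congrArg (fun M => M *ᵥ y) hl
  rw [rk_mulVec hf, rk_mulVec hf] at e1
  apply hu ((f y u)⁻¹ * f y (P' *ᵥ u))
  rw [mul_smul, e1, smul_smul, inv_mul_cancel₀ hyu, one_smul]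

end Cfsg.Agent.Asch.TMax
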