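import Mathlib
import Cfsg.Prelude.Def_GeometricClasses
import Cfsg.Agent.Asch.TMaxSpAlg
import Cfsg.Agent.Asch.TMaxPure
set_option autoImplicit false
set_option linter.unusedSectionVars false
set_option linter.unusedVariables false
set_option linter.style.haveILetI false

/-!
The coefficient algebra of an overgroup of `Sp(U) ⊗ Sp(W)`.
-/

namespace Cfsg.Agent.Asch.TMax

open Cfsg.Geo Matrix Module

open Cfsg.Agent.AschCases (tp kron_tp)

open Cfsg.Agent.GeoMax (isoGL formVec formVec_dotProduct tvec gl_mul_mulVec)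

open Cfsg.Agent.GeoMax.Symp

open scoped Matrix Kronecker MatrixGroups

section mset

variable {ι : Type} [Fintype ι] [DecidableEq ι] {F : Type*} [Field F]

lemma mset_mul {S : Subgroup (GL ι F)} {x y : Matrix ι ι F} (hx : x ∈ matrixSet S) (hy : y ∈ matrixSet S) : x * y ∈ matrixSet S := by
  obtain ⟨g, hg, rfl⟩ := hx
  obtain ⟨h, hh, rfl⟩ := hy
  exact ⟨g * h, S.mul_mem hg hh, rfl⟩

lemma mset_one {S : Subgroup (GL ι F)} : (1 : Matrix ι ι F) ∈ matrixSet S := ⟨1, S.one_mem, rfl⟩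

lemma mset_inv {S : Subgroup (GL ι F)} {x y : Matrix ι ι F} (hx : x ∈ matrixSet S) (h : x * y = 1) : y ∈ matrixSet S := by
  obtain ⟨g, hg, rfl⟩ := hx
  exact ⟨g⁻¹, S.inv_mem hg, Units.inv_eq_of_mul_eq_one_right h⟩

lemma mset_conj {S : Subgroup (GL ι F)} {g : GL ι F} (hg : g ∈ S) {x : Matrix ι ι F} (hx : x ∈ matrixSet S) :
    (g : Matrix ι ι F) * x * ((g⁻¹ : GL ι F) : Matrix ι ι F) ∈ matrixSet S :=
  mset_mul (mset_mul ⟨g, hg, rfl⟩ hx) ⟨g⁻¹, S.inv_mem hg, rfl⟩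

lemma mset_comm {S : Subgroup (GL ι F)} {n m : Matrix ι ι F} (hn : 1 + n ∈ matrixSet S) (hm : 1 + m ∈ matrixSet S)
    (nn : n * n = 0) (mm : m * m = 0) (nmn : n * m * n = 0) (mnm : m * n * m = 0) : 1 + (n * m - m * n) ∈ matrixSet S := by
  have e : (1 + n) * (1 + m) * ((1 - n) * (1 - m)) = 1 + (n * m - m * n) := by
    have e1 : (1 + n) * (1 + m) * ((1 - n) * (1 - m)) = 1 + (n * m - m * n) - n * n + n * n * m - m * m + n * m * m * (-1)
        - n * m * n + m * n * m + n * m * n * m := by noncomm_ring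
    rw [e1, nn, mm, nmn, mnm, mul_assoc n m m, mm]
    simp
  rw [← e]
  refine mset_mul (mset_mul hn hm) (mset_mul (mset_inv hn ?_) (mset_inv hm ?_))
  · have : (1 + n) * (1 - n) = 1 - n * n := by noncomm_ring
    rw [this, nn, sub_zero]
  · have : (1 + m) * (1 - m) = 1 - m * m := by noncomm_ring
    rw [this, mm, sub_zero]

lemma mset_add {S : Subgroup (GL ι F)} {n m : Matrix ι ι F} (hn : 1 + n ∈ matrixSet S) (hm : 1 + m ∈ matrixSet S)
    (nm : n * m = 0) : 1 + (n + m) ∈ matrixSet S := by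
  have e : 1 + (n + m) = (1 + n) * (1 + m) := by
    rw [mul_add, mul_one, add_mul, one_mul, nm]; abel
  rw [e]
  exact mset_mul hn hm

end mset

variable {a b : ℕ} {F : Type*} [Field F] {f₁ : (Fin a → F) → (Fin a → F) → F} {f₂ : (Fin b → F) → (Fin b → F) → F}

/-- `A ⊗ rk w z` -/
def kk (f₂ : (Fin b → F) → (Fin b → F) → F) (A : Matrix (Fin a) (Fin a) F) (w z : Fin b → F) : Matrix (Fin a × Fin b) (Fin a × Fin b) F :=
  A ⊗ₖ rk f₂ w z

lemma kk_mul (h₂ : IsSymplecticForm f₂) (A B : Matrix (Fin a) (Fin a) F) (w z w' z' : Fin b → F) :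
    kk f₂ A w z * kk f₂ B w' z' = f₂ w' z • kk f₂ (A * B) w z' := by
  rw [kk, kk, ← mul_kronecker_mul, rk_mul_rk h₂, kronecker_smul]
  rfl

lemma kk_add (A B : Matrix (Fin a) (Fin a) F) (w z : Fin b → F) : kk f₂ (A + B) w z = kk f₂ A w z + kk f₂ B w z := add_kronecker _ _ _

lemma kk_smul (c : F) (A : Matrix (Fin a) (Fin a) F) (w z : Fin b → F) : kk f₂ (c • A) w z = c • kk f₂ A w z := smul_kronecker _ _ _

lemma kk_smul_left (c : F) (A : Matrix (Fin a) (Fin a) F) (w z : Fin b → F) : kk f₂ A (c • w) z = c • kk f₂ A w z := by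
  rw [kk, rk_smul_left, kronecker_smul]; rfl

lemma kk_smul_right (h₂ : IsSymplecticForm f₂) (c : F) (A : Matrix (Fin a) (Fin a) F) (w z : Fin b → F) :
    kk f₂ A w (c • z) = c • kk f₂ A w z := by
  rw [kk, rk_smul_right h₂, kronecker_smul]; rfl

lemma kk_add_left (A : Matrix (Fin a) (Fin a) F) (w w' z : Fin b → F) : kk f₂ A (w + w') z = kk f₂ A w z + kk f₂ A w' z := by
  rw [kk, rk_add_left, kronecker_add]; rfl

lemma kk_add_right (h₂ : IsSymplecticForm f₂) (A : Matrix (Fin a) (Fin a) F) (w z z' : Fin b → F) :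
    kk f₂ A w (z + z') = kk f₂ A w z + kk f₂ A w z' := by
  rw [kk, rk_add_right h₂, kronecker_add]; rfl

lemma kk_tp (h₂ : IsSymplecticForm f₂) (A : Matrix (Fin a) (Fin a) F) (w z : Fin b → F) (u : Fin a → F) (y : Fin b → F) :
    kk f₂ A w z *ᵥ tp u y = f₂ y z • tp (A *ᵥ u) w := by
  rw [kk, kron_tp, rk_mulVec h₂]
  ext x; simp [tp]; ring

/-- the skew-adjoint nilpotent element -/
def nn (f₂ : (Fin b → F) → (Fin b → F) → F) (A A' : Matrix (Fin a) (Fin a) F) (w z : Fin b → F) : Matrix (Fin a × Fin b) (Fin a × Fin b) F :=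
  kk f₂ A w z + kk f₂ A' z w

lemma nn_swap (A A' : Matrix (Fin a) (Fin a) F) (w z : Fin b → F) : nn f₂ A A' w z = nn f₂ A' A z w := add_comm _ _

lemma nn_sq (h₂ : IsSymplecticForm f₂) {w z : Fin b → F} (h : f₂ w z = 0) (A A' B B' : Matrix (Fin a) (Fin a) F) :
    nn f₂ A A' w z * nn f₂ B B' w z = 0 := by
  have h' : f₂ z w = 0 := by rw [skew h₂, h, neg_zero]
  simp only [nn, add_mul, mul_add, kk_mul h₂, self h₂, h, h', zero_smul, add_zero]

/-- the group contains the two symplectic groups -/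
structure HasSp (f₁ : (Fin a → F) → (Fin a → F) → F) (f₂ : (Fin b → F) → (Fin b → F) → F) (S : Subgroup (GL (Fin a × Fin b) F)) : Prop where
  left : ∀ g ∈ isoGL f₁, (g : Matrix (Fin a) (Fin a) F) ⊗ₖ (1 : Matrix (Fin b) (Fin b) F) ∈ matrixSet S
  right : ∀ g ∈ isoGL f₂, (1 : Matrix (Fin a) (Fin a) F) ⊗ₖ (g : Matrix (Fin b) (Fin b) F) ∈ matrixSet S

lemma kron_inv {A : GL (Fin a) F} {B : GL (Fin b) F} {k : GL (Fin a × Fin b) F}
    (hk : (k : Matrix _ _ F) = (A : Matrix (Fin a) (Fin a) F) ⊗ₖ (B : Matrix (Fin b) (Fin b) F)) :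
    ((k⁻¹ : GL (Fin a × Fin b) F) : Matrix _ _ F) = ((A⁻¹ : GL (Fin a) F) : Matrix (Fin a) (Fin a) F) ⊗ₖ ((B⁻¹ : GL (Fin b) F) : Matrix (Fin b) (Fin b) F) := by
  apply Units.inv_eq_of_mul_eq_one_right
  rw [hk, ← mul_kronecker_mul, ← Units.val_mul, ← Units.val_mul, mul_inv_cancel, mul_inv_cancel,
    Units.val_one, Units.val_one, one_kronecker_one]

lemma HasSp.conj_right {S : Subgroup (GL (Fin a × Fin b) F)} (hS : HasSp f₁ f₂ S) (h₂ : IsSymplecticForm f₂) {g : GL (Fin b) F} (hg : g ∈ isoGL f₂)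
    {A A' : Matrix (Fin a) (Fin a) F} {w z : Fin b → F} (h : 1 + nn f₂ A A' w z ∈ matrixSet S) :
    1 + nn f₂ A A' ((g : Matrix _ _ F) *ᵥ w) ((g : Matrix _ _ F) *ᵥ z) ∈ matrixSet S := by
  obtain ⟨k, hk, hkg⟩ := hS.right g hg
  have hkg' : (k : Matrix _ _ F) = ((1 : GL (Fin a) F) : Matrix (Fin a) (Fin a) F) ⊗ₖ (g : Matrix (Fin b) (Fin b) F) := hkg
  have h1 := mset_conj hk h
  have e : (k : Matrix (Fin a × Fin b) (Fin a × Fin b) F) * (1 + nn f₂ A A' w z) * ((k⁻¹ : GL (Fin a × Fin b) F) : Matrix _ _ F) =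
      1 + nn f₂ A A' ((g : Matrix _ _ F) *ᵥ w) ((g : Matrix _ _ F) *ᵥ z) := by
    rw [mul_add, mul_one, add_mul, ← Units.val_mul, mul_inv_cancel, Units.val_one, nn, mul_add, add_mul, kron_inv hkg', hkg',
      kk, kk, ← mul_kronecker_mul, ← mul_kronecker_mul, ← mul_kronecker_mul, ← mul_kronecker_mul, isoGL_conj_rk h₂ hg, isoGL_conj_rk h₂ hg]
    simp only [inv_one, Units.val_one, one_mul, mul_one]
    rfl
  rwa [e] at h1

lemma HasSp.conj_left {S : Subgroup (GL (Fin a × Fin b) F)} (hS : HasSp f₁ f₂ S) {g : GL (Fin a) F} (hg : g ∈ isoGL f₁)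
    {A A' : Matrix (Fin a) (Fin a) F} {w z : Fin b → F} (h : 1 + nn f₂ A A' w z ∈ matrixSet S) :
    1 + nn f₂ ((g : Matrix _ _ F) * A * ((g⁻¹ : GL (Fin a) F) : Matrix _ _ F)) ((g : Matrix _ _ F) * A' * ((g⁻¹ : GL (Fin a) F) : Matrix _ _ F)) w z ∈ matrixSet S := by
  obtain ⟨k, hk, hkg⟩ := hS.left g hg
  have hkg' : (k : Matrix _ _ F) = (g : Matrix (Fin a) (Fin a) F) ⊗ₖ ((1 : GL (Fin b) F) : Matrix (Fin b) (Fin b) F) := hkg
  have h1 := mset_conj hk h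
  have e : (k : Matrix (Fin a × Fin b) (Fin a × Fin b) F) * (1 + nn f₂ A A' w z) * ((k⁻¹ : GL (Fin a × Fin b) F) : Matrix _ _ F) =
      1 + nn f₂ ((g : Matrix _ _ F) * A * ((g⁻¹ : GL (Fin a) F) : Matrix _ _ F)) ((g : Matrix _ _ F) * A' * ((g⁻¹ : GL (Fin a) F) : Matrix _ _ F)) w z := by
    rw [mul_add, mul_one, add_mul, ← Units.val_mul, mul_inv_cancel, Units.val_one, nn, mul_add, add_mul, kron_inv hkg', hkg',
      kk, kk, ← mul_kronecker_mul, ← mul_kronecker_mul, ← mul_kronecker_mul, ← mul_kronecker_mul]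
    simp only [inv_one, Units.val_one, one_mul, mul_one]
    rfl
  rwa [e] at h1

/-- admissible pairs -/
def Pair (f₂ : (Fin b → F) → (Fin b → F) → F) (w z : Fin b → F) : Prop := w ≠ 0 ∧ z ∉ Submodule.span F {w} ∧ f₂ w z = 0

lemma Pair.swap (h₂ : IsSymplecticForm f₂) {w z : Fin b → F} (h : Pair f₂ w z) : Pair f₂ z w := by
  obtain ⟨h1, h3, h4⟩ := h
  refine ⟨?_, ?_, by rw [skew h₂, h4, neg_zero]⟩
  · rintro rfl; exact h3 (Submodule.zero_mem _)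
  · intro h5
    obtain ⟨c, hc⟩ := Submodule.mem_span_singleton.1 h5
    have hc0 : c ≠ 0 := by rintro rfl; rw [zero_smul] at hc; exact h1 hc.symm
    apply h3
    rw [Submodule.mem_span_singleton]
    exact ⟨c⁻¹, by rw [← hc, smul_smul, inv_mul_cancel₀ hc0, one_smul]⟩

lemma Pair.smul {w z : Fin b → F} (h : Pair f₂ w z) (h₂ : IsSymplecticForm f₂) {c : F} (hc : c ≠ 0) : Pair f₂ (c • w) z := by
  obtain ⟨h1, h3, h4⟩ := h
  refine ⟨smul_ne_zero hc h1, ?_, by rw [smul_left h₂, h4, mul_zero]⟩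
  rwa [Submodule.span_singleton_smul_eq (IsUnit.mk0 c hc)]

/-- the coefficients -/
def CoS (f₁ : (Fin a → F) → (Fin a → F) → F) (f₂ : (Fin b → F) → (Fin b → F) → F) (S : Subgroup (GL (Fin a × Fin b) F))
    (A : Matrix (Fin a) (Fin a) F) : Prop :=
  ∀ A', IsAdj f₁ A A' → ∀ w z, Pair f₂ w z → 1 + nn f₂ A A' w z ∈ matrixSet S

lemma HasSp.coS_of_pair {S : Subgroup (GL (Fin a × Fin b) F)} (hS : HasSp f₁ f₂ S) (h₁ : IsSymplecticForm f₁) (h₂ : IsSymplecticForm f₂) (hb : 4 < b)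
    {A A' : Matrix (Fin a) (Fin a) F} (hA : IsAdj f₁ A A') {w z : Fin b → F} (hwz : Pair f₂ w z)
    (h : 1 + nn f₂ A A' w z ∈ matrixSet S) : CoS f₁ f₂ S A := by
  intro A'' hA'' w' z' hwz'
  rw [← hA.unique h₁ hA'']
  exact pair_induction h₂ (by rwa [Fintype.card_fin]) (P := fun w z => 1 + nn f₂ A A' w z ∈ matrixSet S)
    (fun x y v t hxy => hS.conj_right h₂ (tr_mem_iso h₂ v t) hxy) hwz.1 hwz.2.1 hwz.2.2 h hwz'.1 hwz'.2.1 hwz'.2.2

lemma exists_pair (h₂ : IsSymplecticForm f₂) (hb : 4 < b) : ∃ w z, Pair f₂ w z := by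
  have hw : (Pi.single (⟨0, by omega⟩ : Fin b) (1 : F) : Fin b → F) ≠ 0 := by
    intro h; have := congrFun h ⟨0, by omega⟩; simp at this
  obtain ⟨z, hz, hz'⟩ := exists_perp_notMem h₂ [Pi.single (⟨0, by omega⟩ : Fin b) (1 : F)] [Pi.single (⟨0, by omega⟩ : Fin b) (1 : F)]
    (by simp; omega)
  refine ⟨_, z, hw, by simpa using hz, ?_⟩
  rw [skew h₂, hz' _ (by simp), neg_zero]

lemma HasSp.coS_one {S : Subgroup (GL (Fin a × Fin b) F)} (hS : HasSp f₁ f₂ S) (h₁ : IsSymplecticForm f₁) (h₂ : IsSymplecticForm f₂) (hb : 4 < b) :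
    CoS f₁ f₂ S 1 := by
  obtain ⟨w, z, hwz⟩ := exists_pair h₂ hb
  refine hS.coS_of_pair h₁ h₂ hb isAdj_one hwz ?_
  have hzw : f₂ z w = 0 := by rw [skew h₂, hwz.2.2, neg_zero]
  have h1 := hS.right _ (rho_mem_iso h₂ w z 0)
  have e : ((rho h₂ w z 0 : GL (Fin b) F) : Matrix _ _ F) = 1 + (rk f₂ z w + rk f₂ w z) := by
    apply mat_ext
    intro x
    rw [rho_mulVec h₂ hzw, add_mulVec, one_mulVec, add_mulVec, rk_mulVec h₂, rk_mulVec h₂, zero_mul, zero_smul, add_zero, add_assoc]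
  rw [e, kronecker_add, one_kronecker_one, kronecker_add] at h1
  rw [nn_swap]
  exact h1

lemma HasSp.coS_add {S : Subgroup (GL (Fin a × Fin b) F)} (hS : HasSp f₁ f₂ S) (h₁ : IsSymplecticForm f₁) (h₂ : IsSymplecticForm f₂) (hb : 4 < b)
    {A B : Matrix (Fin a) (Fin a) F} (hA : CoS f₁ f₂ S A) (hB : CoS f₁ f₂ S B) : CoS f₁ f₂ S (A + B) := by
  obtain ⟨w, z, hwz⟩ := exists_pair h₂ hb
  obtain ⟨A', hA'⟩ := exists_isAdj h₁ A
  obtain ⟨B', hB'⟩ := exists_isAdj h₁ B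
  refine hS.coS_of_pair h₁ h₂ hb (hA'.add h₁ hB') hwz ?_
  have h1 := mset_add (hA A' hA' w z hwz) (hB B' hB' w z hwz) (nn_sq h₂ hwz.2.2 _ _ _ _)
  convert h1 using 2
  simp only [nn, kk_add]
  abel

lemma HasSp.coS_smul {S : Subgroup (GL (Fin a × Fin b) F)} (hS : HasSp f₁ f₂ S) (h₁ : IsSymplecticForm f₁) (h₂ : IsSymplecticForm f₂) (hb : 4 < b)
    {A : Matrix (Fin a) (Fin a) F} (hA : CoS f₁ f₂ S A) (c : F) : CoS f₁ f₂ S (c • A) := by
  obtain ⟨w, z, hwz⟩ := exists_pair h₂ hb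
  obtain ⟨A', hA'⟩ := exists_isAdj h₁ A
  refine hS.coS_of_pair h₁ h₂ hb (hA'.smul h₁ c) hwz ?_
  by_cases hc : c = 0
  · subst hc
    have e : nn f₂ ((0 : F) • A) ((0 : F) • A') w z = 0 := by
      rw [nn, kk_smul, kk_smul, zero_smul, zero_smul, add_zero]
    rw [e, add_zero]
    exact mset_one
  · have h1 := hA A' hA' (c • w) z (hwz.smul h₂ hc)
    convert h1 using 2
    simp only [nn, kk_smul, kk_smul_left, kk_smul_right h₂]

lemma HasSp.coS_adj {S : Subgroup (GL (Fin a × Fin b) F)} (hS : HasSp f₁ f₂ S) (h₁ : IsSymplecticForm f₁) (h₂ : IsSymplecticForm f₂) (hb : 4 < b)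
    {A A' : Matrix (Fin a) (Fin a) F} (hA : CoS f₁ f₂ S A) (h : IsAdj f₁ A A') : CoS f₁ f₂ S A' := by
  obtain ⟨w, z, hwz⟩ := exists_pair h₂ hb
  refine hS.coS_of_pair h₁ h₂ hb (h.symm h₁) hwz ?_
  rw [nn_swap]
  exact hA A' h z w (hwz.swap h₂)

lemma exists_config (h₂ : IsSymplecticForm f₂) (hb : 5 < b) {w z : Fin b → F} (hwz : Pair f₂ w z) :
    ∃ y w' : Fin b → F, f₂ y w = 0 ∧ f₂ y z ≠ 0 ∧ Pair f₂ y w' ∧ Pair f₂ w w' ∧ f₂ z w' = 0 := by
  obtain ⟨y, hyw, hzy⟩ := exists_y h₂ hwz.2.1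
  have hyz : f₂ y z ≠ 0 := by rw [skew h₂]; exact neg_ne_zero.2 hzy
  have hy0 : y ≠ 0 := by rintro rfl; exact hyz (zero_left h₂ z)
  obtain ⟨w', h1, h3⟩ := exists_perp_notMem h₂ [w, z, y] [w, y] (by simp; omega)
  have h4 : ∀ v ∈ [w, z, y], f₂ v w' = 0 := fun v hv => by rw [skew h₂, h3 v hv, neg_zero]
  refine ⟨y, w', hyw, hyz, ⟨hy0, fun h => h1 ?_, h4 y (by simp)⟩, ⟨hwz.1, fun h => h1 ?_, h4 w (by simp)⟩, h4 z (by simp)⟩
  · exact Submodule.span_mono (by intro x hx; simp at hx; simp [hx]) h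
  · exact Submodule.span_mono (by intro x hx; simp at hx; simp [hx]) h

lemma HasSp.coS_mul {S : Subgroup (GL (Fin a × Fin b) F)} (hS : HasSp f₁ f₂ S) (h₁ : IsSymplecticForm f₁) (h₂ : IsSymplecticForm f₂) (hb : 5 < b)
    {A B : Matrix (Fin a) (Fin a) F} (hA : CoS f₁ f₂ S A) (hB : CoS f₁ f₂ S B) : CoS f₁ f₂ S (A * B) := by
  obtain ⟨w, z, hwz⟩ := exists_pair h₂ (show 4 < b by omega)
  obtain ⟨y, w', hyw, hyz, hyw', hww', hzw'⟩ := exists_config h₂ hb hwz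
  obtain ⟨A', hA'⟩ := exists_isAdj h₁ A
  obtain ⟨B', hB'⟩ := exists_isAdj h₁ B
  have hwy : f₂ w y = 0 := by rw [skew h₂, hyw, neg_zero]
  have hw'z : f₂ w' z = 0 := by rw [skew h₂, hzw', neg_zero]
  have hw'w : f₂ w' w = 0 := by rw [skew h₂, hww'.2.2, neg_zero]
  have hw'y : f₂ w' y = 0 := by rw [skew h₂, hyw'.2.2, neg_zero]
  have hzw : f₂ z w = 0 := by rw [skew h₂, hwz.2.2, neg_zero]
  have nm : nn f₂ A A' w z * nn f₂ B B' y w' = f₂ y z • kk f₂ (A * B) w w' := by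
    simp only [nn, add_mul, mul_add, kk_mul h₂, hyw, hw'z, hw'w, zero_smul, add_zero]
  have mn : nn f₂ B B' y w' * nn f₂ A A' w z = f₂ z y • kk f₂ (B' * A') w' w := by
    simp only [nn, add_mul, mul_add, kk_mul h₂, hww'.2.2, hzw', hwy, zero_smul, add_zero, zero_add]
  have nmn : nn f₂ A A' w z * nn f₂ B B' y w' * nn f₂ A A' w z = 0 := by
    rw [nm, smul_mul_assoc]
    simp only [nn, mul_add, kk_mul h₂, hww'.2.2, hzw', zero_smul, add_zero, smul_zero]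
  have mnm : nn f₂ B B' y w' * nn f₂ A A' w z * nn f₂ B B' y w' = 0 := by
    rw [mn, smul_mul_assoc]
    simp only [nn, mul_add, kk_mul h₂, hyw, hw'w, zero_smul, add_zero, smul_zero]
  have h1 := mset_comm (hA A' hA' w z hwz) (hB B' hB' y w' hyw') (nn_sq h₂ hwz.2.2 _ _ _ _) (nn_sq h₂ hyw'.2.2 _ _ _ _) nmn mnm
  have e : nn f₂ A A' w z * nn f₂ B B' y w' - nn f₂ B B' y w' * nn f₂ A A' w z =
      nn f₂ (f₂ y z • (A * B)) (f₂ y z • (B' * A')) w w' := by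
    rw [nm, mn, skew h₂ z y, neg_smul, sub_neg_eq_add, nn, kk_smul, kk_smul]
  rw [e] at h1
  have h3 := hS.coS_of_pair h₁ h₂ (by omega) ((hA'.mul hB').smul h₁ (f₂ y z)) hww' h1
  have h4 := hS.coS_smul h₁ h₂ (by omega) h3 (f₂ y z)⁻¹
  rwa [smul_smul, inv_mul_cancel₀ hyz, one_smul] at h4

/-- the coefficient algebra -/
def spAlg {S : Subgroup (GL (Fin a × Fin b) F)} (hS : HasSp f₁ f₂ S) (h₁ : IsSymplecticForm f₁) (h₂ : IsSymplecticForm f₂) (hb : 5 < b) :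
    Subalgebra F (Matrix (Fin a) (Fin a) F) where
  carrier := {A | CoS f₁ f₂ S A}
  mul_mem' hA hB := hS.coS_mul h₁ h₂ hb hA hB
  add_mem' hA hB := hS.coS_add h₁ h₂ (by omega) hA hB
  algebraMap_mem' c := by
    rw [Algebra.algebraMap_eq_smul_one]
    exact hS.coS_smul h₁ h₂ (by omega) (hS.coS_one h₁ h₂ (by omega)) c

lemma spAlg_trInv {S : Subgroup (GL (Fin a × Fin b) F)} (hS : HasSp f₁ f₂ S) (h₁ : IsSymplecticForm f₁) (h₂ : IsSymplecticForm f₂) (hb : 5 < b) :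
    TrInv h₁ (spAlg hS h₁ h₂ hb) := by
  intro A hA z c
  obtain ⟨w, y, hwy⟩ := exists_pair h₂ (show 4 < b by omega)
  obtain ⟨A', hA'⟩ := exists_isAdj h₁ A
  have hg := tr_mem_iso h₁ z c
  have h3 : IsAdj f₁ ((tr h₁ z c : Matrix _ _ F) * A * (((tr h₁ z c)⁻¹ : GL _ F) : Matrix _ _ F))
      ((tr h₁ z c : Matrix _ _ F) * A' * (((tr h₁ z c)⁻¹ : GL _ F) : Matrix _ _ F)) := by
    intro x y
    have e : ∀ v, (tr h₁ z c : Matrix (Fin a) (Fin a) F) *ᵥ ((((tr h₁ z c)⁻¹ : GL (Fin a) F) : Matrix (Fin a) (Fin a) F) *ᵥ v) = v :=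
      fun v => gl_mulVec_inv' _ _
    rw [← mulVec_mulVec, ← mulVec_mulVec, ← mulVec_mulVec, ← mulVec_mulVec]
    conv_lhs => rw [← e y]
    conv_rhs => rw [← e x]
    rw [GeoMax.mem_isoGL.1 hg, GeoMax.mem_isoGL.1 hg, hA']
  exact hS.coS_of_pair h₁ h₂ (by omega) h3 hwy (hS.conj_left hg (hA A' hA' w y hwy))

/-- The two cases. -/
theorem HasSp.cases {S : Subgroup (GL (Fin a × Fin b) F)} (hS : HasSp f₁ f₂ S) (h₁ : IsSymplecticForm f₁) (h₂ : IsSymplecticForm f₂) (hb : 5 < b)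
    (hq : 3 ≤ a ∨ ∃ c : F, c ≠ 0 ∧ c ≠ 1) : (∀ A, CoS f₁ f₂ S A) ∨ ∀ A, CoS f₁ f₂ S A → ∃ c : F, A = c • (1 : Matrix (Fin a) (Fin a) F) := by
  by_cases h : ∀ A, CoS f₁ f₂ S A → ∃ c : F, A = c • (1 : Matrix (Fin a) (Fin a) F)
  · exact Or.inr h
  · left
    push Not at h
    obtain ⟨A, hA, hns⟩ := h
    have htop := eq_top_of_trInv (spAlg_trInv hS h₁ h₂ hb) (fun X hX X' hX' => hS.coS_adj h₁ h₂ (by omega) hX hX')
      (by rwa [Fintype.card_fin]) hA (by rintro ⟨c, hc⟩; exact hns c hc)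
    intro B
    have : B ∈ spAlg hS h₁ h₂ hb := by rw [htop]; trivial
    exact this

end Cfsg.Agent.Asch.TMax
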