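import Mathlib
import Cfsg.Prelude.Def_GeometricClasses
import Cfsg.Agent.Asch.TMaxSpCo
import Cfsg.Agent.GeoMax.OBasic
import Cfsg.Agent.GeoMax.OTransport
set_option autoImplicit false
set_option linter.unusedSectionVars false
set_option linter.unusedVariables false
set_option linter.style.haveILetI false

/-!
Overgroups of `Sp(U) ⊗ Sp(W)` in an orthogonal group: the case where all coefficients occur.
-/

namespace Cfsg.Agent.Asch.TMax

open Cfsg.Geo Matrix Module

open Cfsg.Agent.AschCases (tp kron_tp)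

open Cfsg.Agent.GeoMax (isoGL formVec formVec_dotProduct tvec gl_mul_mulVec)

open Cfsg.Agent.GeoMax.Symp

open Cfsg.Agent.GeoMax.Ort (HasE FullR emGL emGL_mulVec)

open Cfsg.Agent.Orth (OGrp eich eich_apply OGrp_ext)

open QuadraticMap (polar polarBilin)

open scoped Matrix Kronecker MatrixGroups

variable {a b : ℕ} {F : Type*} [Field F] {f₁ : (Fin a → F) → (Fin a → F) → F} {f₂ : (Fin b → F) → (Fin b → F) → F}

/-- induction on sums of pure tensors -/
lemma tp_induction {P : (Fin a × Fin b → F) → Prop} (h0 : P 0) (htp : ∀ u w, P (tp u w)) (hadd : ∀ x y, P x → P y → P (x + y)) :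
    ∀ v, P v := by
  intro v
  have hv : v = ∑ i, Pi.single i (v i) := (Finset.univ_sum_single v).symm
  rw [hv]
  have key : ∀ s : Finset (Fin a × Fin b), P (∑ i ∈ s, Pi.single i (v i)) := by
    intro s
    induction s using Finset.induction_on with
    | empty => rw [Finset.sum_empty]; exact h0
    | insert i s hi ih =>
      rw [Finset.sum_insert hi]
      refine hadd _ _ ?_ ih
      have : (Pi.single i (v i) : Fin a × Fin b → F) = tp (Pi.single i.1 (v i)) (Pi.single i.2 1) := by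
        ext ⟨x, y⟩
        obtain ⟨i1, i2⟩ := i
        simp only [tp, Pi.single_apply, Prod.mk.injEq]
        by_cases hx : x = i1 <;> by_cases hy : y = i2 <;> simp [hx, hy]
      rw [this]
      exact htp _ _
  exact key _

lemma tp_add_left (u u' : Fin a → F) (w : Fin b → F) : tp (u + u') w = tp u w + tp u' w := by ext x; simp [tp]; ring
lemma tp_add_right (u : Fin a → F) (w w' : Fin b → F) : tp u (w + w') = tp u w + tp u w' := by ext x; simp [tp]; ring
lemma tp_sub_left (u u' : Fin a → F) (w : Fin b → F) : tp (u - u') w = tp u w - tp u' w := by ext x; simp [tp]; ring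
lemma tp_sub_right (u : Fin a → F) (w w' : Fin b → F) : tp u (w - w') = tp u w - tp u w' := by ext x; simp [tp]; ring
lemma tp_smul_left (c : F) (u : Fin a → F) (w : Fin b → F) : tp (c • u) w = c • tp u w := by ext x; simp [tp]; ring
lemma tp_smul_right (c : F) (u : Fin a → F) (w : Fin b → F) : tp u (c • w) = c • tp u w := by ext x; simp [tp]; ring
lemma tp_zero_left (w : Fin b → F) : tp (0 : Fin a → F) w = 0 := by ext x; simp [tp]
lemma tp_zero_right (u : Fin a → F) : tp u (0 : Fin b → F) = 0 := by ext x; simp [tp]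

/-- the quadratic form is the tensor product of two symplectic forms -/
structure QTens (f₁ : (Fin a → F) → (Fin a → F) → F) (f₂ : (Fin b → F) → (Fin b → F) → F) (Q : QuadraticForm F (Fin a × Fin b → F)) : Prop where
  pure : ∀ u w, Q (tp u w) = 0
  pol : ∀ u w u' w', polar Q (tp u w) (tp u' w') = f₁ u u' * f₂ w w'

lemma gl_ext_tp {g : Matrix (Fin a × Fin b) (Fin a × Fin b) F} {L : (Fin a × Fin b → F) →ₗ[F] (Fin a × Fin b → F)}
    (h : ∀ u w, g *ᵥ tp u w = L (tp u w)) : ∀ x, g *ᵥ x = L x := by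
  apply tp_induction
  · rw [mulVec_zero, map_zero]
  · exact h
  · intro x y hx hy
    rw [mulVec_add, map_add, hx, hy]

variable {Q : QuadraticForm F (Fin a × Fin b → F)}

lemma hasE_of_mset {S : Subgroup (GL (Fin a × Fin b) F)} {p q : Fin a × Fin b → F} (hp : Q p = 0) (hpq : polar Q p q = 0)
    {X : Matrix (Fin a × Fin b) (Fin a × Fin b) F} (hX : X ∈ matrixSet S)
    (h : ∀ u w, X *ᵥ tp u w = tp u w + polar Q (tp u w) q • p - polar Q (tp u w) p • q - (Q q * polar Q (tp u w) p) • p) :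
    HasE (S.comap (emGL Q)) p q := by
  refine ⟨hp, hpq, ?_⟩
  rw [Subgroup.mem_comap]
  obtain ⟨g, hg, hgX⟩ := hX
  have : emGL Q (eich Q p q hp hpq) = g := by
    apply GeoMax.gl_ext
    intro x
    rw [emGL_mulVec]
    have h1 := gl_ext_tp (g := X) (L := ((eich Q p q hp hpq : (Fin a × Fin b → F) ≃ₗ[F] (Fin a × Fin b → F)) : _ →ₗ[F] _)) (by
      intro u w
      rw [h]
      exact (eich_apply Q p q hp hpq (tp u w)).symm) x
    rw [← hgX] at h1
    exact h1.symm
  rw [this]; exact hg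

section full

variable {S : Subgroup (GL (Fin a × Fin b) F)} (h₁ : IsSymplecticForm f₁) (h₂ : IsSymplecticForm f₂) (hQ : QTens f₁ f₂ Q)
  (hfull : ∀ A, CoS f₁ f₂ S A)

include h₁ h₂ hQ hfull

lemma hasE_pair {w z : Fin b → F} (hwz : Pair f₂ w z) (u u' : Fin a → F) : HasE (S.comap (emGL Q)) (tp u w) (tp u' z) := by
  have h1 := hfull (rk f₁ u u') (- rk f₁ u' u) (isAdj_rk h₁ u u') w z hwz
  refine hasE_of_mset (hQ.pure u w) (by rw [hQ.pol, hwz.2.2, mul_zero]) h1 ?_
  intro x y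
  rw [add_mulVec, one_mulVec, nn, add_mulVec, kk_tp h₂, kk_tp h₂, hQ.pol, hQ.pol, hQ.pure, zero_mul, zero_smul, sub_zero, neg_mulVec,
    rk_mulVec h₁, rk_mulVec h₁]
  have e : tp (- (f₁ x u • u')) z = - (f₁ x u • tp u' z) := by ext t; simp [tp]; ring
  rw [e, tp_smul_left, smul_smul, smul_neg, smul_smul, mul_comm (f₂ y z), mul_comm (f₂ y w)]
  abel

lemma hasE_orth (hb : 4 < b) {w z : Fin b → F} (hw : w ≠ 0) (hwz : f₂ w z = 0) (u u' : Fin a → F) :
    HasE (S.comap (emGL Q)) (tp u w) (tp u' z) := by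
  by_cases hz : z ∈ Submodule.span F {w}
  · obtain ⟨z₀, h3, h4⟩ := exists_perp_notMem h₂ [w] [w] (by simp; omega)
    have hz₀ : z₀ ∉ Submodule.span F {w} := by simpa using h3
    have hwz₀ : f₂ w z₀ = 0 := by rw [skew h₂, h4 w (by simp), neg_zero]
    have e : tp u' z = tp u' (z + z₀) - tp u' z₀ := by rw [tp_add_right]; abel
    rw [e]
    refine HasE.sub (hasE_pair h₁ h₂ hQ hfull ⟨hw, fun h => hz₀ ?_, by rw [add_right h₂, hwz, hwz₀, add_zero]⟩ u u')
      (hasE_pair h₁ h₂ hQ hfull ⟨hw, hz₀, hwz₀⟩ u u')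
    have := Submodule.sub_mem _ h hz
    rwa [add_sub_cancel_left] at this
  · exact hasE_pair h₁ h₂ hQ hfull ⟨hw, hz, hwz⟩ u u'

lemma hasE_orth' (hb : 4 < b) {w z : Fin b → F} (hw : w ≠ 0) {u u' : Fin a → F} (hu : f₁ u u' = 0) :
    HasE (S.comap (emGL Q)) (tp u w) (tp u' z) := by
  by_cases hwz : f₂ w z = 0
  · exact hasE_orth h₁ h₂ hQ hfull hb hw hwz u u'
  by_cases hu' : u' = 0
  · rw [hu', tp_zero_left]; exact HasE.zero (hQ.pure u w)
  have hz : z ≠ 0 := by rintro rfl; exact hwz (zero_right h₂ w)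
  obtain ⟨y, h3, h4⟩ := exists_perp_notMem h₂ [w, z] [w] (by simp; omega)
  have hy : y ∉ Submodule.span F {w} := by simpa using h3
  have hyw : f₂ y w = 0 := h4 w (by simp)
  have hyz : f₂ y z = 0 := h4 z (by simp)
  obtain ⟨z', hz'w, hyz'⟩ := exists_y h₂ hy
  obtain ⟨x₀, hx₀⟩ := exists_ne_zero h₁ hu'
  have hz'y : f₂ z' y ≠ 0 := by rw [skew h₂]; exact neg_ne_zero.2 hyz'
  set x := (f₁ u' x₀ * f₂ z' y)⁻¹ • x₀ with hx
  have hne : f₁ u' x₀ * f₂ z' y ≠ 0 := mul_ne_zero hx₀ hz'y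
  have hx1 : f₁ u' x * f₂ z' y = 1 := by
    rw [hx, smul_right h₁, mul_assoc, inv_mul_cancel₀ hne]
  -- the moving element
  have h5 : HasE (S.comap (emGL Q)) (tp u' z) (tp x y) :=
    hasE_orth h₁ h₂ hQ hfull hb hz (by rw [skew h₂, hyz, neg_zero]) u' x
  obtain ⟨h6, h7, h8⟩ := h5
  have h9 : HasE (S.comap (emGL Q)) (tp u w) (tp u' z') :=
    hasE_orth h₁ h₂ hQ hfull hb hw (by rw [skew h₂, hz'w, neg_zero]) u u'
  have h10 := h9.conj h8
  rw [eich_apply, eich_apply, hQ.pure, zero_mul, zero_smul, zero_mul, zero_smul, sub_zero, sub_zero, hQ.pol, hQ.pol, hQ.pol, hQ.pol, hu,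
    skew h₂ w y, hyw, self h₁, zero_mul, zero_smul, neg_zero, mul_zero, zero_smul, sub_zero, add_zero, hx1, one_smul, zero_mul, zero_smul,
    sub_zero] at h10
  have := h10.sub h9
  rwa [add_sub_cancel_left] at this

lemma fullR_tp (hb : 4 < b) {u : Fin a → F} {w : Fin b → F} (hu : u ≠ 0) (hw : w ≠ 0) : FullR (S.comap (emGL Q)) (tp u w) := by
  obtain ⟨u₁, hu₁⟩ := exists_ne_zero h₁ hu
  obtain ⟨w₁, hw₁⟩ := exists_ne_zero h₂ hw
  have key : ∀ v : Fin a × Fin b → F, ∃ c : F, HasE (S.comap (emGL Q)) (tp u w) (v - c • tp u₁ w₁) := by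
    apply tp_induction
    · refine ⟨0, ?_⟩
      rw [zero_smul, sub_zero]
      exact HasE.zero (hQ.pure u w)
    · intro u' z
      set α := f₁ u u' / f₁ u u₁ with hα
      set β := f₂ w z / f₂ w w₁ with hβ
      refine ⟨α * β, ?_⟩
      have e : tp u' z - (α * β) • tp u₁ w₁ = tp (u' - α • u₁) z + tp (α • u₁) (z - β • w₁) := by
        rw [tp_sub_left, tp_smul_left, tp_smul_left, tp_sub_right, tp_smul_right, mul_smul, smul_sub]; abel
      rw [e]
      refine HasE.add (hasE_orth' h₁ h₂ hQ hfull hb hw ?_) (hasE_orth h₁ h₂ hQ hfull hb hw ?_ _ _)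
      · rw [sub_right h₁, smul_right h₁, hα, div_mul_cancel₀ _ hu₁, sub_self]
      · rw [sub_right h₂, smul_right h₂, hβ, div_mul_cancel₀ _ hw₁, sub_self]
    · rintro x y ⟨c, hc⟩ ⟨d, hd⟩
      refine ⟨c + d, ?_⟩
      have := hc.add hd
      convert this using 1
      module
  intro v hv
  obtain ⟨c, hc⟩ := key v
  have h3 := hc.ortho
  rw [Orth.pdr, Orth.psr, hv, hQ.pol, zero_sub, neg_eq_zero] at h3
  have hc0 : c = 0 := (mul_eq_zero.1 h3).resolve_right (mul_ne_zero hu₁ hw₁)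
  rw [hc0, zero_smul, sub_zero] at hc
  exact hc

/-- If all coefficients occur, the group contains `Ω`. -/
theorem omega_le_of_full [Finite F] (hnd : (polarBilin Q).Nondegenerate) (hb : 4 < b) (ha : 1 ≤ a) (hn : 7 ≤ a * b) :
    commutator (OGrp Q) ≤ S.comap (emGL Q) := by
  have hN : 7 ≤ finrank F (Fin a × Fin b → F) := by
    rw [finrank_fintype_fun_eq_card, Fintype.card_prod, Fintype.card_fin, Fintype.card_fin]; exact hn
  refine GeoMax.Ort.commutator_le hnd hN _ fun p q hp hpq => ?_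
  by_cases hp0 : p = 0
  · subst hp0
    refine ⟨hp, hpq, ?_⟩
    have : eich Q 0 q hp hpq = 1 := by
      refine OGrp_ext fun x => ?_
      rw [eich_apply, QuadraticMap.polar_zero_right]
      simp
    rw [this]; exact Subgroup.one_mem _
  · have hu : (Pi.single (⟨0, ha⟩ : Fin a) (1 : F) : Fin a → F) ≠ 0 := by
      intro h; have := congrFun h ⟨0, ha⟩; simp at this
    have hw : (Pi.single (⟨0, by omega⟩ : Fin b) (1 : F) : Fin b → F) ≠ 0 := by
      intro h; have := congrFun h ⟨0, by omega⟩; simp at this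
    obtain ⟨u₁, hu₁⟩ := exists_ne_zero h₁ hu
    obtain ⟨w₁, hw₁⟩ := exists_ne_zero h₂ hw
    have hu₁0 : u₁ ≠ 0 := by rintro rfl; exact hu₁ (zero_right h₁ _)
    have hw₁0 : w₁ ≠ 0 := by rintro rfl; exact hw₁ (zero_right h₂ _)
    refine GeoMax.Ort.FullR_all hnd hN (fullR_tp h₁ h₂ hQ hfull hb hu₁0 hw₁0) (fullR_tp h₁ h₂ hQ hfull hb hu hw) ?_ p hp hp0 q hpq
    rw [hQ.pol]
    exact mul_ne_zero hu₁ hw₁

end full

end Cfsg.Agent.Asch.TMax
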