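import Mathlib
import Cfsg.Prelude.Def_GeometricClasses
import Cfsg.Agent.Asch.TMaxSpFull
set_option autoImplicit false
set_option linter.unusedSectionVars false
set_option linter.unusedVariables false
set_option linter.style.haveILetI false

/-!
Overgroups of `Sp(U) ⊗ Sp(W)` in an isometry group of `U ⊗ W`: elements mapping some `U ⊗ w` to some `U ⊗ w'` are Kronecker
products if all coefficients are scalars.
-/

namespace Cfsg.Agent.Asch.TMax

open Cfsg.Geo Matrix Module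

open Cfsg.Agent.AschCases (tp kron_tp)

open Cfsg.Agent.GeoMax (isoGL formVec formVec_dotProduct tvec gl_mul_mulVec)

open Cfsg.Agent.GeoMax.Symp

open scoped Matrix Kronecker MatrixGroups

variable {a b : ℕ} {F : Type*} [Field F] {f₁ : (Fin a → F) → (Fin a → F) → F} {f₂ : (Fin b → F) → (Fin b → F) → F}

/-- `β` is the tensor product of the forms `f₁` and `f₂` -/
structure BTens (f₁ : (Fin a → F) → (Fin a → F) → F) (f₂ : (Fin b → F) → (Fin b → F) → F)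
    (β : (Fin a × Fin b → F) → (Fin a × Fin b → F) → F) : Prop where
  add_left : ∀ x y z, β (x + y) z = β x z + β y z
  add_right : ∀ x y z, β x (y + z) = β x y + β x z
  smul_left : ∀ (c : F) x y, β (c • x) y = c * β x y
  smul_right : ∀ (c : F) x y, β x (c • y) = c * β x y
  tp : ∀ u w u' w', β (tp u w) (tp u' w') = f₁ u u' * f₂ w w'

variable {β : (Fin a × Fin b → F) → (Fin a × Fin b → F) → F}

lemma BTens.zero_left (hβ : BTens f₁ f₂ β) (x) : β 0 x = 0 := by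
  have := hβ.smul_left 0 0 x
  rwa [zero_smul, zero_mul] at this

lemma BTens.zero_right (hβ : BTens f₁ f₂ β) (x) : β x 0 = 0 := by
  have := hβ.smul_right 0 x 0
  rwa [zero_smul, zero_mul] at this

lemma BTens.neg_left (hβ : BTens f₁ f₂ β) (x y) : β (-x) y = - β x y := by
  have := hβ.smul_left (-1) x y
  rwa [neg_one_smul, neg_one_mul] at this

lemma BTens.neg_right (hβ : BTens f₁ f₂ β) (x y) : β x (-y) = - β x y := by
  have := hβ.smul_right (-1) x y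
  rwa [neg_one_smul, neg_one_mul] at this

/-- contraction with a vector of the second factor -/
def con (f₂ : (Fin b → F) → (Fin b → F) → F) (v : Fin a × Fin b → F) (z : Fin b → F) : Fin a → F := fun i => f₂ (fun j => v (i, j)) z

lemma con_tp (h₂ : IsSymplecticForm f₂) (u : Fin a → F) (y z : Fin b → F) : con f₂ (tp u y) z = f₂ y z • u := by
  ext i
  have : (fun j => tp u y (i, j)) = u i • y := rfl
  rw [con, this, smul_left h₂, Pi.smul_apply, smul_eq_mul, mul_comm]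

lemma con_add (h₂ : IsSymplecticForm f₂) (v v' : Fin a × Fin b → F) (z : Fin b → F) : con f₂ (v + v') z = con f₂ v z + con f₂ v' z := by
  ext i
  exact GeoMax.Symp.add_left h₂ _ _ _

lemma con_sub (h₂ : IsSymplecticForm f₂) (v v' : Fin a × Fin b → F) (z : Fin b → F) : con f₂ (v - v') z = con f₂ v z - con f₂ v' z := by
  ext i
  exact GeoMax.Symp.sub_left h₂ _ _ _

lemma con_zero (h₂ : IsSymplecticForm f₂) (z : Fin b → F) : con f₂ (0 : Fin a × Fin b → F) z = 0 := by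
  ext i
  exact GeoMax.Symp.zero_left h₂ _

lemma con_smul_right (h₂ : IsSymplecticForm f₂) (v : Fin a × Fin b → F) (c : F) (z : Fin b → F) : con f₂ v (c • z) = c • con f₂ v z := by
  ext i
  exact GeoMax.Symp.smul_right h₂ _ _ _

lemma kk_mulVec (h₂ : IsSymplecticForm f₂) (A : Matrix (Fin a) (Fin a) F) (w z : Fin b → F) (v : Fin a × Fin b → F) :
    kk f₂ A w z *ᵥ v = tp (A *ᵥ con f₂ v z) w := by
  revert v
  apply tp_induction
  · rw [mulVec_zero, con_zero h₂, mulVec_zero, tp_zero_left]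
  · intro u y
    rw [kk_tp h₂, con_tp h₂, mulVec_smul, tp_smul_left]
  · intro x y hx hy
    rw [mulVec_add, hx, hy, con_add h₂, mulVec_add, tp_add_left]

lemma BTens.con_eq (hβ : BTens f₁ f₂ β) (h₁ : IsSymplecticForm f₁) (h₂ : IsSymplecticForm f₂) (v : Fin a × Fin b → F) (u : Fin a → F) (w : Fin b → F) :
    β v (AschCases.tp u w) = f₁ (con f₂ v w) u := by
  revert v
  apply tp_induction
  · rw [hβ.zero_left, con_zero h₂, GeoMax.Symp.zero_left h₁]
  · intro u' y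
    rw [hβ.tp, con_tp h₂, GeoMax.Symp.smul_left h₁, mul_comm]
  · intro x y hx hy
    rw [hβ.add_left, hx, hy, con_add h₂, GeoMax.Symp.add_left h₁]

lemma con_eq_zero_of_perp (hβ : BTens f₁ f₂ β) (h₁ : IsSymplecticForm f₁) (h₂ : IsSymplecticForm f₂) {v : Fin a × Fin b → F} {w : Fin b → F}
    (h : ∀ u, β v (tp u w) = 0) : con f₂ v w = 0 := by
  apply eq_zero_of_forall h₁
  intro z
  rw [← hβ.con_eq h₁ h₂, h]

lemma eq_tp_of_con (h₂ : IsSymplecticForm f₂) {v : Fin a × Fin b → F} {w : Fin b → F}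
    (h : ∀ z, f₂ w z = 0 → con f₂ v z = 0) : ∃ τ : Fin a → F, v = tp τ w := by
  have key : ∀ i, ∃ c : F, (fun j => v (i, j)) = c • w := by
    intro i
    by_contra hcon
    have hx : (fun j => v (i, j)) ∉ Submodule.span F {w} := by
      intro h3
      obtain ⟨c, hc⟩ := Submodule.mem_span_singleton.1 h3
      exact hcon ⟨c, hc.symm⟩
    obtain ⟨y, hy1, hy2⟩ := exists_y h₂ hx
    have h4 := h y (by rw [skew h₂, hy1, neg_zero])
    exact hy2 (congrFun h4 i)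
  choose τ hτ using key
  refine ⟨τ, ?_⟩
  ext ⟨i, j⟩
  exact congrFun (hτ i) j

/-- non-degeneracy -/
lemma BTens.left_ext (hβ : BTens f₁ f₂ β) (h₁ : IsSymplecticForm f₁) (h₂ : IsSymplecticForm f₂) {x y : Fin a × Fin b → F}
    (h : ∀ z, β x z = β y z) : x = y := by
  rw [← sub_eq_zero]
  have h3 : ∀ w, con f₂ (x - y) w = 0 := by
    intro w
    apply con_eq_zero_of_perp hβ h₁ h₂
    intro u
    rw [sub_eq_add_neg, hβ.add_left, hβ.neg_left, h, add_neg_cancel]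
  ext ⟨i, j⟩
  have : (fun l => (x - y) (i, l)) = 0 := by
    apply eq_zero_of_forall h₂
    intro z
    exact congrFun (h3 z) i
  exact congrFun this j

/-- the flipped form is again a tensor product -/
lemma BTens.flip (hβ : BTens f₁ f₂ β) (h₁ : IsSymplecticForm f₁) (h₂ : IsSymplecticForm f₂) : BTens f₁ f₂ (fun x y => β y x) where
  add_left x y z := hβ.add_right z x y
  add_right x y z := hβ.add_left y z x
  smul_left c x y := hβ.smul_right c y x
  smul_right c x y := hβ.smul_left c y x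
  tp u w u' w' := by
    rw [hβ.tp, skew h₁, skew h₂, neg_mul_neg]

lemma BTens.right_ext (hβ : BTens f₁ f₂ β) (h₁ : IsSymplecticForm f₁) (h₂ : IsSymplecticForm f₂) {x y : Fin a × Fin b → F}
    (h : ∀ z, β z x = β z y) : x = y := (hβ.flip h₁ h₂).left_ext h₁ h₂ h

section adj

variable (hβ : BTens f₁ f₂ β) (h₁ : IsSymplecticForm f₁) (h₂ : IsSymplecticForm f₂)

include hβ h₁ h₂

lemma isAdjB_unique {X Y Y' : Matrix (Fin a × Fin b) (Fin a × Fin b) F} (h : IsAdj β X Y) (h' : IsAdj β X Y') : Y = Y' := by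
  apply mat_ext
  intro y
  apply hβ.right_ext h₁ h₂
  intro z
  rw [← h, ← h']

lemma isAdjB_unique_left {X X' Y : Matrix (Fin a × Fin b) (Fin a × Fin b) F} (h : IsAdj β X Y) (h' : IsAdj β X' Y) : X = X' := by
  apply mat_ext
  intro y
  apply hβ.left_ext h₁ h₂
  intro z
  rw [h, h']

omit h₁ h₂ in
lemma isAdjB_of_tp {X Y : Matrix (Fin a × Fin b) (Fin a × Fin b) F}
    (h : ∀ u w u' w', β (X *ᵥ tp u w) (tp u' w') = β (tp u w) (Y *ᵥ tp u' w')) : IsAdj β X Y := by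
  intro x y
  revert x
  apply tp_induction
  · rw [mulVec_zero, hβ.zero_left, hβ.zero_left]
  · intro u w
    revert y
    apply tp_induction
    · rw [mulVec_zero, hβ.zero_right, hβ.zero_right]
    · intro u' w'; exact h u w u' w'
    · intro x y hx hy
      rw [mulVec_add, hβ.add_right, hβ.add_right, hx, hy]
  · intro x y hx hy
    rw [mulVec_add, hβ.add_left, hβ.add_left, hx, hy]

omit h₁ in
lemma isAdjB_kk {A A' : Matrix (Fin a) (Fin a) F} (hA : IsAdj f₁ A A') (w z : Fin b → F) : IsAdj β (kk f₂ A w z) (- kk f₂ A' z w) := by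
  apply isAdjB_of_tp hβ
  intro u y u' y'
  rw [kk_tp h₂, neg_mulVec, kk_tp h₂, hβ.smul_left, hβ.neg_right, hβ.smul_right, hβ.tp, hβ.tp, hA, skew h₂ w y']
  ring

omit h₁ h₂ in
lemma isAdjB_add {X Y X' Y' : Matrix (Fin a × Fin b) (Fin a × Fin b) F} (h : IsAdj β X Y) (h' : IsAdj β X' Y') :
    IsAdj β (X + X') (Y + Y') := by
  intro x y
  rw [add_mulVec, add_mulVec, hβ.add_left, hβ.add_right, h, h']

omit h₁ h₂ in
lemma isAdjB_smul {X Y : Matrix (Fin a × Fin b) (Fin a × Fin b) F} (c : F) (h : IsAdj β X Y) :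
    IsAdj β (c • X) (c • Y) := by
  intro x y
  rw [smul_mulVec, smul_mulVec, hβ.smul_left, hβ.smul_right, h]

omit h₁ in
lemma isAdjB_nn {A A' : Matrix (Fin a) (Fin a) F} (hA : IsAdj f₁ A A') (hA' : IsAdj f₁ A' A) (w z : Fin b → F) :
    IsAdj β (nn f₂ A A' w z) (- nn f₂ A A' w z) := by
  have h := isAdjB_add hβ (isAdjB_kk hβ h₂ hA w z) (isAdjB_kk hβ h₂ hA' z w)
  have e : - nn f₂ A A' w z = - kk f₂ A' z w + - kk f₂ A w z := by rw [nn]; abel
  rw [e]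
  exact h

end adj

lemma isAdjB_isom {S : Subgroup (GL (Fin a × Fin b) F)} (hiso : ∀ g ∈ S, ∀ x y, β ((g : Matrix _ _ F) *ᵥ x) ((g : Matrix _ _ F) *ᵥ y) = β x y)
    {g : GL (Fin a × Fin b) F} (hg : g ∈ S) : IsAdj β (g : Matrix _ _ F) ((g⁻¹ : GL _ F) : Matrix _ _ F) := by
  intro x y
  rw [← hiso g hg x, gl_mulVec_inv']

/-- A linear map with values in `U ⊗ w` is given by a matrix. -/
lemma exists_mat_of_tpR {w : Fin b → F} (hw : w ≠ 0) (L : (Fin a → F) →ₗ[F] (Fin a × Fin b → F)) (h : ∀ u, ∃ x, L u = tp x w) :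
    ∃ ρ : Matrix (Fin a) (Fin a) F, ∀ u, L u = tp (ρ *ᵥ u) w := by
  choose x hx using h
  have hadd : ∀ u u', x (u + u') = x u + x u' := by
    intro u u'
    apply tpR_injective hw
    rw [tpR_apply, ← hx, map_add, map_add, tpR_apply, tpR_apply, ← hx, ← hx]
  have hsmul : ∀ (c : F) u, x (c • u) = c • x u := by
    intro c u
    apply tpR_injective hw
    rw [tpR_apply, ← hx, map_smul, map_smul, tpR_apply, ← hx]
  let M : (Fin a → F) →ₗ[F] (Fin a → F) := { toFun := x, map_add' := hadd, map_smul' := hsmul }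
  refine ⟨LinearMap.toMatrix' M, fun u => ?_⟩
  rw [← toLin'_apply (LinearMap.toMatrix' M), toLin'_toMatrix', hx]
  rfl

section row

variable {S : Subgroup (GL (Fin a × Fin b) F)} (hS : HasSp f₁ f₂ S) (h₁ : IsSymplecticForm f₁) (h₂ : IsSymplecticForm f₂) (hb : 5 < b)
  (hs : ∀ A, CoS f₁ f₂ S A → ∃ c : F, A = c • (1 : Matrix (Fin a) (Fin a) F))
  (hβ : BTens f₁ f₂ β) (hiso : ∀ g ∈ S, ∀ x y, β (g.1 *ᵥ x) (g.1 *ᵥ y) = β x y)

include hS h₁ h₂ hb hs hβ hiso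

/-- The rows of an element of the group centralising `U ⊗ w` and acting trivially on `U ⊗ w^⊥ / U ⊗ w` are scalar. -/
lemma row_scalar_sp {w : Fin b → F} (hw : w ≠ 0) {s : GL (Fin a × Fin b) F} (hsS : s ∈ S)
    (hsw : ∀ u : Fin a → F, s.1 *ᵥ tp u w = tp u w)
    (hsy : ∀ y, f₂ w y = 0 → ∀ u : Fin a → F, ∃ x, s.1 *ᵥ tp u y = tp u y + tp x w) {y₀ : Fin b → F} (hy₀ : f₂ w y₀ = 0) :
    ∃ c : F, ∀ u : Fin a → F, s.1 *ᵥ tp u y₀ = tp u y₀ + c • tp u w := by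
  by_cases hyw : y₀ ∈ Submodule.span F {w}
  · obtain ⟨c, rfl⟩ := Submodule.mem_span_singleton.1 hyw
    refine ⟨0, fun u => ?_⟩
    rw [tp_smul_right, mulVec_smul, hsw, zero_smul, add_zero]
  have hpair : Pair f₂ w y₀ := ⟨hw, hyw, hy₀⟩
  -- the coefficient
  have hL : ∃ A : Matrix (Fin a) (Fin a) F, ∀ u, s.1 *ᵥ tp u y₀ = tp u y₀ + tp (A *ᵥ u) w := by
    obtain ⟨ρ, hρ⟩ := exists_mat_of_tpR hw ((toLin' (s : Matrix (Fin a × Fin b) (Fin a × Fin b) F) - LinearMap.id) ∘ₗ tpR (a := a) y₀) (by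
      intro u
      obtain ⟨x, hx⟩ := hsy y₀ hy₀ u
      refine ⟨x, ?_⟩
      change s.1 *ᵥ tp u y₀ - tp u y₀ = _
      rw [hx, add_sub_cancel_left])
    refine ⟨ρ, fun u => ?_⟩
    have : s.1 *ᵥ tp u y₀ - tp u y₀ = tp (ρ *ᵥ u) w := hρ u
    rw [← this]; abel
  obtain ⟨A, hA⟩ := hL
  -- the commutator with a transvection
  obtain ⟨t, ht, htm⟩ := hS.right _ (tr_mem_iso h₂ y₀ 1)
  replace htm : t.1 = (1 : Matrix (Fin a) (Fin a) F) ⊗ₖ ((tr h₂ y₀ 1 : GL _ F) : Matrix (Fin b) (Fin b) F) := htm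
  have htt : ∀ (u : Fin a → F) (y : Fin b → F), t.1 *ᵥ tp u y = tp u y + f₂ y y₀ • tp u y₀ := by
    intro u y
    rw [htm, kron_tp, one_mulVec, tr_mulVec, one_mul, tp_add_right, tp_smul_right]
  set s' : GL (Fin a × Fin b) F := s * t * (t * s)⁻¹ with hs'
  have hs'S : s' ∈ S := S.mul_mem (S.mul_mem hsS ht) (S.inv_mem (S.mul_mem ht hsS))
  have hs'ts : ∀ v, s'.1 *ᵥ (t.1 *ᵥ (s.1 *ᵥ v)) = s.1 *ᵥ (t.1 *ᵥ v) := by
    intro v
    rw [← gl_mul_mulVec, ← gl_mul_mulVec, ← gl_mul_mulVec, hs']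
    congr 2
    group
  have hs'w : ∀ u, s'.1 *ᵥ tp u w = tp u w := by
    intro u
    have h3 := hs'ts (tp u w)
    rw [hsw, htt, hy₀, zero_smul, add_zero, hsw] at h3
    exact h3
  have hs'y : ∀ y, f₂ w y = 0 → ∀ u, s'.1 *ᵥ tp u y = tp u y + f₂ y y₀ • tp (A *ᵥ u) w := by
    intro y hy u
    set y' := y - f₂ y y₀ • y₀ with hy'
    have hy'w : f₂ w y' = 0 := by rw [hy', GeoMax.Symp.sub_right h₂, GeoMax.Symp.smul_right h₂, hy, hy₀, mul_zero, sub_zero]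
    have hy'0 : f₂ y' y₀ = f₂ y y₀ := by rw [hy', GeoMax.Symp.sub_left h₂, GeoMax.Symp.smul_left h₂, self h₂, mul_zero, sub_zero]
    obtain ⟨x, hx⟩ := hsy y' hy'w u
    have h3 := hs'ts (tp u y')
    rw [hx, mulVec_add, htt, htt, hy₀, zero_smul, add_zero, hy'0, mulVec_add, hs'w] at h3
    have e4 : s.1 *ᵥ (tp u y' + f₂ y y₀ • tp u y₀) = tp u y' + tp x w + f₂ y y₀ • (tp u y₀ + tp (A *ᵥ u) w) := by
      rw [mulVec_add, mulVec_smul, hx, hA]
    have e : tp u y = tp u y' + f₂ y y₀ • tp u y₀ := by rw [hy', tp_sub_right, tp_smul_right]; abel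
    rw [e]
    have h4 := eq_sub_of_add_eq h3
    rw [h4, e4, smul_add]
    abel
  -- the second commutator
  obtain ⟨y₁, w', hy₁w, hy₁y₀, hpair1, hpair2, hy₀w'⟩ := exists_config h₂ hb hpair
  obtain ⟨A', hA'⟩ := exists_isAdj h₁ A
  have hw'w : f₂ w' w = 0 := by rw [skew h₂, hpair2.2.2, neg_zero]
  have hw'y₁ : f₂ w' y₁ = 0 := by rw [skew h₂, hpair1.2.2, neg_zero]
  have hw'y₀ : f₂ w' y₀ = 0 := by rw [skew h₂, hy₀w', neg_zero]
  set κ := f₂ y₁ y₀ with hκ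
  set n₁ : Matrix (Fin a × Fin b) (Fin a × Fin b) F := nn f₂ 1 1 y₁ w' with hn₁
  have hn₁S : 1 + n₁ ∈ matrixSet S := hS.coS_one h₁ h₂ (by omega) 1 isAdj_one y₁ w' hpair1
  have e1 : s'.1 * n₁ = n₁ + κ • kk f₂ A w w' := by
    apply mat_ext
    apply tp_induction
    · rw [mulVec_zero, mulVec_zero]
    · intro u v
      rw [← mulVec_mulVec, hn₁, nn, add_mulVec, kk_tp h₂, kk_tp h₂, one_mulVec, mulVec_add, mulVec_smul, mulVec_smul,
        hs'y y₁ (by rw [skew h₂, hy₁w, neg_zero]), hs'y w' hpair2.2.2, hw'y₀, zero_smul, add_zero, add_mulVec, add_mulVec, kk_tp h₂, kk_tp h₂,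
        smul_mulVec, kk_tp h₂, one_mulVec, smul_add, smul_comm]
      abel
    · intro x y hx hy
      rw [mulVec_add, mulVec_add, hx, hy]
  have hadj1 : IsAdj β n₁ (- n₁) := isAdjB_nn hβ h₂ isAdj_one isAdj_one _ _
  have hadjs : IsAdj β s'.1 (s'⁻¹).1 := isAdjB_isom hiso hs'S
  have hadjs' : IsAdj β (s'⁻¹).1 s'.1 := by
    have := isAdjB_isom hiso (S.inv_mem hs'S)
    rwa [inv_inv] at this
  have hadjk : IsAdj β (kk f₂ A w w') (- kk f₂ A' w' w) := isAdjB_kk hβ h₂ hA' _ _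
  have e2 : n₁ * (s'⁻¹).1 = n₁ + κ • kk f₂ A' w' w := by
    have h3 := hadjs.mul hadj1
    rw [e1] at h3
    have h4 := isAdjB_add hβ hadj1 (isAdjB_smul hβ κ hadjk)
    have h5 := isAdjB_unique hβ h₁ h₂ h3 h4
    rw [neg_mul, smul_neg, ← neg_add, neg_inj] at h5
    exact h5
  have e3 : kk f₂ A w w' * (s'⁻¹).1 = kk f₂ A w w' := by
    have h3 := hadjk.mul hadjs'
    have h4 : s'.1 * (- kk f₂ A' w' w) = - kk f₂ A' w' w := by
      apply mat_ext
      apply tp_induction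
      · rw [mulVec_zero, mulVec_zero]
      · intro u v
        rw [← mulVec_mulVec, neg_mulVec, mulVec_neg, kk_tp h₂, mulVec_smul, hs'y w' hpair2.2.2, hw'y₀, zero_smul, add_zero]
      · intro x y hx hy
        rw [mulVec_add, mulVec_add, hx, hy]
    rw [h4] at h3
    exact isAdjB_unique_left hβ h₁ h₂ h3 hadjk
  have e4 : s'.1 * (1 + n₁) * (s'⁻¹).1 = 1 + n₁ + κ • nn f₂ A A' w w' := by
    rw [mul_add, mul_one, add_mul, ← Units.val_mul, mul_inv_cancel, Units.val_one, e1, add_mul, e2, smul_mul_assoc, e3, nn, smul_add]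
    abel
  have hn₁sq : n₁ * n₁ = 0 := nn_sq h₂ hpair1.2.2 _ _ _ _
  have e5 : nn f₂ A A' w w' * n₁ = 0 := by
    simp only [hn₁, nn, add_mul, mul_add, kk_mul h₂, hpair1.2.2, hy₁w, hw'w, self h₂, zero_smul, add_zero]
  have h6 : 1 + κ • nn f₂ A A' w w' ∈ matrixSet S := by
    have h7 : (1 - n₁) ∈ matrixSet S := by
      refine mset_inv hn₁S ?_
      have : (1 + n₁) * (1 - n₁) = 1 - n₁ * n₁ := by noncomm_ring
      rw [this, hn₁sq, sub_zero]
    have h8 := mset_mul (mset_conj hs'S hn₁S) h7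
    rw [e4] at h8
    convert h8 using 1
    have : (1 + n₁ + κ • nn f₂ A A' w w') * (1 - n₁) = 1 - n₁ * n₁ + κ • nn f₂ A A' w w' - κ • (nn f₂ A A' w w' * n₁) := by
      rw [mul_sub, mul_one, add_mul, add_mul, one_mul, smul_mul_assoc]
      abel
    rw [this, hn₁sq, e5, smul_zero, sub_zero, sub_zero]
  have h9 : CoS f₁ f₂ S (κ • A) := by
    refine hS.coS_of_pair h₁ h₂ (by omega) (hA'.smul h₁ κ) hpair2 ?_
    convert h6 using 2
    simp only [nn, kk_smul, smul_add]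
  obtain ⟨c, hc⟩ := hs _ h9
  refine ⟨κ⁻¹ * c, fun u => ?_⟩
  have h10 : A = (κ⁻¹ * c) • (1 : Matrix (Fin a) (Fin a) F) := by
    rw [mul_smul, ← hc, smul_smul, inv_mul_cancel₀ hy₁y₀, one_smul]
  rw [hA, h10, smul_mulVec, one_mulVec, tp_smul_left]

/-- The action on `U ⊗ w^⊥`. -/
lemma map_perp_sp (hq : 3 ≤ a ∨ ∃ c : F, c ≠ 0 ∧ c ≠ 1) (ha : 1 ≤ a) {w w' : Fin b → F} (hw : w ≠ 0) (hw' : w' ≠ 0) {g : GL (Fin a × Fin b) F} (hg : g ∈ S)
    {r : GL (Fin a) F} (hgw : ∀ u : Fin a → F, g.1 *ᵥ tp u w = tp (r.1 *ᵥ u) w') :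
    ∀ y, f₂ w y = 0 → ∃ y', ∀ u : Fin a → F, g.1 *ᵥ tp u y = tp (r.1 *ᵥ u) y' := by
  have hginv : ∀ x, (g⁻¹).1 *ᵥ tp x w' = tp ((r⁻¹).1 *ᵥ x) w := by
    intro x
    have h3 := hgw ((r⁻¹).1 *ᵥ x)
    rw [gl_mulVec_inv'] at h3
    rw [← h3, gl_inv_mulVec']
  have hcon0 : ∀ y, f₂ w y = 0 → ∀ u, con f₂ (g.1 *ᵥ tp u y) w' = 0 := by
    intro y hy u
    apply con_eq_zero_of_perp hβ h₁ h₂
    intro x
    have h3 := hgw ((r⁻¹).1 *ᵥ x)
    rw [gl_mulVec_inv'] at h3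
    rw [← h3, hiso g hg, hβ.tp, skew h₂ y w, hy, neg_zero, mul_zero]
  -- contractions are scalar
  have hconz : ∀ z, f₂ w' z = 0 → ∀ y, f₂ w y = 0 → ∃ c : F, ∀ u, con f₂ (g.1 *ᵥ tp u y) z = c • (r.1 *ᵥ u) := by
    intro z hz y hy
    by_cases hzw : z ∈ Submodule.span F {w'}
    · obtain ⟨c, rfl⟩ := Submodule.mem_span_singleton.1 hzw
      refine ⟨0, fun u => ?_⟩
      rw [con_smul_right h₂, hcon0 y hy, smul_zero, zero_smul]
    obtain ⟨k, hk, hkm⟩ := hS.coS_one h₁ h₂ (by omega) 1 isAdj_one w' z ⟨hw', hzw, hz⟩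
    have hk2 : ∀ v, k.1 *ᵥ v = v + (tp (con f₂ v z) w' + tp (con f₂ v w') z) := by
      intro v
      rw [show k.1 = 1 + nn f₂ 1 1 w' z from hkm, add_mulVec, one_mulVec, nn, add_mulVec, kk_mulVec h₂, kk_mulVec h₂,
        one_mulVec, one_mulVec]
    have hs1 : ∀ y, f₂ w y = 0 → ∀ u, (g⁻¹ * k * g).1 *ᵥ tp u y =
        tp u y + tp ((r⁻¹).1 *ᵥ con f₂ (g.1 *ᵥ tp u y) z) w := by
      intro y hy u
      rw [gl_mul_mulVec, gl_mul_mulVec, hk2, hcon0 y hy, tp_zero_left, add_zero, mulVec_add, gl_inv_mulVec', hginv]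
    obtain ⟨c, hc⟩ := row_scalar_sp hS h₁ h₂ hb hs hβ hiso hw (s := g⁻¹ * k * g) (S.mul_mem (S.mul_mem (S.inv_mem hg) hk) hg)
      (by
        intro u
        rw [hs1 w (self h₂ w), hgw, con_tp h₂, hz, zero_smul, mulVec_zero, tp_zero_left, add_zero])
      (fun y hy u => ⟨_, hs1 y hy u⟩) hy
    refine ⟨c, fun u => ?_⟩
    have h3 := hc u
    rw [hs1 y hy, ← tp_smul_left] at h3
    have h4 := tpR_injective hw (add_left_cancel h3)
    have h5 := congrArg (fun x => r.1 *ᵥ x) h4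
    rwa [gl_mulVec_inv', mulVec_smul] at h5
  -- the decomposition
  have hu₀ : (Pi.single (⟨0, ha⟩ : Fin a) (1 : F) : Fin a → F) ≠ 0 := by
    intro h; have := congrFun h ⟨0, ha⟩; simp at this
  set u₀ : Fin a → F := Pi.single (⟨0, ha⟩ : Fin a) (1 : F) with hu₀d
  have hru₀ : r.1 *ᵥ u₀ ≠ 0 := by
    intro h
    apply hu₀
    rw [← gl_inv_mulVec' r u₀, h, mulVec_zero]
  obtain ⟨i₀, hi₀⟩ := Function.ne_iff.1 hru₀
  rw [Pi.zero_apply] at hi₀
  have hdec : ∀ y, f₂ w y = 0 → ∃ (y' : Fin b → F) (τ : Matrix (Fin a) (Fin a) F), f₂ y' w' = 0 ∧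
      ∀ u, g.1 *ᵥ tp u y = tp (r.1 *ᵥ u) y' + tp (τ *ᵥ u) w' := by
    intro y hy
    set y' : Fin b → F := ((r.1 *ᵥ u₀) i₀)⁻¹ • (fun j => (g.1 *ᵥ tp u₀ y) (i₀, j)) with hy'
    have hy'z : ∀ z, f₂ w' z = 0 → ∀ u, con f₂ (g.1 *ᵥ tp u y) z = f₂ y' z • (r.1 *ᵥ u) := by
      intro z hz u
      obtain ⟨c, hc⟩ := hconz z hz y hy
      have h3 := congrFun (hc u₀) i₀
      rw [Pi.smul_apply, smul_eq_mul] at h3
      have h4 : f₂ y' z = c := by
        rw [hy', GeoMax.Symp.smul_left h₂]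
        change _ * con f₂ (g.1 *ᵥ tp u₀ y) z i₀ = c
        rw [h3]
        field_simp
      rw [h4, hc]
    have h5 : ∀ u, ∃ x, ((toLin' (g : Matrix (Fin a × Fin b) (Fin a × Fin b) F)) ∘ₗ tpR (a := a) y - tpR (a := a) y' ∘ₗ toLin' (r : Matrix (Fin a) (Fin a) F)) u = tp x w' := by
      intro u
      apply eq_tp_of_con h₂
      intro z hz
      change con f₂ (g.1 *ᵥ tp u y - tp (r.1 *ᵥ u) y') z = 0
      rw [con_sub h₂, con_tp h₂, hy'z z hz, sub_self]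
    obtain ⟨τ, hτ⟩ := exists_mat_of_tpR hw' _ h5
    refine ⟨y', τ, ?_, fun u => ?_⟩
    · have h6 := hy'z w' (self h₂ w') u₀
      rw [hcon0 y hy] at h6
      have h7 := congrFun h6 i₀
      rw [Pi.zero_apply, Pi.smul_apply, smul_eq_mul] at h7
      exact (mul_eq_zero.1 h7.symm).resolve_right hi₀
    · have h8 : g.1 *ᵥ tp u y - tp (r.1 *ᵥ u) y' = tp (τ *ᵥ u) w' := hτ u
      rw [← h8]; abel
  -- `r` is a similitude
  obtain ⟨l, hl0, hl⟩ : ∃ l : F, l ≠ 0 ∧ ∀ u u', f₁ (r.1 *ᵥ u) (r.1 *ᵥ u') = l * f₁ u u' := by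
    obtain ⟨y, h3, h4⟩ := exists_perp_notMem h₂ [w] [w] (by simp; omega)
    have hy : y ∉ Submodule.span F {w} := by simpa using h3
    have hyw : f₂ w y = 0 := by rw [skew h₂, h4 w (by simp), neg_zero]
    obtain ⟨z, hzw, hyz⟩ := exists_y h₂ hy
    obtain ⟨y', τ, hy'w, hy'⟩ := hdec y hyw
    obtain ⟨z', τ', hz'w, hz'⟩ := hdec z (by rw [skew h₂, hzw, neg_zero])
    have h5 : ∀ u u', f₁ (r.1 *ᵥ u) (r.1 *ᵥ u') * f₂ y' z' = f₁ u u' * f₂ y z := by
      intro u u'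
      have h6 := hiso g hg (tp u y) (tp u' z)
      rw [hy', hz', hβ.add_left, hβ.add_right, hβ.add_right, hβ.tp, hβ.tp, hβ.tp, hβ.tp, hβ.tp, hy'w, skew h₂ w' z', hz'w, self h₂] at h6
      rw [← h6]; ring
    obtain ⟨u', hu'⟩ := exists_ne_zero h₁ hu₀
    have h7 : f₂ y' z' ≠ 0 := by
      intro h
      have := h5 u₀ u'
      rw [h, mul_zero] at this
      exact mul_ne_zero hu' hyz this.symm
    refine ⟨f₂ y z / f₂ y' z', div_ne_zero hyz h7, fun u u' => ?_⟩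
    have := h5 u u'
    field_simp
    rw [this]; ring
  have hrconj : ∀ x ∈ isoGL f₁, r * x * r⁻¹ ∈ isoGL f₁ := by
    intro x hx
    rw [GeoMax.mem_isoGL]
    intro u v
    rw [gl_mul_mulVec, gl_mul_mulVec, gl_mul_mulVec, gl_mul_mulVec, hl, GeoMax.mem_isoGL.1 hx, ← hl, gl_mulVec_inv', gl_mulVec_inv']
  -- conclusion
  intro y hy
  obtain ⟨y', τ, hy'w, hy'⟩ := hdec y hy
  have hP : ∃ c : F, (r⁻¹).1 * τ = c • (1 : Matrix (Fin a) (Fin a) F) := by
    apply scalar_of_comm_sp h₁ (by rwa [Fintype.card_fin])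
    intro u₁ c₁
    set x := tr h₁ u₁ c₁ with hx
    have hxi : x ∈ isoGL f₁ := tr_mem_iso h₁ u₁ c₁
    obtain ⟨k, hk, hkm⟩ := hS.left x hxi
    obtain ⟨k', hk', hkm'⟩ := hS.left _ (hrconj x hxi)
    replace hkm : k.1 = (x : Matrix (Fin a) (Fin a) F) ⊗ₖ (1 : Matrix (Fin b) (Fin b) F) := hkm
    replace hkm' : k'.1 = ((r * x * r⁻¹ : GL _ F) : Matrix (Fin a) (Fin a) F) ⊗ₖ (1 : Matrix (Fin b) (Fin b) F) := hkm'
    have hkinv : ∀ u v, (k⁻¹).1 *ᵥ tp u v = tp ((x⁻¹).1 *ᵥ u) v := by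
      intro u v
      have h3 : k.1 *ᵥ tp ((x⁻¹).1 *ᵥ u) v = tp u v := by
        rw [hkm, kron_tp, one_mulVec, gl_mulVec_inv']
      rw [← h3, gl_inv_mulVec']
    have hk't : ∀ u v, k'.1 *ᵥ tp u v = tp ((r * x * r⁻¹).1 *ᵥ u) v := by
      intro u v
      rw [hkm', kron_tp, one_mulVec]
    have hsact : ∀ y y' (τ : Matrix (Fin a) (Fin a) F), (∀ u, g.1 *ᵥ tp u y = tp (r.1 *ᵥ u) y' + tp (τ *ᵥ u) w') →
        ∀ u, (g⁻¹ * k' * g * k⁻¹).1 *ᵥ tp u y = tp u y +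
        tp ((r⁻¹).1 *ᵥ ((r * x * r⁻¹).1 *ᵥ (τ *ᵥ ((x⁻¹).1 *ᵥ u)) - τ *ᵥ u)) w := by
      intro y y' τ hgy u
      rw [gl_mul_mulVec, gl_mul_mulVec, gl_mul_mulVec, hkinv, hgy, mulVec_add, hk't, hk't]
      have e1 : ((r * x * r⁻¹ : GL _ F) : Matrix (Fin a) (Fin a) F) *ᵥ (r.1 *ᵥ ((x⁻¹).1 *ᵥ u)) =
          r.1 *ᵥ u := by
        rw [gl_mul_mulVec, gl_mul_mulVec, gl_inv_mulVec', gl_mulVec_inv']
      rw [e1]
      have e2 : tp (r.1 *ᵥ u) y' = g.1 *ᵥ tp u y - tp (τ *ᵥ u) w' := by rw [hgy]; abel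
      rw [e2, mulVec_add, mulVec_sub, gl_inv_mulVec', hginv, hginv, mulVec_sub, tp_sub_left]
      abel
    obtain ⟨c, hc⟩ := row_scalar_sp hS h₁ h₂ hb hs hβ hiso hw (s := g⁻¹ * k' * g * k⁻¹)
      (S.mul_mem (S.mul_mem (S.mul_mem (S.inv_mem hg) hk') hg) (S.inv_mem hk))
      (by
        intro u
        have h3 := hsact w w' 0 (by intro u; rw [zero_mulVec, tp_zero_left, add_zero, hgw]) u
        rw [zero_mulVec, zero_mulVec, mulVec_zero, sub_zero, mulVec_zero, tp_zero_left, add_zero] at h3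
        exact h3)
      (by
        intro y hy u
        obtain ⟨y', τ, _, hy'⟩ := hdec y hy
        exact ⟨_, hsact y y' τ hy' u⟩) hy
    refine ⟨c, ?_⟩
    have hxval : (x : Matrix (Fin a) (Fin a) F) = 1 + c₁ • rk f₁ u₁ u₁ := tr_val h₁ u₁ c₁
    rw [← hxval]
    apply mat_ext
    intro v
    have h3 := hc (x.1 *ᵥ v)
    rw [hsact y y' τ hy', gl_inv_mulVec', ← tp_smul_left] at h3
    have h4 := tpR_injective hw (add_left_cancel h3)
    rw [mulVec_sub, gl_mul_mulVec, gl_mul_mulVec, gl_inv_mulVec'] at h4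
    rw [sub_mulVec, smul_mulVec, ← mulVec_mulVec, ← mulVec_mulVec, ← mulVec_mulVec, ← mulVec_mulVec]
    exact h4
  obtain ⟨c, hc⟩ := hP
  have hτ : τ = c • (r : Matrix (Fin a) (Fin a) F) := by
    have h3 : r.1 * ((r⁻¹).1 * τ) = τ := by
      rw [← mul_assoc, ← Units.val_mul, mul_inv_cancel, Units.val_one, one_mul]
    rw [← h3, hc, mul_smul_comm, mul_one]
  refine ⟨y' + c • w', fun u => ?_⟩
  rw [hy', hτ, smul_mulVec, tp_smul_left, tp_add_right, tp_smul_right]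

/-- An element mapping some `U ⊗ w` to some `U ⊗ w'` is a Kronecker product. -/
theorem mem_kron_of_map_sp (hq : 3 ≤ a ∨ ∃ c : F, c ≠ 0 ∧ c ≠ 1) (ha : 1 ≤ a) {w w' : Fin b → F} (hw : w ≠ 0) (hw' : w' ≠ 0) {g : GL (Fin a × Fin b) F} (hg : g ∈ S)
    (h : (LinearMap.range (tpR (a := a) w)).map (toLin' g.1) = LinearMap.range (tpR (a := a) w')) :
    g ∈ kroneckerSubgroup a b F := by
  have h3 : ∀ u : Fin a → F, ∃ u' : Fin a → F, (toLin' (g : Matrix (Fin a × Fin b) (Fin a × Fin b) F) ∘ₗ tpR (a := a) w) u = tp u' w' := by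
    intro u
    have : toLin' g.1 (tp u w) ∈ LinearMap.range (tpR (a := a) w') := by
      rw [← h]; exact Submodule.mem_map_of_mem ⟨u, rfl⟩
    rw [mem_range_tpR] at this
    exact this
  obtain ⟨r₀, hr₀⟩ := exists_mat_of_tpR hw' _ h3
  have hr₀' : ∀ u : Fin a → F, (g : Matrix (Fin a × Fin b) (Fin a × Fin b) F) *ᵥ tp u w = tp (r₀ *ᵥ u) w' := hr₀
  have hdet : r₀.det ≠ 0 := by
    intro h0
    obtain ⟨v, hv0, hv⟩ := Matrix.exists_mulVec_eq_zero_iff.2 h0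
    have h4 := hr₀' v
    rw [hv, tp_zero_left] at h4
    have h5 : tp v w = 0 := by rw [← gl_inv_mulVec' g (tp v w), h4, mulVec_zero]
    exact tp_ne_zero hv0 hw h5
  set r : GL (Fin a) F := GeneralLinearGroup.mkOfDetNeZero r₀ hdet with hr
  have hgw : ∀ u : Fin a → F, (g : Matrix (Fin a × Fin b) (Fin a × Fin b) F) *ᵥ tp u w = tp (r.1 *ᵥ u) w' := hr₀'
  have hall : ∀ y₂, ∃ y₂', ∀ u, g.1 *ᵥ tp u y₂ = tp (r.1 *ᵥ u) y₂' := by
    intro y₂
    obtain ⟨y, h4, h5⟩ := exists_perp_notMem h₂ [w, y₂] [] (by simp; omega)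
    have hy0 : y ≠ 0 := by
      rintro rfl
      exact h4 (Submodule.zero_mem _)
    obtain ⟨y', hy'⟩ := map_perp_sp hS h₁ h₂ hb hs hβ hiso hq ha hw hw' hg hgw y (by rw [skew h₂, h5 w (by simp), neg_zero])
    have hy'0 : y' ≠ 0 := by
      rintro rfl
      have hu₀ : (Pi.single (⟨0, ha⟩ : Fin a) (1 : F) : Fin a → F) ≠ 0 := by
        intro h; have := congrFun h ⟨0, ha⟩; simp at this
      have h6 := hy' (Pi.single (⟨0, ha⟩ : Fin a) (1 : F))
      rw [tp_zero_right] at h6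
      refine tp_ne_zero hu₀ hy0 ?_
      rw [← gl_inv_mulVec' g (tp _ y), h6, mulVec_zero]
    exact map_perp_sp hS h₁ h₂ hb hs hβ hiso hq ha hy0 hy'0 hg hy' y₂ (h5 y₂ (by simp))
  choose B hB using hall
  refine mem_kron_of_eq ha (by omega) (A := r₀) (B := of fun i j => B (Pi.single j 1) i) ?_
  apply mat_ext
  refine tp_induction (P := fun x => g.1 *ᵥ x = (r₀ ⊗ₖ (of fun i j => B (Pi.single j 1) i : Matrix (Fin b) (Fin b) F)) *ᵥ x) ?_ ?_ ?_
  · rw [mulVec_zero, mulVec_zero]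
  · intro u v
    have hv : v = ∑ j, Pi.single j (v j) := (Finset.univ_sum_single v).symm
    have e1 : ∀ (X : Matrix (Fin a × Fin b) (Fin a × Fin b) F), X *ᵥ tp u v = ∑ j, v j • X *ᵥ tp u (Pi.single j 1) := by
      intro X
      have e2 : tp u v = ∑ j, v j • tp u (Pi.single j 1) := by
        ext ⟨i, j⟩
        rw [Finset.sum_apply, Finset.sum_eq_single j]
        · simp [tp]; ring
        · intro l _ hl
          simp [tp, Ne.symm hl]
        · simp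
      rw [e2]
      have := map_sum (toLin' X) (fun j => v j • tp u (Pi.single j 1)) Finset.univ
      rw [toLin'_apply] at this
      rw [this]
      apply Finset.sum_congr rfl
      intro j _
      rw [toLin'_apply, mulVec_smul]
    rw [e1, e1]
    apply Finset.sum_congr rfl
    intro j _
    rw [hB, kron_tp, mulVec_single_one]
    rfl
  · intro x y hx hy
    rw [mulVec_add, mulVec_add, hx, hy]

end row

end Cfsg.Agent.Asch.TMax
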