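import Mathlib
import Cfsg.Prelude.Def_GeometricClasses
import Cfsg.Agent.Asch.TMaxSpBlock
set_option autoImplicit false
set_option linter.unusedSectionVars false
set_option linter.unusedVariables false
set_option linter.style.haveILetI false

/-!
Overgroups of `Sp(U) ⊗ Sp(W)` in an isometry group of `U ⊗ W`, for `dim U < dim W`: the main theorem.
-/

namespace Cfsg.Agent.Asch.TMax

open Cfsg.Geo Matrix Module

open Cfsg.Agent.AschCases (tp kron_tp)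

open Cfsg.Agent.GeoMax (isoGL formVec formVec_dotProduct tvec gl_mul_mulVec)

open Cfsg.Agent.GeoMax.Symp

open scoped Matrix Kronecker MatrixGroups

section stab

variable {ι : Type} [Fintype ι] [DecidableEq ι] {F : Type*} [Field F] {f : (ι → F) → (ι → F) → F}

/-- the unipotent radical of the stabiliser of a point -/
def uniRad (hf : IsSymplecticForm f) (u₀ : ι → F) : Subgroup (GL ι F) where
  carrier := {g | g ∈ isoGL f ∧ g.1 *ᵥ u₀ = u₀ ∧ ∀ x, f x u₀ = 0 → ∃ c : F, g.1 *ᵥ x = x + c • u₀}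
  mul_mem' := by
    rintro g h ⟨h1, h2, h3⟩ ⟨h1', h2', h3'⟩
    refine ⟨(isoGL f).mul_mem h1 h1', by rw [gl_mul_mulVec, h2', h2], fun x hx => ?_⟩
    obtain ⟨c, hc⟩ := h3' x hx
    obtain ⟨d, hd⟩ := h3 x hx
    refine ⟨d + c, ?_⟩
    rw [gl_mul_mulVec, hc, mulVec_add, mulVec_smul, h2, hd, add_smul]
    abel
  one_mem' := ⟨(isoGL f).one_mem, by rw [Units.val_one, one_mulVec], fun x _ => ⟨0, by rw [Units.val_one, one_mulVec, zero_smul, add_zero]⟩⟩
  inv_mem' := by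
    rintro g ⟨h1, h2, h3⟩
    have h4 : (g⁻¹).1 *ᵥ u₀ = u₀ := by
      nth_rewrite 1 [← h2]
      exact gl_inv_mulVec' g u₀
    refine ⟨(isoGL f).inv_mem h1, h4, fun x hx => ?_⟩
    obtain ⟨c, hc⟩ := h3 x hx
    refine ⟨-c, ?_⟩
    have h5 : (g⁻¹).1 *ᵥ (g.1 *ᵥ x) = x := gl_inv_mulVec' g x
    rw [hc, mulVec_add, mulVec_smul, h4] at h5
    rw [neg_smul, ← sub_eq_add_neg]
    exact eq_sub_of_add_eq h5

lemma uniRad_pow (hf : IsSymplecticForm f) {u₀ : ι → F} {p : ℕ} [hp : Fact p.Prime] [CharP F p] {g : GL ι F} (hg : g ∈ uniRad hf u₀) :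
    (g : Matrix ι ι F) ^ (p ^ 2) = 1 := by
  obtain ⟨h1, h2, h3⟩ := hg
  set N : Matrix ι ι F := g.1 - 1 with hN
  have e : g.1 = N + 1 := by rw [hN, sub_add_cancel]
  have hN3 : N * (N * N) = 0 := by
    apply mat_ext
    intro x
    have e1 : ∀ y, N *ᵥ y = g.1 *ᵥ y - y := fun y => by rw [hN, sub_mulVec, one_mulVec]
    have e2 : f (N *ᵥ x) u₀ = 0 := by
      rw [e1, GeoMax.Symp.sub_left hf]
      nth_rewrite 1 [← h2]
      rw [GeoMax.mem_isoGL.1 h1, sub_self]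
    obtain ⟨c, hc⟩ := h3 _ e2
    rw [← mulVec_mulVec, ← mulVec_mulVec, e1 (N *ᵥ x), hc, add_sub_cancel_left, mulVec_smul, e1, h2, sub_self, smul_zero, zero_mulVec]
  haveI : CharP (Matrix ι ι F) p ∨ IsEmpty ι := by
    rcases isEmpty_or_nonempty ι with h | h
    · exact Or.inr h
    · exact Or.inl inferInstance
  rcases this with h | h
  · rw [show (g : Matrix ι ι F) = N + 1 from e, add_pow_char_pow_of_commute (p := p) (n := 2) (Commute.one_right N), one_pow]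
    have h4 : 3 ≤ p ^ 2 := by
      have := hp.out.two_le
      nlinarith
    obtain ⟨k, hk⟩ := Nat.exists_eq_add_of_le h4
    rw [hk, pow_add, show N ^ 3 = N * (N * N) by rw [pow_succ, pow_two, mul_assoc], hN3, zero_mul, zero_add]
  · exact Subsingleton.elim _ _

lemma tr_mem_uniRad (hf : IsSymplecticForm f) (u₀ : ι → F) (c : F) : tr hf u₀ c ∈ uniRad hf u₀ := by
  refine ⟨tr_mem_iso hf u₀ c, by rw [tr_mulVec, self hf, mul_zero, zero_smul, add_zero], fun x hx => ⟨0, ?_⟩⟩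
  rw [tr_mulVec, hx, mul_zero]

lemma rho_mem_uniRad (hf : IsSymplecticForm f) {u₀ z : ι → F} (hz : f z u₀ = 0) : rho hf u₀ z 0 ∈ uniRad hf u₀ := by
  refine ⟨rho_mem_iso hf u₀ z 0, ?_, fun x hx => ⟨f x z, ?_⟩⟩
  · rw [rho_mulVec hf hz, self hf, skew hf u₀ z, hz, mul_zero, neg_zero, zero_smul, zero_smul, add_zero, add_zero, add_zero]
  · rw [rho_mulVec hf hz, hx, mul_zero, zero_smul, zero_smul, add_zero, add_zero]

lemma exists_iso_map (hf : IsSymplecticForm f) {u₀ : ι → F} (hu₀ : u₀ ≠ 0) : ∀ u, u ≠ 0 → ∃ g ∈ isoGL f, g.1 *ᵥ u₀ = u := by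
  apply vec_induction hf (P := fun u => ∃ g ∈ isoGL f, g.1 *ᵥ u₀ = u) hu₀
  · exact ⟨1, (isoGL f).one_mem, by rw [Units.val_one, one_mulVec]⟩
  · rintro v x c ⟨g, hg, hgv⟩
    exact ⟨tr hf x c * g, (isoGL f).mul_mem (tr_mem_iso hf x c) hg, by rw [gl_mul_mulVec, hgv]⟩

end stab

variable {a b : ℕ} {F : Type*} [Field F] {f₁ : (Fin a → F) → (Fin a → F) → F} {f₂ : (Fin b → F) → (Fin b → F) → F}
  {β : (Fin a × Fin b → F) → (Fin a × Fin b → F) → F}

lemma kGL_val (A : GL (Fin a) F) (B : GL (Fin b) F) : (kGL A B).1 = A.1 ⊗ₖ B.1 := rfl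

/-- the base `p`-group -/
def spBase (h₁ : IsSymplecticForm f₁) (h₂ : IsSymplecticForm f₂) (S : Subgroup (GL (Fin a × Fin b) F)) (u₀ : Fin a → F) (w₀ : Fin b → F) :
    Subgroup S where
  carrier := {g | ∃ A ∈ uniRad h₁ u₀, ∃ B ∈ uniRad h₂ w₀, (g : GL (Fin a × Fin b) F) = kGL A B}
  mul_mem' := by
    rintro g h ⟨A, hA, B, hB, e⟩ ⟨A', hA', B', hB', e'⟩
    refine ⟨A * A', (uniRad h₁ u₀).mul_mem hA hA', B * B', (uniRad h₂ w₀).mul_mem hB hB', ?_⟩
    apply Units.ext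
    rw [Subgroup.coe_mul, e, e', Units.val_mul, kGL_val, kGL_val, kGL_val, ← mul_kronecker_mul]
    rfl
  one_mem' := ⟨1, (uniRad h₁ u₀).one_mem, 1, (uniRad h₂ w₀).one_mem, by
    apply Units.ext
    rw [kGL_val, Subgroup.coe_one, Units.val_one, Units.val_one, Units.val_one, one_kronecker_one]⟩
  inv_mem' := by
    rintro g ⟨A, hA, B, hB, e⟩
    refine ⟨A⁻¹, (uniRad h₁ u₀).inv_mem hA, B⁻¹, (uniRad h₂ w₀).inv_mem hB, ?_⟩
    rw [Subgroup.coe_inv, e]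
    rfl

lemma spBase_isPGroup {p : ℕ} [Fact p.Prime] [CharP F p] (h₁ : IsSymplecticForm f₁) (h₂ : IsSymplecticForm f₂)
    (S : Subgroup (GL (Fin a × Fin b) F)) (u₀ : Fin a → F) (w₀ : Fin b → F) : IsPGroup p (spBase h₁ h₂ S u₀ w₀) := by
  rintro ⟨g, A, hA, B, hB, e⟩
  refine ⟨2, Subtype.ext (Subtype.ext (Units.ext ?_))⟩
  change ((g : GL (Fin a × Fin b) F) : Matrix (Fin a × Fin b) (Fin a × Fin b) F) ^ (p ^ 2) = 1
  rw [e]
  change (A.1 ⊗ₖ B.1) ^ (p ^ 2) = 1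
  rw [kron_pow, uniRad_pow h₁ hA, uniRad_pow h₂ hB, one_kronecker_one]

/-- The main theorem. -/
theorem sp_overgroup [Finite F] (h₁ : IsSymplecticForm f₁) (h₂ : IsSymplecticForm f₂) (hβ : BTens f₁ f₂ β)
    (ha : 2 ≤ a) (hab : a < b) (hb : 5 < b) (hq : 3 ≤ a ∨ ∃ c : F, c ≠ 0 ∧ c ≠ 1)
    {S : Subgroup (GL (Fin a × Fin b) F)} (hS : HasSp f₁ f₂ S)
    (hiso : ∀ g ∈ S, ∀ x y, β (g.1 *ᵥ x) (g.1 *ᵥ y) = β x y) :
    (∀ A, CoS f₁ f₂ S A) ∨ S ≤ kroneckerSubgroup a b F := by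
  rcases hS.cases h₁ h₂ hb hq with hfull | hs
  · exact Or.inl hfull
  right
  obtain ⟨p, hp⟩ := CharP.exists F
  haveI hpf : Fact p.Prime := ⟨(CharP.char_is_prime_or_zero F p).resolve_right (CharP.char_ne_zero_of_finite F p)⟩
  haveI : Finite (GL (Fin a × Fin b) F) := inferInstance
  have hu₀ : (Pi.single (⟨0, by omega⟩ : Fin a) (1 : F) : Fin a → F) ≠ 0 := by
    intro h; have := congrFun h ⟨0, by omega⟩; simp at this
  have hw₀ : (Pi.single (⟨0, by omega⟩ : Fin b) (1 : F) : Fin b → F) ≠ 0 := by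
    intro h; have := congrFun h ⟨0, by omega⟩; simp at this
  set u₀ : Fin a → F := Pi.single (⟨0, by omega⟩ : Fin a) (1 : F)
  set w₀ : Fin b → F := Pi.single (⟨0, by omega⟩ : Fin b) (1 : F)
  -- the root elements
  let T : Set S := {x | ∃ w : Fin b → F, w ≠ 0 ∧ ((x : GL (Fin a × Fin b) F) : Matrix _ _ F) = (1 : Matrix (Fin a) (Fin a) F) ⊗ₖ (1 + vecMulVec w (formVec f₂ w))}
  have hfv : ∀ w : Fin b → F, w ≠ 0 → formVec f₂ w ≠ 0 := by
    intro w hw h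
    obtain ⟨z, hz⟩ := exists_ne_zero h₂ hw
    apply hz
    rw [skew h₂, ← formVec_dotProduct (linLeft h₂), h, zero_dotProduct, neg_zero]
  have htrval : ∀ w : Fin b → F, (tr h₂ w 1).1 = 1 + vecMulVec w (formVec f₂ w) := by
    intro w
    have := tr_val h₂ w 1
    rw [one_smul] at this
    exact this
  have hU : UniqueFix ((kroneckerSubgroup a b F).subgroupOf S) T := by
    constructor
    · rintro x ⟨w, hw, hxe⟩
      exact mem_kron_of_eq (by omega) (by omega) hxe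
    · rintro x ⟨w, hw, hxe⟩ g hg
      obtain ⟨w', hw', hmap⟩ := exists_map_of_conj_root (by omega) hab hw (hfv w hw) hxe hg
      exact mem_kron_of_map_sp hS h₁ h₂ hb hs hβ hiso hq (by omega) hw hw' g.2 hmap
  have hT : ∀ x ∈ T, x ^ p = 1 := by
    rintro x ⟨w, hw, hxe⟩
    apply Subtype.ext
    apply Units.ext
    rw [Subgroup.coe_pow, Units.val_pow_eq_pow_val, hxe, kron_pow, one_pow, uni_pow (by
      have := formVec_self h₂ w 1
      rwa [one_smul] at this), CharP.cast_eq_zero, zero_smul, vecMulVec_zero, add_zero,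
      one_kronecker_one]
    rfl
  have hTmem : ∀ w : Fin b → F, w ≠ 0 → ∃ x ∈ T, ((x : GL (Fin a × Fin b) F)) = kGL 1 (tr h₂ w 1) := by
    intro w hw
    obtain ⟨x, hx, hxe⟩ := hS.right _ (tr_mem_iso h₂ w 1)
    have hxe' : x.1 = (1 : Matrix (Fin a) (Fin a) F) ⊗ₖ (tr h₂ w 1).1 := hxe
    refine ⟨⟨x, hx⟩, ⟨w, hw, ?_⟩, Units.ext ?_⟩
    · rw [← htrval]; exact hxe
    · rw [kGL_val, Units.val_one]; exact hxe'
  obtain ⟨x₀, hx₀, hx₀e⟩ := hTmem w₀ hw₀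
  -- action of the special elements
  have hkk : ∀ (B : GL (Fin b) F) (X : Matrix (Fin b) (Fin b) F) (v : Fin a × Fin b → F), B.1 = 1 + X →
      (kGL 1 B).1 *ᵥ v = v + ((1 : Matrix (Fin a) (Fin a) F) ⊗ₖ X) *ᵥ v := by
    intro B X v hB
    rw [kGL_val, hB, Units.val_one, kronecker_add, one_kronecker_one, add_mulVec, one_mulVec]
  have hroot : ∀ v : Fin a × Fin b → F, ∃ x ∈ T, ((x : GL (Fin a × Fin b) F)).1 *ᵥ v = v := by
    intro v
    let L : (Fin b → F) →ₗ[F] (Fin a → F) :=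
      { toFun := fun w => con f₂ v w
        map_add' := by intro x y; ext i; exact GeoMax.Symp.add_right h₂ _ _ _
        map_smul' := by intro c x; ext i; exact GeoMax.Symp.smul_right h₂ _ _ _ }
    have hker : LinearMap.ker L ≠ ⊥ := by
      intro h
      have h1 := LinearMap.finrank_range_add_finrank_ker L
      rw [h, finrank_bot, add_zero, finrank_fin_fun] at h1
      have h2 := Submodule.finrank_le (LinearMap.range L)
      rw [finrank_fin_fun] at h2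
      omega
    obtain ⟨w, hw, hw0⟩ := Submodule.exists_mem_ne_zero_of_ne_bot hker
    have hcw : con f₂ v w = 0 := hw
    obtain ⟨x, hx, hxe⟩ := hTmem w hw0
    refine ⟨x, hx, ?_⟩
    rw [hxe, hkk _ _ _ (htrval w)]
    change v + kk f₂ 1 w w *ᵥ v = v
    rw [kk_mulVec h₂, hcw, mulVec_zero, tp_zero_left, add_zero]
  have hfix : ∀ v : Fin a × Fin b → F, (∀ y ∈ spBase h₁ h₂ S u₀ w₀, ((y : GL (Fin a × Fin b) F)).1 *ᵥ v = v) →
      ∃ c : F, v = c • tp u₀ w₀ := by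
    intro v hv
    have hR : ∀ B ∈ uniRad h₂ w₀, (kGL 1 B).1 *ᵥ v = v := by
      intro B hB
      obtain ⟨x, hx, hxe⟩ := hS.right B hB.1
      have e : x = kGL 1 B := Units.ext hxe
      have := hv ⟨x, hx⟩ ⟨1, (uniRad h₁ u₀).one_mem, B, hB, e⟩
      rwa [← e]
    have hL : ∀ A ∈ uniRad h₁ u₀, (kGL A 1).1 *ᵥ v = v := by
      intro A hA
      obtain ⟨x, hx, hxe⟩ := hS.left A hA.1
      have e : x = kGL A 1 := Units.ext hxe
      have := hv ⟨x, hx⟩ ⟨A, hA, 1, (uniRad h₂ w₀).one_mem, e⟩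
      rwa [← e]
    have h3 : con f₂ v w₀ = 0 := by
      have h4 := hR _ (tr_mem_uniRad h₂ w₀ 1)
      rw [hkk _ _ _ (htrval w₀)] at h4
      have h5 : kk f₂ 1 w₀ w₀ *ᵥ v = 0 := add_eq_left.1 h4
      rw [kk_mulVec h₂, one_mulVec, ← tp_zero_left w₀] at h5
      exact tpR_injective hw₀ h5
    have h4 : ∀ z, f₂ w₀ z = 0 → con f₂ v z = 0 := by
      intro z hz
      have hz' : f₂ z w₀ = 0 := by rw [skew h₂, hz, neg_zero]
      have h5 := hR _ (rho_mem_uniRad h₂ hz')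
      have e : (rho h₂ w₀ z 0).1 = 1 + (rk f₂ z w₀ + rk f₂ w₀ z) := by
        apply mat_ext
        intro x
        rw [rho_mulVec h₂ hz', add_mulVec, one_mulVec, add_mulVec, rk_mulVec h₂, rk_mulVec h₂, zero_mul, zero_smul, add_zero, add_assoc]
      rw [hkk _ _ _ e, kronecker_add, add_mulVec] at h5
      have h6 : kk f₂ 1 z w₀ *ᵥ v + kk f₂ 1 w₀ z *ᵥ v = 0 := add_eq_left.1 h5
      rw [kk_mulVec h₂, kk_mulVec h₂, h3, mulVec_zero, tp_zero_left, zero_add, one_mulVec, ← tp_zero_left w₀] at h6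
      exact tpR_injective hw₀ h6
    obtain ⟨τ, rfl⟩ := eq_tp_of_con h₂ h4
    have h5 : ∀ A ∈ uniRad h₁ u₀, A.1 *ᵥ τ = τ := by
      intro A hA
      have h6 := hL A hA
      rw [kGL_val, kron_tp, Units.val_one, one_mulVec] at h6
      exact tpR_injective hw₀ h6
    have h6 : f₁ τ u₀ = 0 := by
      have h7 := h5 _ (tr_mem_uniRad h₁ u₀ 1)
      rw [tr_mulVec, one_mul] at h7
      exact (smul_eq_zero.1 (add_eq_left.1 h7)).resolve_right hu₀
    by_cases hτ : τ ∈ Submodule.span F {u₀}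
    · obtain ⟨c, rfl⟩ := Submodule.mem_span_singleton.1 hτ
      exact ⟨c, tp_smul_left _ _ _⟩
    · exfalso
      obtain ⟨z, hz1, hz2⟩ := exists_y h₁ hτ
      have h7 := h5 _ (rho_mem_uniRad h₁ hz1)
      rw [rho_mulVec h₁ hz1, h6, zero_smul, add_zero, mul_zero, zero_smul, add_zero] at h7
      exact hz2 ((smul_eq_zero.1 (add_eq_left.1 h7)).resolve_right hu₀)
  have hpure0 := exists_pure_of_sylow hU hT (spBase_isPGroup h₁ h₂ S u₀ w₀) hx₀
    ⟨1, (uniRad h₁ u₀).one_mem, tr h₂ w₀ 1, tr_mem_uniRad h₂ w₀ 1, hx₀e⟩ hu₀ hw₀ hfix hroot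
  intro g hg
  have hpure : ∀ (u : Fin a → F) (w : Fin b → F), ∃ (u' : Fin a → F) (w' : Fin b → F), g.1 *ᵥ tp u w = tp u' w' := by
    intro u w
    by_cases hu : u = 0
    · exact ⟨0, 0, by rw [hu, tp_zero_left, tp_zero_left, mulVec_zero]⟩
    by_cases hw : w = 0
    · exact ⟨0, 0, by rw [hw, tp_zero_right, tp_zero_left, mulVec_zero]⟩
    obtain ⟨A, hA, hAu⟩ := exists_iso_map h₁ hu₀ u hu
    obtain ⟨B, hB, hBw⟩ := exists_iso_map h₂ hw₀ w hw
    obtain ⟨kA, hkA, hkA'⟩ := hS.left A hA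
    obtain ⟨kB, hkB, hkB'⟩ := hS.right B hB
    replace hkA' : kA.1 = A.1 ⊗ₖ (1 : Matrix (Fin b) (Fin b) F) := hkA'
    replace hkB' : kB.1 = (1 : Matrix (Fin a) (Fin a) F) ⊗ₖ B.1 := hkB'
    obtain ⟨u', w', h⟩ := hpure0 (g * (kA * kB)) (S.mul_mem hg (S.mul_mem hkA hkB))
    refine ⟨u', w', ?_⟩
    rw [← h, gl_mul_mulVec, gl_mul_mulVec, hkA', hkB', kron_tp, kron_tp, one_mulVec, one_mulVec, hAu, hBw]
  obtain ⟨w', hw', hmap⟩ := exists_map_of_pure ha hab hpure hw₀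
  exact mem_kron_of_map_sp hS h₁ h₂ hb hs hβ hiso hq (by omega) hw₀ hw' hg hmap

end Cfsg.Agent.Asch.TMax
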