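import Mathlib
import Cfsg.Prelude.Def_GeometricClasses
import Cfsg.Agent.Asch.TMaxSpThm
set_option autoImplicit false
set_option linter.unusedSectionVars false
set_option linter.unusedVariables false
set_option linter.style.haveILetI false

/-!
`Sp(U) ⊗ Sp(W)` is contained in `Ω(U ⊗ W)`; transport to coordinates in the tensor product.
-/

namespace Cfsg.Agent.Asch.TMax

open Cfsg.Geo Matrix Module

open Cfsg.Agent.AschCases (tp kron_tp tmap tmap_apply)

open Cfsg.Agent.GeoMax (isoGL formVec formVec_dotProduct tvec gl_mul_mulVec gl_ext)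

open Cfsg.Agent.GeoMax.Symp

open Cfsg.Agent.GeoMax.Ort (HasE FullR emGL emGL_mulVec emGL_injective toQF coe_toQF toQF_nondeg omegaGL_eq)

open Cfsg.Agent.Orth (OGrp eich eich_apply OGrp_ext)

open QuadraticMap (polar polarBilin)

open scoped Matrix Kronecker MatrixGroups

section span

variable {ι : Type} [Fintype ι] [DecidableEq ι] {F : Type*} [Field F] {f : (ι → F) → (ι → F) → F}

lemma sum_sum_mem {M : Type*} [AddCommGroup M] (H : AddSubgroup M) (T : ι → ι → M) (h1 : ∀ j, T j j ∈ H)
    (h2 : ∀ j k, T j k + T k j ∈ H) (s : Finset ι) : ∑ j ∈ s, ∑ k ∈ s, T j k ∈ H := by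
  induction s using Finset.induction_on with
  | empty => rw [Finset.sum_empty]; exact H.zero_mem
  | insert i s hi ih =>
    rw [Finset.sum_insert hi, Finset.sum_insert hi]
    have e : ∑ j ∈ s, ∑ k ∈ insert i s, T j k = ∑ j ∈ s, T j i + ∑ j ∈ s, ∑ k ∈ s, T j k := by
      rw [← Finset.sum_add_distrib]
      apply Finset.sum_congr rfl
      intro j _
      rw [Finset.sum_insert hi]
    rw [e]
    have e2 : T i i + ∑ k ∈ s, T i k + (∑ j ∈ s, T j i + ∑ j ∈ s, ∑ k ∈ s, T j k) =
        T i i + ∑ k ∈ s, (T i k + T k i) + ∑ j ∈ s, ∑ k ∈ s, T j k := by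
      rw [Finset.sum_add_distrib]; abel
    rw [e2]
    exact H.add_mem (H.add_mem (h1 i) (H.sum_mem fun k _ => h2 i k)) ih

/-- The scalars are in the span of the skew rank two matrices. -/
lemma smul_one_mem_of_rk (hf : IsSymplecticForm f) (H : AddSubgroup (Matrix ι ι F)) (h : ∀ u v, rk f u v - rk f v u ∈ H) (c : F) :
    c • (1 : Matrix ι ι F) ∈ H := by
  have hstar : ∀ j : ι, ∃ y : ι → F, formVec f y = Pi.single j 1 := fun j => exists_formVec_eq hf _
  choose es hes using hstar
  have hfx : ∀ (x : ι → F) j, f x (es j) = x j := by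
    intro x j
    rw [← formVec_dotProduct (linLeft hf), hes]; simp
  let T : ι → ι → Matrix ι ι F := fun j k => rk f ((c * es j k) • Pi.single j 1) (Pi.single k 1)
  have hG : ∀ j k, es k j = - es j k := by
    intro j k
    rw [← hfx (es k) j, ← hfx (es j) k, skew hf]
  have hGd : ∀ j, es j j = 0 := by
    intro j
    rw [← hfx (es j) j, self hf]
  have h3 := sum_sum_mem H T (by
    intro j
    change rk f ((c * es j j) • Pi.single j 1) (Pi.single j 1) ∈ H
    rw [hGd, mul_zero, rk_smul_left, zero_smul]; exact H.zero_mem) (by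
    intro j k
    change rk f ((c * es j k) • Pi.single j 1) (Pi.single k 1) + rk f ((c * es k j) • Pi.single k 1) (Pi.single j 1) ∈ H
    have e : rk f ((c * es j k) • Pi.single j 1) (Pi.single k 1) + rk f ((c * es k j) • Pi.single k 1) (Pi.single j 1) =
        rk f ((c * es j k) • Pi.single j 1) (Pi.single k 1) - rk f (Pi.single k 1) ((c * es j k) • Pi.single j 1) := by
      apply mat_ext
      intro x
      rw [hG j k, add_mulVec, sub_mulVec, rk_mulVec hf, rk_mulVec hf, rk_mulVec hf, smul_right hf]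
      module
    rw [e]
    exact h _ _) Finset.univ
  convert h3 using 1
  apply mat_ext
  intro x
  rw [smul_mulVec, one_mulVec]
  have e1 : (∑ j, ∑ k, T j k) *ᵥ x = ∑ j, ∑ k, T j k *ᵥ x := by
    rw [Matrix.sum_mulVec]
    apply Finset.sum_congr rfl
    intro j _
    rw [Matrix.sum_mulVec]
  rw [e1]
  have e2 : ∀ j, ∑ k, T j k *ᵥ x = (c * x j) • Pi.single j 1 := by
    intro j
    have e3 : ∀ k, T j k *ᵥ x = (es j k * f x (Pi.single k 1)) • (c • Pi.single j (1 : F)) := by
      intro k
      change rk f ((c * es j k) • Pi.single j 1) (Pi.single k 1) *ᵥ x = _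
      rw [rk_mulVec hf]
      module
    rw [Finset.sum_congr rfl fun k _ => e3 k, ← Finset.sum_smul]
    have e4 : ∑ k, es j k * f x (Pi.single k 1) = x j := by
      rw [← hfx x j]
      have e5 : es j = ∑ k, es j k • Pi.single k (1 : F) := by
        ext l
        simp [Finset.sum_apply, Pi.single_apply]
      conv_rhs => rw [e5]
      have : ∀ s : Finset ι, f x (∑ k ∈ s, es j k • Pi.single k (1 : F)) = ∑ k ∈ s, es j k * f x (Pi.single k 1) := by
        intro s
        induction s using Finset.induction_on with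
        | empty => rw [Finset.sum_empty, Finset.sum_empty, zero_right hf]
        | insert i s hi ih => rw [Finset.sum_insert hi, Finset.sum_insert hi, add_right hf, smul_right hf, ih]
      rw [this]
    rw [e4]
    module
  rw [Finset.sum_congr rfl fun j _ => e2 j]
  ext l
  simp [Finset.sum_apply, Pi.single_apply]

end span

variable {a b : ℕ} {F : Type*} [Field F] {f₁ : (Fin a → F) → (Fin a → F) → F} {f₂ : (Fin b → F) → (Fin b → F) → F}

/-- the two embeddings -/
def kRh : GL (Fin b) F →* GL (Fin a × Fin b) F where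
  toFun B := kGL 1 B
  map_one' := by apply Units.ext; rw [kGL_val, Units.val_one, Units.val_one, Units.val_one, one_kronecker_one]
  map_mul' B C := by
    apply Units.ext
    rw [Units.val_mul, kGL_val, kGL_val, kGL_val, ← mul_kronecker_mul, Units.val_mul, Units.val_one, mul_one]

def kLh : GL (Fin a) F →* GL (Fin a × Fin b) F where
  toFun A := kGL A 1
  map_one' := by apply Units.ext; rw [kGL_val, Units.val_one, Units.val_one, Units.val_one, one_kronecker_one]
  map_mul' B C := by
    apply Units.ext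
    rw [Units.val_mul, kGL_val, kGL_val, kGL_val, ← mul_kronecker_mul, Units.val_mul, Units.val_one, mul_one]

variable {Q : QuadraticForm F (Fin a × Fin b → F)}

/-- `Sp(U) ⊗ Sp(W) ≤ Ω` -/
theorem hasSp_omega [Finite F] (h₁ : IsSymplecticForm f₁) (h₂ : IsSymplecticForm f₂) (hQ : QTens f₁ f₂ Q) (hnd : (polarBilin Q).Nondegenerate)
    (hn : 7 ≤ a * b) : HasSp f₁ f₂ ((commutator (OGrp Q)).map (emGL Q)) := by
  have hN : 7 ≤ finrank F (Fin a × Fin b → F) := by
    rw [finrank_fintype_fun_eq_card, Fintype.card_prod, Fintype.card_fin, Fintype.card_fin]; exact hn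
  set Ω := (commutator (OGrp Q)).map (emGL Q) with hΩ
  -- Eichler elements
  have heich : ∀ (p q : Fin a × Fin b → F), Q p = 0 → polar Q p q = 0 → ∀ X : Matrix (Fin a × Fin b) (Fin a × Fin b) F,
      (∀ u w, X *ᵥ tp u w = tp u w + polar Q (tp u w) q • p - polar Q (tp u w) p • q - (Q q * polar Q (tp u w) p) • p) →
      X ∈ matrixSet Ω := by
    intro p q hp hpq X hX
    refine ⟨emGL Q (eich Q p q hp hpq), ⟨_, GeoMax.Ort.eich_mem_commutator hnd hN hp hpq, rfl⟩, ?_⟩
    apply mat_ext
    intro x
    rw [emGL_mulVec]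
    exact (gl_ext_tp (g := X) (L := ((eich Q p q hp hpq : (Fin a × Fin b → F) ≃ₗ[F] (Fin a × Fin b → F)) : _ →ₗ[F] _)) (by
      intro u w
      rw [hX]
      exact (eich_apply Q p q hp hpq (tp u w)).symm) x).symm
  constructor
  · intro g hg
    have hle : isoGL f₁ ≤ Ω.comap (kLh (a := a) (b := b)) := by
      apply iso_le h₁
      intro u c
      let H : AddSubgroup (Matrix (Fin b) (Fin b) F) :=
        { carrier := {D | 1 + rk f₁ u u ⊗ₖ D ∈ matrixSet Ω}
          add_mem' := by
            intro D D' hD hD'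
            have h3 := mset_add hD hD' (by rw [← mul_kronecker_mul, rk_mul_rk h₁, self h₁, zero_smul, zero_kronecker])
            rwa [← kronecker_add] at h3
          zero_mem' := by
            change 1 + rk f₁ u u ⊗ₖ (0 : Matrix (Fin b) (Fin b) F) ∈ matrixSet Ω
            rw [kronecker_zero, add_zero]; exact mset_one
          neg_mem' := by
            intro D hD
            refine mset_inv hD ?_
            rw [mul_add, mul_one, add_mul, one_mul, ← mul_kronecker_mul, rk_mul_rk h₁, self h₁, zero_smul, zero_kronecker, add_zero,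
              add_assoc, ← kronecker_add, add_neg_cancel, kronecker_zero, add_zero] }
      have h3 := smul_one_mem_of_rk h₂ H (by
        intro w z
        change 1 + rk f₁ u u ⊗ₖ (rk f₂ w z - rk f₂ z w) ∈ matrixSet Ω
        apply heich (tp u w) (tp u z) (hQ.pure u w) (by rw [hQ.pol, self h₁, zero_mul])
        intro x y
        rw [hQ.pure, zero_mul, zero_smul, sub_zero, add_mulVec, one_mulVec, kron_tp, rk_mulVec h₁, sub_mulVec, rk_mulVec h₂, rk_mulVec h₂,
          hQ.pol, hQ.pol]
        rw [tp_sub_right, tp_smul_right, tp_smul_right, tp_smul_left, tp_smul_left, smul_smul, smul_smul, mul_comm (f₂ y z), mul_comm (f₂ y w)]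
        abel) c
      obtain ⟨g', hg', hg'e⟩ := h3
      rw [Subgroup.mem_comap]
      have : kLh (a := a) (b := b) (tr h₁ u c) = g' := by
        apply Units.ext
        refine Eq.trans ?_ hg'e.symm
        change (tr h₁ u c).1 ⊗ₖ (1 : GL (Fin b) F).1 = _
        rw [tr_val, Units.val_one, add_kronecker, one_kronecker_one, smul_kronecker, kronecker_smul]
      rw [this]; exact hg'
    exact ⟨_, hle hg, by change g.1 ⊗ₖ (1 : GL (Fin b) F).1 = _; rw [Units.val_one]⟩
  · intro g hg
    have hle : isoGL f₂ ≤ Ω.comap (kRh (a := a) (b := b)) := by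
      apply iso_le h₂
      intro w c
      let H : AddSubgroup (Matrix (Fin a) (Fin a) F) :=
        { carrier := {D | 1 + D ⊗ₖ rk f₂ w w ∈ matrixSet Ω}
          add_mem' := by
            intro D D' hD hD'
            have h3 := mset_add hD hD' (by rw [← mul_kronecker_mul, rk_mul_rk h₂, self h₂, zero_smul, kronecker_zero])
            rwa [← add_kronecker] at h3
          zero_mem' := by
            change 1 + (0 : Matrix (Fin a) (Fin a) F) ⊗ₖ rk f₂ w w ∈ matrixSet Ω
            rw [zero_kronecker, add_zero]; exact mset_one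
          neg_mem' := by
            intro D hD
            refine mset_inv hD ?_
            rw [mul_add, mul_one, add_mul, one_mul, ← mul_kronecker_mul, rk_mul_rk h₂, self h₂, zero_smul, kronecker_zero, add_zero,
              add_assoc, ← add_kronecker, add_neg_cancel, zero_kronecker, add_zero] }
      have h3 := smul_one_mem_of_rk h₁ H (by
        intro u v
        change 1 + (rk f₁ u v - rk f₁ v u) ⊗ₖ rk f₂ w w ∈ matrixSet Ω
        apply heich (tp u w) (tp v w) (hQ.pure u w) (by rw [hQ.pol, self h₂, mul_zero])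
        intro x y
        rw [hQ.pure, zero_mul, zero_smul, sub_zero, add_mulVec, one_mulVec, kron_tp, rk_mulVec h₂, sub_mulVec, rk_mulVec h₁, rk_mulVec h₁,
          hQ.pol, hQ.pol]
        rw [tp_sub_left, tp_smul_left, tp_smul_left, tp_smul_right, tp_smul_right, smul_smul, smul_smul]
        abel) c
      obtain ⟨g', hg', hg'e⟩ := h3
      rw [Subgroup.mem_comap]
      have : kRh (a := a) (b := b) (tr h₂ w c) = g' := by
        apply Units.ext
        refine Eq.trans ?_ hg'e.symm
        change (1 : GL (Fin a) F).1 ⊗ₖ (tr h₂ w c).1 = _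
        rw [tr_val, Units.val_one, kronecker_add, one_kronecker_one, smul_kronecker, kronecker_smul]
      rw [this]; exact hg'
    exact ⟨_, hle hg, by change (1 : GL (Fin a) F).1 ⊗ₖ g.1 = _; rw [Units.val_one]⟩

/-! ### Coordinates in the tensor product -/

section coord

variable {ι : Type} [Fintype ι] [DecidableEq ι]

/-- coordinates in the tensor product -/
def rhoG (e : ι ≃ Fin a × Fin b) (P : GL ι F) : GL ι F ≃* GL (Fin a × Fin b) F := (MulAut.conj P⁻¹).trans (glReindex e)

lemma rhoG_mulVec (e : ι ≃ Fin a × Fin b) (P : GL ι F) (g : GL ι F) (x : Fin a × Fin b → F) :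
    tmap e P ((rhoG e P g).1 *ᵥ x) = g.1 *ᵥ tmap e P x := by
  have h1 : (rhoG e P g).1 = Matrix.reindex e e (P⁻¹ * g * P).1 := by
    change (glReindex e (MulAut.conj P⁻¹ g)).1 = _
    rw [MulAut.conj_apply, inv_inv]
    rfl
  have h2 : ∀ (X : Matrix ι ι F), (Matrix.reindex e e X *ᵥ x) ∘ e = X *ᵥ (x ∘ e) := by
    intro X
    ext i
    rw [Function.comp_apply, mulVec, mulVec, dotProduct, dotProduct, ← e.sum_comp]
    apply Finset.sum_congr rfl
    intro j _
    rw [reindex_apply, submatrix_apply, Equiv.symm_apply_apply, Equiv.symm_apply_apply]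
    rfl
  rw [tmap_apply, tmap_apply, h1, h2, ← gl_mul_mulVec, ← gl_mul_mulVec]
  congr 2
  group

lemma rhoG_symm_mem (e : ι ≃ Fin a × Fin b) (P : GL ι F)
    (k : GL (Fin a × Fin b) F) (hk : k ∈ kroneckerSubgroup a b F) : (rhoG e P).symm k ∈ tensorProductSubgroup a b e P := by
  refine ⟨glReindex e.symm k, ⟨k, hk, rfl⟩, ?_⟩
  have h : (MulAut.conj P).toMonoidHom (glReindex e.symm k) = P * glReindex e.symm k * P⁻¹ := rfl
  rw [h]
  have h2 : (rhoG e P).symm k = (MulAut.conj P⁻¹).symm ((glReindex e).symm k) := rfl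
  rw [h2, MulAut.conj_symm_apply, inv_inv]
  rfl

lemma rhoG_mem (e : ι ≃ Fin a × Fin b) (P : GL ι F)
    (g : GL ι F) (hk : rhoG e P g ∈ kroneckerSubgroup a b F) : g ∈ tensorProductSubgroup a b e P := by
  have := rhoG_symm_mem e P _ hk
  rwa [MulEquiv.symm_apply_apply] at this

/-- Isometric spaces have isomorphic isometry groups. -/
noncomputable def oCongr {V V' : Type*} [AddCommGroup V] [Module F V] [AddCommGroup V']
    [Module F V'] {Q : QuadraticForm F V} {Q' : QuadraticForm F V'} (e : V ≃ₗ[F] V')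
    (he : ∀ v, Q' (e v) = Q v) : OGrp Q ≃* OGrp Q' where
  toFun g := ⟨(e.symm.trans (g : V ≃ₗ[F] V)).trans e, fun v => by
    have h1 := Orth.OGrp_q g (e.symm v)
    rw [LinearEquiv.trans_apply, LinearEquiv.trans_apply, he, h1, ← he, e.apply_symm_apply]⟩
  invFun g := ⟨(e.trans (g : V' ≃ₗ[F] V')).trans e.symm, fun v => by
    have h1 := Orth.OGrp_q g (e v)
    rw [LinearEquiv.trans_apply, LinearEquiv.trans_apply, ← he, e.apply_symm_apply, h1, he]⟩
  left_inv g := by
    apply OGrp_ext
    intro x
    change e.symm (e ((g : V ≃ₗ[F] V) (e.symm (e x)))) = _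
    rw [e.symm_apply_apply, e.symm_apply_apply]
  right_inv g := by
    apply OGrp_ext
    intro x
    change e (e.symm ((g : V' ≃ₗ[F] V') (e (e.symm x)))) = _
    rw [e.apply_symm_apply, e.apply_symm_apply]
  map_mul' g h := by
    apply OGrp_ext
    intro x
    change e ((g : V ≃ₗ[F] V) ((h : V ≃ₗ[F] V) (e.symm x)))
      = e ((g : V ≃ₗ[F] V) (e.symm (e ((h : V ≃ₗ[F] V) (e.symm x)))))
    rw [e.symm_apply_apply]

/-- transport of `Ω` -/
lemma mem_omega_iff_rhoG (e : ι ≃ Fin a × Fin b) (P : GL ι F) {Q : QuadraticForm F (ι → F)} {Q' : QuadraticForm F (Fin a × Fin b → F)}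
    (hQ' : ∀ x, Q' x = Q (tmap e P x)) (g : GL ι F) : g ∈ (commutator (OGrp Q)).map (emGL Q) ↔ rhoG e P g ∈ (commutator (OGrp Q')).map (emGL Q') := by
  set ψ : OGrp Q' ≃* OGrp Q := oCongr (tmap e P) (fun v => (hQ' v).symm) with hψ
  have key : ∀ h : OGrp Q', rhoG e P (emGL Q (ψ h)) = emGL Q' h := by
    intro h
    apply gl_ext
    intro x
    apply (tmap e P).injective
    rw [rhoG_mulVec, emGL_mulVec, emGL_mulVec]
    change tmap e P ((h : (Fin a × Fin b → F) ≃ₗ[F] (Fin a × Fin b → F)) ((tmap e P).symm (tmap e P x))) = _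
    rw [LinearEquiv.symm_apply_apply]
  constructor
  · rintro ⟨h, hh, rfl⟩
    refine ⟨ψ.symm h, ?_, ?_⟩
    · have := (Orth.mem_commutator_equiv ψ (ψ.symm h)).2
      apply this
      rwa [MulEquiv.apply_symm_apply]
    · rw [← key, MulEquiv.apply_symm_apply]
  · rintro ⟨h, hh, hhe⟩
    refine ⟨ψ h, (Orth.mem_commutator_equiv ψ h).1 hh, ?_⟩
    apply (rhoG e P).injective
    rw [key, hhe]

end coord

end Cfsg.Agent.Asch.TMax
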