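import Mathlib
import Cfsg.Prelude.Def_GeometricClasses
import Cfsg.Agent.Asch.CSFull
import Cfsg.Agent.Asch.CWLin
import Cfsg.Agent.TenMax.SpAsm
import Cfsg.Agent.AschCases.FormGeom
import Cfsg.Agent.AschCases.SpGeom
set_option autoImplicit false
set_option linter.unusedSectionVars false
set_option linter.unusedVariables false
set_option linter.unusedSimpArgs false
set_option linter.style.haveILetI false

/-!
Overgroups of the stabiliser of a symplectic tensor power in the symplectic group.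
-/

namespace Cfsg.Agent.Asch.CW

open Matrix Module Cfsg.Geo Cfsg.Agent.GeoMax

open scoped Matrix

section pv

variable {k : ℕ} {F : Type*} [Field F]

/-- pure vectors -/
def pv {t : ℕ} (x : Fin t → Fin k → F) : (Fin t → Fin k) → F := fun a => ∏ i, x i (a i)

/-- contraction with a vector of the first factor -/
def ctr0 {t : ℕ} (r : (Fin (t + 1) → Fin k) → F) : (Fin k → F) →ₗ[F] ((Fin t → Fin k) → F) where
  toFun z := fun a => ∑ l, r (Fin.cons l a) * z l
  map_add' x y := by funext a; simp only [Pi.add_apply, mul_add, Finset.sum_add_distrib]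
  map_smul' c x := by
    funext a
    simp only [Pi.smul_apply, smul_eq_mul, RingHom.id_apply, Finset.mul_sum]
    exact Finset.sum_congr rfl fun l _ => by ring

lemma ctr0_ne {t : ℕ} {r : (Fin (t + 1) → Fin k) → F} (hr : r ≠ 0) : ctr0 r ≠ 0 := by
  intro h
  apply hr
  funext a
  have h1 := congrFun (LinearMap.congr_fun h (Pi.single (a 0) 1)) (Fin.tail a)
  simp only [LinearMap.zero_apply, Pi.zero_apply] at h1
  have h2 : (ctr0 r) (Pi.single (a 0) 1) (Fin.tail a) = r a := by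
    show ∑ l, r (Fin.cons l (Fin.tail a)) * (Pi.single (a 0) (1 : F) : Fin k → F) l = r a
    rw [Finset.sum_eq_single (a 0)]
    · rw [Pi.single_eq_same, mul_one, Fin.cons_self_tail]
    · intro l _ hl; rw [Pi.single_eq_of_ne hl, mul_zero]
    · intro h; exact absurd (Finset.mem_univ _) h
  rw [h2] at h1
  exact h1

lemma ctr0_pv {t : ℕ} (r : (Fin (t + 1) → Fin k) → F) (z : Fin k → F) (z' : Fin t → Fin k → F) :
    r ⬝ᵥ pv (Fin.cons z z' : Fin (t + 1) → Fin k → F) = ctr0 r z ⬝ᵥ pv z' := by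
  rw [dotProduct, dotProduct, ← (Fin.consEquiv (fun _ : Fin (t + 1) => Fin k)).sum_comp, Fintype.sum_prod_type, Finset.sum_comm]
  refine Finset.sum_congr rfl fun a _ => ?_
  show ∑ l, r (Fin.cons l a) * pv (Fin.cons z z' : Fin (t + 1) → Fin k → F) (Fin.cons l a) = (∑ l, r (Fin.cons l a) * z l) * pv z' a
  rw [Finset.sum_mul]
  refine Finset.sum_congr rfl fun l _ => ?_
  have : pv (Fin.cons z z' : Fin (t + 1) → Fin k → F) (Fin.cons l a : Fin (t + 1) → Fin k) = z l * pv z' a := by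
    rw [pv, Fin.prod_univ_succ]
    rfl
  rw [this]; ring

/-- a pure tensor outside three hyperplanes -/
theorem exists_pv3 (h2 : (2 : F) ≠ 0) : ∀ (t : ℕ) (r₁ r₂ r₃ : (Fin t → Fin k) → F), r₁ ≠ 0 → r₂ ≠ 0 → r₃ ≠ 0 →
    ∃ z : Fin t → Fin k → F, r₁ ⬝ᵥ pv z ≠ 0 ∧ r₂ ⬝ᵥ pv z ≠ 0 ∧ r₃ ⬝ᵥ pv z ≠ 0 := by
  intro t
  induction t with
  | zero =>
    intro r₁ r₂ r₃ h₁ h₂ h₃
    have key : ∀ r : (Fin 0 → Fin k) → F, r ≠ 0 → r ⬝ᵥ pv (fun i => i.elim0 : Fin 0 → Fin k → F) ≠ 0 := by
      intro r hr h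
      apply hr
      funext a
      rw [dotProduct, Fintype.sum_unique] at h
      have h3 : pv (fun i => i.elim0 : Fin 0 → Fin k → F) default = 1 := by rw [pv, Finset.univ_eq_empty, Finset.prod_empty]
      rw [h3, mul_one] at h
      rw [Subsingleton.elim a default]; exact h
    exact ⟨_, key r₁ h₁, key r₂ h₂, key r₃ h₃⟩
  | succ t ih =>
    intro r₁ r₂ r₃ h₁ h₂ h₃
    obtain ⟨z, k1, k2, k3⟩ := TenMax.avoid3' h2 (ctr0_ne h₁) (ctr0_ne h₂) (ctr0_ne h₃)
    obtain ⟨z', l1, l2, l3⟩ := ih _ _ _ k1 k2 k3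
    exact ⟨Fin.cons z z', by rw [ctr0_pv]; exact l1, by rw [ctr0_pv]; exact l2, by rw [ctr0_pv]; exact l3⟩

lemma pv_single {t : ℕ} (a : Fin t → Fin k) : pv (fun j => (Pi.single (a j) 1 : Fin k → F)) = Pi.single a 1 := by
  funext b
  rw [pv]
  by_cases h : b = a
  · subst h
    rw [Pi.single_eq_same]
    exact Finset.prod_eq_one fun i _ => Pi.single_eq_same _ _
  · rw [Pi.single_eq_of_ne h]
    obtain ⟨i, hi⟩ := Function.ne_iff.1 h
    exact Finset.prod_eq_zero (Finset.mem_univ i) (Pi.single_eq_of_ne hi _)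

lemma pv_vecMul {t : ℕ} (x : Fin t → Fin k → F) (g : Fin t → Matrix (Fin k) (Fin k) F) : pv x ᵥ* piMat g = pv (fun i => x i ᵥ* g i) := by
  funext b
  show ∑ a, pv x a * piMat g a b = _
  simp only [pv, piMat_apply, ← Finset.prod_mul_distrib]
  show _ = ∏ i, ∑ l, x i l * g i l (b i)
  rw [Finset.prod_univ_sum, Fintype.piFinset_univ]

lemma piMat_vmv {t : ℕ} (x y : Fin t → Fin k → F) : piMat (fun i => vecMulVec (x i) (y i)) = vecMulVec (pv x) (pv y) := by
  ext a b
  rw [piMat_apply, vecMulVec_apply, pv, pv, ← Finset.prod_mul_distrib]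
  rfl

end pv

section gen

variable {k t : ℕ} {F : Type*} [Field F] {φ : SpF k F} {f : ((Fin t → Fin k) → F) → ((Fin t → Fin k) → F) → F}

/-- transvections at pure vectors generate the symplectic group -/
theorem iso_le_of_pure (h2 : (2 : F) ≠ 0) (hf : IsSymplecticForm f) (hfe : ∀ u v, f u v = u ⬝ᵥ (piMat (fun _ => φ.A) *ᵥ v))
    {K : Subgroup (GL (Fin t → Fin k) F)} (hK : ∀ (c : F) (x : Fin t → Fin k → F), Mem1 K (c • piMat (fun j => φ.et (x j) (x j)))) : isoGL f ≤ K := by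
  have hfv : ∀ u v, f u v = (u ᵥ* piMat (fun _ => φ.A)) ⬝ᵥ v := fun u v => by rw [hfe, dotProduct_mulVec]
  -- transvections at pure vectors
  have hp : ∀ x : Fin t → Fin k → F, Symp.TS hf K (pv x) := by
    intro x c
    obtain ⟨g, hg, hg1⟩ := hK (-c) x
    have : Symp.tr hf (pv x) c = g := by
      apply gl_ext
      intro y
      rw [Symp.tr_mulVec, hg1, add_mulVec, one_mulVec]
      congr 1
      have h1 : piMat (fun j => φ.et (x j) (x j)) = vecMulVec (pv x) (pv x ᵥ* piMat (fun _ => φ.A)) := by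
        rw [pv_vecMul]; exact piMat_vmv _ _
      rw [h1, smul_mulVec, vecMulVec_mulVec, ← hfv, hf.skew y (pv x)]
      funext a
      simp only [Pi.smul_apply, smul_eq_mul, MulOpposite.smul_eq_mul_unop, MulOpposite.unop_op]
      ring
    rw [this]; exact hg
  have hr : ∀ v : (Fin t → Fin k) → F, v ≠ 0 → v ᵥ* piMat (fun _ => φ.A) ≠ 0 := by
    intro v hv h0
    obtain ⟨z, hz⟩ := Symp.exists_ne_zero hf hv
    rw [hfv, h0, zero_dotProduct] at hz
    exact hz rfl
  have step : ∀ x p, Symp.TS hf K x → Symp.TS hf K p → Symp.TS hf K (x + p) := by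
    intro x p hx hp'
    by_cases hx0 : x = 0
    · rw [hx0, zero_add]; exact hp'
    by_cases hp0 : p = 0
    · rw [hp0, add_zero]; exact hx
    by_cases hs0 : x + p = 0
    · rw [hs0]; exact Symp.TS.zero hf K
    obtain ⟨z, h1, h3, h4⟩ := exists_pv3 h2 t _ _ _ (hr x hx0) (hr p hp0) (hr _ hs0)
    rw [← hfv] at h1 h3 h4
    exact TenMax.ts_three hx hp' (hp z) h1 h3 h4
  apply Symp.iso_le_of_TS hf
  intro v
  have key : ∀ s : Finset (Fin t → Fin k), Symp.TS hf K (∑ a ∈ s, v a • (Pi.single a 1 : (Fin t → Fin k) → F)) := by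
    intro s
    induction s using Finset.induction_on with
    | empty => rw [Finset.sum_empty]; exact Symp.TS.zero hf K
    | insert a s ha ih =>
      rw [Finset.sum_insert ha]
      refine step _ _ (Symp.TS.smul ?_ _) ih
      rw [← pv_single]; exact hp _
  have h0 := key Finset.univ
  have e : v = ∑ a, v a • (Pi.single a 1 : (Fin t → Fin k) → F) := by
    funext b
    rw [Finset.sum_apply, Finset.sum_eq_single b]
    · rw [Pi.smul_apply, Pi.single_eq_same, smul_eq_mul, mul_one]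
    · intro a _ ha; rw [Pi.smul_apply, Pi.single_eq_of_ne (Ne.symm ha), smul_zero]
    · intro h; exact absurd (Finset.mem_univ _) h
  rwa [← e] at h0

/-- isometries and the adjoint -/
lemma mem_iso_iff (hfe : ∀ u v, f u v = u ⬝ᵥ (piMat (fun _ => φ.A) *ᵥ v)) {g : GL (Fin t → Fin k) F} : g ∈ isoGL f ↔ (stStd t φ).Iso g := by
  have hA : piMat (fun _ : Fin t => φ.A) * piMat (fun _ => φ.A') = 1 := by rw [piMat_const_mul, φ.AA', piMat_const_one]
  have hA' : piMat (fun _ : Fin t => φ.A') * piMat (fun _ => φ.A) = 1 := by rw [piMat_const_mul, φ.A'A, piMat_const_one]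
  have e1 : ∀ u v, f (g.1 *ᵥ u) (g.1 *ᵥ v) = u ⬝ᵥ ((g.1ᵀ * piMat (fun _ => φ.A) * g.1) *ᵥ v) := by
    intro u v
    rw [hfe, mulVec_mulVec, dotProduct_comm, dotProduct_mulVec, ← mulVec_transpose, dotProduct_comm, mulVec_mulVec, mul_assoc]
  rw [mem_isoGL]
  constructor
  · intro h
    have h1 : g.1ᵀ * piMat (fun _ => φ.A) * g.1 = piMat (fun _ => φ.A) := by
      ext a b
      have h3 := h (Pi.single a 1) (Pi.single b 1)
      rw [e1, hfe, single_one_dotProduct, single_one_dotProduct, mulVec_single_one, mulVec_single_one] at h3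
      exact h3
    show (stStd t φ).st g.1 * g.1 = 1
    rw [stStd_apply, mul_assoc, mul_assoc, ← mul_assoc g.1ᵀ, h1, hA']
  · intro h u v
    have h1 : piMat (fun _ => φ.A') * g.1ᵀ * piMat (fun _ => φ.A) * g.1 = 1 := h
    have h3 : g.1ᵀ * piMat (fun _ => φ.A) * g.1 = piMat (fun _ => φ.A) := by
      calc g.1ᵀ * piMat (fun _ => φ.A) * g.1 = piMat (fun _ => φ.A) * (piMat (fun _ => φ.A') * g.1ᵀ * piMat (fun _ => φ.A) * g.1) := by
            rw [← mul_assoc, ← mul_assoc, ← mul_assoc, hA, one_mul]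
        _ = _ := by rw [h1, mul_one]
    rw [e1, hfe, h3]

lemma flip_et {T ι : Type} [DecidableEq T] [Fintype ι] [DecidableEq ι] {S : Sys k T ι F} {i j : T} (hij : i ≠ j) (u v x y : Fin k → F) :
    S.E i (φ.et u v) * S.E j (φ.et x y) * S.flipM i j = S.E i (φ.et u y) * S.E j (φ.et x v) := by
  have h1 : ∀ l m : Fin k, S.E i (φ.et u v) * S.E j (φ.et x y) * (S.E i (single l m 1) * S.E j (single m l 1)) =
      (φ.fr v l • S.E j (vecMulVec x (Pi.single l 1))) * (φ.fr y m • S.E i (vecMulVec u (Pi.single m 1))) := by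
    intro l m
    have e1 : φ.et u v * single l m 1 = φ.fr v l • vecMulVec u (Pi.single m 1) := by
      rw [single_eq_vmv]
      show vecMulVec u (φ.fr v) * _ = _
      rw [vmv_mul, dotProduct_single_one]
    have e2 : φ.et x y * single m l 1 = φ.fr y m • vecMulVec x (Pi.single l 1) := by
      rw [single_eq_vmv]
      show vecMulVec x (φ.fr y) * _ = _
      rw [vmv_mul, dotProduct_single_one]
    calc S.E i (φ.et u v) * S.E j (φ.et x y) * (S.E i (single l m 1) * S.E j (single m l 1)) =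
        S.E i (φ.et u v) * (S.E j (φ.et x y) * S.E i (single l m 1)) * S.E j (single m l 1) := by simp only [mul_assoc]
      _ = S.E i (φ.et u v * single l m 1) * S.E j (φ.et x y * single m l 1) := by
          rw [← S.comm i j hij, map_mul, map_mul]; simp only [mul_assoc]
      _ = S.E j (φ.et x y * single m l 1) * S.E i (φ.et u v * single l m 1) := by rw [S.comm i j hij]
      _ = _ := by
          rw [e1, e2, map_smul, map_smul, smul_mul_smul_comm, smul_mul_smul_comm, mul_comm]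
  rw [Sys.flipM, Finset.mul_sum]
  simp only [Finset.mul_sum, h1]
  rw [← Finset.sum_mul_sum]
  have e3 : ∑ l, φ.fr v l • S.E j (vecMulVec x (Pi.single l 1)) = S.E j (φ.et x v) := by
    show _ = S.E j (vecMulVec x (φ.fr v))
    rw [vmv_sum_right x (φ.fr v), map_sum]
    exact Finset.sum_congr rfl fun l _ => (map_smul _ _ _).symm
  have e4 : ∑ m, φ.fr y m • S.E i (vecMulVec u (Pi.single m 1)) = S.E i (φ.et u y) := by
    show _ = S.E i (vecMulVec u (φ.fr y))
    rw [vmv_sum_right u (φ.fr y), map_sum]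
    exact Finset.sum_congr rfl fun l _ => (map_smul _ _ _).symm
  rw [e3, e4, S.comm i j hij]

/-- flips are isometries -/
lemma flip_iso {T ι : Type} [Fintype T] [DecidableEq T] [Fintype ι] [DecidableEq ι] [Nonempty ι] {S : Sys k T ι F} (Θ : SSt S φ) (hk : 0 < k) {i j : T} (hij : i ≠ j) :
    Θ.Iso (S.flip hij) := by
  obtain ⟨c, hc0, hc, -⟩ := (Sys.flip_sim (Θ := Θ) hij).st_eq
  rw [Sys.flip_inv_val, Sys.flip_val] at hc
  obtain ⟨u, hu⟩ : ∃ x : Fin k → F, x ≠ 0 := ⟨Pi.single ⟨0, hk⟩ 1, by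
    intro h0; have := congrFun h0 ⟨0, hk⟩; rw [Pi.single_eq_same] at this; exact one_ne_zero this⟩
  obtain ⟨P, hP⟩ : ∃ P, P = S.E i (φ.et u u) * S.E j (φ.et u u) := ⟨_, rfl⟩
  have h1 := congrArg Θ.st (flip_et (S := S) (φ := φ) hij u u u u)
  rw [Θ.st_mul, Θ.st_mul, Θ.st_et, Θ.st_et, neg_mul_neg, ← S.comm i j hij, ← hP, hc] at h1
  have h3 : S.flipM i j * P = P := by
    have e1 : S.flipM i j * P = P * S.flipM i j := by
      rw [hP, ← mul_assoc, Sys.flipM_mul hij, mul_assoc]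
      have : S.flipM i j * S.E j (φ.et u u) = S.E i (φ.et u u) * S.flipM i j := by
        rw [Sys.flipM_symm hij, Sys.flipM_mul (Ne.symm hij)]
      rw [this, ← mul_assoc, S.comm i j hij]
    rw [e1, hP, flip_et hij]
  have hP0 : P ≠ 0 := by
    intro h0
    rw [hP] at h0
    have := eq_zero_of_E_mul (S.E i) (Sys.cmt_E hij _) (φ.et_ne_zero hu hu) h0
    exact φ.et_ne_zero hu hu (Sys.E_inj (S := S) (i := j) (by rw [this, map_zero]))
  rw [smul_mul_assoc, h3] at h1
  have hc1 : c = 1 := by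
    have : (c - 1) • P = 0 := by rw [sub_smul, one_smul, h1, sub_self]
    have := (smul_eq_zero.1 this).resolve_right hP0
    exact sub_eq_zero.1 this
  show Θ.st (S.flipM i j) * S.flipM i j = 1
  rw [hc, hc1, one_smul, Sys.flipM_sq hij]

end gen

section overg

variable {k t : ℕ} {F : Type*} [Field F] [Fintype F] {φ : SpF k F} {f : ((Fin t → Fin k) → F) → ((Fin t → Fin k) → F) → F}

/-- **the overgroups in the symplectic group of an odd tensor power** -/
theorem sp_overgroup (hk : 2 ≤ k) (hq : Odd (Fintype.card F)) (hex : ¬ (Fintype.card F = 3 ∧ k = 2)) (ht : Odd t) (ht3 : 3 ≤ t)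
    (hf : IsSymplecticForm f) (hfe : ∀ u v, f u v = u ⬝ᵥ (piMat (fun _ => φ.A) *ᵥ v)) {K : Subgroup (GL (Fin t → Fin k) F)}
    (hK : tensorWreathStandard k t F ⊓ isoGL f ≤ K) (hKf : K ≤ isoGL f) : isoGL f ≤ K ∨ K ≤ tensorWreathStandard k t F := by
  haveI : Nonempty (Fin k) := ⟨⟨0, by omega⟩⟩
  have h2 : (2 : F) ≠ 0 := by
    intro h0
    have h1 : ringChar F = 2 := by
      have := ringChar.dvd (R := F) (x := 2) (by exact_mod_cast h0)
      rcases (Nat.dvd_prime Nat.prime_two).1 this with h | h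
      · exact absurd h (CharP.ringChar_ne_one)
      · exact h
    have h3 := (FiniteField.even_card_iff_char_two (F := F)).1 h1
    rw [← Nat.not_odd_iff] at h3
    exact h3 hq
  have hR : ∀ i, RootsS φ ((std k t F).E i) K := by
    intro i c u
    have hsq : (c • φ.et u u) * (c • φ.et u u) = 0 := cet_sq φ c u
    obtain ⟨B, hB⟩ := exists_of_sq_zero hsq
    have hx : (EU ((std k t F).E i) B).1 = 1 + (std k t F).E i (c • φ.et u u) := by rw [EU_val, hB, map_add, map_one]
    refine ⟨EU ((std k t F).E i) B, hK ⟨mem_tws_of_mon (by omega) (by omega) (Sys.EU_mem_mon i B), (mem_iso_iff (φ := φ) hfe).2 ?_⟩, hx⟩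
    show (stStd t φ).st _ * _ = 1
    have hZ : (stStd t φ).st ((std k t F).E i (c • φ.et u u)) = -(std k t F).E i (c • φ.et u u) := by
      rw [(stStd t φ).st_E, φ.star_smul, φ.star_et, smul_neg, map_neg]
    have hZZ := E_sq (E := (std k t F).E i) hsq
    rw [hx, (stStd t φ).st_add, (stStd t φ).st_one, hZ]
    have e0 : (1 + -(std k t F).E i (c • φ.et u u)) * (1 + (std k t F).E i (c • φ.et u u)) =
        1 - (std k t F).E i (c • φ.et u u) * (std k t F).E i (c • φ.et u u) := by noncomm_ring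
    rw [e0, hZZ, sub_zero]
  have hflip : ∀ (i j : Fin t) (hij : i ≠ j), (std k t F).flip hij ∈ K := fun i j hij =>
    hK ⟨mem_tws_of_mon (by omega) (by omega) (Sys.flip_mem_mon hij (Finset.mem_univ _) (Finset.mem_univ _)), (mem_iso_iff (φ := φ) hfe).2 (flip_iso _ (by omega) hij)⟩
  have hI : ∀ g ∈ K, (stStd t φ).Iso g := fun g hg => (mem_iso_iff hfe).1 (hKf hg)
  by_cases hC : ∀ i, CoefS φ ((std k t F).E i) K
  · right
    intro g hg
    apply mem_tws_of_mon (by omega) (by omega)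
    exact claimS_std φ hk hq hex Finset.univ K (fun x _ i hi => absurd (Finset.mem_univ i) hi) hI (fun i _ => hR i) (fun i _ => hC i) g
      (fun i hi => absurd (Finset.mem_univ i) hi) (hI g hg).sim (fun i _ c u => (hR i c u).conj' hg)
  · left
    push Not at hC
    obtain ⟨i, hi⟩ := hC
    rw [coefS_iff h2 (hR i)] at hi
    push Not at hi
    obtain ⟨A, hA, hns⟩ := hi
    obtain ⟨σ, hσ, hσ2⟩ := exists_sigma φ
    have hk4 : k = 2 ∨ 4 ≤ k := by
      by_cases hk2 : k = 2
      · exact Or.inl hk2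
      right
      obtain ⟨u, hu⟩ : ∃ u : Fin k → F, u ≠ 0 := ⟨Pi.single ⟨0, by omega⟩ 1, by
        intro h0; have := congrFun h0 ⟨0, by omega⟩; rw [Pi.single_eq_same] at this; exact one_ne_zero this⟩
      obtain ⟨v, huv⟩ := φ.exists_hyp hu
      obtain ⟨z, hz0, hzu, hzv⟩ := exists_row_zero (F := F) (by rw [Fintype.card_fin]; omega : 3 ≤ Fintype.card (Fin k)) (φ.fr u) (φ.fr v)
      have huz : φ.f u z = 0 := by rw [← φ.fr_dot, dotProduct_comm]; exact hzu
      have hvz : φ.f v z = 0 := by rw [← φ.fr_dot, dotProduct_comm]; exact hzv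
      exact Sys.four_le φ hu huz (Sys.not_mem_span_of_hyp huv hvz hz0)
    exact iso_le_of_pure h2 hf hfe fun c x => pure_of_ns h2 hk4 hσ hσ2 ht ht3 hR hflip hA (by rintro ⟨c, hc⟩; exact hns c hc) c x

end overg

section final

variable {F : Type*} [Field F] [Fintype F]

/-- the form of the factors -/
noncomputable def SpF.ofSymp {k : ℕ} {f₁ : (Fin k → F) → (Fin k → F) → F} (hf : IsSymplecticForm f₁) : SpF k F where
  A := gramMatrix f₁
  A' := (gramMatrix f₁)⁻¹
  AA' := Matrix.mul_nonsing_inv _ (isUnit_iff_ne_zero.2 ((isSesq_of_bilinear hf.bilinear).gram_det_ne_zero fun v hv => (hf.nondegenerate v hv).2))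
  A'A := Matrix.nonsing_inv_mul _ (isUnit_iff_ne_zero.2 ((isSesq_of_bilinear hf.bilinear).gram_det_ne_zero fun v hv => (hf.nondegenerate v hv).2))
  alt u := by
    have := (isSesq_of_bilinear hf.bilinear).eq_gram u u
    rw [hf.alternating] at this
    exact this.symm

/-- **maximality in the symplectic group** -/
theorem sp_wreath_maximal (m : ℕ) (hodd : Odd (Fintype.card F)) (k t : ℕ) (hk : 2 ≤ k) (ht : Odd t) (ht3 : 3 ≤ t)
    (hex : ¬ (Fintype.card F = 3 ∧ k = 2)) (e : (Fin m ⊕ Fin m) ≃ (Fin t → Fin k)) (P : GL (Fin m ⊕ Fin m) F)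
    (f₁ : (Fin k → F) → (Fin k → F) → F) (hf₁ : IsSymplecticForm f₁) (hT : IsTensorPowerFormStructure id (Cfsg.sympForm m F) f₁ e P) :
    IsMaximalIn (Cfsg.spGL m F) (tensorWreathSubgroup k t e P ⊓ Cfsg.spGL m F) := by
  classical
  obtain ⟨c, hc0, hT⟩ := hT
  refine ⟨lt_of_le_of_ne inf_le_right fun h => ?_, fun M hM1 hM2 => ?_⟩
  · exact (AschCases.sp_geom m F).not_le_tensorWreathSubgroup (Or.inr ⟨hk, ht3⟩) e P (inf_eq_right.1 h)
  -- the form in the coordinates of the tensor power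
  let L : ((Fin t → Fin k) → F) ≃ₗ[F] ((Fin m ⊕ Fin m) → F) :=
    (LinearEquiv.funCongrLeft F F e).trans (Asch.glEquiv P)
  have hL : ∀ x : (Fin t → Fin k) → F, L x = P.1 *ᵥ (x ∘ e) := fun x => rfl
  obtain ⟨f, hfdef⟩ : ∃ f : ((Fin t → Fin k) → F) → ((Fin t → Fin k) → F) → F, f = fun x y => c⁻¹ * Cfsg.sympForm m F (L x) (L y) := ⟨_, rfl⟩
  have hf : IsSymplecticForm f := by
    rw [hfdef]
    exact TenMax.symp_smul (TenMax.symp_comp (Symp.std m F) L) (inv_ne_zero hc0)
  have hfe : ∀ u v, f u v = u ⬝ᵥ (piMat (fun _ => (SpF.ofSymp hf₁).A) *ᵥ v) := by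
    intro u v
    rw [hfdef]
    show c⁻¹ * Cfsg.sympForm m F (L u) (L v) = _
    rw [hL, hL, hT, ← mul_assoc, inv_mul_cancel₀ hc0, one_mul, dotProduct]
    refine Finset.sum_congr rfl fun a _ => ?_
    rw [mulVec, dotProduct, Finset.mul_sum]
    refine Finset.sum_congr rfl fun b _ => ?_
    rw [mul_assoc]
    rfl
  have hrho : ∀ (g : GL (Fin m ⊕ Fin m) F) x, L ((rhoW e P g).1 *ᵥ x) = g.1 *ᵥ L x := by
    intro g x
    rw [hL, hL]
    have h1 : ((rhoW e P g).1 *ᵥ x) ∘ e = ((P⁻¹).1 * g.1 * P.1) *ᵥ (x ∘ e) := by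
      have h3 : (rhoW e P g).1 = Matrix.reindex e e ((P⁻¹).1 * g.1 * P.1) := by
        show Matrix.reindex e e ((P⁻¹ * g * (P⁻¹)⁻¹ : GL (Fin m ⊕ Fin m) F)).1 = _
        rw [inv_inv, Units.val_mul, Units.val_mul]
      rw [h3, Matrix.reindex_apply, Matrix.submatrix_mulVec_equiv]
      funext a
      simp only [Function.comp_apply, Equiv.symm_symm, Equiv.symm_apply_apply]
    rw [h1, mulVec_mulVec, mulVec_mulVec, ← mul_assoc, ← mul_assoc, mul_inv_val, one_mul]
  have hiff : ∀ g, g ∈ Cfsg.spGL m F ↔ rhoW e P g ∈ isoGL f := by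
    intro g
    rw [Symp.spGL_eq, mem_isoGL, mem_isoGL, hfdef]
    constructor
    · intro h x y
      show c⁻¹ * Cfsg.sympForm m F (L _) (L _) = c⁻¹ * Cfsg.sympForm m F (L x) (L y)
      rw [hrho, hrho, h]
    · intro h x y
      have h3 := h (L.symm x) (L.symm y)
      have h4 : c⁻¹ * Cfsg.sympForm m F (L ((rhoW e P g).1 *ᵥ L.symm x)) (L ((rhoW e P g).1 *ᵥ L.symm y)) = c⁻¹ * Cfsg.sympForm m F (L (L.symm x)) (L (L.symm y)) := h3
      rw [hrho, hrho, LinearEquiv.apply_symm_apply, LinearEquiv.apply_symm_apply] at h4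
      exact mul_left_cancel₀ (inv_ne_zero hc0) h4
  obtain ⟨K, hKdef⟩ : ∃ K, K = M.map (rhoW e P).toMonoidHom := ⟨_, rfl⟩
  have hKf : K ≤ isoGL f := by
    rw [hKdef]
    rintro _ ⟨g, hg, rfl⟩
    exact (hiff g).1 (hM2 hg)
  have hK : tensorWreathStandard k t F ⊓ isoGL f ≤ K := by
    rw [hKdef]
    rintro x ⟨hx, hi⟩
    refine ⟨(rhoW e P).symm x, hM1 ⟨rhoW_symm_mem e P x hx, ?_⟩, (rhoW e P).apply_symm_apply x⟩
    refine (hiff _).2 ?_
    rw [MulEquiv.apply_symm_apply]
    exact hi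
  rcases sp_overgroup hk hodd hex ht ht3 hf hfe hK hKf with h | h
  · right
    refine le_antisymm hM2 fun g hg => ?_
    have h3 := h ((hiff g).1 hg)
    rw [hKdef] at h3
    obtain ⟨g', hg'M, hg'e⟩ := h3
    have : g' = g := (rhoW e P).injective hg'e
    rwa [← this]
  · left
    refine le_antisymm (le_inf (fun g hg => ?_) hM2) hM1
    exact rhoW_mem e P g (h (by rw [hKdef]; exact ⟨g, hg, rfl⟩))

end final

end Cfsg.Agent.Asch.CW
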