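import Mathlib
import Cfsg.Prelude.Def_GeometricClasses
import Cfsg.Agent.Asch.CWInd2
set_option autoImplicit false
set_option linter.unusedSectionVars false
set_option linter.unusedVariables false
set_option linter.style.haveILetI false

/-!
Characteristic two, `k = 3`: elements of small rank with a non-trivial permutation.
-/

namespace Cfsg.Agent.Asch.CW

open Matrix Module

open scoped Matrix

namespace Sys

variable {k : ℕ} {T ι : Type} [Fintype T] [DecidableEq T] [Fintype ι] [DecidableEq ι] {F : Type*} [Field F] {S : Sys k T ι F}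
  {J : Finset T} {K' : Subgroup (GL ι F)}

/-- the idempotent complementary to the fixed space -/
theorem swap_core [Nonempty ι] (hk : 3 ≤ k) {y : GL ι F} {σ : Equiv.Perm T} (hσ : S.Perms y σ) {j : T} (hj : σ j ≠ j) (i0 : Fin k) (hi0 : i0 = ⟨0, by omega⟩) :
    ∃ (B : GL (Fin k) F) (RR : Matrix ι ι F) (ρ₂ : ℕ), (∀ a, y.1 * S.E j a = S.E (σ j) (B.1 * a * (B⁻¹).1) * y.1) ∧
      k * ρ₂ = (S.E j (single i0 i0 1)).rank ∧ RR.rank + 3 * ρ₂ = 2 * (S.E j (single i0 i0 1)).rank ∧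
      (∀ w, (y.1 - 1) *ᵥ (RR *ᵥ w) = 0 → RR *ᵥ w = 0) ∧
      S.E (σ j) (B.1 * single i0 i0 1 * (B⁻¹).1) * RR = 0 ∧
      S.E (σ j) (B.1 * single i0 i0 1 * (B⁻¹).1) * (S.E j (single i0 i0 1) * RR) = 0 := by
  obtain ⟨B, hB⟩ := hσ j
  set i1 : Fin k := ⟨1, by omega⟩ with hi1
  have hne : i0 ≠ i1 := by simp [hi0, hi1, Fin.ext_iff]
  set P : Fin k → Matrix ι ι F := fun l => S.E j (single l l 1) with hP
  set P' : Fin k → Matrix ι ι F := fun l => S.E (σ j) (B.1 * single l l 1 * (B⁻¹).1) with hP'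
  have hyP : ∀ l, y.1 * P l = P' l * y.1 := fun l => hB _
  have hPP' : ∀ l m, P l * P' m = P' m * P l := fun l m => S.comm j (σ j) (Ne.symm hj) _ _
  have hconj : ∀ a b : Matrix (Fin k) (Fin k) F, (B.1 * a * (B⁻¹).1) * (B.1 * b * (B⁻¹).1) = B.1 * (a * b) * (B⁻¹).1 := by
    intro a b
    calc (B.1 * a * (B⁻¹).1) * (B.1 * b * (B⁻¹).1) = B.1 * a * ((B⁻¹).1 * B.1) * b * (B⁻¹).1 := by simp only [mul_assoc]
      _ = _ := by rw [inv_mul_val, mul_one]; simp only [mul_assoc]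
  have hPl : ∀ l, P l * P l = P l := fun l => by simp only [hP]; rw [← map_mul, single_mul_single_same, one_mul]
  have hPlm : ∀ l m, l ≠ m → P l * P m = 0 := fun l m h => by simp only [hP]; rw [← map_mul, single_mul_single_of_ne _ _ _ _ h, map_zero]
  have hP'l : ∀ l, P' l * P' l = P' l := fun l => by simp only [hP']; rw [← map_mul, hconj, single_mul_single_same, one_mul]
  have hP'lm : ∀ l m, l ≠ m → P' l * P' m = 0 := fun l m h => by
    simp only [hP']; rw [← map_mul, hconj, single_mul_single_of_ne _ _ _ _ h, mul_zero, zero_mul, map_zero]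
  have hcP : ∀ l, Cmt (S.E (σ j)) (P l) := fun l => cmt_E hj _
  -- ranks
  set ρ := (P i0).rank with hρ
  set ρ₂ := (P i0 * P' i0).rank with hρ₂
  have hr2 : ∀ l m, (P l * P' m).rank = ρ₂ := by
    intro l m
    have e1 : (P l * P' m).rank = (P l * S.E (σ j) (single m m 1)).rank := by
      rw [hPP']
      simp only [hP']
      rw [rank_E_conj_mul (hcP l) B m, ← hcP l]
    have e2 : (P i0 * P' i0).rank = (P i0 * S.E (σ j) (single i0 i0 1)).rank := by
      rw [hPP']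
      simp only [hP']
      rw [rank_E_conj_mul (hcP i0) B i0, ← hcP i0]
    rw [hρ₂, e1, e2]
    have e3 := rank_E_mul_single (E := S.E j) (b := S.E (σ j) (single m m 1)) (cmt_E (Ne.symm hj) _) l i0
    have e4 := rank_E_mul_single (E := S.E (σ j)) (b := P i0) (hcP i0) m i0
    rw [hcP i0, hcP i0] at e4
    exact e3.trans e4
  have hrP : ∀ l, (P l).rank = ρ := fun l => rank_E_single l i0
  have hρk : k * ρ₂ = ρ := by
    have := card_mul_rank (E := S.E (σ j)) (Q := P i0) (hcP i0) (hPl i0) i0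
    rw [Fintype.card_fin, hcP i0] at this
    have e2 : (P i0 * P' i0).rank = (P i0 * S.E (σ j) (single i0 i0 1)).rank := by
      rw [hPP']
      simp only [hP']
      rw [rank_E_conj_mul (hcP i0) B i0, ← hcP i0]
    rw [← e2] at this
    exact this
  have hρpos : 0 < ρ₂ := by
    have h1 := card_mul_rank_one (E := S.E j) i0
    have h2 : 0 < Fintype.card ι := Fintype.card_pos
    rw [← h1, Fintype.card_fin] at h2
    have h3 : 0 < (S.E j (single i0 i0 1)).rank := Nat.pos_of_mul_pos_left h2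
    have h4 : 0 < ρ := h3
    rw [← hρk] at h4
    exact Nat.pos_of_mul_pos_left h4
  -- the idempotent
  set R0 := P i0 * (1 - P' i0) with hR0
  set R1 := P i1 * (1 - P' i0 - P' i1) with hR1
  set RR := R0 + R1 with hRR
  have c0 : P i0 * (1 - P' i0) = (1 - P' i0) * P i0 := by rw [mul_sub, sub_mul, mul_one, one_mul, hPP']
  have c1 : P i1 * (1 - P' i0 - P' i1) = (1 - P' i0 - P' i1) * P i1 := by
    rw [mul_sub, mul_sub, sub_mul, sub_mul, mul_one, one_mul, hPP', hPP']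
  have d0 : (1 - P' i0) * (1 - P' i0) = 1 - P' i0 := by
    rw [mul_sub, mul_one, sub_mul, one_mul, hP'l, sub_self, sub_zero]
  have d1 : (1 - P' i0 - P' i1) * (1 - P' i0 - P' i1) = 1 - P' i0 - P' i1 := by
    have : (1 - P' i0 - P' i1) * (1 - P' i0 - P' i1) = 1 - P' i0 - P' i0 + P' i0 * P' i0 - P' i1 - P' i1 + P' i1 * P' i1 + P' i0 * P' i1 + P' i1 * P' i0 := by noncomm_ring
    rw [this, hP'l, hP'l, hP'lm _ _ hne, hP'lm _ _ (Ne.symm hne)]; abel
  have e00 : R0 * R0 = R0 := by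
    rw [hR0]
    calc P i0 * (1 - P' i0) * (P i0 * (1 - P' i0)) = P i0 * ((1 - P' i0) * P i0) * (1 - P' i0) := by simp only [mul_assoc]
      _ = (P i0 * P i0) * ((1 - P' i0) * (1 - P' i0)) := by rw [← c0]; simp only [mul_assoc]
      _ = _ := by rw [hPl, d0]
  have e11 : R1 * R1 = R1 := by
    rw [hR1]
    calc P i1 * (1 - P' i0 - P' i1) * (P i1 * (1 - P' i0 - P' i1)) = P i1 * ((1 - P' i0 - P' i1) * P i1) * (1 - P' i0 - P' i1) := by simp only [mul_assoc]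
      _ = (P i1 * P i1) * ((1 - P' i0 - P' i1) * (1 - P' i0 - P' i1)) := by rw [← c1]; simp only [mul_assoc]
      _ = _ := by rw [hPl, d1]
  have e01 : R0 * R1 = 0 := by
    have h1 : R0 = (1 - P' i0) * P i0 := by rw [hR0, c0]
    calc R0 * R1 = (1 - P' i0) * (P i0 * P i1) * (1 - P' i0 - P' i1) := by rw [h1, hR1]; simp only [mul_assoc]
      _ = 0 := by rw [hPlm _ _ hne, mul_zero, zero_mul]
  have e10 : R1 * R0 = 0 := by
    have h1 : R1 = (1 - P' i0 - P' i1) * P i1 := by rw [hR1, c1]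
    calc R1 * R0 = (1 - P' i0 - P' i1) * (P i1 * P i0) * (1 - P' i0) := by rw [h1, hR0]; simp only [mul_assoc]
      _ = 0 := by rw [hPlm _ _ (Ne.symm hne), mul_zero, zero_mul]
  have f : ∀ l m, (P l * P' m) * (P l * P' m) = P l * P' m := by
    intro l m
    calc (P l * P' m) * (P l * P' m) = P l * (P' m * P l) * P' m := by simp only [mul_assoc]
      _ = (P l * P l) * (P' m * P' m) := by rw [← hPP']; simp only [mul_assoc]
      _ = _ := by rw [hPl, hP'l]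
  have rR0 : R0.rank + ρ₂ = ρ := by
    have h1 : R0 + P i0 * P' i0 = P i0 := by rw [hR0, ← mul_add, sub_add_cancel, mul_one]
    have h2 := rank_add_orth e00 (f i0 i0) (by
        rw [hR0, hPP', mul_assoc, ← mul_assoc (1 - P' i0), sub_mul, one_mul, hP'l, sub_self, zero_mul, mul_zero])
      (by
        have : P i0 * P' i0 * R0 = P i0 * P' i0 * ((1 - P' i0) * P i0) := by rw [hR0, c0]
        rw [this, mul_assoc, ← mul_assoc (P' i0), mul_sub (P' i0), mul_one, hP'l, sub_self, zero_mul, mul_zero])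
    rw [h1] at h2
    rw [← h2]
  have rR1 : R1.rank + (ρ₂ + ρ₂) = ρ := by
    have h1 : R1 + (P i1 * P' i0 + P i1 * P' i1) = P i1 := by rw [hR1]; noncomm_ring
    have g1 : (P i1 * P' i0) * (P i1 * P' i1) = 0 := by
      calc (P i1 * P' i0) * (P i1 * P' i1) = P i1 * (P' i0 * P i1) * P' i1 := by simp only [mul_assoc]
        _ = P i1 * P i1 * (P' i0 * P' i1) := by rw [← hPP']; simp only [mul_assoc]
        _ = 0 := by rw [hP'lm _ _ hne, mul_zero]
    have g2 : (P i1 * P' i1) * (P i1 * P' i0) = 0 := by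
      calc (P i1 * P' i1) * (P i1 * P' i0) = P i1 * (P' i1 * P i1) * P' i0 := by simp only [mul_assoc]
        _ = P i1 * P i1 * (P' i1 * P' i0) := by rw [← hPP']; simp only [mul_assoc]
        _ = 0 := by rw [hP'lm _ _ (Ne.symm hne), mul_zero]
    have h3 := rank_add_orth (f i1 i0) (f i1 i1) g1 g2
    have h4 : (P i1 * P' i0 + P i1 * P' i1) * (P i1 * P' i0 + P i1 * P' i1) = P i1 * P' i0 + P i1 * P' i1 := by
      rw [mul_add, add_mul, add_mul, f, f, g1, g2, zero_add, add_zero]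
    have z1 : (1 - P' i0 - P' i1) * (P' i0 + P' i1) = 0 := by
      have : (1 - P' i0 - P' i1) * (P' i0 + P' i1) = P' i0 + P' i1 - P' i0 * P' i0 - P' i0 * P' i1 - P' i1 * P' i0 - P' i1 * P' i1 := by noncomm_ring
      rw [this, hP'l, hP'l, hP'lm _ _ hne, hP'lm _ _ (Ne.symm hne)]; abel
    have z2 : (P' i0 + P' i1) * (1 - P' i0 - P' i1) = 0 := by
      have : (P' i0 + P' i1) * (1 - P' i0 - P' i1) = P' i0 + P' i1 - P' i0 * P' i0 - P' i0 * P' i1 - P' i1 * P' i0 - P' i1 * P' i1 := by noncomm_ring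
      rw [this, hP'l, hP'l, hP'lm _ _ hne, hP'lm _ _ (Ne.symm hne)]; abel
    have cc : P i1 * (P' i0 + P' i1) = (P' i0 + P' i1) * P i1 := by rw [mul_add, add_mul, hPP', hPP']
    have g3 : R1 * (P i1 * P' i0 + P i1 * P' i1) = 0 := by
      rw [← mul_add]
      calc R1 * (P i1 * (P' i0 + P' i1)) = P i1 * ((1 - P' i0 - P' i1) * (P' i0 + P' i1)) * P i1 := by rw [cc, hR1]; simp only [mul_assoc]
        _ = 0 := by rw [z1, mul_zero, zero_mul]
    have g4 : (P i1 * P' i0 + P i1 * P' i1) * R1 = 0 := by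
      rw [← mul_add]
      calc P i1 * (P' i0 + P' i1) * R1 = P i1 * ((P' i0 + P' i1) * (1 - P' i0 - P' i1)) * P i1 := by rw [hR1, c1]; simp only [mul_assoc]
        _ = 0 := by rw [z2, mul_zero, zero_mul]
    have h5 := rank_add_orth e11 h4 g3 g4
    rw [h1, h3, hr2, hr2, hrP] at h5
    exact h5.symm
  have rRR : RR.rank = R0.rank + R1.rank := rank_add_orth e00 e11 e01 e10
  -- injectivity
  have p0R : P' i0 * RR = 0 := by
    rw [hRR, mul_add, hR0, hR1, c0, c1, ← mul_assoc, ← mul_assoc, mul_sub, mul_sub, mul_sub, mul_one, hP'l, hP'lm _ _ hne, sub_self, sub_zero, zero_mul, zero_mul, add_zero]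
  have p1R : P' i1 * (P i1 * RR) = 0 := by
    have : P i1 * RR = R1 := by
      rw [hRR, mul_add, hR0, hR1, ← mul_assoc, ← mul_assoc, hPlm _ _ (Ne.symm hne), hPl, zero_mul, zero_add]
    rw [this, hR1, c1, ← mul_assoc, mul_sub, mul_sub, mul_one, hP'l, hP'lm _ _ (Ne.symm hne), sub_zero, sub_self, zero_mul]
  have pR : (P i0 + P i1) * RR = RR := by
    rw [hRR, add_mul, mul_add, mul_add]
    have a1 : P i0 * R0 = R0 := by rw [hR0, ← mul_assoc, hPl]
    have a2 : P i0 * R1 = 0 := by rw [hR1, ← mul_assoc, hPlm _ _ hne, zero_mul]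
    have a3 : P i1 * R0 = 0 := by rw [hR0, ← mul_assoc, hPlm _ _ (Ne.symm hne), zero_mul]
    have a4 : P i1 * R1 = R1 := by rw [hR1, ← mul_assoc, hPl]
    rw [a1, a2, a3, a4, add_zero, zero_add]
  have yinj : ∀ w, y.1 *ᵥ w = 0 → w = 0 := by
    intro w hw
    have : (y⁻¹).1 *ᵥ (y.1 *ᵥ w) = w := by rw [mulVec_mulVec, inv_mul_val, one_mulVec]
    rw [← this, hw, mulVec_zero]
  have hinj : ∀ w, (y.1 - 1) *ᵥ (RR *ᵥ w) = 0 → RR *ᵥ w = 0 := by
    intro w hw
    set v := RR *ᵥ w with hv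
    rw [sub_mulVec, one_mulVec, sub_eq_zero] at hw
    have step : ∀ l, P' l *ᵥ v = 0 → P l *ᵥ v = 0 := by
      intro l hl
      apply yinj
      rw [mulVec_mulVec, hyP, ← mulVec_mulVec, hw, hl]
    have h0 : P i0 *ᵥ v = 0 := step i0 (by rw [hv, mulVec_mulVec, p0R, zero_mulVec])
    have h1 : P i1 *ᵥ v = v := by
      have : (P i0 + P i1) *ᵥ v = v := by rw [hv, mulVec_mulVec, pR]
      rwa [add_mulVec, h0, zero_add] at this
    have h2 : P i1 *ᵥ v = 0 := step i1 (by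
      rw [← h1, hv, mulVec_mulVec, mulVec_mulVec, mul_assoc, p1R, zero_mulVec])
    rw [← h1, h2]
  refine ⟨B, RR, ρ₂, hB, hρk, ?_, hinj, p0R, ?_⟩
  · show RR.rank + 3 * ρ₂ = 2 * ρ
    rw [rRR]
    omega
  · show P' i0 * (P i0 * RR) = 0
    rw [← mul_assoc, ← hPP', mul_assoc, p0R, mul_zero]

lemma sq_one_of {y : GL ι F} (h2 : (2 : F) = 0) (hy : (y.1 - 1) * (y.1 - 1) = 0) : y.1 * y.1 = 1 := by
  have h3 : y.1 * y.1 = y.1 + y.1 - 1 := by
    have h1 : y.1 * y.1 - y.1 - y.1 + 1 = 0 := by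
      rw [← hy]; noncomm_ring
    rw [← sub_eq_zero, ← h1]; abel
  rw [h3, ← two_smul F, h2, zero_smul, zero_sub]
  have : (-1 : Matrix ι ι F) = (-1 : F) • 1 := by rw [neg_smul, one_smul]
  rw [this]
  have h4 : (-1 : F) = 1 := by
    have : (1 : F) + 1 = 0 := by rw [← h2]; norm_num
    exact (eq_neg_of_add_eq_zero_left this).symm
  rw [h4, one_smul]

/-- in characteristic two with `k = 3`: an involution of small rank moving a factor is a flip of two factors -/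
theorem swap_cmt [Nonempty ι] (hk3 : k = 3) (h2 : (2 : F) = 0) {y : GL ι F} (hy : (y.1 - 1) * (y.1 - 1) = 0) {σ : Equiv.Perm T} (hσ : S.Perms y σ)
    {j : T} (hj : σ j ≠ j) (i₀ : T) (l₀ : Fin k) (hr : (y.1 - 1).rank ≤ (S.E i₀ (single l₀ l₀ 1)).rank) :
    σ (σ j) = j ∧ ∀ m, m ≠ j → m ≠ σ j → σ m = m ∧ Cmt (S.E m) y.1 := by
  have hyy := sq_one_of h2 hy
  set i0 : Fin k := ⟨0, by omega⟩ with hi0
  obtain ⟨B, RR, ρ₂, hB, hρk, hrk, hinj, p0R, p00R⟩ := swap_core (by omega) hσ hj i0 hi0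
  rw [rank_E_eq i₀ j l₀ i0] at hr
  have hσσ : ∀ m, σ (σ m) = m := by
    intro m
    obtain ⟨D, hD⟩ := hσ m
    obtain ⟨D', hD'⟩ := hσ (σ m)
    obtain ⟨a, ha⟩ := exists_not_scalar (F := F) (k := k) (by omega)
    have h1 : S.E m a = S.E (σ (σ m)) (D'.1 * (D.1 * a * (D⁻¹).1) * (D'⁻¹).1) := by
      calc S.E m a = (y.1 * y.1) * S.E m a := by rw [hyy, one_mul]
        _ = y.1 * (y.1 * S.E m a) := mul_assoc _ _ _
        _ = (y.1 * S.E (σ m) (D.1 * a * (D⁻¹).1)) * y.1 := by rw [hD]; exact (mul_assoc _ _ _).symm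
        _ = _ := by rw [hD', mul_assoc, hyy, mul_one]
    exact (idx_eq_of_E_eq (S := S) ha h1).symm
  refine ⟨hσσ j, fun m hmj hmj' => ?_⟩
  -- P0 P'0 is fixed
  set P0 := S.E j (single i0 i0 1) with hP0
  set P0' := S.E (σ j) (B.1 * single i0 i0 1 * (B⁻¹).1) with hP0'
  have hyP : y.1 * P0 = P0' * y.1 := hB _
  have hPP : P0 * P0' = P0' * P0 := S.comm j (σ j) (Ne.symm hj) _ _
  have hP0'2 : P0' * P0' = P0' := by
    rw [hP0', ← map_mul]
    congr 1
    calc (B.1 * single i0 i0 1 * (B⁻¹).1) * (B.1 * single i0 i0 1 * (B⁻¹).1) = B.1 * single i0 i0 1 * ((B⁻¹).1 * B.1) * single i0 i0 1 * (B⁻¹).1 := by simp only [mul_assoc]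
      _ = _ := by rw [inv_mul_val, mul_one, mul_assoc B.1, single_mul_single_same, one_mul]
  have hP02 : P0 * P0 = P0 := by rw [hP0, ← map_mul, single_mul_single_same, one_mul]
  have hRRρ : RR.rank = P0.rank := by
    have : 3 * ρ₂ = P0.rank := by rw [← hρk, hk3]
    omega
  have hrange : LinearMap.range ((y.1 - 1) * RR).mulVecLin = LinearMap.range (y.1 - 1).mulVecLin := by
    apply Submodule.eq_of_le_of_finrank_le (mulVecLin_range_mul_le _ _)
    have h1 := rank_le_of_inj hinj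
    rw [hRRρ] at h1
    exact hr.trans h1
  have hfix : (y.1 - 1) * (P0 * P0') = 0 := by
    apply Matrix.ext_of_mulVec_single
    intro p
    rw [zero_mulVec, ← mulVec_mulVec]
    set v := (P0 * P0') *ᵥ Pi.single p 1 with hv
    have hP0v : P0 *ᵥ v = v := by rw [hv, mulVec_mulVec, ← mul_assoc, hP02]
    have hP0'v : P0' *ᵥ v = v := by rw [hv, mulVec_mulVec, hPP, ← mul_assoc, hP0'2]
    have h1 : (y.1 - 1) *ᵥ v ∈ LinearMap.range ((y.1 - 1) * RR).mulVecLin := by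
      rw [hrange]; exact ⟨v, rfl⟩
    obtain ⟨w, hw⟩ := h1
    rw [mulVecLin_apply, ← mulVec_mulVec] at hw
    set a := RR *ᵥ w with ha
    have hP0'a : P0' *ᵥ a = 0 := by rw [ha, mulVec_mulVec, p0R, zero_mulVec]
    have hP0'P0a : P0' *ᵥ (P0 *ᵥ a) = 0 := by rw [ha, mulVec_mulVec, mulVec_mulVec, mul_assoc, p00R, zero_mulVec]
    -- y (v - a) = v - a
    have h3 : y.1 *ᵥ (v - a) = v - a := by
      have h4 : (y.1 - 1) *ᵥ (v - a) = 0 := by rw [mulVec_sub, hw, sub_self]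
      rw [sub_mulVec, one_mulVec, sub_eq_zero] at h4
      exact h4
    have h5 : y.1 *ᵥ (v - P0 *ᵥ a) = v := by
      calc y.1 *ᵥ (v - P0 *ᵥ a) = y.1 *ᵥ (P0 *ᵥ (v - a)) := by rw [mulVec_sub P0, hP0v]
        _ = P0' *ᵥ (y.1 *ᵥ (v - a)) := by rw [mulVec_mulVec, hyP, mulVec_mulVec]
        _ = v := by rw [h3, mulVec_sub, hP0'v, hP0'a, sub_zero]
    have h6 : y.1 *ᵥ v = v - P0 *ᵥ a := by
      calc y.1 *ᵥ v = y.1 *ᵥ (y.1 *ᵥ (v - P0 *ᵥ a)) := by rw [h5]
        _ = _ := by rw [mulVec_mulVec, hyy, one_mulVec]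
    have h7 : P0' *ᵥ (y.1 *ᵥ v) = y.1 *ᵥ v := by
      calc P0' *ᵥ (y.1 *ᵥ v) = y.1 *ᵥ (P0 *ᵥ v) := by rw [mulVec_mulVec, ← hyP, ← mulVec_mulVec]
        _ = _ := by rw [hP0v]
    rw [h6, mulVec_sub, hP0'v, hP0'P0a, sub_zero] at h7
    -- h7 : v = v - P0 a
    rw [sub_mulVec, one_mulVec, h6, ← h7, sub_self]
  have hfix' : y.1 * (P0 * P0') = P0 * P0' := by
    rw [sub_mul, one_mul, sub_eq_zero] at hfix; exact hfix
  -- commuting
  have hσm : σ m ≠ j ∧ σ m ≠ σ j := by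
    refine ⟨fun h => ?_, fun h => hmj (σ.injective h)⟩
    apply hmj'
    rw [← hσσ m, h]
  obtain ⟨D, hD⟩ := hσ m
  have hcm : ∀ a, y.1 * S.E m a = S.E m a * y.1 := by
    intro a
    have h1 : (S.E (σ m) (D.1 * a * (D⁻¹).1) - S.E m a) * (P0 * P0') = 0 := by
      have h3 : S.E m a * (P0 * P0') = (P0 * P0') * S.E m a := by
        rw [← mul_assoc, hP0, S.comm m j hmj, mul_assoc, hP0', S.comm m (σ j) hmj', ← mul_assoc]
      have h4 : S.E (σ m) (D.1 * a * (D⁻¹).1) * (P0 * P0') = S.E m a * (P0 * P0') := by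
        calc S.E (σ m) (D.1 * a * (D⁻¹).1) * (P0 * P0') = S.E (σ m) (D.1 * a * (D⁻¹).1) * (y.1 * (P0 * P0')) := by rw [hfix']
          _ = y.1 * (S.E m a * (P0 * P0')) := by rw [← mul_assoc, ← hD, mul_assoc]
          _ = (y.1 * (P0 * P0')) * S.E m a := by rw [h3]; exact (mul_assoc _ _ _).symm
          _ = _ := by rw [hfix', h3]
      rw [sub_mul, h4, sub_self]
    set Z := S.E (σ m) (D.1 * a * (D⁻¹).1) - S.E m a with hZ
    have hZj : Cmt (S.E j) Z := (cmt_E (Ne.symm hσm.1) _).sub (cmt_E (Ne.symm hmj) _)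
    have hZj' : Cmt (S.E (σ j)) Z := (cmt_E (Ne.symm hσm.2) _).sub (cmt_E (Ne.symm hmj') _)
    have hs0 : single i0 i0 (1 : F) ≠ 0 := by
      intro h; have := congrFun (congrFun h i0) i0
      rw [single_apply_same, Matrix.zero_apply] at this; exact one_ne_zero this
    have h5 : P0 * (P0' * Z) = 0 := by
      rw [← mul_assoc, hP0, hP0', mul_assoc, hZj', ← mul_assoc, hZj, mul_assoc]
      exact h1
    have h6 := eq_zero_of_E_mul (S.E j) ((cmt_E (Ne.symm hj) _).mul hZj) hs0 h5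
    have hs1 : B.1 * single i0 i0 1 * (B⁻¹).1 ≠ 0 := by
      intro h
      exact hs0 (conj_eq_zero B h)
    have h7 := eq_zero_of_E_mul (S.E (σ j)) hZj' hs1 h6
    rw [hD, sub_eq_zero.1 h7]
  refine ⟨?_, fun a => (hcm a).symm⟩
  obtain ⟨a, ha⟩ := exists_not_scalar (F := F) (k := k) (by omega)
  have h8 := hD a
  rw [hcm] at h8
  have h9 : S.E m a = S.E (σ m) (D.1 * a * (D⁻¹).1) := by
    have := congrArg (· * (y⁻¹).1) h8
    simpa only [mul_assoc, mul_inv_val, mul_one] using this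
  exact (idx_eq_of_E_eq (S := S) ha h9).symm

lemma perm_eq_swap {σ : Equiv.Perm T} {j : T} (hj : σ j ≠ j) (h : σ (σ j) = j ∧ ∀ m, m ≠ j → m ≠ σ j → σ m = m) : σ = Equiv.swap j (σ j) := by
  ext m
  by_cases h1 : m = j
  · rw [h1, Equiv.swap_apply_left]
  by_cases h2 : m = σ j
  · rw [h2, Equiv.swap_apply_right, h.1]
  · rw [Equiv.swap_apply_of_ne_of_ne h1 h2, h.2 m h1 h2]

/-- uniqueness of the permutation -/
lemma perms_unique [Nonempty ι] (hk : 2 ≤ k) {g : GL ι F} {σ τ : Equiv.Perm T} (h1 : S.Perms g σ) (h2 : S.Perms g τ) : σ = τ := by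
  ext m
  obtain ⟨D, hD⟩ := h1 m
  obtain ⟨D', hD'⟩ := h2 m
  obtain ⟨a, ha⟩ := exists_not_scalar (F := F) hk
  have h3 := hD a
  rw [hD'] at h3
  have h4 : S.E (τ m) (D'.1 * a * (D'⁻¹).1) = S.E (σ m) (D.1 * a * (D⁻¹).1) := by
    have := congrArg (· * (g⁻¹).1) h3
    simpa only [mul_assoc, mul_inv_val, mul_one] using this
  refine (idx_eq_of_E_eq (S := S) ?_ h4).symm
  rintro ⟨c, hc⟩
  apply ha
  refine ⟨c, ?_⟩
  have h5 : a = (D'⁻¹).1 * (D'.1 * a * (D'⁻¹).1) * D'.1 := by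
    calc a = ((D'⁻¹).1 * D'.1) * a * ((D'⁻¹).1 * D'.1) := by rw [inv_mul_val, one_mul, mul_one]
      _ = _ := by simp only [mul_assoc]
  rw [h5, hc, mul_smul_comm, smul_mul_assoc, mul_one, inv_mul_val]

lemma perms_mul {g h : GL ι F} {σ τ : Equiv.Perm T} (h1 : S.Perms g σ) (h2 : S.Perms h τ) : S.Perms (g * h) (σ * τ) := by
  intro i
  obtain ⟨D, hD⟩ := h2 i
  obtain ⟨D', hD'⟩ := h1 (τ i)
  refine ⟨D' * D, fun a => ?_⟩
  rw [Units.val_mul, mul_assoc, hD, ← mul_assoc, hD', Equiv.Perm.mul_apply, _root_.mul_inv_rev, Units.val_mul, Units.val_mul]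
  simp only [mul_assoc]

/-- three elements of a four-group of small rank -/
theorem three_roots [Nonempty ι] (hk3 : k = 3) (h2 : (2 : F) = 0) {y₁ y₂ : GL ι F} (hy1 : (y₁.1 - 1) * (y₁.1 - 1) = 0)
    (hy2 : (y₂.1 - 1) * (y₂.1 - 1) = 0) (hy3 : ((y₁ * y₂).1 - 1) * ((y₁ * y₂).1 - 1) = 0) {σ₁ σ₂ : Equiv.Perm T} (h1 : S.Perms y₁ σ₁) (h2' : S.Perms y₂ σ₂)
    (i₀ : T) (l₀ : Fin k) (hr1 : (y₁.1 - 1).rank ≤ (S.E i₀ (single l₀ l₀ 1)).rank) (hr2 : (y₂.1 - 1).rank ≤ (S.E i₀ (single l₀ l₀ 1)).rank)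
    (hr3 : ((y₁ * y₂).1 - 1).rank ≤ (S.E i₀ (single l₀ l₀ 1)).rank) : σ₁ = 1 ∨ σ₂ = 1 ∨ σ₁ * σ₂ = 1 := by
  by_contra hcon
  push Not at hcon
  obtain ⟨c1, c2, c3⟩ := hcon
  have key : ∀ {y : GL ι F} {σ : Equiv.Perm T}, (y.1 - 1) * (y.1 - 1) = 0 → S.Perms y σ → (y.1 - 1).rank ≤ (S.E i₀ (single l₀ l₀ 1)).rank → σ ≠ 1 →
      Equiv.Perm.sign σ = -1 := by
    intro y σ hy hσ hr hne
    obtain ⟨j, hj⟩ : ∃ j, σ j ≠ j := by
      by_contra hcon
      push Not at hcon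
      exact hne (Equiv.ext hcon)
    obtain ⟨h3, h4⟩ := swap_cmt hk3 h2 hy hσ hj i₀ l₀ hr
    rw [perm_eq_swap hj ⟨h3, fun m h5 h6 => (h4 m h5 h6).1⟩]
    exact Equiv.Perm.sign_swap (Ne.symm hj)
  have s1 := key hy1 h1 hr1 c1
  have s2 := key hy2 h2' hr2 c2
  have s3 := key hy3 (perms_mul h1 h2') hr3 c3
  rw [Equiv.Perm.sign_mul, s1, s2] at s3
  exact absurd s3 (by decide)

end Sys

end Cfsg.Agent.Asch.CW
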