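import Mathlib
import Cfsg.Prelude.Def_GeometricClasses
import Cfsg.Agent.Asch.CWSwap
set_option autoImplicit false
set_option linter.unusedSectionVars false
set_option linter.unusedVariables false
set_option linter.style.haveILetI false

/-!
The centraliser of a root vector of `GL₃` is soluble of length at most three.
-/

namespace Cfsg.Agent.Asch.CW

open Matrix Module

open scoped Matrix

variable {F : Type*} [Field F] {k : ℕ}

/-- square-zero matrices of size three have rank at most one -/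
lemma sq_zero_three (hk : k = 3) {N : Matrix (Fin k) (Fin k) F} (h : N * N = 0) : ∃ u φ : Fin k → F, N = vecMulVec u φ := by
  have hle : LinearMap.range N.mulVecLin ≤ LinearMap.ker N.mulVecLin := by
    rintro _ ⟨v, rfl⟩
    rw [LinearMap.mem_ker, mulVecLin_apply, mulVecLin_apply, mulVec_mulVec, h, zero_mulVec]
  have h1 := LinearMap.finrank_range_add_finrank_ker N.mulVecLin
  rw [finrank_fintype_fun_eq_card, Fintype.card_fin] at h1
  have h2 := Submodule.finrank_mono hle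
  have h3 : finrank F (LinearMap.range N.mulVecLin) ≤ 1 := by omega
  obtain ⟨p, hp⟩ := finrank_le_one_iff.1 h3
  choose c hc using fun m : Fin k => hp ⟨N *ᵥ Pi.single m 1, ⟨Pi.single m 1, rfl⟩⟩
  refine ⟨p.1, c, ?_⟩
  ext i m
  have h4 := congrFun (congrArg Subtype.val (hc m)) i
  have h5 : (N *ᵥ Pi.single m 1) i = N i m := by simp
  rw [vecMulVec_apply, ← h5]
  simp only at h4
  rw [← h4, Submodule.coe_smul, Pi.smul_apply, smul_eq_mul, mul_comm]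

lemma ker_basis_three (hk : k = 3) {u φ : Fin k → F} (hu : u ≠ 0) (hφ : φ ≠ 0) (h : φ ⬝ᵥ u = 0) :
    ∃ w : Fin k → F, φ ⬝ᵥ w = 0 ∧ ∀ v, φ ⬝ᵥ v = 0 → ∃ α β : F, v = α • u + β • w := by
  obtain ⟨m₀, hm₀⟩ := Function.ne_iff.1 hu
  obtain ⟨w, hw0, hwφ, hwm⟩ := exists_row_zero (F := F) (by rw [Fintype.card_fin]; omega) φ (Pi.single m₀ (1 : F))
  rw [dotProduct_comm] at hwφ
  rw [dotProduct_single_one] at hwm
  refine ⟨w, hwφ, ?_⟩
  let L : (Fin k → F) →ₗ[F] F :=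
    { toFun := fun v => φ ⬝ᵥ v
      map_add' := fun x y => dotProduct_add _ _ _
      map_smul' := fun c x => dotProduct_smul _ _ _ }
  have hL : LinearMap.range L = ⊤ := by
    rw [LinearMap.range_eq_top]
    obtain ⟨m, hm⟩ := Function.ne_iff.1 hφ
    intro c
    refine ⟨Pi.single m ((φ m)⁻¹ * c), ?_⟩
    show φ ⬝ᵥ Pi.single m ((φ m)⁻¹ * c) = c
    rw [dotProduct_single, ← mul_assoc, mul_inv_cancel₀ hm, one_mul]
  have hdim : finrank F (LinearMap.ker L) = 2 := by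
    have h1 := LinearMap.finrank_range_add_finrank_ker L
    rw [hL, finrank_top, finrank_self, finrank_fintype_fun_eq_card, Fintype.card_fin] at h1
    omega
  have hli : LinearIndependent F ![u, w] := by
    rw [LinearIndependent.pair_iff]
    intro s t hst
    have h1 := congrFun hst m₀
    rw [Pi.add_apply, Pi.smul_apply, Pi.smul_apply, hwm, smul_zero, add_zero] at h1
    have hs : s = 0 := by
      rcases mul_eq_zero.1 h1 with h | h
      · exact h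
      · exact absurd h hm₀
    rw [hs, zero_smul, zero_add] at hst
    exact ⟨hs, (smul_eq_zero.1 hst).resolve_right hw0⟩
  have hspan : Submodule.span F (Set.range ![u, w]) = LinearMap.ker L := by
    apply Submodule.eq_of_le_of_finrank_eq
    · rw [Submodule.span_le]
      rintro _ ⟨i, rfl⟩
      fin_cases i
      · exact h
      · exact hwφ
    · rw [hdim, finrank_span_eq_card hli, Fintype.card_fin]
  intro v hv
  have h1 : v ∈ Submodule.span F (Set.range ![u, w]) := by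
    rw [hspan]; exact hv
  rw [Matrix.range_cons, Matrix.range_cons, Matrix.range_empty, Set.union_empty, Set.singleton_union, Submodule.mem_span_pair] at h1
  obtain ⟨α, β, h2⟩ := h1
  exact ⟨α, β, h2.symm⟩

/-- the centraliser -/
def P0 (u φ : Fin k → F) (B : GL (Fin k) F) : Prop := B.1 * vecMulVec u φ = vecMulVec u φ * B.1

def P1 (u φ : Fin k → F) (B : GL (Fin k) F) : Prop := B.1 *ᵥ u = u ∧ φ ᵥ* B.1 = φ ∧ ∀ v, φ ⬝ᵥ v = 0 → ∃ c : F, B.1 *ᵥ v = v + c • u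

def P2 (u φ : Fin k → F) (B : GL (Fin k) F) : Prop := ∃ c : F, B.1 = 1 + c • vecMulVec u φ

lemma P0.eig {u φ : Fin k → F} (hu : u ≠ 0) (hφ : φ ≠ 0) {B : GL (Fin k) F} (h : P0 u φ B) : ∃ l : F, l ≠ 0 ∧ B.1 *ᵥ u = l • u ∧ φ ᵥ* B.1 = l • φ := by
  have h1 : vecMulVec (B.1 *ᵥ u) φ = vecMulVec u (φ ᵥ* B.1) := by
    rw [← mul_vecMulVec, ← vecMulVec_mul]; exact h
  obtain ⟨m, hm⟩ := Function.ne_iff.1 hφ
  obtain ⟨p, hp⟩ := Function.ne_iff.1 hu
  set l := (φ ᵥ* B.1) m * (φ m)⁻¹ with hl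
  have e1 : B.1 *ᵥ u = l • u := by
    funext i
    have := congrFun (congrFun h1 i) m
    rw [vecMulVec_apply, vecMulVec_apply] at this
    rw [Pi.smul_apply, smul_eq_mul, hl, mul_right_comm, mul_comm ((φ ᵥ* B.1) m), ← this, mul_assoc, mul_inv_cancel₀ hm, mul_one]
  have e2 : φ ᵥ* B.1 = l • φ := by
    funext j
    have := congrFun (congrFun h1 p) j
    rw [vecMulVec_apply, vecMulVec_apply, e1, Pi.smul_apply, smul_eq_mul, mul_assoc, mul_left_comm] at this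
    exact (mul_left_cancel₀ hp this).symm
  refine ⟨l, ?_, e1, e2⟩
  intro h0
  rw [h0, zero_smul] at e1
  apply hu
  have : (B⁻¹).1 *ᵥ (B.1 *ᵥ u) = u := by rw [mulVec_mulVec, inv_mul_val, one_mulVec]
  rw [← this, e1, mulVec_zero]

lemma inv_eig {u : Fin k → F} {B : GL (Fin k) F} {l : F} (hl : l ≠ 0) (h : B.1 *ᵥ u = l • u) : (B⁻¹).1 *ᵥ u = l⁻¹ • u := by
  have h1 : (B⁻¹).1 *ᵥ (B.1 *ᵥ u) = u := by rw [mulVec_mulVec, inv_mul_val, one_mulVec]
  rw [h, mulVec_smul] at h1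
  rw [← h1, smul_smul, h1, inv_mul_cancel₀ hl, one_smul]

lemma inv_eig' {φ : Fin k → F} {B : GL (Fin k) F} {l : F} (hl : l ≠ 0) (h : φ ᵥ* B.1 = l • φ) : φ ᵥ* (B⁻¹).1 = l⁻¹ • φ := by
  have h1 : (φ ᵥ* B.1) ᵥ* (B⁻¹).1 = φ := by rw [vecMul_vecMul, mul_inv_val, vecMul_one]
  rw [h, smul_vecMul] at h1
  rw [← h1, smul_smul, h1, inv_mul_cancel₀ hl, one_smul]

lemma P0_comm (hk : k = 3) {u φ : Fin k → F} (hu : u ≠ 0) (hφ : φ ≠ 0) (huφ : φ ⬝ᵥ u = 0) {B B' : GL (Fin k) F} (h : P0 u φ B) (h' : P0 u φ B') :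
    P1 u φ (B * B' * (B⁻¹ * B'⁻¹)) := by
  obtain ⟨l, hl, e1, e2⟩ := h.eig hu hφ
  obtain ⟨l', hl', e1', e2'⟩ := h'.eig hu hφ
  have i1 := inv_eig hl e1
  have i1' := inv_eig hl' e1'
  have i2 := inv_eig' hl e2
  have i2' := inv_eig' hl' e2'
  obtain ⟨w, hw, hbas⟩ := ker_basis_three hk hu hφ huφ
  have hker : ∀ {D : GL (Fin k) F} {m : F}, φ ᵥ* D.1 = m • φ → ∀ v, φ ⬝ᵥ v = 0 → φ ⬝ᵥ (D.1 *ᵥ v) = 0 := by
    intro D m hD v hv
    rw [dotProduct_mulVec, hD, smul_dotProduct, hv, smul_zero]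
  have hval : (B * B' * (B⁻¹ * B'⁻¹)).1 = B.1 * B'.1 * ((B⁻¹).1 * (B'⁻¹).1) := by rw [Units.val_mul, Units.val_mul, Units.val_mul]
  refine ⟨?_, ?_, ?_⟩
  · rw [hval, ← mulVec_mulVec, ← mulVec_mulVec, ← mulVec_mulVec, i1']
    simp only [mulVec_smul, i1, e1, e1', smul_smul]
    have : l'⁻¹ * l⁻¹ * l' * l = 1 := by field_simp
    rw [this, one_smul]
  · rw [hval, ← vecMul_vecMul, ← vecMul_vecMul, ← vecMul_vecMul, e2]
    simp only [smul_vecMul, i2, i2', e2', smul_smul]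
    have : l * l' * l⁻¹ * l'⁻¹ = 1 := by field_simp
    rw [this, one_smul]
  · intro v hv
    -- v' = B⁻¹ B'⁻¹ v
    set v' := ((B⁻¹).1 * (B'⁻¹).1) *ᵥ v with hv'
    have hv'k : φ ⬝ᵥ v' = 0 := by
      rw [hv', ← mulVec_mulVec]
      exact hker i2 _ (hker i2' _ hv)
    have hvv' : v = (B'.1 * B.1) *ᵥ v' := by
      rw [hv', mulVec_mulVec]
      have : B'.1 * B.1 * ((B⁻¹).1 * (B'⁻¹).1) = 1 := by
        calc B'.1 * B.1 * ((B⁻¹).1 * (B'⁻¹).1) = B'.1 * (B.1 * (B⁻¹).1) * (B'⁻¹).1 := by simp only [mul_assoc]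
          _ = _ := by rw [mul_inv_val, mul_one, mul_inv_val]
      rw [this, one_mulVec]
    have h1 : (B * B' * (B⁻¹ * B'⁻¹)).1 *ᵥ v = (B.1 * B'.1) *ᵥ v' := by rw [hval, ← mulVec_mulVec]
    obtain ⟨α, β, hαβ⟩ := hbas v' hv'k
    obtain ⟨ν, μ, hB⟩ := hbas _ (hker e2 w hw)
    obtain ⟨ν', μ', hB'⟩ := hbas _ (hker e2' w hw)
    refine ⟨β * (μ' * ν + ν' * l - μ * ν' - ν * l'), ?_⟩
    rw [h1, hvv', ← mulVec_mulVec, ← mulVec_mulVec, hαβ]
    simp only [mulVec_add, mulVec_smul, hB, hB', e1, e1']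
    funext i
    simp only [Pi.add_apply, Pi.smul_apply, smul_eq_mul]
    ring

lemma P1_comm {u φ : Fin k → F} (hφ : φ ≠ 0) (huφ : φ ⬝ᵥ u = 0) {B B' : GL (Fin k) F} (h : P1 u φ B) (h' : P1 u φ B') :
    P2 u φ (B * B' * (B⁻¹ * B'⁻¹)) := by
  obtain ⟨a1, a2, a3⟩ := h
  obtain ⟨b1, b2, b3⟩ := h'
  obtain ⟨m, hm⟩ := Function.ne_iff.1 hφ
  set p : Fin k → F := Pi.single m (φ m)⁻¹ with hp
  have hφp : φ ⬝ᵥ p = 1 := by rw [hp, dotProduct_single, mul_inv_cancel₀ hm]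
  -- on the kernel
  have hk0 : ∀ v, φ ⬝ᵥ v = 0 → (B.1 * B'.1) *ᵥ v = (B'.1 * B.1) *ᵥ v := by
    intro v hv
    obtain ⟨c, hc⟩ := a3 v hv
    obtain ⟨c', hc'⟩ := b3 v hv
    rw [← mulVec_mulVec, ← mulVec_mulVec, hc, hc', mulVec_add, mulVec_add, mulVec_smul, mulVec_smul, a1, b1, hc, hc']
    abel
  -- on p
  have hp1 : ∃ c : F, (B.1 * B'.1) *ᵥ p - (B'.1 * B.1) *ᵥ p = c • u := by
    have k1 : φ ⬝ᵥ (B.1 *ᵥ p - p) = 0 := by rw [dotProduct_sub, dotProduct_mulVec, a2, sub_self]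
    have k2 : φ ⬝ᵥ (B'.1 *ᵥ p - p) = 0 := by rw [dotProduct_sub, dotProduct_mulVec, b2, sub_self]
    obtain ⟨c, hc⟩ := a3 _ k2
    obtain ⟨c', hc'⟩ := b3 _ k1
    refine ⟨c - c', ?_⟩
    rw [mulVec_sub, mulVec_mulVec] at hc hc'
    rw [sub_smul, ← sub_eq_of_eq_add' hc, ← sub_eq_of_eq_add' hc']
    abel
  obtain ⟨c, hc⟩ := hp1
  refine ⟨c, ?_⟩
  have hM : B.1 * B'.1 - B'.1 * B.1 = c • vecMulVec u φ := by
    apply Matrix.ext_of_mulVec_single
    intro i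
    set v : Fin k → F := Pi.single i 1 with hv
    have hdec : v = (φ ⬝ᵥ v) • p + (v - (φ ⬝ᵥ v) • p) := by abel
    have hz : φ ⬝ᵥ (v - (φ ⬝ᵥ v) • p) = 0 := by rw [dotProduct_sub, dotProduct_smul, hφp, smul_eq_mul, mul_one, sub_self]
    have h1 : (B.1 * B'.1 - B'.1 * B.1) *ᵥ v = (φ ⬝ᵥ v) • (c • u) := by
      conv_lhs => rw [hdec]
      rw [mulVec_add, mulVec_smul, sub_mulVec, hc, sub_mulVec, hk0 _ hz, sub_self, add_zero]
    rw [h1, smul_mulVec]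
    have h2 : vecMulVec u φ *ᵥ v = (φ ⬝ᵥ v) • u := by
      rw [vecMulVec_mulVec, op_smul_eq_smul]
    rw [h2, smul_smul, smul_smul, mul_comm]
  have hval : (B * B' * (B⁻¹ * B'⁻¹)).1 = 1 + (B.1 * B'.1 - B'.1 * B.1) * ((B⁻¹).1 * (B'⁻¹).1) := by
    have h1 : B'.1 * B.1 * ((B⁻¹).1 * (B'⁻¹).1) = 1 := by
      calc B'.1 * B.1 * ((B⁻¹).1 * (B'⁻¹).1) = B'.1 * (B.1 * (B⁻¹).1) * (B'⁻¹).1 := by simp only [mul_assoc]
        _ = _ := by rw [mul_inv_val, mul_one, mul_inv_val]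
    rw [sub_mul, h1, Units.val_mul, Units.val_mul, Units.val_mul]
    abel
  have i1 : φ ᵥ* (B⁻¹).1 = φ := by
    have := inv_eig' (B := B) (φ := φ) (one_ne_zero : (1 : F) ≠ 0) (by rw [a2, one_smul])
    rwa [inv_one, one_smul] at this
  have i2 : φ ᵥ* (B'⁻¹).1 = φ := by
    have := inv_eig' (B := B') (φ := φ) (one_ne_zero : (1 : F) ≠ 0) (by rw [b2, one_smul])
    rwa [inv_one, one_smul] at this
  rw [hval, hM, smul_mul_assoc, vecMulVec_mul, ← vecMul_vecMul, i1, i2]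

lemma P2_comm {u φ : Fin k → F} (huφ : φ ⬝ᵥ u = 0) {B B' : GL (Fin k) F} (h : P2 u φ B) (h' : P2 u φ B') :
    B * B' * (B⁻¹ * B'⁻¹) = 1 := by
  obtain ⟨c, hc⟩ := h
  obtain ⟨c', hc'⟩ := h'
  have h1 : B * B' = B' * B := by
    apply Units.ext
    rw [Units.val_mul, Units.val_mul, hc, hc']
    rw [mul_add, mul_add, mul_one, mul_one, add_mul, add_mul, one_mul, one_mul, smul_mul_smul_comm, smul_mul_smul_comm, mul_comm c c']
    abel
  rw [h1]; group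

/-- every root element is a commutator of root elements -/
lemma root_is_comm (hk : 3 ≤ k) {v χ : Fin k → F} (h : χ ⬝ᵥ v = 0) (hv : v ≠ 0) : ∃ w θ : Fin k → F, θ ⬝ᵥ v = 0 ∧ χ ⬝ᵥ w = 0 ∧ θ ⬝ᵥ w = 1 := by
  obtain ⟨m₀, hm₀⟩ := Function.ne_iff.1 hv
  obtain ⟨w, hw0, hwχ, hwm⟩ := exists_row_zero (F := F) (by rw [Fintype.card_fin]; exact hk) χ (Pi.single m₀ (1 : F))
  rw [dotProduct_comm] at hwχ
  rw [dotProduct_single_one] at hwm
  have hsp : w ∉ Submodule.span F {v} := by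
    intro h1
    obtain ⟨c, hc⟩ := Submodule.mem_span_singleton.1 h1
    have h2 := congrFun hc m₀
    rw [Pi.smul_apply, hwm, smul_eq_mul] at h2
    have hc0 : c = 0 := by
      rcases mul_eq_zero.1 h2 with h | h
      · exact h
      · exact absurd h hm₀
    exact hw0 (by rw [← hc, hc0, zero_smul])
  obtain ⟨θ, hθ1, hθ2⟩ := exists_row_sep hsp
  exact ⟨w, θ, hθ1, hwχ, hθ2⟩

end Cfsg.Agent.Asch.CW
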