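import Mathlib
import Cfsg.Prelude.Def_GeometricClasses
import Cfsg.Agent.Asch.CWNil
set_option autoImplicit false
set_option linter.unusedSectionVars false
set_option linter.unusedVariables false
set_option linter.style.haveILetI false

/-!
The fusion properties in characteristic two with `k = 3`.
-/

namespace Cfsg.Agent.Asch.CW

open Matrix Module

open scoped Matrix

namespace Sys

variable {k : ℕ} {T ι : Type} [Fintype T] [DecidableEq T] [Fintype ι] [DecidableEq ι] {F : Type*} [Field F] {S : Sys k T ι F}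
  {J : Finset T} {K' : Subgroup (GL ι F)}

/-- three conjugated root elements, one of which has trivial permutation -/
lemma exists_root_conj [Nonempty ι] (hk3 : k = 3) (h2 : (2 : F) = 0) {h : GL ι F} (hh : S.On J h.1) {m : T} (hm : m ∈ J)
    (hM : ∀ u φ : Fin k → F, φ ⬝ᵥ u = 0 → ∀ y : GL ι F, y.1 = 1 + h.1 * S.E m (vecMulVec u φ) * (h⁻¹).1 → y ∈ S.Mon J) :
    ∃ u φ : Fin k → F, u ≠ 0 ∧ φ ≠ 0 ∧ φ ⬝ᵥ u = 0 ∧ ∃ j ∈ J, ∃ u' φ' : Fin k → F, h.1 * S.E m (vecMulVec u φ) * (h⁻¹).1 = S.E j (vecMulVec u' φ') := by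
  set z : Fin k := ⟨0, by omega⟩
  set u : Fin k → F := Pi.single z 1 with hu
  have hu0 : u ≠ 0 := by
    intro h0; have := congrFun h0 z; rw [hu, Pi.single_eq_same] at this; exact one_ne_zero this
  obtain ⟨θ, hθ, hli⟩ := exists_row_basis (F := F) (by omega : 0 < k) hu0
  have hli2 : LinearIndependent F ![θ ⟨0, by omega⟩, θ ⟨1, by omega⟩] := by
    have := hli.comp ![(⟨0, by omega⟩ : Fin (k - 1)), ⟨1, by omega⟩] (by
      intro a b hab
      fin_cases a <;> fin_cases b <;> simp [Fin.ext_iff] at hab ⊢)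
    convert this using 1
    funext i; fin_cases i <;> rfl
  set θ₁ := θ ⟨0, by omega⟩ with hθ₁
  set θ₂ := θ ⟨1, by omega⟩ with hθ₂
  have h1 : θ₁ ⬝ᵥ u = 0 := hθ _
  have h2' : θ₂ ⬝ᵥ u = 0 := hθ _
  have h3 : (θ₁ + θ₂) ⬝ᵥ u = 0 := by rw [add_dotProduct, h1, h2', add_zero]
  rw [LinearIndependent.pair_iff] at hli2
  have n1 : θ₁ ≠ 0 := by
    intro h0
    have := (hli2 1 0 (by rw [h0, smul_zero, zero_smul, add_zero])).1
    exact one_ne_zero this
  have n2 : θ₂ ≠ 0 := by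
    intro h0
    have := (hli2 0 1 (by rw [h0, smul_zero, zero_smul, add_zero])).2
    exact one_ne_zero this
  have n3 : θ₁ + θ₂ ≠ 0 := by
    intro h0
    have := (hli2 1 1 (by rw [one_smul, one_smul, h0])).1
    exact one_ne_zero this
  have hyx : ∀ φ : Fin k → F, φ ⬝ᵥ u = 0 → ∃ y : GL ι F, y.1 = 1 + h.1 * S.E m (vecMulVec u φ) * (h⁻¹).1 := fun φ hφ =>
    exists_of_sq_zero (sq_conj (E_vmv_sq hφ))
  obtain ⟨y₁, hy₁⟩ := hyx θ₁ h1
  obtain ⟨y₂, hy₂⟩ := hyx θ₂ h2'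
  have hy₃ : (y₁ * y₂).1 = 1 + h.1 * S.E m (vecMulVec u (θ₁ + θ₂)) * (h⁻¹).1 := by
    have h0 : h.1 * S.E m (vecMulVec u θ₁) * (h⁻¹).1 * (h.1 * S.E m (vecMulVec u θ₂) * (h⁻¹).1) = 0 := by
      calc h.1 * S.E m (vecMulVec u θ₁) * (h⁻¹).1 * (h.1 * S.E m (vecMulVec u θ₂) * (h⁻¹).1) =
          h.1 * S.E m (vecMulVec u θ₁) * ((h⁻¹).1 * h.1) * S.E m (vecMulVec u θ₂) * (h⁻¹).1 := by simp only [mul_assoc]
        _ = h.1 * (S.E m (vecMulVec u θ₁) * S.E m (vecMulVec u θ₂)) * (h⁻¹).1 := by rw [inv_mul_val, mul_one]; simp only [mul_assoc]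
        _ = 0 := by rw [← map_mul, vmv_mul, h1, zero_smul, map_zero, mul_zero, zero_mul]
    have h4 : h.1 * S.E m (vecMulVec u (θ₁ + θ₂)) * (h⁻¹).1 = h.1 * S.E m (vecMulVec u θ₁) * (h⁻¹).1 + h.1 * S.E m (vecMulVec u θ₂) * (h⁻¹).1 := by
      rw [vecMulVec_add, map_add, mul_add, add_mul]
    rw [Units.val_mul, hy₁, hy₂, h4, mul_add, mul_one, add_mul, one_mul, h0, add_zero, add_assoc]
  have hprop : ∀ {φ : Fin k → F} {y : GL ι F}, φ ⬝ᵥ u = 0 → y.1 = 1 + h.1 * S.E m (vecMulVec u φ) * (h⁻¹).1 →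
      (y.1 - 1) * (y.1 - 1) = 0 ∧ (y.1 - 1).rank ≤ (S.E m (single z z 1)).rank ∧ ∃ σ, S.Perms y σ := by
    intro φ y hφ hy
    have hy1 : y.1 - 1 = h.1 * S.E m (vecMulVec u φ) * (h⁻¹).1 := by rw [hy]; abel
    refine ⟨by rw [hy1]; exact sq_conj (E_vmv_sq hφ), by rw [hy1, rank_conj]; exact rank_vmv_le m z u φ, ?_⟩
    have hyJ : S.On J y.1 := by rw [hy]; exact On.one.add ((hh.mul (on_E hm _)).mul (On.inv hh))
    obtain ⟨σ, hσ, -, -⟩ := perms_of_mon (hM u φ hφ y hy) hyJ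
    exact ⟨σ, hσ⟩
  obtain ⟨s1, r1, σ₁, p1⟩ := hprop h1 hy₁
  obtain ⟨s2, r2, σ₂, p2⟩ := hprop h2' hy₂
  obtain ⟨s3, r3, σ₃, p3⟩ := hprop h3 hy₃
  rcases three_roots hk3 h2 s1 s2 s3 p1 p2 m z r1 r2 r3 with h | h | h
  · exact ⟨u, θ₁, hu0, n1, h1, fus_sigma_one (by omega) hh hm hu0 n1 h1 hy₁ p1 (fun j => by rw [h]; rfl)⟩
  · exact ⟨u, θ₂, hu0, n2, h2', fus_sigma_one (by omega) hh hm hu0 n2 h2' hy₂ p2 (fun j => by rw [h]; rfl)⟩
  · exact ⟨u, θ₁ + θ₂, hu0, n3, h3, fus_sigma_one (by omega) hh hm hu0 n3 h3 hy₃ (perms_mul p1 p2) (fun j => by rw [h]; rfl)⟩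

theorem fus2_two [Nonempty ι] (hk3 : k = 3) (h2 : (2 : F) = 0) : S.Fus2 J := by
  intro h hh hJ hM
  obtain ⟨i, hi⟩ := hJ
  obtain ⟨u, φ, hu, hφ, -, j, hj, u', φ', hr⟩ := exists_root_conj hk3 h2 hh hi (by
    intro u φ huφ y hy
    obtain ⟨y', hy', hM'⟩ := hM i hi u φ huφ
    have : y = y' := Units.ext (hy.trans hy'.symm)
    rw [this]; exact hM')
  exact ⟨i, hi, u, φ, hu, hφ, j, hj, u', φ', hr⟩

/-- an element of a factor has trivial permutation -/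
lemma sigma_one_of_E [Nonempty ι] (hk : 2 ≤ k) {y : GL ι F} {σ : Equiv.Perm T} (hσ : S.Perms y σ) {l : T} {A : Matrix (Fin k) (Fin k) F} (hy : y.1 = S.E l A)
    (j : T) : σ j = j := by
  obtain ⟨D, hD⟩ := hσ j
  obtain ⟨a, ha⟩ := exists_not_scalar (F := F) hk
  by_cases hj : j = l
  · subst hj
    -- y E_j(a) y⁻¹ lies in E_j
    by_contra hne
    have h1 := hD a
    have h2 : Cmt (S.E (σ j)) (y.1 * S.E j a) := by rw [hy, ← map_mul]; exact cmt_E hne _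
    have h3 : Cmt (S.E (σ j)) y.1 := by rw [hy]; exact cmt_E hne _
    have h4 : Cmt (S.E (σ j)) (S.E (σ j) (D.1 * a * (D⁻¹).1)) := by
      have : S.E (σ j) (D.1 * a * (D⁻¹).1) = (y.1 * S.E j a) * (y⁻¹).1 := by
        rw [h1, mul_assoc (S.E (σ j) _) y.1, mul_inv_val, mul_one]
      rw [this]; exact h2.mul (cmt_mul_inv h3)
    refine not_cmt_of_ne (S := S) (i := σ j) ?_ h4
    rintro ⟨c, hc⟩
    apply ha
    refine ⟨c, ?_⟩
    have h5 : a = (D⁻¹).1 * (D.1 * a * (D⁻¹).1) * D.1 := by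
      calc a = ((D⁻¹).1 * D.1) * a * ((D⁻¹).1 * D.1) := by rw [inv_mul_val, one_mul, mul_one]
        _ = _ := by simp only [mul_assoc]
    rw [h5, hc, mul_smul_comm, smul_mul_assoc, mul_one, inv_mul_val]
  · have h1 := hD a
    have h3 : y.1 * S.E j a = S.E j a * y.1 := by rw [hy]; exact S.comm l j (Ne.symm hj) _ _
    rw [h3] at h1
    have h4 : S.E j a = S.E (σ j) (D.1 * a * (D⁻¹).1) := by
      have := congrArg (· * (y⁻¹).1) h1
      simpa only [mul_assoc, mul_inv_val, mul_one] using this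
    exact (idx_eq_of_E_eq (S := S) ha h4).symm

/-- the conjugate of a root by an element permuting the factors has trivial permutation -/
lemma sigma_one_conj [Nonempty ι] (hk : 2 ≤ k) {g y : GL ι F} (hg : g ∈ S.Mon J) (hgJ : S.On J g.1) {i : T} {u φ : Fin k → F}
    (hy : y.1 = 1 + g.1 * S.E i (vecMulVec u φ) * (g⁻¹).1) {σ : Equiv.Perm T} (hσ : S.Perms y σ) (j : T) : σ j = j := by
  obtain ⟨τ, hτ, -, -⟩ := perms_of_mon hg hgJ
  obtain ⟨B, hB⟩ := hτ i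
  have h1 : y.1 = S.E (τ i) (1 + B.1 * vecMulVec u φ * (B⁻¹).1) := by
    rw [hy, conj_eq_iff.2 (hB _), map_add, map_one]
  exact sigma_one_of_E hk hσ h1 j

/-- if `y = g x g⁻¹` moves a factor then it cannot commute with a third factor -/
lemma case_third [Nonempty ι] (hk3 : k = 3) (h2 : (2 : F) = 0) (IH : ∀ i ∈ J, S.Claim (J.erase i)) (hG : S.Good J K') {g : GL ι F} (hg : g ∈ K')
    {i : T} (hi : i ∈ J) {u φ : Fin k → F} (hu : u ≠ 0) (hφ : φ ≠ 0) (huφ : φ ⬝ᵥ u = 0) {y : GL ι F}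
    (hy : y.1 = 1 + g.1 * S.E i (vecMulVec u φ) * (g⁻¹).1) {σ : Equiv.Perm T} (hσ : S.Perms y σ) {j : T} (hj : σ j ≠ j)
    {m : T} (hm : m ∈ J) (hmc : Cmt (S.E m) y.1)
    (hcent : ∀ z ∈ K', z * y = y * z → g⁻¹ * z * g ∈ S.Mon J) : False := by
  have hg' : g⁻¹ ∈ K' := K'.inv_mem hg
  obtain ⟨v, χ, hv, hχ, hvχ, l, hl, v', χ', hr⟩ := exists_root_conj hk3 h2 (hG.on _ hg') hm (by
    intro v χ hvχ w hw
    obtain ⟨z, hz, hzv⟩ := hG.root m hm v χ hvχ
    have h1 : w = g⁻¹ * z * g := by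
      apply Units.ext
      rw [hw, Units.val_mul, Units.val_mul, hzv, inv_inv, mul_add, mul_one, add_mul, inv_mul_val]
    rw [h1]
    apply hcent z hz
    apply Units.ext
    rw [Units.val_mul, Units.val_mul, hzv, add_mul, mul_add, one_mul, mul_one, hmc])
  have h3 := block_step (by omega) IH hG.on hG.root hG.coef (hG.on _ hg') (fun i hi u φ huφ => (hG.root i hi u φ huφ).conj' hg') hm hl hv hχ hr
  have h4 : g ∈ S.Mon J := by rw [← inv_inv g]; exact Subgroup.inv_mem _ h3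
  exact hj (sigma_one_conj (by omega) h4 (hG.on g hg) hy hσ j)

lemma perms_EU (i : T) (B : GL (Fin k) F) : S.Perms (EU (S.E i) B) 1 := by
  intro j
  by_cases hij : j = i
  · subst hij
    refine ⟨B, fun a => conj_eq_iff.1 ?_⟩
    rw [EU_val, EU_inv_val, ← map_mul, ← map_mul, Equiv.Perm.one_apply]
  · refine ⟨1, fun a => ?_⟩
    rw [EU_val, inv_one, Units.val_one, one_mul, mul_one, Equiv.Perm.one_apply]
    exact S.comm i j (Ne.symm hij) _ _

/-- two factors together -/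
def muH (S : Sys k T ι F) {i i' : T} (h : i ≠ i') : GL (Fin k) F × GL (Fin k) F →* GL ι F where
  toFun p := EU (S.E i) p.1 * EU (S.E i') p.2
  map_one' := by
    apply Units.ext
    rw [Units.val_mul, EU_val, EU_val, Prod.fst_one, Prod.snd_one, Units.val_one, map_one, map_one, mul_one, Units.val_one]
  map_mul' := by
    intro p q
    apply Units.ext
    simp only [Units.val_mul, EU_val, Prod.fst_mul, Prod.snd_mul, map_mul]
    calc S.E i p.1.1 * S.E i q.1.1 * (S.E i' p.2.1 * S.E i' q.2.1) = S.E i p.1.1 * (S.E i q.1.1 * S.E i' p.2.1) * S.E i' q.2.1 := by simp only [mul_assoc]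
      _ = S.E i p.1.1 * (S.E i' p.2.1 * S.E i q.1.1) * S.E i' q.2.1 := by rw [S.comm i i' h]
      _ = _ := by simp only [mul_assoc]

lemma muH_val {i i' : T} (h : i ≠ i') (b A : GL (Fin k) F) : (S.muH h (b, A)).1 = S.E i b.1 * S.E i' A.1 := rfl

/-- the case of two factors -/
lemma case_pair [Nonempty ι] (hk3 : k = 3) (h2 : (2 : F) = 0) (hG : S.Good J K') {g : GL ι F} (hg : g ∈ K')
    {i : T} (hi : i ∈ J) {u φ : Fin k → F} (hu : u ≠ 0) (hφ : φ ≠ 0) (huφ : φ ⬝ᵥ u = 0) {y : GL ι F}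
    (hy : y.1 = 1 + g.1 * S.E i (vecMulVec u φ) * (g⁻¹).1) {σ : Equiv.Perm T} (hσ : S.Perms y σ) {j : T} (hjJ : j ∈ J) (hσjJ : σ j ∈ J) (hj : σ j ≠ j)
    (hJ : ∀ m ∈ J, m = j ∨ m = σ j)
    (hcent : ∀ z ∈ K', z * y = y * z → g⁻¹ * z * g ∈ S.Mon J) : False := by
  have hg' : g⁻¹ ∈ K' := K'.inv_mem hg
  set z0 : Fin k := ⟨0, by omega⟩
  have hy1 : y.1 - 1 = g.1 * S.E i (vecMulVec u φ) * (g⁻¹).1 := by rw [hy]; abel
  have hsq : (y.1 - 1) * (y.1 - 1) = 0 := by rw [hy1]; exact sq_conj (E_vmv_sq huφ)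
  have hyy := sq_one_of h2 hsq
  have hyK : y ∈ K' := ((hG.root i hi u φ huφ).conj' hg).mem hy
  obtain ⟨B, hB⟩ := hσ j
  have hj' : j ≠ σ j := Ne.symm hj
  -- the diagonal subgroup
  set δ : GL (Fin k) F → GL ι F := fun a => S.muH hj' (a, B * a * B⁻¹) with hδ
  have hδmul : ∀ a b, δ (a * b) = δ a * δ b := by
    intro a b
    simp only [hδ]
    rw [← map_mul, Prod.mk_mul_mk]
    congr 2
    group
  have hδinv : ∀ a, δ a⁻¹ = (δ a)⁻¹ := by
    intro a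
    simp only [hδ]
    rw [← map_inv, Prod.inv_mk]
    congr 2
    group
  have hBv : ∀ a : GL (Fin k) F, (B * a * B⁻¹).1 = B.1 * a.1 * (B⁻¹).1 := fun a => by rw [Units.val_mul, Units.val_mul]
  have hδy : ∀ a, δ a * y = y * δ a := by
    intro a
    apply Units.ext
    rw [Units.val_mul, Units.val_mul]
    simp only [hδ, muH_val]
    rw [hBv]
    have h3 := hB a.1
    have h4 : y.1 * S.E (σ j) (B.1 * a.1 * (B⁻¹).1) = S.E j a.1 * y.1 := by
      calc y.1 * S.E (σ j) (B.1 * a.1 * (B⁻¹).1) = y.1 * S.E (σ j) (B.1 * a.1 * (B⁻¹).1) * (y.1 * y.1) := by rw [hyy, mul_one]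
        _ = y.1 * (S.E (σ j) (B.1 * a.1 * (B⁻¹).1) * y.1) * y.1 := by simp only [mul_assoc]
        _ = (y.1 * y.1) * S.E j a.1 * y.1 := by rw [← h3]; simp only [mul_assoc]
        _ = _ := by rw [hyy, one_mul]
    symm
    calc y.1 * (S.E j a.1 * S.E (σ j) (B.1 * a.1 * (B⁻¹).1)) = (y.1 * S.E j a.1) * S.E (σ j) (B.1 * a.1 * (B⁻¹).1) := (mul_assoc _ _ _).symm
      _ = S.E (σ j) (B.1 * a.1 * (B⁻¹).1) * (y.1 * S.E (σ j) (B.1 * a.1 * (B⁻¹).1)) := by rw [h3]; exact mul_assoc _ _ _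
      _ = S.E (σ j) (B.1 * a.1 * (B⁻¹).1) * S.E j a.1 * y.1 := by rw [h4]; exact (mul_assoc _ _ _).symm
      _ = _ := by rw [S.comm j (σ j) hj']
  have hδK : ∀ a : GL (Fin k) F, ∀ v χ : Fin k → F, χ ⬝ᵥ v = 0 → a.1 = 1 + vecMulVec v χ → δ a ∈ K' := by
    intro a v χ hv ha
    have h3 : EU (S.E j) a ∈ K' := (hG.root j hjJ v χ hv).mem (by rw [EU_val, ha, map_add, map_one])
    have h4 : EU (S.E (σ j)) (B * a * B⁻¹) = y * EU (S.E j) a * y⁻¹ := by
      apply Units.ext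
      rw [EU_val, hBv, Units.val_mul, Units.val_mul, EU_val]
      exact (conj_eq_iff.2 (hB a.1)).symm
    have h5 : δ a = EU (S.E j) a * EU (S.E (σ j)) (B * a * B⁻¹) := rfl
    rw [h5, h4]
    exact K'.mul_mem h3 (K'.mul_mem (K'.mul_mem hyK h3) (K'.inv_mem hyK))
  -- the other index
  obtain ⟨i', hi', hii', hJi⟩ : ∃ i' ∈ J, i ≠ i' ∧ ∀ m ∈ J, m = i ∨ m = i' := by
    rcases hJ i hi with h | h
    · exact ⟨σ j, hσjJ, by rw [h]; exact hj', fun m hm => by rw [h]; exact hJ m hm⟩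
    · exact ⟨j, hjJ, by rw [h]; exact hj, fun m hm => by rw [h]; exact (hJ m hm).symm⟩
  -- structure of the centraliser
  have hstr : ∀ w ∈ K', w ∈ S.Mon J → w.1 * S.E i (vecMulVec u φ) = S.E i (vecMulVec u φ) * w.1 → ∃ b A : GL (Fin k) F, P0 u φ b ∧ w = S.muH hii' (b, A) := by
    intro w hw hwM hwx
    have hwJ := hG.on w hw
    obtain ⟨τ, hτ, -, -⟩ := perms_of_mon hwM hwJ
    obtain ⟨b, hb⟩ := hτ i
    have h3 : S.E i (vecMulVec u φ) = S.E (τ i) (b.1 * vecMulVec u φ * (b⁻¹).1) := by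
      have h4 := hb (vecMulVec u φ)
      rw [hwx] at h4
      have := congrArg (· * (w⁻¹).1) h4
      simpa only [mul_assoc, mul_inv_val, mul_one] using this
    have hτi : i = τ i := idx_eq_of_E_eq (S := S) (vmv_not_scalar (by omega) hu hφ huφ) h3
    rw [← hτi] at h3 hb
    have hP : P0 u φ b := by
      have h4 := E_inj (S := S) h3
      unfold P0
      conv_rhs => rw [h4]
      rw [mul_assoc, inv_mul_val, mul_one]
    set c : GL ι F := (EU (S.E i) b)⁻¹ * w with hc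
    have hwc : w = EU (S.E i) b * c := by rw [hc, mul_inv_cancel_left]
    have hcc : Cmt (S.E i) c.1 := by
      intro a
      have h5 : c.1 = S.E i (b⁻¹).1 * w.1 := rfl
      rw [h5, mul_assoc, hb, ← mul_assoc, ← mul_assoc, ← map_mul, ← map_mul]
      congr 2
      rw [← mul_assoc, ← mul_assoc, inv_mul_val, one_mul]
    have hcon : ∀ {d : GL ι F}, S.On J d.1 → Cmt (S.E i) d.1 → S.On {i'} d.1 := by
      intro d hd hdi m hm
      rw [Finset.mem_singleton] at hm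
      by_cases hmJ : m ∈ J
      · rcases hJi m hmJ with h | h
        · rw [h]; exact hdi
        · exact absurd h hm
      · exact hd m hmJ
    have hcJ : S.On J c.1 := by
      rw [hc, Units.val_mul]; exact (On.inv (on_EU hi b)).mul hwJ
    obtain ⟨A, hA⟩ := on_singleton (hcon hcJ hcc)
    obtain ⟨A', hA'⟩ := on_singleton (hcon (On.inv hcJ) (cmt_mul_inv hcc))
    have hAA : A * A' = 1 := E_inj (S := S) (i := i') (by rw [map_mul, ← hA, ← hA', mul_inv_val, map_one])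
    have hAA' : A' * A = 1 := E_inj (S := S) (i := i') (by rw [map_mul, ← hA, ← hA', inv_mul_val, map_one])
    refine ⟨b, ⟨A, A', hAA, hAA'⟩, hP, ?_⟩
    apply Units.ext
    rw [hwc, Units.val_mul, muH_val, EU_val, hA]
  -- the claim for root elements
  set C : (GL (Fin k) F → Prop) → Prop := fun P => ∀ a : GL (Fin k) F, ∀ v χ : Fin k → F, v ≠ 0 → χ ⬝ᵥ v = 0 → a.1 = 1 + vecMulVec v χ →
    ∃ b A : GL (Fin k) F, P b ∧ g⁻¹ * δ a * g = S.muH hii' (b, A) with hC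
  have hC0 : C (P0 u φ) := by
    intro a v χ hv0 hv ha
    have hK := hδK a v χ hv ha
    have hwM := hcent _ hK (hδy a)
    refine hstr _ (K'.mul_mem (K'.mul_mem hg' hK) hg) hwM ?_
    -- commutes with x
    obtain ⟨x, hx, hxv⟩ := hG.root i hi u φ huφ
    have hyx : y = g * x * g⁻¹ := by
      apply Units.ext
      rw [hy, Units.val_mul, Units.val_mul, hxv, mul_add, mul_one, add_mul, mul_inv_val]
    have h3 : (g⁻¹ * δ a * g) * x = x * (g⁻¹ * δ a * g) := by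
      have h4 := hδy a
      rw [hyx] at h4
      calc (g⁻¹ * δ a * g) * x = g⁻¹ * (δ a * (g * x * g⁻¹)) * g := by group
        _ = g⁻¹ * (g * x * g⁻¹ * δ a) * g := by rw [h4]
        _ = _ := by group
    have h4 := congrArg Units.val h3
    rw [Units.val_mul, Units.val_mul _ (g⁻¹ * δ a * g), hxv, mul_add, mul_one, add_mul, one_mul] at h4
    exact add_left_cancel h4
  have hstep : ∀ P P' : GL (Fin k) F → Prop, (∀ b b', P b → P b' → P' (b * b' * (b⁻¹ * b'⁻¹))) → C P → C P' := by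
    intro P P' hPP hCP a v χ hv0 hv ha
    obtain ⟨w, θ, hθv, hχw, hθw⟩ := root_is_comm (F := F) (by omega : 3 ≤ k) hv hv0
    obtain ⟨b1, hb1⟩ := exists_of_sq_zero (vmv_sq hθv)
    obtain ⟨b2, hb2⟩ := exists_of_sq_zero (vmv_sq hχw)
    have hw0 : w ≠ 0 := by
      rintro rfl
      rw [dotProduct_zero] at hθw
      exact zero_ne_one hθw
    have hcomm : a = b1 * b2 * (b1⁻¹ * b2⁻¹) := by
      apply Units.ext
      rw [comm_val hb1 hb2 (vmv_sq hθv) (vmv_sq hχw) (by rw [vmv_mul, hv, zero_smul]), vmv_mul, hθw, one_smul, ha]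
    obtain ⟨c1, A1, hP1, h1⟩ := hCP b1 v θ hv0 hθv hb1
    obtain ⟨c2, A2, hP2, h2⟩ := hCP b2 w χ hw0 hχw hb2
    refine ⟨c1 * c2 * (c1⁻¹ * c2⁻¹), A1 * A2 * (A1⁻¹ * A2⁻¹), hPP _ _ hP1 hP2, ?_⟩
    have h5 : S.muH hii' (c1 * c2 * (c1⁻¹ * c2⁻¹), A1 * A2 * (A1⁻¹ * A2⁻¹)) =
        S.muH hii' (c1, A1) * S.muH hii' (c2, A2) * ((S.muH hii' (c1, A1))⁻¹ * (S.muH hii' (c2, A2))⁻¹) := by
      rw [← map_inv, ← map_inv, ← map_mul, ← map_mul, ← map_mul]
      rfl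
    rw [h5, ← h1, ← h2, hcomm, hδmul, hδmul, hδmul, hδinv, hδinv]
    group
  have hC1 : C (P1 u φ) := hstep _ _ (fun b b' h h' => P0_comm hk3 hu hφ huφ h h') hC0
  have hC2 : C (P2 u φ) := hstep _ _ (fun b b' h h' => P1_comm hφ huφ h h') hC1
  have hC3 : C (fun b => b = 1) := hstep _ _ (fun b b' h h' => P2_comm huφ h h') hC2
  -- a root element
  obtain ⟨v, χ, hv, hχ, hvχ⟩ := single_root (F := F) (by omega : 3 ≤ k)
  obtain ⟨a, ha⟩ := exists_of_sq_zero (vmv_sq hvχ)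
  obtain ⟨b, A, hb, hψ⟩ := hC3 a v χ hv hvχ ha
  have hψv : (g⁻¹ * δ a * g).1 = S.E i' A.1 := by
    rw [hψ, muH_val, hb, Units.val_one, map_one, one_mul]
  have haa : a.1 * a.1 = 1 := by
    apply sq_one_of h2
    rw [ha, add_sub_cancel_left]; exact vmv_sq hvχ
  have hδδ : δ a * δ a = 1 := by
    rw [← hδmul]
    have : a * a = 1 := Units.ext haa
    rw [this]
    apply Units.ext
    simp only [hδ, muH_val]
    simp
  have hAA : A.1 * A.1 = 1 := by
    apply E_inj (S := S) (i := i')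
    rw [map_mul, ← hψv, ← Units.val_mul, map_one]
    have : g⁻¹ * δ a * g * (g⁻¹ * δ a * g) = g⁻¹ * (δ a * δ a) * g := by group
    rw [this, hδδ, mul_one, inv_mul_cancel, Units.val_one]
  have hA1 : (A.1 - 1) * (A.1 - 1) = 0 := by
    have : (A.1 - 1) * (A.1 - 1) = A.1 * A.1 + 1 - (2 : F) • A.1 := by rw [two_smul]; noncomm_ring
    rw [this, hAA, h2, zero_smul, sub_zero]
    have : (1 : Matrix (Fin k) (Fin k) F) + 1 = (2 : F) • 1 := by rw [two_smul]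
    rw [this, h2, zero_smul]
  obtain ⟨u', φ', hN⟩ := sq_zero_three hk3 hA1
  have hδ1 : (δ a).1 - 1 = g.1 * S.E i' (vecMulVec u' φ') * (g⁻¹).1 := by
    have h3 : δ a = g * (g⁻¹ * δ a * g) * g⁻¹ := by group
    rw [h3, Units.val_mul, Units.val_mul, hψv, ← hN, map_sub, map_one, mul_sub, mul_one, sub_mul, mul_inv_val]
  have hδsq : ((δ a).1 - 1) * ((δ a).1 - 1) = 0 := by
    have : ((δ a).1 - 1) * ((δ a).1 - 1) = (δ a).1 * (δ a).1 + 1 - (2 : F) • (δ a).1 := by rw [two_smul]; noncomm_ring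
    rw [this, ← Units.val_mul, hδδ, h2, zero_smul, sub_zero, Units.val_one]
    have : (1 : Matrix ι ι F) + 1 = (2 : F) • 1 := by rw [two_smul]
    rw [this, h2, zero_smul]
  have hδrk : ((δ a).1 - 1).rank ≤ (S.E i' (single z0 z0 1)).rank := by
    rw [hδ1, rank_conj]; exact rank_vmv_le i' z0 _ _
  have hδP : S.Perms (δ a) 1 := by
    have := perms_mul (perms_EU (S := S) j a) (perms_EU (S := S) (σ j) (B * a * B⁻¹))
    rwa [one_mul] at this
  obtain ⟨l, A'', hlA⟩ : ∃ (l : T) (A'' : Matrix (Fin k) (Fin k) F), (δ a).1 = S.E l A'' := by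
    by_cases h1 : δ a = 1
    · exact ⟨j, 1, by rw [h1, Units.val_one, map_one]⟩
    · exact fus_rank (by omega) hδsq h1 hδP (fun _ => rfl) i' z0 hδrk
  have hans : ¬ ∃ c : F, a.1 = c • (1 : Matrix (Fin k) (Fin k) F) := by
    rintro ⟨c, hc⟩
    apply vmv_not_scalar (by omega : 0 < k) hv hχ hvχ
    refine ⟨c - 1, ?_⟩
    rw [sub_smul, ← hc, ha, one_smul]; abel
  have hδv : (δ a).1 = S.E j a.1 * S.E (σ j) (B * a * B⁻¹).1 := rfl
  by_cases hlj : l = j
  · -- commutes with σ j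
    have h3 : Cmt (S.E (σ j)) (δ a).1 := by rw [hlA, hlj]; exact cmt_E hj _
    have h4 : Cmt (S.E (σ j)) (S.E (σ j) (B * a * B⁻¹).1) := by
      have : S.E (σ j) (B * a * B⁻¹).1 = ((EU (S.E j) a)⁻¹).1 * (δ a).1 := by
        have e : S.E j a.1 = (EU (S.E j) a).1 := rfl
        rw [hδv, e, ← mul_assoc, inv_mul_val, one_mul]
      rw [this]
      exact (cmt_mul_inv (by rw [EU_val]; exact cmt_E hj _)).mul h3
    refine not_cmt_of_ne (S := S) (i := σ j) ?_ h4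
    rintro ⟨c, hc⟩
    apply hans
    refine ⟨c, ?_⟩
    rw [hBv] at hc
    have h5 : a.1 = (B⁻¹).1 * (B.1 * a.1 * (B⁻¹).1) * B.1 := by
      calc a.1 = ((B⁻¹).1 * B.1) * a.1 * ((B⁻¹).1 * B.1) := by rw [inv_mul_val, one_mul, mul_one]
        _ = _ := by simp only [mul_assoc]
    rw [h5, hc, mul_smul_comm, smul_mul_assoc, mul_one, inv_mul_val]
  · have h3 : Cmt (S.E j) (δ a).1 := by rw [hlA]; exact cmt_E (Ne.symm hlj) _
    have h4 : Cmt (S.E j) (S.E j a.1) := by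
      have : S.E j a.1 = (δ a).1 * ((EU (S.E (σ j)) (B * a * B⁻¹))⁻¹).1 := by
        have e : S.E (σ j) (B * a * B⁻¹).1 = (EU (S.E (σ j)) (B * a * B⁻¹)).1 := rfl
        rw [hδv, e, mul_assoc, mul_inv_val, mul_one]
      rw [this]
      exact h3.mul (cmt_mul_inv (by rw [EU_val]; exact cmt_E hj' _))
    exact not_cmt_of_ne (S := S) (i := j) hans h4

/-- **fusion in characteristic two with `k = 3`** -/
theorem fus1_two [Nonempty ι] (hk3 : k = 3) (h2 : (2 : F) = 0) (IH : ∀ i ∈ J, S.Claim (J.erase i)) (hG : S.Good J K') : S.Fus1 J K' := by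
  intro g hg i hi u φ hu hφ huφ y hy hyM
  set z : Fin k := ⟨0, by omega⟩
  have hgJ := hG.on g hg
  have hg' : g⁻¹ ∈ K' := K'.inv_mem hg
  have hy1 : y.1 - 1 = g.1 * S.E i (vecMulVec u φ) * (g⁻¹).1 := by rw [hy]; abel
  have hsq : (y.1 - 1) * (y.1 - 1) = 0 := by rw [hy1]; exact sq_conj (E_vmv_sq huφ)
  have hrk : (y.1 - 1).rank ≤ (S.E i (single z z 1)).rank := by
    rw [hy1, rank_conj]; exact rank_vmv_le i z u φ
  have hyJ : S.On J y.1 := by rw [hy]; exact On.one.add ((hgJ.mul (on_E hi _)).mul (On.inv hgJ))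
  obtain ⟨σ, hσ, hσ1, hσ2⟩ := perms_of_mon hyM hyJ
  by_cases hone : ∀ j, σ j = j
  · exact fus_sigma_one (by omega) hgJ hi hu hφ huφ hy hσ hone
  exfalso
  push Not at hone
  obtain ⟨j, hj⟩ := hone
  have hjJ : j ∈ J := by
    by_contra h; exact hj (hσ1 j h)
  have hσjJ : σ j ∈ J := (hσ2 j).2 hjJ
  obtain ⟨-, hthird⟩ := swap_cmt hk3 h2 hsq hσ hj i z hrk
  have hcent : ∀ w ∈ K', w * y = y * w → g⁻¹ * w * g ∈ S.Mon J := by
    intro w hw hwy
    have hvK : g⁻¹ * w * g ∈ K' := K'.mul_mem (K'.mul_mem hg' hw) hg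
    refine block_step (by omega) IH hG.on hG.root hG.coef (hG.on _ hvK) (fun i hi u φ huφ => (hG.root i hi u φ huφ).conj' hvK) hi hi hu hφ
      (u' := u) (φ' := φ) ?_
    rw [conj_eq_iff]
    obtain ⟨x, hx, hxv⟩ := hG.root i hi u φ huφ
    have hyx : y = g * x * g⁻¹ := by
      apply Units.ext
      rw [hy, Units.val_mul, Units.val_mul, hxv, mul_add, mul_one, add_mul, mul_inv_val]
    have h3 : (g⁻¹ * w * g) * x = x * (g⁻¹ * w * g) := by
      rw [hyx] at hwy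
      calc (g⁻¹ * w * g) * x = g⁻¹ * (w * (g * x * g⁻¹)) * g := by group
        _ = g⁻¹ * (g * x * g⁻¹ * w) * g := by rw [hwy]
        _ = _ := by group
    have h4 := congrArg Units.val h3
    rw [Units.val_mul, Units.val_mul _ (g⁻¹ * w * g), hxv, mul_add, mul_one, add_mul, one_mul] at h4
    exact add_left_cancel h4
  by_cases h3 : ∃ m ∈ J, m ≠ j ∧ m ≠ σ j
  · obtain ⟨m, hm, hmj, hmj'⟩ := h3
    exact case_third hk3 h2 IH hG hg hi hu hφ huφ hy hσ hj hm (hthird m hmj hmj').2 hcent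
  · refine case_pair hk3 h2 hG hg hi hu hφ huφ hy hσ hjJ hσjJ hj (fun m hm => ?_) hcent
    by_contra h
    push Not at h
    exact h3 ⟨m, hm, h.1, h.2⟩

end Sys

end Cfsg.Agent.Asch.CW
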