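import Mathlib
import Cfsg.Prelude.Def_GeometricClasses
import Cfsg.Agent.Asch.CWFus2
import Cfsg.Agent.Asch.CWStd
set_option autoImplicit false
set_option linter.unusedSectionVars false
set_option linter.unusedVariables false
set_option linter.style.haveILetI false

/-!
The field of two elements with `k = 3`: the tensor power of the determinant.
-/

namespace Cfsg.Agent.Asch.CW

open Matrix Module

open scoped Matrix

section det3

variable {F : Type*} [Field F]

/-- the determinant as a trilinear form -/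
def E3 (p q r : Fin 3 → F) : F := p 0 * (q 1 * r 2 - q 2 * r 1) - p 1 * (q 0 * r 2 - q 2 * r 0) + p 2 * (q 0 * r 1 - q 1 * r 0)

/-- the basis vectors -/
def e3 (F : Type*) [Field F] (a : Fin 3) : Fin 3 → F := Pi.single a 1

/-- the structure constants -/
def c3 (F : Type*) [Field F] (a b c : Fin 3) : F := E3 (e3 F a) (e3 F b) (e3 F c)

lemma E3_expand (p q r : Fin 3 → F) : ∑ a, ∑ b, ∑ c, c3 F a b c * p a * q b * r c = E3 p q r := by
  simp only [Fin.sum_univ_three, c3, E3, e3, Pi.single_apply]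
  simp
  ring

lemma E3_mulVec (B : Matrix (Fin 3) (Fin 3) F) (p q r : Fin 3 → F) : E3 (B *ᵥ p) (B *ᵥ q) (B *ᵥ r) = B.det * E3 p q r := by
  rw [det_fin_three]
  simp only [E3, mulVec, dotProduct, Fin.sum_univ_three]
  ring

lemma E3_deriv (B : Matrix (Fin 3) (Fin 3) F) (p q r : Fin 3 → F) : E3 (B *ᵥ p) q r + E3 p (B *ᵥ q) r + E3 p q (B *ᵥ r) = B.trace * E3 p q r := by
  rw [trace_fin_three]
  simp only [E3, mulVec, dotProduct, Fin.sum_univ_three]
  ring

lemma col_eq (B : Matrix (Fin 3) (Fin 3) F) (x : Fin 3) : (fun a => B a x) = B *ᵥ e3 F x := by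
  funext a; simp [e3]

lemma c3_sum (B : Matrix (Fin 3) (Fin 3) F) (x y z : Fin 3) : ∑ a, ∑ b, ∑ c, c3 F a b c * B a x * B b y * B c z = B.det * c3 F x y z := by
  have := E3_expand (fun a => B a x) (fun a => B a y) (fun a => B a z)
  rw [this, col_eq, col_eq, col_eq, E3_mulVec]; rfl

lemma c3_eq_zero {a b c : Fin 3} (h : a = b ∨ a = c ∨ b = c) : c3 F a b c = 0 := by
  fin_cases a <;> fin_cases b <;> fin_cases c <;> simp_all [c3, E3, e3]

lemma c3_eq_one (h2 : (2 : F) = 0) {a b c : Fin 3} (h1 : a ≠ b) (h3 : a ≠ c) (h4 : b ≠ c) : c3 F a b c = 1 := by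
  have h5 : (-1 : F) = 1 := by
    have : (1 : F) + 1 = 0 := by rw [← h2]; norm_num
    exact (eq_neg_of_add_eq_zero_left this).symm
  fin_cases a <;> fin_cases b <;> fin_cases c <;> simp_all [c3, E3, e3]

end det3

section D

variable {F : Type*} [Field F] {t : ℕ}

/-- the structure constants of the tensor power -/
def dd (F : Type*) [Field F] {t : ℕ} (x y z : Fin t → Fin 3) : F := ∏ i, c3 F (x i) (y i) (z i)

/-- the trilinear form -/
def D3 (v₁ v₂ v₃ : (Fin t → Fin 3) → F) : F := ∑ x, ∑ y, ∑ z, dd F x y z * v₁ x * v₂ y * v₃ z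

/-- the invariance group -/
def Dinv (t : ℕ) (F : Type*) [Field F] : Subgroup (GL (Fin t → Fin 3) F) where
  carrier := {g | ∀ v₁ v₂ v₃, D3 (g.1 *ᵥ v₁) (g.1 *ᵥ v₂) (g.1 *ᵥ v₃) = D3 v₁ v₂ v₃}
  mul_mem' := by
    intro a b ha hb v₁ v₂ v₃
    rw [Units.val_mul, ← mulVec_mulVec, ← mulVec_mulVec, ← mulVec_mulVec, ha, hb]
  one_mem' := by intro v₁ v₂ v₃; rw [Units.val_one, one_mulVec, one_mulVec, one_mulVec]
  inv_mem' := by
    intro a ha v₁ v₂ v₃
    rw [← ha]
    simp only [mulVec_mulVec, mul_inv_val, one_mulVec]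

lemma D3_add_left (v v' v₂ v₃ : (Fin t → Fin 3) → F) : D3 (v + v') v₂ v₃ = D3 v v₂ v₃ + D3 v' v₂ v₃ := by
  simp only [D3, ← Finset.sum_add_distrib, Pi.add_apply]
  refine Finset.sum_congr rfl fun x _ => Finset.sum_congr rfl fun y _ => Finset.sum_congr rfl fun z _ => ?_
  ring

lemma D3_add_mid (v₁ v v' v₃ : (Fin t → Fin 3) → F) : D3 v₁ (v + v') v₃ = D3 v₁ v v₃ + D3 v₁ v' v₃ := by
  simp only [D3, ← Finset.sum_add_distrib, Pi.add_apply]
  refine Finset.sum_congr rfl fun x _ => Finset.sum_congr rfl fun y _ => Finset.sum_congr rfl fun z _ => ?_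
  ring

lemma D3_add_right (v₁ v₂ v v' : (Fin t → Fin 3) → F) : D3 v₁ v₂ (v + v') = D3 v₁ v₂ v + D3 v₁ v₂ v' := by
  simp only [D3, ← Finset.sum_add_distrib, Pi.add_apply]
  refine Finset.sum_congr rfl fun x _ => Finset.sum_congr rfl fun y _ => Finset.sum_congr rfl fun z _ => ?_
  ring

lemma D3_smul_left (c : F) (v v₂ v₃ : (Fin t → Fin 3) → F) : D3 (c • v) v₂ v₃ = c * D3 v v₂ v₃ := by
  simp only [D3, Finset.mul_sum, Pi.smul_apply, smul_eq_mul]
  refine Finset.sum_congr rfl fun x _ => Finset.sum_congr rfl fun y _ => Finset.sum_congr rfl fun z _ => ?_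
  ring

lemma D3_smul_mid (c : F) (v₁ v v₃ : (Fin t → Fin 3) → F) : D3 v₁ (c • v) v₃ = c * D3 v₁ v v₃ := by
  simp only [D3, Finset.mul_sum, Pi.smul_apply, smul_eq_mul]
  refine Finset.sum_congr rfl fun x _ => Finset.sum_congr rfl fun y _ => Finset.sum_congr rfl fun z _ => ?_
  ring

lemma D3_smul_right (c : F) (v₁ v₂ v : (Fin t → Fin 3) → F) : D3 v₁ v₂ (c • v) = c * D3 v₁ v₂ v := by
  simp only [D3, Finset.mul_sum, Pi.smul_apply, smul_eq_mul]
  refine Finset.sum_congr rfl fun x _ => Finset.sum_congr rfl fun y _ => Finset.sum_congr rfl fun z _ => ?_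
  ring

/-- trilinear maps determined on the basis -/
lemma tri_ext {f f' : ((Fin t → Fin 3) → F) → ((Fin t → Fin 3) → F) → ((Fin t → Fin 3) → F) → F}
    (a1 : ∀ v v' w u, f (v + v') w u = f v w u + f v' w u) (a2 : ∀ v w w' u, f v (w + w') u = f v w u + f v w' u) (a3 : ∀ v w u u', f v w (u + u') = f v w u + f v w u')
    (s1 : ∀ c v w u, f (c • v) w u = c * f v w u) (s2 : ∀ c v w u, f v (c • w) u = c * f v w u) (s3 : ∀ c v w u, f v w (c • u) = c * f v w u)
    (a1' : ∀ v v' w u, f' (v + v') w u = f' v w u + f' v' w u) (a2' : ∀ v w w' u, f' v (w + w') u = f' v w u + f' v w' u) (a3' : ∀ v w u u', f' v w (u + u') = f' v w u + f' v w u')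
    (s1' : ∀ c v w u, f' (c • v) w u = c * f' v w u) (s2' : ∀ c v w u, f' v (c • w) u = c * f' v w u) (s3' : ∀ c v w u, f' v w (c • u) = c * f' v w u)
    (h : ∀ x y z : Fin t → Fin 3, f (Pi.single x 1) (Pi.single y 1) (Pi.single z 1) = f' (Pi.single x 1) (Pi.single y 1) (Pi.single z 1)) (v w u : (Fin t → Fin 3) → F) :
    f v w u = f' v w u := by
  have L : ∀ (g g' : ((Fin t → Fin 3) → F) → F), (∀ v v', g (v + v') = g v + g v') → (∀ (c : F) v, g (c • v) = c * g v) →
      (∀ v v', g' (v + v') = g' v + g' v') → (∀ (c : F) v, g' (c • v) = c * g' v) → (∀ x, g (Pi.single x 1) = g' (Pi.single x 1)) → ∀ v, g v = g' v := by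
    intro g g' h1 h2 h1' h2' h3 v
    let G : ((Fin t → Fin 3) → F) →ₗ[F] F := { toFun := g, map_add' := h1, map_smul' := h2 }
    let G' : ((Fin t → Fin 3) → F) →ₗ[F] F := { toFun := g', map_add' := h1', map_smul' := h2' }
    have : G = G' := by
      apply LinearMap.pi_ext'
      intro x
      ext
      exact h3 x
    exact congrFun (congrArg DFunLike.coe this) v
  apply L (fun v => f v w u) (fun v => f' v w u) (fun v v' => a1 v v' w u) (fun c v => s1 c v w u) (fun v v' => a1' v v' w u) (fun c v => s1' c v w u)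
  intro x
  apply L (fun w => f (Pi.single x 1) w u) (fun w => f' (Pi.single x 1) w u) (fun w w' => a2 _ w w' u) (fun c w => s2 c _ w u) (fun w w' => a2' _ w w' u) (fun c w => s2' c _ w u)
  intro y
  apply L (fun u => f (Pi.single x 1) (Pi.single y 1) u) (fun u => f' (Pi.single x 1) (Pi.single y 1) u) (fun u u' => a3 _ _ u u') (fun c u => s3 c _ _ u)
    (fun u u' => a3' _ _ u u') (fun c u => s3' c _ _ u)
  intro z
  exact h x y z

lemma D3_single (x y z : Fin t → Fin 3) : D3 (Pi.single x (1 : F)) (Pi.single y 1) (Pi.single z 1) = dd F x y z := by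
  rw [D3, Finset.sum_eq_single x, Finset.sum_eq_single y, Finset.sum_eq_single z]
  · simp
  · intro w _ hw; simp [hw]
  · simp
  · intro w _ hw
    apply Finset.sum_eq_zero
    intro w' _; simp [hw]
  · simp
  · intro w _ hw
    apply Finset.sum_eq_zero
    intro w' _
    apply Finset.sum_eq_zero
    intro w'' _; simp [hw]
  · simp

lemma mem_Dinv_of {g : GL (Fin t → Fin 3) F} (h : ∀ x y z : Fin t → Fin 3, D3 (g.1 *ᵥ Pi.single x 1) (g.1 *ᵥ Pi.single y 1) (g.1 *ᵥ Pi.single z 1) = dd F x y z) :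
    g ∈ Dinv t F := by
  intro v₁ v₂ v₃
  refine tri_ext (f := fun v w u => D3 (g.1 *ᵥ v) (g.1 *ᵥ w) (g.1 *ᵥ u)) (f' := D3) ?_ ?_ ?_ ?_ ?_ ?_ D3_add_left D3_add_mid D3_add_right D3_smul_left D3_smul_mid D3_smul_right
    (fun x y z => by rw [D3_single]; exact h x y z) v₁ v₂ v₃
  · intro v v' w u; simp only [mulVec_add, D3_add_left]
  · intro v w w' u; simp only [mulVec_add, D3_add_mid]
  · intro v w u u'; simp only [mulVec_add, D3_add_right]
  · intro c v w u; simp only [mulVec_smul, D3_smul_left]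
  · intro c v w u; simp only [mulVec_smul, D3_smul_mid]
  · intro c v w u; simp only [mulVec_smul, D3_smul_right]

lemma triple_prod (f : Fin t → Fin 3 → Fin 3 → Fin 3 → F) :
    ∑ x : Fin t → Fin 3, ∑ y : Fin t → Fin 3, ∑ z : Fin t → Fin 3, ∏ i, f i (x i) (y i) (z i) = ∏ i, ∑ a, ∑ b, ∑ c, f i a b c := by
  rw [Finset.prod_univ_sum, Fintype.piFinset_univ]
  refine Finset.sum_congr rfl fun x _ => ?_
  rw [Finset.prod_univ_sum, Fintype.piFinset_univ]
  refine Finset.sum_congr rfl fun y _ => ?_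
  rw [Finset.prod_univ_sum, Fintype.piFinset_univ]

lemma mulVec_single_apply (M : Matrix (Fin t → Fin 3) (Fin t → Fin 3) F) (x y : Fin t → Fin 3) : (M *ᵥ Pi.single y 1) x = M x y := by simp

lemma pure_mem_Dinv (hdet : ∀ B : GL (Fin 3) F, B.1.det = 1) {g : GL (Fin t → Fin 3) F} (hg : Geo.IsPureTensor 3 t g) : g ∈ Dinv t F := by
  obtain ⟨B, hB⟩ := hg
  apply mem_Dinv_of
  intro x' y' z'
  rw [D3]
  simp only [mulVec_single_apply]
  have h1 : ∀ x y z : Fin t → Fin 3, dd F x y z * g.1 x x' * g.1 y y' * g.1 z z' =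
      ∏ i, c3 F (x i) (y i) (z i) * (B i).1 (x i) (x' i) * (B i).1 (y i) (y' i) * (B i).1 (z i) (z' i) := by
    intro x y z
    rw [hB, hB, hB, dd, ← Finset.prod_mul_distrib, ← Finset.prod_mul_distrib, ← Finset.prod_mul_distrib]
  simp only [h1]
  rw [triple_prod (fun i a b c => c3 F a b c * (B i).1 a (x' i) * (B i).1 b (y' i) * (B i).1 c (z' i)), dd]
  refine Finset.prod_congr rfl fun i _ => ?_
  rw [c3_sum, hdet, one_mul]

lemma perm_mem_Dinv {g : GL (Fin t → Fin 3) F} (hg : Geo.IsFactorPermutation 3 t g) : g ∈ Dinv t F := by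
  obtain ⟨σ, hσ⟩ := hg
  apply mem_Dinv_of
  intro x y z
  have h1 : ∀ x : Fin t → Fin 3, g.1 *ᵥ Pi.single x 1 = Pi.single (x ∘ σ.symm) 1 := by
    intro x
    funext w
    rw [mulVec_single_apply, hσ, Pi.single_apply]
    have : x = w ∘ σ ↔ w = x ∘ σ.symm := by
      constructor
      · rintro rfl; funext i; simp
      · rintro rfl; funext i; simp
    simp only [this]
  rw [h1, h1, h1, D3_single, dd, dd]
  rw [← Equiv.prod_comp σ.symm (fun i => c3 F (x i) (y i) (z i))]
  rfl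

theorem tws_le_Dinv (hdet : ∀ B : GL (Fin 3) F, B.1.det = 1) : Geo.tensorWreathStandard 3 t F ≤ Dinv t F := by
  rw [Geo.tensorWreathStandard, Subgroup.closure_le]
  rintro g (hg | hg)
  · exact pure_mem_Dinv hdet hg
  · exact perm_mem_Dinv hg

end D

end Cfsg.Agent.Asch.CW
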