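import Mathlib
import Cfsg.Prelude.Def_GeometricClasses
import Cfsg.Agent.Asch.CWTwo
set_option autoImplicit false
set_option linter.unusedSectionVars false
set_option linter.unusedVariables false
set_option linter.style.haveILetI false

/-!
The transfer argument for the trilinear form.
-/

namespace Cfsg.Agent.Asch.CW

open Matrix Module

open scoped Matrix

section kill

variable {F : Type*} [Field F] [Fintype F]

lemma sum_coord' {r : ℕ} (hr : 1 < (Fintype.card F - 1) * r) (m : Fin r) : ∑ c : Fin r → F, c m = 0 := by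
  have h := MvPolynomial.sum_eval_eq_zero (K := F) (σ := Fin r) (MvPolynomial.X m) (by
    rw [MvPolynomial.totalDegree_X, Fintype.card_fin]
    omega)
  simpa using h

lemma sum_one' {r : ℕ} (hr : 1 < (Fintype.card F - 1) * r) : ∑ c : Fin r → F, (1 : F) = 0 := by
  have h := MvPolynomial.sum_eval_eq_zero (K := F) (σ := Fin r) 1 (by
    rw [MvPolynomial.totalDegree_one, Fintype.card_fin]
    omega)
  simpa using h

end kill

section colgroup

variable {k : ℕ} {ι : Type} [Fintype ι] [DecidableEq ι] {F : Type*} [Field F]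
  (E : Matrix (Fin k) (Fin k) F →ₐ[F] Matrix ι ι F)

lemma col_dot_zero {ψ : Fin k → F} {r : ℕ} {ω : Fin r → Fin k → F} (hω : ∀ m, ψ ⬝ᵥ ω m = 0) (c : Fin r → F) : ψ ⬝ᵥ (∑ m, c m • ω m) = 0 := by
  rw [dotProduct_sum]
  apply Finset.sum_eq_zero
  intro m _
  rw [dotProduct_smul, hω, smul_zero]

/-- the group of root elements with a given axis -/
def ColGrp (ψ : Fin k → F) {r : ℕ} (ω : Fin r → Fin k → F) (hω : ∀ m, ψ ⬝ᵥ ω m = 0) : Subgroup (GL ι F) where
  carrier := {x | ∃ c : Fin r → F, x.1 = 1 + E (vecMulVec (∑ m, c m • ω m) ψ)}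
  mul_mem' := by
    rintro x y ⟨c, hc⟩ ⟨c', hc'⟩
    refine ⟨c + c', ?_⟩
    have h0 : E (vecMulVec (∑ m, c m • ω m) ψ) * E (vecMulVec (∑ m, c' m • ω m) ψ) = 0 := by
      rw [← map_mul, vmv_mul, col_dot_zero hω, zero_smul, map_zero]
    have h1 : vecMulVec (∑ m, (c + c') m • ω m) ψ = vecMulVec (∑ m, c m • ω m) ψ + vecMulVec (∑ m, c' m • ω m) ψ := by
      rw [← add_vecMulVec, ← Finset.sum_add_distrib]
      congr 1
      exact Finset.sum_congr rfl fun m _ => by rw [Pi.add_apply, add_smul]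
    rw [Units.val_mul, hc, hc', h1, map_add, mul_add, mul_one, add_mul, one_mul, h0, add_zero, add_assoc]
  one_mem' := ⟨0, by simp⟩
  inv_mem' := by
    rintro x ⟨c, hc⟩
    refine ⟨-c, ?_⟩
    have h1 : vecMulVec (∑ m, (-c) m • ω m) ψ = - vecMulVec (∑ m, c m • ω m) ψ := by
      rw [← neg_vecMulVec, ← Finset.sum_neg_distrib]
      congr 1
      exact Finset.sum_congr rfl fun m _ => by rw [Pi.neg_apply, neg_smul]
    rw [Mem1.inv_eq hc (E_vmv_sq (col_dot_zero hω c)), h1, map_neg, sub_eq_add_neg]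

variable {E}

lemma colGrp_le {ψ : Fin k → F} {r : ℕ} {ω : Fin r → Fin k → F} {hω : ∀ m, ψ ⬝ᵥ ω m = 0} {K : Subgroup (GL ι F)} (hR : Roots E K) :
    ColGrp E ψ ω hω ≤ K := by
  rintro x ⟨c, hc⟩
  exact (hR _ ψ (col_dot_zero hω c)).mem hc

open scoped Classical in
lemma colGrp_kill [Nonempty ι] [Fintype F] {ψ : Fin k → F} (hψ : ψ ≠ 0) {r : ℕ} (hr : 1 < (Fintype.card F - 1) * r) {ω : Fin r → Fin k → F}
    (hω : ∀ m, ψ ⬝ᵥ ω m = 0) (hli : LinearIndependent F ω) (K : Subgroup (GL ι F)) (hK : ColGrp E ψ ω hω ≤ K) (a : ι → F) :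
    ∑ᶠ x : (ColGrp E ψ ω hω).subgroupOf K, a ᵥ* (((x : K).1)⁻¹).1 = 0 := by
  have hex : ∀ c : Fin r → F, ∃ x : GL ι F, x.1 = 1 + E (vecMulVec (∑ m, c m • ω m) ψ) := fun c =>
    exists_of_sq_zero (E_vmv_sq (col_dot_zero hω c))
  choose y hy using hex
  have hyX : ∀ c, y c ∈ ColGrp E ψ ω hω := fun c => ⟨c, hy c⟩
  let e : (Fin r → F) → (ColGrp E ψ ω hω).subgroupOf K := fun c => ⟨⟨y c, hK (hyX c)⟩, Subgroup.mem_subgroupOf.2 (hyX c)⟩
  have he : Function.Bijective e := by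
    constructor
    · intro c c' h
      have h1 : y c = y c' := by
        have := congrArg (fun x : (ColGrp E ψ ω hω).subgroupOf K => (x : K).1) h
        exact this
      have h2 := hy c
      rw [h1, hy c', add_right_inj] at h2
      have h3 := E_inj' h2
      obtain ⟨i, hi⟩ := Function.ne_iff.1 hψ
      have h4 : ∑ m, c' m • ω m = ∑ m, c m • ω m := by
        funext j
        have := congrFun (congrFun h3 j) i
        rw [vecMulVec_apply, vecMulVec_apply] at this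
        exact mul_right_cancel₀ hi this
      have h5 := Fintype.linearIndependent_iff.1 hli (c' - c) (by
        simp only [Pi.sub_apply, sub_smul, Finset.sum_sub_distrib, h4, sub_self])
      funext m
      exact (sub_eq_zero.1 (h5 m)).symm
    · rintro ⟨⟨x, hxK⟩, hx⟩
      obtain ⟨c, hc⟩ := Subgroup.mem_subgroupOf.1 hx
      refine ⟨c, ?_⟩
      apply Subtype.ext
      apply Subtype.ext
      apply Units.ext
      show (y c).1 = x.1
      rw [hy]; exact hc.symm
  have h1 := finsum_eq_of_bijective (f := fun c : Fin r → F => a ᵥ* ((y c)⁻¹).1) (g := fun x : (ColGrp E ψ ω hω).subgroupOf K => a ᵥ* (((x : K).1)⁻¹).1)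
    e he (fun c => rfl)
  rw [← h1, finsum_eq_sum_of_fintype]
  have h2 : ∀ c : Fin r → F, a ᵥ* ((y c)⁻¹).1 = (1 : F) • a - ∑ m, c m • (a ᵥ* E (vecMulVec (ω m) ψ)) := by
    intro c
    have h3 : E (vecMulVec (∑ m, c m • ω m) ψ) = ∑ m, c m • E (vecMulVec (ω m) ψ) := by
      have h4 : vecMulVec (∑ m, c m • ω m) ψ = ∑ m, c m • vecMulVec (ω m) ψ := by
        ext i j
        rw [Matrix.sum_apply, vecMulVec_apply, Finset.sum_apply, Finset.sum_mul]
        refine Finset.sum_congr rfl fun m _ => ?_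
        rw [Matrix.smul_apply, vecMulVec_apply, Pi.smul_apply, smul_eq_mul, smul_eq_mul, mul_assoc]
      rw [h4, map_sum]
      exact Finset.sum_congr rfl fun m _ => map_smul _ _ _
    rw [Mem1.inv_eq (hy c) (E_vmv_sq (col_dot_zero hω c)), h3, vecMul_sub, vecMul_one, one_smul, vecMul_sum]
    congr 1
    exact Finset.sum_congr rfl fun m _ => vecMul_smul _ _ _
  simp only [h2]
  rw [Finset.sum_sub_distrib, ← Finset.sum_smul, sum_one' hr, zero_smul, zero_sub, neg_eq_zero, Finset.sum_comm]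
  apply Finset.sum_eq_zero
  intro m _
  rw [← Finset.sum_smul, sum_coord' hr, zero_smul]

end colgroup

section transfer

variable {F : Type*} [Field F] {t : ℕ}

/-- the row vector of the functional -/
def rowD (a b : (Fin t → Fin 3) → F) : (Fin t → Fin 3) → F := fun z => D3 a b (Pi.single z 1)

lemma rowD_dot (a b v : (Fin t → Fin 3) → F) : rowD a b ⬝ᵥ v = D3 a b v := by
  have h1 : v = ∑ z, v z • Pi.single z (1 : F) := by
    conv_lhs => rw [← Finset.univ_sum_single v]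
    refine Finset.sum_congr rfl fun z _ => ?_
    rw [← Pi.single_smul, smul_eq_mul, mul_one]
  let L : ((Fin t → Fin 3) → F) →ₗ[F] F := { toFun := fun v => D3 a b v, map_add' := D3_add_right a b, map_smul' := fun c v => D3_smul_right c a b v }
  have h2 : D3 a b v = L v := rfl
  rw [h2]
  conv_rhs => rw [h1, map_sum]
  rw [dotProduct]
  refine Finset.sum_congr rfl fun z _ => ?_
  rw [map_smul, smul_eq_mul, mul_comm]; rfl

lemma row_ext {a b : (Fin t → Fin 3) → F} (h : ∀ v, a ⬝ᵥ v = b ⬝ᵥ v) : a = b := by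
  funext z
  have := h (Pi.single z 1)
  simpa using this

lemma rowD_inv {g : GL (Fin t → Fin 3) F} (hg : g ∈ Dinv t F) (a b : (Fin t → Fin 3) → F) : rowD (g.1 *ᵥ a) (g.1 *ᵥ b) ᵥ* g.1 = rowD a b := by
  apply row_ext
  intro v
  rw [← dotProduct_mulVec, rowD_dot, rowD_dot]
  exact hg a b v

lemma mem_Dinv_of_row {g : GL (Fin t → Fin 3) F} (h : ∀ a b, rowD (g.1 *ᵥ a) (g.1 *ᵥ b) = rowD a b ᵥ* (g⁻¹).1) : g ∈ Dinv t F := by
  intro a b v
  rw [← rowD_dot, h, ← dotProduct_mulVec, mulVec_mulVec, inv_mul_val, one_mulVec, rowD_dot]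

variable {J : Finset (Fin t)} {K : Subgroup (GL (Fin t → Fin 3) F)}

/-- the function on cosets -/
noncomputable def dfun (J : Finset (Fin t)) (K : Subgroup (GL (Fin t → Fin 3) F)) (v w : (Fin t → Fin 3) → F)
    (c : K ⧸ ((std 3 t F).Mon J).subgroupOf K) : (Fin t → Fin 3) → F :=
  rowD (((c.out : GL (Fin t → Fin 3) F)⁻¹).1 *ᵥ v) (((c.out : GL (Fin t → Fin 3) F)⁻¹).1 *ᵥ w) ᵥ* ((c.out : GL (Fin t → Fin 3) F)⁻¹).1

lemma dfun_mk (hN : ∀ g ∈ K, g ∈ (std 3 t F).Mon J → g ∈ Dinv t F) (v w : (Fin t → Fin 3) → F) (g : K) :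
    dfun J K v w (g : K ⧸ ((std 3 t F).Mon J).subgroupOf K) = rowD ((g.1⁻¹).1 *ᵥ v) ((g.1⁻¹).1 *ᵥ w) ᵥ* (g.1⁻¹).1 := by
  obtain ⟨n, hn⟩ := QuotientGroup.mk_out_eq_mul (((std 3 t F).Mon J).subgroupOf K) g
  rw [dfun, hn]
  have hnD : ((n : K).1)⁻¹ ∈ Dinv t F := Subgroup.inv_mem _ (hN _ (n : K).2 (Subgroup.mem_subgroupOf.1 n.2))
  rw [Subgroup.coe_mul, _root_.mul_inv_rev, Units.val_mul, ← mulVec_mulVec, ← mulVec_mulVec, ← vecMul_vecMul, rowD_inv hnD]

lemma dfun_smul (hN : ∀ g ∈ K, g ∈ (std 3 t F).Mon J → g ∈ Dinv t F) (v w : (Fin t → Fin 3) → F) (g : K) (c : K ⧸ ((std 3 t F).Mon J).subgroupOf K) :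
    dfun J K (g.1.1 *ᵥ v) (g.1.1 *ᵥ w) (g • c) = dfun J K v w c ᵥ* (g.1⁻¹).1 := by
  obtain ⟨x, rfl⟩ := QuotientGroup.mk_surjective c
  have h1 : g • (x : K ⧸ ((std 3 t F).Mon J).subgroupOf K) = ((g * x : K) : K ⧸ ((std 3 t F).Mon J).subgroupOf K) := rfl
  rw [h1, dfun_mk hN, dfun_mk hN, Subgroup.coe_mul, _root_.mul_inv_rev, Units.val_mul, ← vecMul_vecMul]
  simp only [mulVec_mulVec, mul_assoc, inv_mul_val, mul_one]

variable [Finite F]

noncomputable def FD (J : Finset (Fin t)) (K : Subgroup (GL (Fin t → Fin 3) F)) (v w : (Fin t → Fin 3) → F) : (Fin t → Fin 3) → F :=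
  ∑ᶠ c : K ⧸ ((std 3 t F).Mon J).subgroupOf K, dfun J K v w c

lemma FD_conj (hN : ∀ g ∈ K, g ∈ (std 3 t F).Mon J → g ∈ Dinv t F) (v w : (Fin t → Fin 3) → F) {g : GL (Fin t → Fin 3) F} (hg : g ∈ K) :
    FD J K (g.1 *ᵥ v) (g.1 *ᵥ w) = FD J K v w ᵥ* (g⁻¹).1 := by
  haveI : Finite (K ⧸ ((std 3 t F).Mon J).subgroupOf K) := inferInstance
  let L : ((Fin t → Fin 3) → F) →+ ((Fin t → Fin 3) → F) := { toFun := fun a => a ᵥ* (g⁻¹).1, map_zero' := zero_vecMul _, map_add' := fun a b => add_vecMul _ _ _ }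
  have h1 : FD J K v w ᵥ* (g⁻¹).1 = ∑ᶠ c : K ⧸ ((std 3 t F).Mon J).subgroupOf K, dfun J K v w c ᵥ* (g⁻¹).1 := L.map_finsum (Set.toFinite _)
  rw [h1]
  symm
  apply finsum_eq_of_bijective (fun c : K ⧸ ((std 3 t F).Mon J).subgroupOf K => (⟨g, hg⟩ : K) • c) (MulAction.bijective _)
  intro c
  exact (dfun_smul hN v w ⟨g, hg⟩ c).symm

open scoped Classical in
theorem FD_fix (hN : ∀ g ∈ K, g ∈ (std 3 t F).Mon J → g ∈ Dinv t F)
    {X : Subgroup (GL (Fin t → Fin 3) F)} (hXK : X ≤ K) (hXM : X ≤ (std 3 t F).Mon J)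
    (hfree : ∀ x ∈ X, x ≠ 1 → ∀ g ∈ K, g⁻¹ * x * g ∈ (std 3 t F).Mon J → g ∈ (std 3 t F).Mon J)
    (hkill : ∀ a : (Fin t → Fin 3) → F, ∑ᶠ x : X.subgroupOf K, a ᵥ* (((x : K).1)⁻¹).1 = 0)
    {v w : (Fin t → Fin 3) → F} (hv : ∀ x ∈ X, x.1 *ᵥ v = v) (hw : ∀ x ∈ X, x.1 *ᵥ w = w) : FD J K v w = rowD v w := by
  haveI : Finite K := inferInstance
  have h := sum_quotient_eq (G := K) (N := ((std 3 t F).Mon J).subgroupOf K) (X := X.subgroupOf K) (h := dfun J K v w)
    (act := fun x a => a ᵥ* (x.1⁻¹).1) (by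
      intro x hx c
      have h1 := dfun_smul hN v w x c
      rw [hv _ (Subgroup.mem_subgroupOf.1 hx), hw _ (Subgroup.mem_subgroupOf.1 hx)] at h1
      exact h1)
    (by
      intro x hx hx1 g hg
      exact Subgroup.mem_subgroupOf.2 (hfree x.1 (Subgroup.mem_subgroupOf.1 hx) (fun h => hx1 (Subtype.ext h)) g.1 g.2 (Subgroup.mem_subgroupOf.1 hg)))
    (fun x hx => Subgroup.mem_subgroupOf.2 (hXM (Subgroup.mem_subgroupOf.1 hx)))
    hkill
  rw [FD, h, dfun_mk hN]
  rw [Subgroup.coe_one, inv_one, Units.val_one, one_mulVec, one_mulVec, vecMul_one]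

lemma rowD_add_left (v v' w : (Fin t → Fin 3) → F) : rowD (v + v') w = rowD v w + rowD v' w := by
  funext z; exact D3_add_left _ _ _ _

lemma rowD_add_right (v w w' : (Fin t → Fin 3) → F) : rowD v (w + w') = rowD v w + rowD v w' := by
  funext z; exact D3_add_mid _ _ _ _

lemma rowD_smul_left (c : F) (v w : (Fin t → Fin 3) → F) : rowD (c • v) w = c • rowD v w := by
  funext z; exact D3_smul_left _ _ _ _

lemma rowD_smul_right (c : F) (v w : (Fin t → Fin 3) → F) : rowD v (c • w) = c • rowD v w := by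
  funext z; exact D3_smul_mid _ _ _ _

lemma FD_add_left (v v' w : (Fin t → Fin 3) → F) : FD J K (v + v') w = FD J K v w + FD J K v' w := by
  haveI : Finite (K ⧸ ((std 3 t F).Mon J).subgroupOf K) := inferInstance
  rw [FD, FD, FD, ← finsum_add_distrib (Set.toFinite _) (Set.toFinite _)]
  exact finsum_congr fun c => by rw [dfun, dfun, dfun, mulVec_add, rowD_add_left, add_vecMul]

lemma FD_add_right (v w w' : (Fin t → Fin 3) → F) : FD J K v (w + w') = FD J K v w + FD J K v w' := by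
  haveI : Finite (K ⧸ ((std 3 t F).Mon J).subgroupOf K) := inferInstance
  rw [FD, FD, FD, ← finsum_add_distrib (Set.toFinite _) (Set.toFinite _)]
  exact finsum_congr fun c => by rw [dfun, dfun, dfun, mulVec_add, rowD_add_right, add_vecMul]

lemma FD_smul_left (c : F) (v w : (Fin t → Fin 3) → F) : FD J K (c • v) w = c • FD J K v w := by
  haveI : Finite (K ⧸ ((std 3 t F).Mon J).subgroupOf K) := inferInstance
  rw [FD, FD, smul_finsum' c (Set.toFinite _)]
  exact finsum_congr fun d => by rw [dfun, dfun, mulVec_smul, rowD_smul_left, smul_vecMul]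

lemma FD_smul_right (c : F) (v w : (Fin t → Fin 3) → F) : FD J K v (c • w) = c • FD J K v w := by
  haveI : Finite (K ⧸ ((std 3 t F).Mon J).subgroupOf K) := inferInstance
  rw [FD, FD, smul_finsum' c (Set.toFinite _)]
  exact finsum_congr fun d => by rw [dfun, dfun, mulVec_smul, rowD_smul_right, smul_vecMul]

lemma FD_eq_of_basis (h : ∀ x y : Fin t → Fin 3, FD J K (Pi.single x 1) (Pi.single y 1) = rowD (Pi.single x 1) (Pi.single y 1)) (v w : (Fin t → Fin 3) → F) :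
    FD J K v w = rowD v w := by
  apply row_ext
  intro u
  refine tri_ext (f := fun v w u => FD J K v w ⬝ᵥ u) (f' := fun v w u => rowD v w ⬝ᵥ u) ?_ ?_ ?_ ?_ ?_ ?_ ?_ ?_ ?_ ?_ ?_ ?_ ?_ v w u
  · intro v v' w u; simp only [FD_add_left, add_dotProduct]
  · intro v w w' u; simp only [FD_add_right, add_dotProduct]
  · intro v w u u'; simp only [dotProduct_add]
  · intro c v w u; simp only [FD_smul_left, smul_dotProduct, smul_eq_mul]
  · intro c v w u; simp only [FD_smul_right, smul_dotProduct, smul_eq_mul]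
  · intro c v w u; simp only [dotProduct_smul, smul_eq_mul]
  · intro v v' w u; simp only [rowD_add_left, add_dotProduct]
  · intro v w w' u; simp only [rowD_add_right, add_dotProduct]
  · intro v w u u'; simp only [dotProduct_add]
  · intro c v w u; simp only [rowD_smul_left, smul_dotProduct, smul_eq_mul]
  · intro c v w u; simp only [rowD_smul_right, smul_dotProduct, smul_eq_mul]
  · intro c v w u; simp only [dotProduct_smul, smul_eq_mul]
  · intro x y z; simp only [h]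

lemma vmv_mulVec_single (i : Fin t) {ω ψ : Fin 3 → F} {x : Fin t → Fin 3} (h : ψ (x i) = 0) :
    (std 3 t F).E i (vecMulVec ω ψ) *ᵥ Pi.single x 1 = 0 := by
  funext w
  rw [mulVec_single_apply]
  show piMat (Pi.mulSingle i (vecMulVec ω ψ)) w x = 0
  rw [piMat_mulSingle_apply, vecMulVec_apply, h, mul_zero, zero_mul]

/-- **the group preserves the trilinear form** -/
theorem le_Dinv [Fintype F] (hdet : ∀ B : GL (Fin 3) F, B.1.det = 1) (hcard : 1 < (Fintype.card F - 1) * 2) (hJ : J.Nonempty)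
    (hG : (std 3 t F).Good J K)
    (hfree : ∀ i ∈ J, ∀ u φ : Fin 3 → F, u ≠ 0 → φ ≠ 0 → φ ⬝ᵥ u = 0 → ∀ x : GL (Fin t → Fin 3) F, x.1 = 1 + (std 3 t F).E i (vecMulVec u φ) →
      ∀ g ∈ K, g⁻¹ * x * g ∈ (std 3 t F).Mon J → g ∈ (std 3 t F).Mon J) : K ≤ Dinv t F := by
  obtain ⟨i, hi⟩ := hJ
  have ht : 0 < t := lt_of_le_of_lt (Nat.zero_le _) i.2
  have hN : ∀ g ∈ K, g ∈ (std 3 t F).Mon J → g ∈ Dinv t F := by
    intro g hg hgM
    obtain ⟨σ, hσ, -, -⟩ := Sys.perms_of_mon hgM (hG.on g hg)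
    exact tws_le_Dinv hdet (mem_tws_of_mon (by norm_num) ht (Sys.mem_mon_univ.2 ⟨σ, hσ⟩))
  have hbasis : ∀ x y : Fin t → Fin 3, FD J K (Pi.single x 1) (Pi.single y 1) = rowD (Pi.single x (1 : F)) (Pi.single y 1) := by
    intro x y
    obtain ⟨ψ, hψ0, hψx, hψy⟩ := exists_row_zero (F := F) (by rw [Fintype.card_fin]) (Pi.single (x i) (1 : F)) (Pi.single (y i) 1)
    rw [dotProduct_single_one] at hψx hψy
    obtain ⟨ω, hω, hli⟩ := Sys.exists_row_basis (F := F) (by norm_num : 0 < 3) hψ0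
    have hω' : ∀ m, ψ ⬝ᵥ ω m = 0 := fun m => by rw [dotProduct_comm]; exact hω m
    have hXK : ColGrp ((std 3 t F).E i) ψ ω hω' ≤ K := colGrp_le (hG.root i hi)
    have hfx : ∀ z : Fin t → Fin 3, ψ (z i) = 0 → ∀ g ∈ ColGrp ((std 3 t F).E i) ψ ω hω', g.1 *ᵥ Pi.single z 1 = Pi.single z 1 := by
      rintro z hz g ⟨c, hc⟩
      rw [hc, add_mulVec, one_mulVec, vmv_mulVec_single i hz, add_zero]
    apply FD_fix hN (X := ColGrp ((std 3 t F).E i) ψ ω hω') hXK
    · rintro g ⟨c, hc⟩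
      obtain ⟨y, hy⟩ := exists_of_sq_zero (vmv_sq (col_dot_zero hω' c))
      have : g = EU ((std 3 t F).E i) y := by
        apply Units.ext
        rw [hc, EU_val, hy, map_add, map_one]
      rw [this]
      exact Sys.EU_mem_mon i _
    · rintro g ⟨c, hc⟩ hg1 h hh hgh
      refine hfree i hi _ ψ ?_ hψ0 (col_dot_zero hω' c) g hc h hh hgh
      intro h0
      apply hg1
      apply Units.ext
      rw [hc, h0, zero_vecMulVec, map_zero, add_zero, Units.val_one]
    · intro a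
      exact colGrp_kill hψ0 hcard hω' hli K hXK a
    · exact hfx x hψx
    · exact hfx y hψy
  have hall := FD_eq_of_basis hbasis
  intro g hg
  apply mem_Dinv_of_row
  intro a b
  rw [← hall, ← hall, FD_conj hN _ _ hg]

end transfer

end Cfsg.Agent.Asch.CW
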