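import Mathlib
import Cfsg.Prelude.Def_GeometricClasses
import Cfsg.Agent.Asch.CWTwoB
set_option autoImplicit false
set_option linter.unusedSectionVars false
set_option linter.unusedVariables false
set_option linter.style.haveILetI false

/-!
The Lie algebra of the trilinear form over the field of two elements.
-/

namespace Cfsg.Agent.Asch.CW

open Matrix Module

open scoped Matrix

section der

variable {F : Type*} [Field F] {t : ℕ}

/-- the derivation identity -/
def Der (Z : Matrix (Fin t → Fin 3) (Fin t → Fin 3) F) : Prop :=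
  ∀ v₁ v₂ v₃, D3 (Z *ᵥ v₁) v₂ v₃ + D3 v₁ (Z *ᵥ v₂) v₃ + D3 v₁ v₂ (Z *ᵥ v₃) = 0

lemma Der.conj {Z : Matrix (Fin t → Fin 3) (Fin t → Fin 3) F} (hZ : Der Z) {g : GL (Fin t → Fin 3) F} (hg : g ∈ Dinv t F) :
    Der (g.1 * Z * (g⁻¹).1) := by
  intro v₁ v₂ v₃
  have h1 : ∀ v, (g.1 * Z * (g⁻¹).1) *ᵥ v = g.1 *ᵥ (Z *ᵥ ((g⁻¹).1 *ᵥ v)) := fun v => by rw [mulVec_mulVec, mulVec_mulVec, mul_assoc]
  have h2 : ∀ v, v = g.1 *ᵥ ((g⁻¹).1 *ᵥ v) := fun v => by rw [mulVec_mulVec, mul_inv_val, one_mulVec]
  have e1 : D3 ((g.1 * Z * (g⁻¹).1) *ᵥ v₁) v₂ v₃ = D3 (Z *ᵥ ((g⁻¹).1 *ᵥ v₁)) ((g⁻¹).1 *ᵥ v₂) ((g⁻¹).1 *ᵥ v₃) := by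
    rw [h1]; conv_lhs => rw [h2 v₂, h2 v₃]
    exact hg _ _ _
  have e2 : D3 v₁ ((g.1 * Z * (g⁻¹).1) *ᵥ v₂) v₃ = D3 ((g⁻¹).1 *ᵥ v₁) (Z *ᵥ ((g⁻¹).1 *ᵥ v₂)) ((g⁻¹).1 *ᵥ v₃) := by
    rw [h1]; conv_lhs => rw [h2 v₁, h2 v₃]
    exact hg _ _ _
  have e3 : D3 v₁ v₂ ((g.1 * Z * (g⁻¹).1) *ᵥ v₃) = D3 ((g⁻¹).1 *ᵥ v₁) ((g⁻¹).1 *ᵥ v₂) (Z *ᵥ ((g⁻¹).1 *ᵥ v₃)) := by
    rw [h1]; conv_lhs => rw [h2 v₁, h2 v₂]
    exact hg _ _ _
  rw [e1, e2, e3]
  exact hZ _ _ _

lemma D3_piMat (g₁ g₂ g₃ : Fin t → Matrix (Fin 3) (Fin 3) F) (x' y' z' : Fin t → Fin 3) :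
    D3 (piMat g₁ *ᵥ Pi.single x' 1) (piMat g₂ *ᵥ Pi.single y' 1) (piMat g₃ *ᵥ Pi.single z' 1) =
      ∏ i, E3 (g₁ i *ᵥ e3 F (x' i)) (g₂ i *ᵥ e3 F (y' i)) (g₃ i *ᵥ e3 F (z' i)) := by
  rw [D3]
  simp only [mulVec_single_apply]
  have h1 : ∀ x y z : Fin t → Fin 3, dd F x y z * piMat g₁ x x' * piMat g₂ y y' * piMat g₃ z z' =
      ∏ i, c3 F (x i) (y i) (z i) * (g₁ i) (x i) (x' i) * (g₂ i) (y i) (y' i) * (g₃ i) (z i) (z' i) := by
    intro x y z
    rw [piMat_apply, piMat_apply, piMat_apply, dd, ← Finset.prod_mul_distrib, ← Finset.prod_mul_distrib, ← Finset.prod_mul_distrib]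
  simp only [h1]
  rw [triple_prod (fun i a b c => c3 F a b c * (g₁ i) a (x' i) * (g₂ i) b (y' i) * (g₃ i) c (z' i))]
  refine Finset.prod_congr rfl fun i _ => ?_
  have := E3_expand (fun a => g₁ i a (x' i)) (fun a => g₂ i a (y' i)) (fun a => g₃ i a (z' i))
  rw [this, col_eq, col_eq, col_eq]

lemma der_fac (i : Fin t) {r : Matrix (Fin 3) (Fin 3) F} (hr : r.trace = 0) : Der (fac i r) := by
  intro v₁ v₂ v₃
  refine tri_ext (f := fun a b c => D3 (fac i r *ᵥ a) b c + D3 a (fac i r *ᵥ b) c + D3 a b (fac i r *ᵥ c)) (f' := fun _ _ _ => 0) ?_ ?_ ?_ ?_ ?_ ?_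
    (by intros; simp) (by intros; simp) (by intros; simp) (by intros; simp) (by intros; simp) (by intros; simp) ?_ v₁ v₂ v₃
  · intro v v' w u; simp only [mulVec_add, D3_add_left]; ring
  · intro v w w' u; simp only [mulVec_add, D3_add_mid]; ring
  · intro v w u u'; simp only [mulVec_add, D3_add_right]; ring
  · intro c v w u; simp only [mulVec_smul, D3_smul_left]; ring
  · intro c v w u; simp only [mulVec_smul, D3_smul_mid]; ring
  · intro c v w u; simp only [mulVec_smul, D3_smul_right]; ring
  · intro x y z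
    show D3 (fac i r *ᵥ Pi.single x 1) (Pi.single y 1) (Pi.single z 1) + D3 (Pi.single x 1) (fac i r *ᵥ Pi.single y 1) (Pi.single z 1) +
      D3 (Pi.single x 1) (Pi.single y 1) (fac i r *ᵥ Pi.single z 1) = 0
    have h0 : ∀ x : Fin t → Fin 3, (Pi.single x 1 : (Fin t → Fin 3) → F) = piMat (1 : Fin t → Matrix (Fin 3) (Fin 3) F) *ᵥ Pi.single x 1 := fun x => by
      rw [piMat_one, one_mulVec]
    have e1 : D3 (fac i r *ᵥ Pi.single x 1) (Pi.single y 1) (Pi.single z 1) =
        E3 (r *ᵥ e3 F (x i)) (e3 F (y i)) (e3 F (z i)) * ∏ j ∈ Finset.univ.erase i, c3 F (x j) (y j) (z j) := by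
      conv_lhs => rw [h0 y, h0 z]
      rw [fac_apply, D3_piMat, ← Finset.mul_prod_erase Finset.univ _ (Finset.mem_univ i)]
      congr 1
      · simp
      · refine Finset.prod_congr rfl fun j hj => ?_
        rw [Pi.mulSingle_eq_of_ne (Finset.ne_of_mem_erase hj)]
        simp [c3]
    have e2 : D3 (Pi.single x 1) (fac i r *ᵥ Pi.single y 1) (Pi.single z 1) =
        E3 (e3 F (x i)) (r *ᵥ e3 F (y i)) (e3 F (z i)) * ∏ j ∈ Finset.univ.erase i, c3 F (x j) (y j) (z j) := by
      conv_lhs => rw [h0 x, h0 z]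
      rw [fac_apply, D3_piMat, ← Finset.mul_prod_erase Finset.univ _ (Finset.mem_univ i)]
      congr 1
      · simp
      · refine Finset.prod_congr rfl fun j hj => ?_
        rw [Pi.mulSingle_eq_of_ne (Finset.ne_of_mem_erase hj)]
        simp [c3]
    have e3' : D3 (Pi.single x 1) (Pi.single y 1) (fac i r *ᵥ Pi.single z 1) =
        E3 (e3 F (x i)) (e3 F (y i)) (r *ᵥ e3 F (z i)) * ∏ j ∈ Finset.univ.erase i, c3 F (x j) (y j) (z j) := by
      conv_lhs => rw [h0 x, h0 y]
      rw [fac_apply, D3_piMat, ← Finset.mul_prod_erase Finset.univ _ (Finset.mem_univ i)]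
      congr 1
      · simp
      · refine Finset.prod_congr rfl fun j hj => ?_
        rw [Pi.mulSingle_eq_of_ne (Finset.ne_of_mem_erase hj)]
        simp [c3]
    rw [e1, e2, e3', ← add_mul, ← add_mul, E3_deriv, hr, zero_mul, zero_mul]

end der

section lie

variable {F : Type*} [Field F] {t : ℕ}

/-- the third element -/
def th (a b : Fin 3) : Fin 3 := -(a + b)

/-- an element different from two given ones -/
def pk (a b : Fin 3) : Fin 3 := if a = b then a + 1 else th a b

lemma th_ne_left : ∀ {a b : Fin 3}, a ≠ b → th a b ≠ a := by decide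
lemma th_ne_right : ∀ {a b : Fin 3}, a ≠ b → th a b ≠ b := by decide
lemma th_symm : ∀ a b : Fin 3, th a b = th b a := by decide
lemma th_th : ∀ a b : Fin 3, th a (th a b) = b := by decide
lemma th_unique : ∀ {a b c : Fin 3}, a ≠ b → a ≠ c → b ≠ c → a = th b c := by decide
lemma pk_ne_left : ∀ a b : Fin 3, pk a b ≠ a := by decide
lemma pk_ne_right : ∀ a b : Fin 3, pk a b ≠ b := by decide
lemma th_add : ∀ a : Fin 3, th (a + 1) (a + 2) = a := by decide
lemma add_ne : ∀ a : Fin 3, a + 1 ≠ a + 2 := by decide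

lemma dd_eq (h2 : (2 : F) = 0) (x y z : Fin t → Fin 3) : dd F x y z = if ∀ i, x i ≠ y i ∧ x i ≠ z i ∧ y i ≠ z i then 1 else 0 := by
  split_ifs with h
  · exact Finset.prod_eq_one fun i _ => c3_eq_one h2 (h i).1 (h i).2.1 (h i).2.2
  · push Not at h
    obtain ⟨i, hi⟩ := h
    apply Finset.prod_eq_zero (Finset.mem_univ i)
    apply c3_eq_zero
    by_cases h1 : x i = y i
    · exact Or.inl h1
    by_cases h3 : x i = z i
    · exact Or.inr (Or.inl h3)
    exact Or.inr (Or.inr (hi h1 h3))

lemma D3_left (v : (Fin t → Fin 3) → F) (y z : Fin t → Fin 3) : D3 v (Pi.single y 1) (Pi.single z 1) = ∑ w, v w * dd F w y z := by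
  rw [D3]
  refine Finset.sum_congr rfl fun w _ => ?_
  rw [Finset.sum_eq_single y, Finset.sum_eq_single z]
  · simp [mul_comm]
  · intro w' _ hw; simp [hw]
  · simp
  · intro w' _ hw
    apply Finset.sum_eq_zero
    intro w'' _; simp [hw]
  · simp

lemma D3_mid (v : (Fin t → Fin 3) → F) (x z : Fin t → Fin 3) : D3 (Pi.single x 1) v (Pi.single z 1) = ∑ w, v w * dd F x w z := by
  rw [D3, Finset.sum_eq_single x]
  · refine Finset.sum_congr rfl fun w _ => ?_
    rw [Finset.sum_eq_single z]
    · simp [mul_comm]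
    · intro w' _ hw; simp [hw]
    · simp
  · intro w' _ hw
    apply Finset.sum_eq_zero
    intro w'' _
    apply Finset.sum_eq_zero
    intro w3 _; simp [hw]
  · simp

lemma D3_right (v : (Fin t → Fin 3) → F) (x y : Fin t → Fin 3) : D3 (Pi.single x 1) (Pi.single y 1) v = ∑ w, v w * dd F x y w := by
  rw [D3, Finset.sum_eq_single x, Finset.sum_eq_single y]
  · refine Finset.sum_congr rfl fun w _ => ?_
    simp [mul_comm]
  · intro w' _ hw
    apply Finset.sum_eq_zero
    intro w'' _; simp [hw]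
  · simp
  · intro w' _ hw
    apply Finset.sum_eq_zero
    intro w'' _
    apply Finset.sum_eq_zero
    intro w3 _; simp [hw]
  · simp

/-- the term of the identity -/
def tm (Z : Matrix (Fin t → Fin 3) (Fin t → Fin 3) F) (x y z : Fin t → Fin 3) : F :=
  if ∀ i, y i ≠ z i then Z (fun i => th (y i) (z i)) x else 0

lemma sum_tm (h2 : (2 : F) = 0) (Z : Matrix (Fin t → Fin 3) (Fin t → Fin 3) F) (x y z : Fin t → Fin 3) : ∑ w, Z w x * dd F w y z = tm Z x y z := by
  rw [tm]
  split_ifs with h
  · rw [Finset.sum_eq_single (fun i => th (y i) (z i))]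
    · rw [dd_eq h2, if_pos, mul_one]
      intro i
      exact ⟨th_ne_left (h i), th_ne_right (h i), h i⟩
    · intro w _ hw
      rw [dd_eq h2, if_neg, mul_zero]
      intro hcon
      apply hw
      funext i
      exact th_unique (hcon i).1 (hcon i).2.1 (hcon i).2.2
    · simp
  · apply Finset.sum_eq_zero
    intro w _
    rw [dd_eq h2, if_neg, mul_zero]
    intro hcon
    exact h fun i => (hcon i).2.2

lemma dd_swap (h2 : (2 : F) = 0) (x y z : Fin t → Fin 3) : dd F x y z = dd F y x z := by
  rw [dd_eq h2, dd_eq h2]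
  congr 1
  apply propext
  exact ⟨fun h i => ⟨(h i).1.symm, (h i).2.2, (h i).2.1⟩, fun h i => ⟨(h i).1.symm, (h i).2.2, (h i).2.1⟩⟩

lemma dd_rot (h2 : (2 : F) = 0) (x y z : Fin t → Fin 3) : dd F x y z = dd F z x y := by
  rw [dd_eq h2, dd_eq h2]
  congr 1
  apply propext
  exact ⟨fun h i => ⟨(h i).2.1.symm, (h i).2.2.symm, (h i).1⟩, fun h i => ⟨(h i).2.2, (h i).1.symm, (h i).2.1.symm⟩⟩

lemma der_basis (h2 : (2 : F) = 0) {Z : Matrix (Fin t → Fin 3) (Fin t → Fin 3) F} (hZ : Der Z) (x y z : Fin t → Fin 3) :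
    tm Z x y z + tm Z y x z + tm Z z x y = 0 := by
  have h := hZ (Pi.single x 1) (Pi.single y 1) (Pi.single z 1)
  rw [D3_left, D3_mid, D3_right] at h
  simp only [mulVec_single_apply] at h
  simp only [dd_swap h2 x _ z, dd_rot h2 x y _] at h
  rw [sum_tm h2, sum_tm h2, sum_tm h2] at h
  exact h

variable {Z : Matrix (Fin t → Fin 3) (Fin t → Fin 3) F}

lemma tm_zero {x y z : Fin t → Fin 3} {i : Fin t} (h : y i = z i) : tm Z x y z = 0 := by
  rw [tm, if_neg]; intro h1; exact h1 i h

lemma tm_eq {x y z w : Fin t → Fin 3} (h : ∀ i, y i ≠ z i) (hw : ∀ i, th (y i) (z i) = w i) : tm Z x y z = Z w x := by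
  rw [tm, if_pos h]; congr 1; funext i; exact hw i

/-- entries with two different positions vanish -/
lemma far_zero (h2 : (2 : F) = 0) (hZ : Der Z) {w x : Fin t → Fin 3} {i j : Fin t} (hij : i ≠ j) (hi : w i ≠ x i) (hj : w j ≠ x j) : Z w x = 0 := by
  let y : Fin t → Fin 3 := fun l => if l = i then x i else if l = j then th (w j) (x j) else w l + 1
  let z : Fin t → Fin 3 := fun l => if l = i then th (w i) (x i) else if l = j then x j else w l + 2
  have hy : ∀ l, y l = if l = i then x i else if l = j then th (w j) (x j) else w l + 1 := fun l => rfl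
  have hz : ∀ l, z l = if l = i then th (w i) (x i) else if l = j then x j else w l + 2 := fun l => rfl
  have h := der_basis h2 hZ x y z
  have e1 : tm Z x y z = Z w x := by
    apply tm_eq
    · intro l
      rw [hy, hz]
      split_ifs with h1 h3
      · exact (th_ne_right hi).symm
      · exact th_ne_right hj
      · exact add_ne _
    · intro l
      rw [hy, hz]
      split_ifs with h1 h3
      · rw [h1, th_symm (w i), th_th]
      · rw [h3, th_symm, th_symm (w j), th_th]
      · exact th_add _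
  have e2 : tm Z y x z = 0 := tm_zero (i := j) (by rw [hz, if_neg (Ne.symm hij), if_pos rfl])
  have e3 : tm Z z x y = 0 := tm_zero (i := i) (by rw [hy, if_pos rfl])
  rw [e1, e2, e3, add_zero, add_zero] at h
  exact h

lemma near_step (h2 : (2 : F) = 0) (hZ : Der Z) {x y : Fin t → Fin 3} {j : Fin t} {b : Fin 3} (hxy : x j = y j) (hb : x j ≠ b)
    (hne : ∀ l, l ≠ j → x l ≠ y l) : Z (Function.update x j b) x + Z (Function.update y j b) y = 0 := by
  let z : Fin t → Fin 3 := fun l => if l = j then th (x j) b else th (x l) (y l)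
  have hz : ∀ l, z l = if l = j then th (x j) b else th (x l) (y l) := fun l => rfl
  have h := der_basis h2 hZ x y z
  have e1 : tm Z x y z = Z (Function.update x j b) x := by
    apply tm_eq
    · intro l
      rw [hz]
      split_ifs with h1
      · rw [h1, ← hxy]; exact (th_ne_left hb).symm
      · exact (th_ne_right (hne l h1)).symm
    · intro l
      rw [hz, Function.update_apply]
      split_ifs with h1
      · rw [h1, ← hxy, th_th]
      · rw [th_symm (x l), th_th]
  have e2 : tm Z y x z = Z (Function.update y j b) y := by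
    apply tm_eq
    · intro l
      rw [hz]
      split_ifs with h1
      · rw [h1]; exact (th_ne_left hb).symm
      · exact (th_ne_left (hne l h1)).symm
    · intro l
      rw [hz, Function.update_apply]
      split_ifs with h1
      · rw [h1, th_th]
      · rw [th_th]
  have e3 : tm Z z x y = 0 := tm_zero (i := j) hxy
  rw [e1, e2, e3, add_zero] at h
  exact h

lemma near_eq (h2 : (2 : F) = 0) (hZ : Der Z) {x x' : Fin t → Fin 3} {j : Fin t} {b : Fin 3} (hxy : x j = x' j) (hb : x j ≠ b) :
    Z (Function.update x j b) x = Z (Function.update x' j b) x' := by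
  let y : Fin t → Fin 3 := fun l => if l = j then x j else pk (x l) (x' l)
  have hy : ∀ l, y l = if l = j then x j else pk (x l) (x' l) := fun l => rfl
  have h1 := near_step h2 hZ (x := x) (y := y) (j := j) (b := b) (by rw [hy, if_pos rfl]) hb (by
    intro l hl; rw [hy, if_neg hl]; exact (pk_ne_left _ _).symm)
  have h3 := near_step h2 hZ (x := x') (y := y) (j := j) (b := b) (by rw [hy, if_pos rfl, hxy]) (by rw [← hxy]; exact hb) (by
    intro l hl; rw [hy, if_neg hl]; exact (pk_ne_right _ _).symm)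
  exact add_right_cancel (h1.trans h3.symm)

lemma diag_lat (h2 : (2 : F) = 0) (hZ : Der Z) {x y z : Fin t → Fin 3} (hxy : ∀ l, x l ≠ y l) (hz : ∀ l, th (x l) (y l) = z l) :
    Z x x + Z y y + Z z z = 0 := by
  have h := der_basis h2 hZ x y z
  have e1 : tm Z x y z = Z x x := by
    apply tm_eq
    · intro l; rw [← hz]; exact (th_ne_right (hxy l)).symm
    · intro l; rw [← hz, th_symm (x l), th_th]
  have e2 : tm Z y x z = Z y y := by
    apply tm_eq
    · intro l; rw [← hz]; exact (th_ne_left (hxy l)).symm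
    · intro l; rw [← hz, th_th]
  have e3 : tm Z z x y = Z z z := tm_eq hxy hz
  rw [e1, e2, e3] at h
  exact h

lemma diag_step (h2 : (2 : F) = 0) (hZ : Der Z) {x m : Fin t → Fin 3} {j : Fin t} {b c : Fin 3} (hbc : b ≠ c) (hne : ∀ l, l ≠ j → x l ≠ m l) :
    Z (Function.update x j b) (Function.update x j b) - Z (Function.update x j c) (Function.update x j c) =
      Z (Function.update m j b) (Function.update m j b) - Z (Function.update m j c) (Function.update m j c) := by
  let y : Fin t → Fin 3 := fun l => if l = j then th b c else th (x l) (m l)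
  have hy : ∀ l, y l = if l = j then th b c else th (x l) (m l) := fun l => rfl
  have h1 := diag_lat h2 hZ (x := Function.update x j b) (y := y) (z := Function.update m j c) (by
      intro l
      rw [hy, Function.update_apply]
      split_ifs with h
      · exact (th_ne_left hbc).symm
      · exact (th_ne_left (hne l h)).symm) (by
      intro l
      rw [hy, Function.update_apply, Function.update_apply]
      split_ifs with h
      · exact th_th _ _
      · exact th_th _ _)
  have h3 := diag_lat h2 hZ (x := Function.update x j c) (y := y) (z := Function.update m j b) (by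
      intro l
      rw [hy, Function.update_apply]
      split_ifs with h
      · exact (th_ne_right hbc).symm
      · exact (th_ne_left (hne l h)).symm) (by
      intro l
      rw [hy, Function.update_apply, Function.update_apply]
      split_ifs with h
      · rw [th_symm b, th_th]
      · exact th_th _ _)
  linear_combination h1 - h3

lemma diag_eq (h2 : (2 : F) = 0) (hZ : Der Z) (x x' : Fin t → Fin 3) (j : Fin t) (b c : Fin 3) :
    Z (Function.update x j b) (Function.update x j b) - Z (Function.update x j c) (Function.update x j c) =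
      Z (Function.update x' j b) (Function.update x' j b) - Z (Function.update x' j c) (Function.update x' j c) := by
  by_cases hbc : b = c
  · rw [hbc, sub_self, sub_self]
  rw [diag_step h2 hZ (x := x) (m := fun l => pk (x l) (x' l)) hbc (fun l _ => (pk_ne_left _ _).symm),
    diag_step h2 hZ (x := x') (m := fun l => pk (x l) (x' l)) hbc (fun l _ => (pk_ne_right _ _).symm)]

lemma diag_sum (h2 : (2 : F) = 0) (hZ : Der Z) (x : Fin t → Fin 3) (S : Finset (Fin t)) :
    Z (fun l => if l ∈ S then x l else 0) (fun l => if l ∈ S then x l else 0) =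
      Z 0 0 + ∑ j ∈ S, (Z (Function.update 0 j (x j)) (Function.update 0 j (x j)) - Z 0 0) := by
  induction S using Finset.induction_on with
  | empty => simp; rfl
  | insert j S hj ih =>
    rw [Finset.sum_insert hj]
    have h1 : (fun l => if l ∈ insert j S then x l else 0) = Function.update (fun l => if l ∈ S then x l else 0) j (x j) := by
      funext l
      rw [Function.update_apply]
      by_cases h : l = j
      · subst h; simp
      · simp [h]
    have h3 : Function.update (fun l => if l ∈ S then x l else 0) j 0 = fun l => if l ∈ S then x l else 0 := by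
      funext l
      rw [Function.update_apply]
      by_cases h : l = j
      · subst h; simp [hj]
      · simp [h]
    have h4 : Function.update (0 : Fin t → Fin 3) j 0 = 0 := by
      funext l; rw [Function.update_apply]; split_ifs <;> rfl
    have h5 := diag_eq h2 hZ (fun l => if l ∈ S then x l else 0) 0 j (x j) 0
    rw [h3, h4, ih] at h5
    rw [h1]
    linear_combination h5

theorem der_sum (h2 : (2 : F) = 0) (hZ : Der Z) (ht : 0 < t) : ∃ z : Fin t → Matrix (Fin 3) (Fin 3) F, Z = ∑ j ∈ Finset.univ, (std 3 t F).E j (z j) := by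
  classical
  let j₀ : Fin t := ⟨0, ht⟩
  let z : Fin t → Matrix (Fin 3) (Fin 3) F := fun j => of fun b a =>
    if b = a then (Z (Function.update 0 j a) (Function.update 0 j a) - Z 0 0) + (if j = j₀ then Z 0 0 else 0)
    else Z (Function.update 0 j b) (Function.update 0 j a)
  have hz : ∀ j b a, z j b a = if b = a then (Z (Function.update 0 j a) (Function.update 0 j a) - Z 0 0) + (if j = j₀ then Z 0 0 else 0)
    else Z (Function.update 0 j b) (Function.update 0 j a) := fun j b a => rfl
  refine ⟨z, ?_⟩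
  ext w x
  rw [Matrix.sum_apply]
  have hE : ∀ j, (std 3 t F).E j (z j) w x = z j (w j) (x j) * if ∀ l, l ≠ j → w l = x l then 1 else 0 := fun j => piMat_mulSingle_apply _ _ _ _
  simp only [hE]
  by_cases hwx : w = x
  · subst hwx
    have h1 := diag_sum h2 hZ w Finset.univ
    simp only [Finset.mem_univ, if_true] at h1
    rw [h1]
    simp only [hz, if_true, implies_true, mul_one]
    rw [Finset.sum_add_distrib, Finset.sum_ite_eq' Finset.univ j₀, if_pos (Finset.mem_univ _)]
    ring
  · obtain ⟨j, hj⟩ := Function.ne_iff.1 hwx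
    by_cases hl : ∀ l, l ≠ j → w l = x l
    · rw [Finset.sum_eq_single j]
      · rw [if_pos hl, mul_one, hz, if_neg hj]
        have h1 := near_eq h2 hZ (x := x) (x' := Function.update 0 j (x j)) (j := j) (b := w j) (by simp) (Ne.symm hj)
        have h3 : Function.update x j (w j) = w := by
          funext l; rw [Function.update_apply]
          split_ifs with h
          · rw [h]
          · exact (hl l h).symm
        rw [h3, Function.update_idem] at h1
        exact h1
      · intro l _ hlj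
        rw [if_neg, mul_zero]
        intro h; exact hj (h j (Ne.symm hlj))
      · simp
    · push Not at hl
      obtain ⟨l, hlj, hl⟩ := hl
      rw [far_zero h2 hZ (Ne.symm hlj) hj hl]
      symm
      apply Finset.sum_eq_zero
      intro m _
      rw [if_neg, mul_zero]
      intro h
      by_cases hm : m = j
      · exact hl (h l (by rw [hm]; exact hlj))
      · exact hj (h j (Ne.symm hm))

end lie

section final

variable {F : Type*} [Field F] [Fintype F] {t : ℕ} {J : Finset (Fin t)} {K' : Subgroup (GL (Fin t → Fin 3) F)}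

theorem mon_two (hcard : Fintype.card F = 2) (hJ : J.Nonempty) (IH : ∀ i ∈ J, (std 3 t F).Claim (J.erase i)) (hG : (std 3 t F).Good J K') :
    ∀ g ∈ K', g ∈ (std 3 t F).Mon J := by
  have h2 : (2 : F) = 0 := by
    have := FiniteField.cast_card_eq_zero F
    rw [hcard] at this
    exact_mod_cast this
  have hdet : ∀ B : GL (Fin 3) F, B.1.det = 1 := by
    intro B
    have h1 : B.1.det ≠ 0 := (Matrix.isUnit_iff_isUnit_det _).1 ⟨B, rfl⟩ |>.ne_zero
    have := FiniteField.pow_card_sub_one_eq_one _ h1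
    rwa [hcard, show 2 - 1 = 1 from rfl, pow_one] at this
  have hF1 := Sys.fus1_two rfl h2 IH hG
  have hfree := Sys.hfree_of (by norm_num) IH hG hF1
  have hD : K' ≤ Dinv t F := le_Dinv hdet (by rw [hcard]; norm_num) hJ hG hfree
  have hOn := hG.on
  have hself : ∀ g ∈ K', ∀ i ∈ J, ∀ u φ : Fin 3 → F, φ ⬝ᵥ u = 0 → Mem1 K' (g.1 * (std 3 t F).E i (vecMulVec u φ) * (g⁻¹).1) :=
    fun g hg i hi u φ huφ => (hG.root i hi u φ huφ).conj' hg
  intro g hg
  obtain ⟨i, hi⟩ := hJ
  obtain ⟨u, φ, hu, hφ, huφ⟩ := Sys.single_root (F := F) (k := 3) (by norm_num)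
  have hDer : Der (g.1 * (std 3 t F).E i (vecMulVec u φ) * (g⁻¹).1) :=
    (der_fac i (by rw [trace_vecMulVec, dotProduct_comm]; exact huφ)).conj (hD hg)
  obtain ⟨w, hw⟩ := der_sum h2 hDer (lt_of_le_of_lt (Nat.zero_le _) i.2)
  have hne0 : g.1 * (std 3 t F).E i (vecMulVec u φ) * (g⁻¹).1 ≠ 0 := by
    intro h0
    exact vmv_ne_zero hu hφ (Sys.E_inj (S := std 3 t F) (i := i) (by rw [conj_eq_zero g h0, map_zero]))
  obtain ⟨j, hj, a, ha⟩ := Sys.factor_of_sum (S := std 3 t F) (by norm_num) hw (Sys.sq_conj (E_vmv_sq huφ)) hne0 i 0 (by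
    rw [rank_conj]; exact Sys.rank_vmv_le i 0 _ _)
  obtain ⟨y, hy⟩ := exists_of_sq_zero (Sys.sq_conj (h := g) (E_vmv_sq (E := (std 3 t F).E i) huφ))
  have hyA : y.1 = (std 3 t F).E j (1 + a) := by rw [hy, map_add, map_one, ha]
  obtain ⟨j', hj', u', φ', hr⟩ := Sys.fus_finish (by norm_num) (hOn g hg) hi hu hφ huφ hy hyA
  exact Sys.block_step (by norm_num) IH hOn hG.root hG.coef (hOn _ hg) (hself _ hg) hi hj' hu hφ hr

/-- **the claim for all fields and `k ≥ 3`** -/
theorem claim_all {k t : ℕ} {F : Type*} [Field F] [Fintype F] (hk : 3 ≤ k) (J : Finset (Fin t)) : (std k t F).Claim J := by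
  haveI : Nonempty (Fin k) := ⟨⟨0, by omega⟩⟩
  have hF2 : 2 ≤ Fintype.card F := Fintype.one_lt_card
  by_cases hq : Odd (Fintype.card F) ∨ 4 ≤ k
  · apply claim_gen hk _ hq
    rcases hq with hq | hq
    · have h3 : 3 ≤ Fintype.card F := by
        obtain ⟨m, hm⟩ := hq
        omega
      calc 2 < 2 * 2 := by norm_num
        _ ≤ (Fintype.card F - 1) * (k - 1) := Nat.mul_le_mul (by omega) (by omega)
    · calc 2 < 1 * 3 := by norm_num
        _ ≤ (Fintype.card F - 1) * (k - 1) := Nat.mul_le_mul (by omega) (by omega)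
  · push Not at hq
    obtain ⟨hodd, hk4⟩ := hq
    have hk3 : k = 3 := by omega
    subst hk3
    have hev : Even (Fintype.card F) := Nat.not_odd_iff_even.1 hodd
    have h2 : (2 : F) = 0 := by
      obtain ⟨p, hp⟩ := CharP.exists F
      obtain ⟨n, hpr, hn⟩ := FiniteField.card F p
      have : p = 2 := by
        rw [hn] at hev
        have := (Nat.even_pow.1 hev).1
        exact (hpr.even_iff).1 this
      subst this
      exact CharTwo.two_eq_zero
    apply claim_std (by norm_num)
    · intro J _; exact Sys.fus2_two rfl h2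
    · intro J IH K' hG hJ
      by_cases hc : Fintype.card F = 2
      · exact mon_two hc hJ IH hG
      · obtain ⟨Z₀, hZ₀, hτ₀⟩ := exists_tauJ_ne (F := F) (by norm_num : 0 < 3) J
        refine Sys.mon_of_kill (by norm_num) ?_ hJ IH hG (Sys.fus1_two rfl h2 IH hG) (tauJ_tracial (by norm_num) J) hZ₀ hτ₀
        have : 4 ≤ Fintype.card F := by
          obtain ⟨m, hm⟩ := hev
          omega
        calc 2 < 3 * 2 := by norm_num
          _ ≤ (Fintype.card F - 1) * (3 - 1) := Nat.mul_le_mul (by omega) (by omega)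

end final

end Cfsg.Agent.Asch.CW
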