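import Mathlib
import Cfsg.Prelude.Def_GeometricClasses
import Cfsg.Agent.Asch.FormOfGram
set_option autoImplicit false
set_option linter.unusedSectionVars false

/-!
Characteristic two: the quadratic form attached to a tensor decomposition into alternating forms.
-/

namespace Cfsg.Agent.Asch

open Module Cfsg.Geo EForm

open scoped Matrix Kronecker MatrixGroups

variable {F : Type*} [Field F]

/-- `Q` is a quadratic form with polar form `f` -/
structure IsQuadFor {V : Type*} [AddCommGroup V] [Module F V] (f : V → V → F) (Q : V → F) : Prop where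
  smul : ∀ (c : F) (v : V), Q (c • v) = c ^ 2 * Q v
  add : ∀ u v, Q (u + v) = Q u + Q v + f u v

namespace IsQuadFor

variable {V : Type*} [AddCommGroup V] [Module F V] {f : V → V → F} {Q Q' : V → F}

lemma zero (h : IsQuadFor f Q) : Q 0 = 0 := by
  have := h.smul 0 0
  simpa using this

lemma eq_of_span (h : IsQuadFor f Q) (h' : IsQuadFor f Q') {S : Set V} (hS : Submodule.span F S = ⊤) (hQ : ∀ v ∈ S, Q v = Q' v) :
    Q = Q' := by
  funext v
  have hv : v ∈ Submodule.span F S := by rw [hS]; trivial
  induction hv using Submodule.span_induction with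
  | mem x hx => exact hQ x hx
  | zero => rw [h.zero, h'.zero]
  | add x y _ _ hx hy => rw [h.add, h'.add, hx, hy]
  | smul c x _ hx => rw [h.smul, h'.smul, hx]

lemma sum (h : IsQuadFor f Q) {α : Type*} (s : Finset α) (x : α → V) (hf0 : ∀ u, f 0 u = 0)
    (hadd : ∀ u v w, f (u + v) w = f u w + f v w)
    (hx : ∀ i j, i ≠ j → f (x i) (x j) = 0) : Q (∑ i ∈ s, x i) = ∑ i ∈ s, Q (x i) := by
  classical
  induction s using Finset.induction_on with
  | empty => simp [h.zero]
  | insert a s ha ih =>
    rw [Finset.sum_insert ha, Finset.sum_insert ha, add_comm, h.add, ih, add_comm (∑ i ∈ s, Q (x i))]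
    have h1 : f (∑ i ∈ s, x i) (x a) = 0 := by
      have h2 : ∀ s' : Finset α, a ∉ s' → f (∑ i ∈ s', x i) (x a) = 0 := by
        intro s'
        induction s' using Finset.induction_on with
        | empty => intro _; rw [Finset.sum_empty]; exact hf0 _
        | insert c s' hc ih' =>
          intro hac
          rw [Finset.sum_insert hc, hadd, ih' (fun h' => hac (Finset.mem_insert_of_mem h')),
            hx c a (by rintro rfl; exact hac (Finset.mem_insert_self _ _)), add_zero]
      exact h2 s ha
    rw [h1, add_zero]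

lemma comp (h : IsQuadFor f Q) (T : V →ₗ[F] V) (hT : ∀ u v, f (T u) (T v) = f u v) : IsQuadFor f (fun v => Q (T v)) where
  smul c v := by simp only [map_smul]; exact h.smul c (T v)
  add u v := by simp only [map_add]; rw [h.add, hT]

end IsQuadFor

/-- a quadratic form with given symmetric polar Gram matrix with zero diagonal, vanishing on the basis -/
lemma exists_quad_of_gram {κ : Type} [Fintype κ] [DecidableEq κ] (B : Matrix κ κ F) (hB : Bᵀ = B) (hdiag : ∀ i, B i i = 0) :
    ∃ Q : (κ → F) → F, IsQuadFor (formOfGram id B) Q ∧ ∀ i, Q (Pi.single i 1) = 0 := by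
  classical
  let o := Fintype.equivFin κ
  let U : Matrix κ κ F := fun i j => if o i < o j then B i j else 0
  have hUij : ∀ i j, U i j = if o i < o j then B i j else 0 := fun _ _ => rfl
  have hU : U + Uᵀ = B := by
    ext i j
    have hBij : B j i = B i j := congrFun (congrFun hB i) j
    show U i j + U j i = B i j
    rw [hUij, hUij]
    rcases lt_trichotomy (o i) (o j) with h | h | h
    · rw [if_pos h, if_neg (not_lt.2 h.le), add_zero]
    · have : i = j := o.injective h
      subst this
      simp [hdiag]
    · rw [if_neg (not_lt.2 h.le), if_pos h, zero_add, hBij]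
  have hs := isBilinearForm_formOfGram U
  refine ⟨fun v => formOfGram id U v v, ⟨?_, ?_⟩, ?_⟩
  · intro c v
    rw [hs.smul_left, hs.smul_right]; ring
  · intro u v
    have h1 : formOfGram id B u v = formOfGram id U u v + formOfGram id U v u := by
      have h2 : formOfGram id U v u = formOfGram id Uᵀ u v := by
        simp only [formOfGram, id, Matrix.transpose_apply]
        rw [Finset.sum_comm]
        apply Finset.sum_congr rfl; intro i _
        apply Finset.sum_congr rfl; intro j _
        ring
      rw [h2, ← hU]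
      simp only [formOfGram, Matrix.add_apply, mul_add, add_mul, Finset.sum_add_distrib]
    rw [h1]
    show formOfGram id U (u + v) (u + v) = _
    rw [hs.add_left, hs.add_right, hs.add_right]; ring
  · intro i
    have h3 : formOfGram id U (Pi.single i 1) (Pi.single i 1) = U i i := by
      have := congrFun (congrFun (gramMatrix_formOfGram (RingEquiv.refl F) U) i) i
      exact this
    show formOfGram id U (Pi.single i 1) (Pi.single i 1) = 0
    rw [h3, hUij]
    simp

section Basis

variable {ι : Type} [Fintype ι] [DecidableEq ι] {κ : Type} [Fintype κ] [DecidableEq κ]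

lemma form_repr {ε : F} {f : (ι → F) → (ι → F) → F} (h : EForm (RingEquiv.refl F) ε f) (b : Basis κ F (ι → F)) (u v : ι → F) :
    f u v = formOfGram id (gramB f b) (b.repr u) (b.repr v) := by
  conv_lhs => rw [← b.sum_repr u, ← b.sum_repr v]
  exact h.apply_sum (fun i => b i) (b.repr u) (b.repr v)

/-- a quadratic form with polar form `f` vanishing on a basis -/
lemma exists_quad_of_basis {ε : F} {f : (ι → F) → (ι → F) → F} (h : EForm (RingEquiv.refl F) ε f) (hsymm : ∀ u v, f u v = f v u)
    (b : Basis κ F (ι → F)) (hdiag : ∀ i, f (b i) (b i) = 0) :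
    ∃ Q : (ι → F) → F, IsQuadFor f Q ∧ ∀ i, Q (b i) = 0 := by
  obtain ⟨Q, hQ, hQ0⟩ := exists_quad_of_gram (gramB f b) (by ext i j; exact hsymm _ _) hdiag
  refine ⟨fun v => Q (b.repr v), ⟨?_, ?_⟩, ?_⟩
  · intro c v
    have : (b.repr (c • v) : κ → F) = c • (b.repr v : κ → F) := by
      rw [map_smul]; rfl
    show Q (b.repr (c • v)) = _
    rw [this, hQ.smul]
  · intro u v
    have : (b.repr (u + v) : κ → F) = (b.repr u : κ → F) + (b.repr v : κ → F) := by
      rw [map_add]; rfl
    show Q (b.repr (u + v)) = _
    rw [this, hQ.add, form_repr h b]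
  · intro i
    have : (b.repr (b i) : κ → F) = Pi.single i 1 := by
      rw [b.repr_self]
      ext j
      simp [Finsupp.single_apply, Pi.single_apply, eq_comm]
    show Q (b.repr (b i)) = 0
    rw [this, hQ0]

lemma IsQuadFor.nondegenerate {f : (ι → F) → (ι → F) → F} {Q : (ι → F) → F} (h : IsQuadFor f Q) (hf : IsBilinearForm f)
    (hnd : IsNondegenerateForm f) : IsNondegenerateQuadraticForm Q ∧ ∀ u v, QuadraticMap.polar Q u v = f u v := by
  have hp : ∀ u v, QuadraticMap.polar Q u v = f u v := by
    intro u v
    unfold QuadraticMap.polar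
    rw [h.add]; ring
  have hp' : QuadraticMap.polar Q = f := by funext u v; exact hp u v
  exact ⟨⟨h.smul, by rw [hp']; exact hf, by rw [hp']; exact hnd⟩, hp⟩

lemma IsNondegenerateQuadraticForm.isQuadFor {Q : (ι → F) → F} (h : IsNondegenerateQuadraticForm Q) :
    IsQuadFor (QuadraticMap.polar Q) Q where
  smul := h.smul
  add u v := by unfold QuadraticMap.polar; ring

/-- two invariant quadratic forms with the same polar form under an irreducible group in characteristic two agree -/
theorem IsQuadFor.eq_of_irred [Finite F] (h2 : (2 : F) = 0) {f : (ι → F) → (ι → F) → F} {Q Q' : (ι → F) → F}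
    (h : IsQuadFor f Q) (h' : IsQuadFor f Q') (hcard : 2 ≤ Fintype.card ι) {H : Subgroup (GL ι F)} (hirr : Irred (natRep H))
    (hQ : ∀ g ∈ H, ∀ v, Q ((g : Matrix ι ι F) *ᵥ v) = Q v) (hQ' : ∀ g ∈ H, ∀ v, Q' ((g : Matrix ι ι F) *ᵥ v) = Q' v) : Q = Q' := by
  classical
  let D : (ι → F) → F := fun v => Q v - Q' v
  have hDadd : ∀ u v, D (u + v) = D u + D v := by intro u v; simp only [D, h.add, h'.add]; ring
  have hDsmul : ∀ (c : F) (v : ι → F), D (c • v) = c ^ 2 * D v := by intro c v; simp only [D, h.smul, h'.smul]; ring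
  let W : Submodule F (ι → F) :=
    { carrier := {v | D v = 0}
      add_mem' := by intro u v hu hv; show D (u + v) = 0; rw [hDadd, hu, hv, add_zero]
      zero_mem' := by show D 0 = 0; have := hDsmul 0 0; simpa using this
      smul_mem' := by intro c v hv; show D (c • v) = 0; rw [hDsmul, hv, mul_zero] }
  have hW : ∀ v, v ∈ W ↔ D v = 0 := fun v => Iff.rfl
  have hperf : ∀ x : F, ∃ y, y ^ 2 = x := by
    have hchar : CharP F 2 := by
      refine CharTwo.of_one_ne_zero_of_two_eq_zero one_ne_zero h2
    intro x
    have hinj : Function.Injective (frobenius F 2) := (frobenius F 2).injective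
    obtain ⟨y, hy⟩ := (Finite.injective_iff_surjective.1 hinj) x
    exact ⟨y, hy⟩
  rcases hirr W (by
    rintro g v ⟨w, hw, rfl⟩
    show D (((g : GL ι F) : Matrix ι ι F) *ᵥ w) = 0
    have : D (((g : GL ι F) : Matrix ι ι F) *ᵥ w) = D w := by simp only [D, hQ _ g.2, hQ' _ g.2]
    rw [this]; exact hw) with hbot | htop
  · exfalso
    obtain ⟨i, j, hij⟩ := Fintype.one_lt_card_iff.1 (by omega : 1 < Fintype.card ι)
    obtain ⟨s, hs⟩ := hperf (D (Pi.single i 1))
    obtain ⟨t, ht⟩ := hperf (D (Pi.single j 1))
    have h3 : (t • (Pi.single i (1 : F) : ι → F) + s • (Pi.single j (1 : F) : ι → F)) ∈ W := by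
      rw [hW, hDadd, hDsmul, hDsmul, ← hs, ← ht]
      have : t ^ 2 * s ^ 2 + s ^ 2 * t ^ 2 = 2 * (s ^ 2 * t ^ 2) := by ring
      rw [this, h2, zero_mul]
    rw [hbot, Submodule.mem_bot] at h3
    have h4 := congrFun h3 i
    have h5 := congrFun h3 j
    simp [Pi.single_eq_of_ne hij, Pi.single_eq_of_ne (Ne.symm hij)] at h4 h5
    -- now both squares vanish, so both vectors lie in `W`
    have h6 : (Pi.single i (1 : F) : ι → F) ∈ W := by rw [hW, ← hs, h5]; simp
    rw [hbot, Submodule.mem_bot] at h6
    have := congrFun h6 i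
    simp at this
  · funext v
    have : v ∈ W := by rw [htop]; trivial
    exact sub_eq_zero.1 this

end Basis

end Cfsg.Agent.Asch
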