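import Mathlib
import Cfsg.Prelude.Def_GeometricClasses
import Cfsg.Agent.Asch.PureQuad
set_option autoImplicit false
set_option linter.unusedSectionVars false

/-!
Pure tensors and the quadratic form vanishing on them; alternation of the factors in characteristic two.
-/

namespace Cfsg.Agent.Asch

open Module Cfsg.Geo EForm

open scoped Matrix Kronecker MatrixGroups

variable {F : Type*} [Field F] {ι : Type} [Fintype ι] [DecidableEq ι]

section Two

variable {a k : ℕ} (b : Basis (Fin a × Fin k) F (ι → F))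

/-- the pure tensor `x ⊗ y` in a product basis -/
noncomputable def pure2 (x : Fin a → F) (y : Fin k → F) : ι → F := ∑ p : Fin a × Fin k, (x p.1 * y p.2) • b p

lemma pure2_single (i : Fin a) (j : Fin k) : pure2 b (Pi.single i 1) (Pi.single j 1) = b (i, j) := by
  unfold pure2
  rw [Finset.sum_eq_single (i, j)]
  · simp
  · rintro ⟨i', j'⟩ _ hne
    by_cases hi : i' = i
    · subst hi
      have hj : j' ≠ j := fun h => hne (by rw [h])
      simp [Pi.single_eq_of_ne hj]
    · simp [Pi.single_eq_of_ne hi]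
  · simp

lemma pure2_left (x : Fin a → F) (y : Fin k → F) : pure2 b x y = ∑ i, x i • pure2 b (Pi.single i 1) y := by
  unfold pure2
  simp only [Finset.smul_sum, smul_smul]
  rw [Finset.sum_comm]
  apply Finset.sum_congr rfl
  rintro ⟨i, j⟩ _
  rw [Finset.sum_eq_single i]
  · simp
  · intro i' _ hi'
    simp [Pi.single_eq_of_ne (Ne.symm hi')]
  · simp

lemma pure2_single_left (i : Fin a) (y : Fin k → F) : pure2 b (Pi.single i 1) y = ∑ j, y j • b (i, j) := by
  unfold pure2
  rw [Fintype.sum_prod_type, Finset.sum_eq_single i]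
  · simp
  · intro i' _ hi'
    simp [Pi.single_eq_of_ne hi']
  · simp

lemma repr_pure2 (x : Fin a → F) (y : Fin k → F) : (b.repr (pure2 b x y) : Fin a × Fin k → F) = fun p => x p.1 * y p.2 := by
  unfold pure2
  rw [b.repr_sum_self]

variable {b}

lemma form_pure2 {σ : F ≃+* F} {ε : F} {f : (ι → F) → (ι → F) → F} (h : EForm σ ε f) {G₁ : Matrix (Fin a) (Fin a) F}
    {G₂ : Matrix (Fin k) (Fin k) F} {c : F} (hgram : gramB f b = c • (G₁ ⊗ₖ G₂)) (x x' : Fin a → F) (y y' : Fin k → F) :
    f (pure2 b x y) (pure2 b x' y') = c * formOfGram σ G₁ x x' * formOfGram σ G₂ y y' := by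
  unfold pure2
  rw [h.apply_sum (fun i => b i), hgram]
  simp only [formOfGram, Matrix.smul_apply, smul_eq_mul, Matrix.kroneckerMap_apply, map_mul, Fintype.sum_prod_type]
  rw [mul_assoc, Finset.sum_mul, Finset.mul_sum]
  apply Finset.sum_congr rfl; intro i _
  rw [Finset.sum_comm]
  rw [Finset.sum_mul, Finset.mul_sum]
  apply Finset.sum_congr rfl; intro i' _
  rw [Finset.mul_sum, Finset.mul_sum]
  apply Finset.sum_congr rfl; intro j _
  rw [Finset.mul_sum, Finset.mul_sum]
  apply Finset.sum_congr rfl; intro j' _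
  ring

lemma quad_pure2 {ε : F} {f : (ι → F) → (ι → F) → F} (h : EForm (RingEquiv.refl F) ε f) {G₁ : Matrix (Fin a) (Fin a) F}
    {G₂ : Matrix (Fin k) (Fin k) F} {c : F} (hgram : gramB f b = c • (G₁ ⊗ₖ G₂)) (h1 : ∀ u, formOfGram id G₁ u u = 0)
    (h2 : ∀ u, formOfGram id G₂ u u = 0) {Q : (ι → F) → F} (hQ : IsQuadFor f Q) (hQ0 : ∀ p, Q (b p) = 0)
    (x : Fin a → F) (y : Fin k → F) : Q (pure2 b x y) = 0 := by
  have hG₁ : ∀ i, G₁ i i = 0 := by
    intro i
    have := congrFun (congrFun (gramMatrix_formOfGram (RingEquiv.refl F) G₁) i) i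
    rw [← this]; exact h1 _
  rw [pure2_left, hQ.sum _ _ (h.sesq.zero_left) h.sesq.add_left]
  · apply Finset.sum_eq_zero
    intro i _
    rw [hQ.smul, pure2_single_left, hQ.sum _ _ (h.sesq.zero_left) h.sesq.add_left]
    · rw [Finset.sum_eq_zero, mul_zero]
      intro j _
      rw [hQ.smul, hQ0, mul_zero]
    · intro j j' _
      rw [h.sesq.smul_left, h.sesq.smul_right]
      have : f (b (i, j)) (b (i, j')) = 0 := by
        have := congrFun (congrFun hgram (i, j)) (i, j')
        simp only [gramB, Matrix.smul_apply, Matrix.kroneckerMap_apply, hG₁, zero_mul, smul_zero] at this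
        exact this
      rw [this]; simp
  · intro i i' _
    rw [h.sesq.smul_left, h.sesq.smul_right, form_pure2 h hgram]
    have : formOfGram (RingEquiv.refl F) G₂ y y = 0 := h2 y
    rw [this]; simp

lemma toLin_pure2 {T : Module.End F (ι → F)} {P : Matrix (Fin a) (Fin a) F} {Q : Matrix (Fin k) (Fin k) F}
    (h : LinearMap.toMatrix b b T = P ⊗ₖ Q) (x : Fin a → F) (y : Fin k → F) : T (pure2 b x y) = pure2 b (P *ᵥ x) (Q *ᵥ y) := by
  apply b.repr.injective
  ext ⟨i, j⟩
  have h1 := LinearMap.toMatrix_mulVec_repr b b T (pure2 b x y)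
  rw [h, repr_pure2] at h1
  have h2 := congrFun h1 (i, j)
  rw [← h2]
  have h3 := congrFun (repr_pure2 b (P *ᵥ x) (Q *ᵥ y)) (i, j)
  rw [h3]
  simp only [Matrix.mulVec, dotProduct, Matrix.kroneckerMap_apply, Fintype.sum_prod_type]
  rw [Finset.sum_mul_sum]
  apply Finset.sum_congr rfl; intro i' _
  apply Finset.sum_congr rfl; intro j' _
  ring

/-- the quadratic form of an alternating ⊗ alternating tensor decomposition in characteristic two -/
theorem exists_quad_two {ε : F} {f : (ι → F) → (ι → F) → F} (h : EForm (RingEquiv.refl F) ε f)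
    (hsymm : ∀ u v, f u v = f v u) {G₁ : Matrix (Fin a) (Fin a) F}
    {G₂ : Matrix (Fin k) (Fin k) F} {c : F} (hgram : gramB f b = c • (G₁ ⊗ₖ G₂)) (h1 : ∀ u, formOfGram id G₁ u u = 0)
    (h2 : ∀ u, formOfGram id G₂ u u = 0) :
    ∃ Q : (ι → F) → F, IsQuadFor f Q ∧ (∀ x y, Q (pure2 b x y) = 0) ∧
      ∀ g : GL ι F, IsIsom f g → (∃ (P : Matrix (Fin a) (Fin a) F) (R : Matrix (Fin k) (Fin k) F),
        LinearMap.toMatrix b b (Matrix.toLin' (g : Matrix ι ι F)) = P ⊗ₖ R) → ∀ v, Q ((g : Matrix ι ι F) *ᵥ v) = Q v := by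
  have hG₁ : ∀ i, G₁ i i = 0 := by
    intro i
    have := congrFun (congrFun (gramMatrix_formOfGram (RingEquiv.refl F) G₁) i) i
    rw [← this]; exact h1 _
  obtain ⟨Q, hQ, hQ0⟩ := exists_quad_of_basis h hsymm b (by
    rintro ⟨i, j⟩
    have := congrFun (congrFun hgram (i, j)) (i, j)
    simp only [gramB, Matrix.smul_apply, Matrix.kroneckerMap_apply, hG₁, zero_mul, smul_zero] at this
    exact this)
  have hp := quad_pure2 h hgram h1 h2 hQ hQ0
  refine ⟨Q, hQ, hp, ?_⟩
  rintro g hg ⟨P, R, hPR⟩ v
  have h3 : IsQuadFor f (fun v => Q ((g : Matrix ι ι F) *ᵥ v)) := hQ.comp (Matrix.toLin' (g : Matrix ι ι F)) hg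
  have h4 := h3.eq_of_span hQ (S := Set.range b) b.span_eq (by
    rintro _ ⟨⟨i, j⟩, rfl⟩
    show Q (Matrix.toLin' (g : Matrix ι ι F) (b (i, j))) = Q (b (i, j))
    rw [← pure2_single, toLin_pure2 hPR, hp, hp])
  exact congrFun h4 v

end Two

section Power

variable {t a : ℕ} (b : Basis (Fin t → Fin a) F (ι → F))

/-- the pure tensor `x 0 ⊗ x 1 ⊗ ...` in a basis indexed by functions -/
noncomputable def pureT (x : Fin t → Fin a → F) : ι → F := ∑ α : Fin t → Fin a, (∏ i, x i (α i)) • b α

lemma repr_pureT (x : Fin t → Fin a → F) : (b.repr (pureT b x) : (Fin t → Fin a) → F) = fun α => ∏ i, x i (α i) := by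
  unfold pureT
  rw [b.repr_sum_self]

lemma pureT_single (α : Fin t → Fin a) : pureT b (fun i => Pi.single (α i) 1) = b α := by
  unfold pureT
  rw [Finset.sum_eq_single α]
  · simp
  · intro β _ hne
    obtain ⟨i, hi⟩ := Function.ne_iff.1 hne
    rw [Finset.prod_eq_zero (Finset.mem_univ i) (Pi.single_eq_of_ne hi 1), zero_smul]
  · simp

lemma pureT_update (x : Fin t → Fin a → F) (i : Fin t) :
    pureT b x = ∑ j, x i j • pureT b (Function.update x i (Pi.single j 1)) := by
  apply b.repr.injective
  ext α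
  rw [map_sum, Finsupp.finsetSum_apply]
  simp only [map_smul, Finsupp.smul_apply, smul_eq_mul]
  simp only [repr_pureT]
  rw [Finset.sum_eq_single (α i)]
  · rw [← Finset.mul_prod_erase Finset.univ _ (Finset.mem_univ i),
      ← Finset.mul_prod_erase Finset.univ (fun i_1 => Function.update x i (Pi.single (α i) 1) i_1 (α i_1)) (Finset.mem_univ i)]
    rw [Function.update_self, Pi.single_eq_same, one_mul]
    congr 1
    apply Finset.prod_congr rfl
    intro j hj
    rw [Function.update_of_ne (Finset.ne_of_mem_erase hj)]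
  · intro j _ hj
    rw [Finset.prod_eq_zero (Finset.mem_univ i), mul_zero]
    rw [Function.update_self, Pi.single_eq_of_ne (Ne.symm hj)]
  · simp

variable {b}

lemma form_pureT {σ : F ≃+* F} {ε : F} {f : (ι → F) → (ι → F) → F} (h : EForm σ ε f) {G : Matrix (Fin a) (Fin a) F} {c : F}
    (hgram : gramB f b = c • piMat (fun _ : Fin t => G)) (x y : Fin t → Fin a → F) :
    f (pureT b x) (pureT b y) = c * ∏ i, formOfGram σ G (x i) (y i) := by
  unfold pureT
  rw [h.apply_sum (fun i => b i), hgram]
  simp only [formOfGram, Finset.prod_univ_sum, Fintype.piFinset_univ, Finset.mul_sum]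
  apply Finset.sum_congr rfl; intro α _
  apply Finset.sum_congr rfl; intro β _
  simp only [Matrix.smul_apply, smul_eq_mul, piMat, map_prod]
  rw [Finset.prod_mul_distrib, Finset.prod_mul_distrib]
  ring

lemma quad_pureT {ε : F} {f : (ι → F) → (ι → F) → F} (h : EForm (RingEquiv.refl F) ε f) {G : Matrix (Fin a) (Fin a) F}
    {c : F} (hgram : gramB f b = c • piMat (fun _ : Fin t => G)) (ht : 2 ≤ t) (h1 : ∀ u, formOfGram id G u u = 0)
    {Q : (ι → F) → F} (hQ : IsQuadFor f Q) (hQ0 : ∀ p, Q (b p) = 0)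
    (x : Fin t → Fin a → F) : Q (pureT b x) = 0 := by
  classical
  have key : ∀ s : Finset (Fin t), ∀ x : Fin t → Fin a → F, (∀ i, i ∉ s → ∃ j, x i = Pi.single j 1) → Q (pureT b x) = 0 := by
    intro s
    induction s using Finset.induction_on with
    | empty =>
      intro x hx
      choose α hα using fun i => hx i (Finset.notMem_empty i)
      have : x = fun i => Pi.single (α i) 1 := funext hα
      rw [this, pureT_single, hQ0]
    | insert i s hi ih =>
      intro x hx
      rw [pureT_update b x i, hQ.sum _ _ (h.sesq.zero_left) h.sesq.add_left]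
      · apply Finset.sum_eq_zero
        intro j _
        rw [hQ.smul, ih, mul_zero]
        intro i' hi'
        by_cases hii : i' = i
        · subst hii
          exact ⟨j, by rw [Function.update_self]⟩
        · rw [Function.update_of_ne hii]
          exact hx i' (by rw [Finset.mem_insert]; push Not; exact ⟨hii, hi'⟩)
      · intro j j' _
        rw [h.sesq.smul_left, h.sesq.smul_right, form_pureT h hgram]
        obtain ⟨i', hi'⟩ : ∃ i' : Fin t, i' ≠ i := by
          have : Nontrivial (Fin t) := Fin.nontrivial_iff_two_le.2 ht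
          exact exists_ne i
        have : formOfGram (RingEquiv.refl F) G (Function.update x i (Pi.single j 1) i') (Function.update x i (Pi.single j' 1) i') = 0 := by
          rw [Function.update_of_ne hi', Function.update_of_ne hi']
          exact h1 _
        rw [Finset.prod_eq_zero (Finset.mem_univ i') this]
        simp
  exact key Finset.univ x (fun i hi => absurd (Finset.mem_univ i) hi)

lemma toLin_pureT {T : Module.End F (ι → F)} {τ : Equiv.Perm (Fin t)} {P : Fin t → Matrix (Fin a) (Fin a) F}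
    (h : LinearMap.toMatrix b b T = permMat F a τ * piMat P) (x : Fin t → Fin a → F) :
    T (pureT b x) = pureT b (fun j => P (τ.symm j) *ᵥ x (τ.symm j)) := by
  apply b.repr.injective
  ext α
  have h1 := LinearMap.toMatrix_mulVec_repr b b T (pureT b x)
  rw [h, repr_pureT] at h1
  have h2 := congrFun h1 α
  rw [← h2]
  have h3 := congrFun (repr_pureT b (fun j => P (τ.symm j) *ᵥ x (τ.symm j))) α
  rw [h3, ← Matrix.mulVec_mulVec]
  have h4 : ∀ v : (Fin t → Fin a) → F, (permMat F a τ *ᵥ v) α = v (α ∘ τ) := by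
    intro v
    rw [Matrix.mulVec, dotProduct, Finset.sum_eq_single (α ∘ τ)]
    · simp [permMat]
    · intro β _ hβ
      simp [permMat, hβ]
    · simp
  rw [h4]
  rw [← Equiv.prod_comp τ]
  simp only [Equiv.symm_apply_apply]
  rw [Matrix.mulVec, dotProduct]
  simp only [Matrix.mulVec, dotProduct]
  rw [Finset.prod_univ_sum, Fintype.piFinset_univ]
  apply Finset.sum_congr rfl; intro β _
  rw [piMat, ← Finset.prod_mul_distrib]
  rfl

/-- the quadratic form of a tensor power of alternating forms in characteristic two -/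
theorem exists_quad_power {ε : F} {f : (ι → F) → (ι → F) → F} (h : EForm (RingEquiv.refl F) ε f)
    (hsymm : ∀ u v, f u v = f v u) {G : Matrix (Fin a) (Fin a) F} (ht : 2 ≤ t)
    {c : F} (hgram : gramB f b = c • piMat (fun _ : Fin t => G)) (h1 : ∀ u, formOfGram id G u u = 0) :
    ∃ Q : (ι → F) → F, IsQuadFor f Q ∧ (∀ x, Q (pureT b x) = 0) ∧
      ∀ g : GL ι F, IsIsom f g → (∃ (τ : Equiv.Perm (Fin t)) (P : Fin t → Matrix (Fin a) (Fin a) F),
        LinearMap.toMatrix b b (Matrix.toLin' (g : Matrix ι ι F)) = permMat F a τ * piMat P) → ∀ v, Q ((g : Matrix ι ι F) *ᵥ v) = Q v := by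
  have hG : ∀ i, G i i = 0 := by
    intro i
    have := congrFun (congrFun (gramMatrix_formOfGram (RingEquiv.refl F) G) i) i
    rw [← this]; exact h1 _
  obtain ⟨Q, hQ, hQ0⟩ := exists_quad_of_basis h hsymm b (by
    intro α
    have := congrFun (congrFun hgram α) α
    simp only [gramB, Matrix.smul_apply, piMat, smul_eq_mul] at this
    rw [this, Finset.prod_eq_zero (Finset.mem_univ (⟨0, by omega⟩ : Fin t)) (hG _), mul_zero])
  have hp := quad_pureT h hgram ht h1 hQ hQ0
  refine ⟨Q, hQ, hp, ?_⟩
  rintro g hg ⟨τ, P, hP⟩ v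
  have h3 : IsQuadFor f (fun v => Q ((g : Matrix ι ι F) *ᵥ v)) := hQ.comp (Matrix.toLin' (g : Matrix ι ι F)) hg
  have h4 := h3.eq_of_span hQ (S := Set.range b) b.span_eq (by
    rintro _ ⟨α, rfl⟩
    show Q (Matrix.toLin' (g : Matrix ι ι F) (b α)) = Q (b α)
    rw [← pureT_single, toLin_pureT hP, hp, hp])
  exact congrFun h4 v

end Power

section Alt

variable {a k : ℕ}

/-- the isotropic vectors of a symmetric form in characteristic two -/
def isoSub {κ : Type} [Fintype κ] (h2 : (2 : F) = 0) (G : Matrix κ κ F) (hG : Gᵀ = G) : Submodule F (κ → F) where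
  carrier := {u | formOfGram id G u u = 0}
  add_mem' := by
    intro u v hu hv
    show formOfGram id G (u + v) (u + v) = 0
    have h1 : formOfGram id G (u + v) (u + v) = formOfGram id G u u + formOfGram id G v v + (formOfGram id G u v + formOfGram id G v u) := by
      simp only [formOfGram, Pi.add_apply, id, add_mul, mul_add, Finset.sum_add_distrib]; ring
    have h3 : formOfGram id G v u = formOfGram id G u v := by
      simp only [formOfGram, id]
      rw [Finset.sum_comm]
      apply Finset.sum_congr rfl; intro i _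
      apply Finset.sum_congr rfl; intro j _
      have : G j i = G i j := congrFun (congrFun hG i) j
      rw [this]; ring
    rw [h1, h3, ← two_mul, h2, zero_mul, add_zero]
    have hu' : formOfGram id G u u = 0 := hu
    have hv' : formOfGram id G v v = 0 := hv
    rw [hu', hv', add_zero]
  zero_mem' := by show formOfGram id G 0 0 = 0; simp [formOfGram]
  smul_mem' := by
    intro c v hv
    show formOfGram id G (c • v) (c • v) = 0
    have h1 : formOfGram id G (c • v) (c • v) = c * c * formOfGram id G v v := by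
      simp only [formOfGram, Pi.smul_apply, id, smul_eq_mul, Finset.mul_sum]
      apply Finset.sum_congr rfl; intro i _
      apply Finset.sum_congr rfl; intro j _
      ring
    have hv' : formOfGram id G v v = 0 := hv
    rw [h1, hv', mul_zero]

lemma isoSub_ne_bot [Finite F] {κ : Type} [Fintype κ] [DecidableEq κ] (h2 : (2 : F) = 0) {G : Matrix κ κ F} (hG : Gᵀ = G)
    (hcard : 2 ≤ Fintype.card κ) : isoSub h2 G hG ≠ ⊥ := by
  classical
  intro hbot
  have hperf : ∀ x : F, ∃ y, y ^ 2 = x := by
    have hchar : CharP F 2 := by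
      refine CharTwo.of_one_ne_zero_of_two_eq_zero one_ne_zero h2
    intro x
    have hinj : Function.Injective (frobenius F 2) := (frobenius F 2).injective
    obtain ⟨y, hy⟩ := (Finite.injective_iff_surjective.1 hinj) x
    exact ⟨y, hy⟩
  let D : (κ → F) → F := fun u => formOfGram id G u u
  have hDsmul : ∀ (c : F) (v : κ → F), D (c • v) = c ^ 2 * D v := by
    intro c v
    simp only [D, formOfGram, Pi.smul_apply, id, smul_eq_mul, Finset.mul_sum]
    apply Finset.sum_congr rfl; intro i _
    apply Finset.sum_congr rfl; intro j _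
    ring
  have hDadd : ∀ u v, D (u + v) = D u + D v := by
    intro u v
    have h1 : D (u + v) = D u + D v + (formOfGram id G u v + formOfGram id G v u) := by
      simp only [D, formOfGram, Pi.add_apply, id, add_mul, mul_add, Finset.sum_add_distrib]; ring
    have h3 : formOfGram id G v u = formOfGram id G u v := by
      simp only [formOfGram, id]
      rw [Finset.sum_comm]
      apply Finset.sum_congr rfl; intro i _
      apply Finset.sum_congr rfl; intro j _
      have : G j i = G i j := congrFun (congrFun hG i) j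
      rw [this]; ring
    rw [h1, h3, ← two_mul, h2, zero_mul, add_zero]
  have hW : ∀ v, v ∈ isoSub h2 G hG ↔ D v = 0 := fun v => Iff.rfl
  obtain ⟨i, j, hij⟩ := Fintype.one_lt_card_iff.1 (by omega : 1 < Fintype.card κ)
  obtain ⟨s, hs⟩ := hperf (D (Pi.single i 1))
  obtain ⟨t, ht⟩ := hperf (D (Pi.single j 1))
  have h3 : (t • (Pi.single i (1 : F) : κ → F) + s • (Pi.single j (1 : F) : κ → F)) ∈ isoSub h2 G hG := by
    rw [hW, hDadd, hDsmul, hDsmul, ← hs, ← ht]
    have : t ^ 2 * s ^ 2 + s ^ 2 * t ^ 2 = 2 * (s ^ 2 * t ^ 2) := by ring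
    rw [this, h2, zero_mul]
  rw [hbot, Submodule.mem_bot] at h3
  have h4 := congrFun h3 i
  have h5 := congrFun h3 j
  simp [Pi.single_eq_of_ne hij, Pi.single_eq_of_ne (Ne.symm hij)] at h4 h5
  have h6 : (Pi.single i (1 : F) : κ → F) ∈ isoSub h2 G hG := by rw [hW, ← hs, h5]; simp
  rw [hbot, Submodule.mem_bot] at h6
  have := congrFun h6 i
  simp at this

lemma isoSub_invariant {κ : Type} [Fintype κ] (h2 : (2 : F) = 0) {G : Matrix κ κ F} (hG : Gᵀ = G) {P : Matrix κ κ F} {μ : F}
    (hP : Pᵀ * G * P = μ • G) {u : κ → F} (hu : u ∈ isoSub h2 G hG) : P *ᵥ u ∈ isoSub h2 G hG := by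
  classical
  show formOfGram id G (P *ᵥ u) (P *ᵥ u) = 0
  have hu' : formOfGram id G u u = 0 := hu
  have e1 : ∀ v, formOfGram id G v v = gramForm G v v := by
    intro v
    have := formOfGram_eq (RingEquiv.refl F) G v v
    exact this
  rw [e1, gramForm_mulVec, hP, gramForm_smul, ← e1, hu', mul_zero]

/-- in characteristic two the first factor of an irreducible tensor decomposition is alternating -/
theorem alt_of_irred [Finite F] (h2 : (2 : F) = 0) {H : Subgroup (GL ι F)} (hirr : Irred (natRep H)) (b : Basis (Fin a × Fin k) F (ι → F))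
    (ha : 2 ≤ a) (hk : k ≠ 0) {G : Matrix (Fin a) (Fin a) F} (hG : Gᵀ = G)
    (hH : ∀ g ∈ H, ∃ (P : Matrix (Fin a) (Fin a) F) (Q : Matrix (Fin k) (Fin k) F) (μ : F),
      LinearMap.toMatrix b b (Matrix.toLin' (g : Matrix ι ι F)) = P ⊗ₖ Q ∧ Pᵀ * G * P = μ • G) :
    ∀ u, formOfGram id G u u = 0 := by
  classical
  let W := isoSub h2 G hG
  let U : Submodule F (ι → F) :=
    { carrier := {v | ∀ j : Fin k, (fun i => b.repr v (i, j)) ∈ W}
      add_mem' := by
        intro u v hu hv j
        have := W.add_mem (hu j) (hv j)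
        convert this using 1
        funext i
        simp
      zero_mem' := by
        intro j
        convert W.zero_mem using 1
        funext i; simp
      smul_mem' := by
        intro c v hv j
        have := W.smul_mem c (hv j)
        convert this using 1
        funext i; simp }
  have hUmem : ∀ v, v ∈ U ↔ ∀ j : Fin k, (fun i => b.repr v (i, j)) ∈ W := fun v => Iff.rfl
  have hUinv : ∀ g ∈ H, ∀ v ∈ U, (g : Matrix ι ι F) *ᵥ v ∈ U := by
    intro g hg v hv j
    obtain ⟨P, Q, μ, hPQ, hP⟩ := hH g hg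
    have h1 := LinearMap.toMatrix_mulVec_repr b b (Matrix.toLin' (g : Matrix ι ι F)) v
    rw [hPQ] at h1
    have h3 : (fun i => b.repr ((g : Matrix ι ι F) *ᵥ v) (i, j)) = ∑ j', Q j j' • (P *ᵥ (fun i => b.repr v (i, j'))) := by
      funext i
      have h4 := congrFun h1 (i, j)
      have h5 : b.repr ((g : Matrix ι ι F) *ᵥ v) (i, j) = ((P ⊗ₖ Q) *ᵥ (b.repr v)) (i, j) := h4.symm
      rw [h5, Finset.sum_apply]
      simp only [Matrix.mulVec, dotProduct, Matrix.kroneckerMap_apply, Fintype.sum_prod_type, Pi.smul_apply, smul_eq_mul]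
      rw [Finset.sum_comm]
      apply Finset.sum_congr rfl; intro j' _
      rw [Finset.mul_sum]
      apply Finset.sum_congr rfl; intro i' _
      ring
    rw [h3]
    apply W.sum_mem
    intro j' _
    exact W.smul_mem _ (isoSub_invariant h2 hG hP (hv j'))
  have hWbot : W ≠ ⊥ := isoSub_ne_bot h2 hG (by simpa using ha)
  obtain ⟨w, hw, hw0⟩ := Submodule.exists_mem_ne_zero_of_ne_bot hWbot
  have hUpure : ∀ w ∈ W, ∀ y : Fin k → F, pure2 b w y ∈ U := by
    intro w hw y j
    rw [repr_pure2]
    have := W.smul_mem (y j) hw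
    convert this using 1
    funext i
    simp [mul_comm]
  rcases hirr U (by
    rintro g _ ⟨v, hv, rfl⟩
    exact hUinv g g.2 v hv) with h | h
  · exfalso
    have h1 := hUpure w hw (Pi.single ⟨0, Nat.pos_of_ne_zero hk⟩ 1)
    rw [h, Submodule.mem_bot] at h1
    apply hw0
    funext i
    have h3 := congrArg (fun v => b.repr v (i, ⟨0, Nat.pos_of_ne_zero hk⟩)) h1
    simp only [repr_pure2] at h3
    simpa using h3
  · intro u
    have h1 : pure2 b u (Pi.single ⟨0, Nat.pos_of_ne_zero hk⟩ 1) ∈ U := by rw [h]; trivial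
    have h3 := h1 ⟨0, Nat.pos_of_ne_zero hk⟩
    rw [repr_pure2] at h3
    have h4 : (fun i => u i * (Pi.single (⟨0, Nat.pos_of_ne_zero hk⟩ : Fin k) (1 : F) : Fin k → F) ⟨0, Nat.pos_of_ne_zero hk⟩) = u := by
      funext i; simp
    simp only at h3
    rw [h4] at h3
    exact h3

/-- alternation from a spanning set of isometries -/
theorem alt_of_span [Finite F] (h2 : (2 : F) = 0) (ha : 2 ≤ a) {G : Matrix (Fin a) (Fin a) F} (hG : Gᵀ = G)
    {S : Set (Matrix (Fin a) (Fin a) F)} (hS : Algebra.adjoin F S = ⊤) (hSG : ∀ X ∈ S, ∃ μ : F, Xᵀ * G * X = μ • G) :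
    ∀ u, formOfGram id G u u = 0 := by
  classical
  let W := isoSub h2 G hG
  have hWbot : W ≠ ⊥ := isoSub_ne_bot h2 hG (by simpa using ha)
  obtain ⟨w, hw, hw0⟩ := Submodule.exists_mem_ne_zero_of_ne_bot hWbot
  have hall : ∀ X : Matrix (Fin a) (Fin a) F, ∀ u ∈ W, X *ᵥ u ∈ W := by
    intro X
    have hX : X ∈ Algebra.adjoin F S := by rw [hS]; trivial
    induction hX using Algebra.adjoin_induction with
    | mem x hx =>
      obtain ⟨μ, hμ⟩ := hSG x hx
      intro u hu
      exact isoSub_invariant h2 hG hμ hu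
    | algebraMap r =>
      intro u hu
      have : (algebraMap F (Matrix (Fin a) (Fin a) F) r) *ᵥ u = r • u := by
        rw [Algebra.algebraMap_eq_smul_one, Matrix.smul_mulVec, Matrix.one_mulVec]
      rw [this]
      exact W.smul_mem _ hu
    | add x y _ _ hx hy => intro u hu; rw [Matrix.add_mulVec]; exact W.add_mem (hx u hu) (hy u hu)
    | mul x y _ _ hx hy => intro u hu; rw [← Matrix.mulVec_mulVec]; exact hx _ (hy u hu)
  obtain ⟨i, hi⟩ := Function.ne_iff.1 hw0
  intro u
  have h1 := hall (Matrix.vecMulVec u (Pi.single i (w i)⁻¹)) w hw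
  have h3 : Matrix.vecMulVec u (Pi.single i (w i)⁻¹) *ᵥ w = u := by
    funext j
    rw [Matrix.mulVec, dotProduct, Finset.sum_eq_single i]
    · simp only [Matrix.vecMulVec_apply, Pi.single_eq_same]
      rw [mul_assoc, inv_mul_cancel₀ hi, mul_one]
    · intro i' _ hi'
      simp [Matrix.vecMulVec_apply, Pi.single_eq_of_ne hi']
    · simp
  rw [h3] at h1
  exact h1

end Alt

end Cfsg.Agent.Asch
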