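import Mathlib
import Cfsg.Prelude.Def_GeometricClasses
import Cfsg.Agent.Asch.EForm
import Cfsg.Agent.Asch.Transfer
set_option autoImplicit false
set_option linter.unusedSectionVars false

/-!
A skew-adjoint operator with scalar square normalised up to scalars by a group of isometries (odd characteristic):
a totally singular pair or a quadratic extension field.
-/

namespace Cfsg.Agent.Asch

open Module Cfsg.Geo EForm

open scoped Matrix Kronecker MatrixGroups

variable {F : Type*} [Field F] {ι : Type} [Fintype ι] [DecidableEq ι]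

lemma isMDecomposition_of_isCompl {m : ℕ} (hm : 0 < m) {D : Fin 2 → Submodule F (ι → F)} (h0 : finrank F (D 0) = m)
    (h1 : finrank F (D 1) = m) (hdis : Disjoint (D 0) (D 1)) (htop : D 0 ⊔ D 1 = ⊤) : IsMDecomposition m D where
  two_le := le_rfl
  pos := hm
  finrank_eq := by
    intro i
    fin_cases i
    · exact h0
    · exact h1
  indep := by
    rw [iSupIndep_pair (i := (0 : Fin 2)) (j := 1) (by decide) (by intro k; fin_cases k <;> simp)]
    exact hdis
  iSup_eq_top := by
    rw [eq_top_iff, ← htop]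
    exact sup_le (le_iSup D 0) (le_iSup D 1)

/-- the subalgebra spanned by `1` and an element with scalar square -/
def quadAlg (S : Matrix ι ι F) (c : F) (hS : S * S = c • (1 : Matrix ι ι F)) : Subalgebra F (Matrix ι ι F) where
  carrier := {M | ∃ x y : F, M = x • (1 : Matrix ι ι F) + y • S}
  mul_mem' := by
    rintro _ _ ⟨x, y, rfl⟩ ⟨x', y', rfl⟩
    refine ⟨x * x' + c * (y * y'), x * y' + y * x', ?_⟩
    simp only [add_mul, mul_add, Matrix.smul_mul, Matrix.mul_smul, one_mul, mul_one, hS]
    module
  one_mem' := ⟨1, 0, by simp⟩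
  add_mem' := by
    rintro _ _ ⟨x, y, rfl⟩ ⟨x', y', rfl⟩
    exact ⟨x + x', y + y', by simp only [add_smul]; abel⟩
  zero_mem' := ⟨0, 0, by simp⟩
  algebraMap_mem' := by
    intro r
    exact ⟨r, 0, by rw [Algebra.algebraMap_eq_smul_one]; simp⟩

lemma mem_quadAlg {S : Matrix ι ι F} {c : F} {hS : S * S = c • (1 : Matrix ι ι F)} {M : Matrix ι ι F} :
    M ∈ quadAlg S c hS ↔ ∃ x y : F, M = x • (1 : Matrix ι ι F) + y • S := Iff.rfl

/-- the dichotomy for a skew-adjoint element with scalar square -/
theorem skew_cases [Nonempty ι] {ε : F} {f : (ι → F) → (ι → F) → F} (h : EForm (RingEquiv.refl F) ε f) (h2 : (2 : F) ≠ 0)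
    {H : Subgroup (GL ι F)} {S : Matrix ι ι F} {c : F} (hc : c ≠ 0) (hS : S * S = c • (1 : Matrix ι ι F))
    (hadj : ∀ u v, f (S *ᵥ u) v = - f u (S *ᵥ v))
    (hH : ∀ g ∈ H, ∃ l : F, (g : Matrix ι ι F) * S * ((g⁻¹ : GL ι F) : Matrix ι ι F) = l • S) :
    (∃ (m : ℕ) (D : Fin 2 → Submodule F (ι → F)), 2 * m = Fintype.card ι ∧ IsMDecomposition m D ∧
      (∀ i, ∀ u ∈ D i, ∀ v ∈ D i, f u v = 0) ∧ H ≤ decompositionStabilizer D) ∨
    (∃ K : Subalgebra F (Matrix ι ι F), IsFieldSubalgebra 2 K ∧ IsAdjointClosedFor f K ∧ ¬ IsSelfAdjointFor f K ∧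
      (∀ k ∈ K, ∃ c : F, ∀ v, f (k *ᵥ v) (k *ᵥ v) = c * f v v) ∧ H ≤ subalgebraNormalizer K) := by
  classical
  have hS0 : S ≠ 0 := by
    rintro rfl
    rw [mul_zero] at hS
    have := (smul_eq_zero.1 hS.symm)
    rcases this with h3 | h3
    · exact hc h3
    · exact one_ne_zero h3
  have hginv : ∀ g : GL ι F, ((g⁻¹ : GL ι F) : Matrix ι ι F) * (g : Matrix ι ι F) = 1 := by
    intro g; rw [← Units.val_mul, inv_mul_cancel, Units.val_one]
  have hginv' : ∀ g : GL ι F, (g : Matrix ι ι F) * ((g⁻¹ : GL ι F) : Matrix ι ι F) = 1 := by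
    intro g; rw [← Units.val_mul, mul_inv_cancel, Units.val_one]
  -- the multiplier is a sign
  have hl : ∀ g ∈ H, (g : Matrix ι ι F) * S = S * (g : Matrix ι ι F) ∨ (g : Matrix ι ι F) * S = -(S * (g : Matrix ι ι F)) := by
    intro g hg
    obtain ⟨l, hl⟩ := hH g hg
    have h3 : (g : Matrix ι ι F) * S = l • (S * (g : Matrix ι ι F)) := by
      rw [← Matrix.smul_mul, ← hl, mul_assoc, hginv, mul_one]
    have h4 : (l • S) * (l • S) = c • (1 : Matrix ι ι F) := by
      rw [← hl]
      calc (g : Matrix ι ι F) * S * ((g⁻¹ : GL ι F) : Matrix ι ι F) * ((g : Matrix ι ι F) * S * ((g⁻¹ : GL ι F) : Matrix ι ι F))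
          = (g : Matrix ι ι F) * S * (((g⁻¹ : GL ι F) : Matrix ι ι F) * (g : Matrix ι ι F)) * S * ((g⁻¹ : GL ι F) : Matrix ι ι F) := by
            simp only [mul_assoc]
        _ = (g : Matrix ι ι F) * (S * S) * ((g⁻¹ : GL ι F) : Matrix ι ι F) := by rw [hginv]; simp only [mul_one, mul_assoc]
        _ = _ := by rw [hS, Matrix.mul_smul, mul_one, Matrix.smul_mul, hginv']
    rw [Matrix.smul_mul, Matrix.mul_smul, hS, smul_smul, smul_smul] at h4
    have h5 : (l * l * c - c) • (1 : Matrix ι ι F) = 0 := by rw [sub_smul, h4, sub_self]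
    have h6 : l * l * c - c = 0 := by
      rcases smul_eq_zero.1 h5 with h6 | h6
      · exact h6
      · exact absurd h6 one_ne_zero
    have h7 : (l - 1) * (l + 1) = 0 := by
      have : ((l - 1) * (l + 1)) * c = 0 := by linear_combination h6
      exact (mul_eq_zero.1 this).resolve_right hc
    rcases mul_eq_zero.1 h7 with h8 | h8
    · left; rw [h3, sub_eq_zero.1 h8, one_smul]
    · right; rw [h3, eq_neg_of_add_eq_zero_left h8, neg_smul, one_smul]
  by_cases hsq : ∃ d, d * d = c
  · left
    obtain ⟨d, hd⟩ := hsq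
    have hd0 : d ≠ 0 := by rintro rfl; exact hc (by rw [← hd, zero_mul])
    let E : F → Submodule F (ι → F) := fun s =>
      { carrier := {v | S *ᵥ v = s • v}
        add_mem' := by
          intro u v hu hv
          simp only [Set.mem_ofPred_eq] at *
          rw [Matrix.mulVec_add, hu, hv, smul_add]
        zero_mem' := by simp
        smul_mem' := by
          intro t v hv
          simp only [Set.mem_ofPred_eq] at *
          rw [Matrix.mulVec_smul, hv, smul_comm] }
    have hE : ∀ s v, v ∈ E s ↔ S *ᵥ v = s • v := fun s v => Iff.rfl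
    have hSS : ∀ v, S *ᵥ (S *ᵥ v) = c • v := by
      intro v
      rw [Matrix.mulVec_mulVec, hS, Matrix.smul_mulVec, Matrix.one_mulVec]
    have hdis : Disjoint (E d) (E (-d)) := by
      rw [Submodule.disjoint_def]
      intro v h3 h4
      rw [hE] at h3 h4
      rw [h3] at h4
      have h5 : (2 * d) • v = 0 := by
        have : (2 * d) • v = d • v - (-d) • v := by rw [← sub_smul]; congr 1; ring
        rw [this, h4, sub_self]
      exact (smul_eq_zero.1 h5).resolve_left (mul_ne_zero h2 hd0)
    have htop : E d ⊔ E (-d) = ⊤ := by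
      rw [eq_top_iff]
      intro v _
      have h3 : v = (2 * d)⁻¹ • (d • v + S *ᵥ v) + (2 * d)⁻¹ • (d • v - S *ᵥ v) := by
        rw [← smul_add]
        have : d • v + S *ᵥ v + (d • v - S *ᵥ v) = (2 * d) • v := by rw [two_mul, add_smul]; abel
        rw [this, smul_smul, inv_mul_cancel₀ (mul_ne_zero h2 hd0), one_smul]
      rw [h3]
      apply Submodule.add_mem_sup
      · rw [hE, Matrix.mulVec_smul, Matrix.mulVec_add, Matrix.mulVec_smul, hSS, ← hd, smul_comm d]
        congr 1
        rw [smul_add, smul_smul, add_comm]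
      · rw [hE, Matrix.mulVec_smul, Matrix.mulVec_sub, Matrix.mulVec_smul, hSS, ← hd, smul_comm (-d)]
        congr 1
        rw [smul_sub, smul_smul, neg_smul, neg_mul, neg_smul]
        abel
    have hts : ∀ s, s ≠ 0 → ∀ u ∈ E s, ∀ v ∈ E s, f u v = 0 := by
      intro s hs u hu v hv
      rw [hE] at hu hv
      have h3 := hadj u v
      rw [hu, hv, h.sesq.smul_left, h.sesq.smul_right] at h3
      have h4 : (2 * s) * f u v = 0 := by
        have h5 : s * f u v = -(s * f u v) := h3
        linear_combination h5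
      exact (mul_eq_zero.1 h4).resolve_left (mul_ne_zero h2 hs)
    -- the dimensions agree
    have hle : ∀ s, s ≠ 0 → E s ⊔ E (-s) = ⊤ → finrank F (E s) ≤ finrank F (E (-s)) := by
      intro s hs htop'
      let T : E s →ₗ[F] Module.Dual F (E (-s)) :=
        LinearMap.mk₂ F (fun (u : E s) (v : E (-s)) => f u v)
          (fun u u' v => h.sesq.add_left _ _ _) (fun t u v => h.sesq.smul_left _ _ _)
          (fun u v v' => h.sesq.add_right _ _ _) (fun t u v => h.sesq.smul_right _ _ _)
      have hT : Function.Injective T := by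
        rw [← LinearMap.ker_eq_bot, LinearMap.ker_eq_bot']
        intro u hu
        by_contra hne
        have hne' : (u : ι → F) ≠ 0 := fun h3 => hne (Subtype.ext h3)
        obtain ⟨x, hx⟩ := h.nondeg _ hne'
        apply hx
        have hx' : x ∈ E s ⊔ E (-s) := by rw [htop']; trivial
        obtain ⟨y, hy, z, hz, rfl⟩ := Submodule.mem_sup.1 hx'
        rw [h.sesq.add_right, hts s hs _ u.2 _ hy, zero_add]
        exact congrArg (fun φ : Module.Dual F (E (-s)) => φ ⟨z, hz⟩) hu
      have := LinearMap.finrank_le_finrank_of_injective hT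
      rwa [Subspace.dual_finrank_eq] at this
    have h3 := hle d hd0 htop
    have h4 := hle (-d) (neg_ne_zero.2 hd0) (by rw [neg_neg, sup_comm]; exact htop)
    rw [neg_neg] at h4
    have hm : finrank F (E d) = finrank F (E (-d)) := le_antisymm h3 h4
    have hsum : finrank F (E d) + finrank F (E (-d)) = Fintype.card ι := by
      have := Submodule.finrank_sup_add_finrank_inf_eq (E d) (E (-d))
      rw [htop, disjoint_iff.1 hdis, finrank_bot, add_zero, finrank_top, finrank_fintype_fun_eq_card] at this
      exact this.symm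
    refine ⟨finrank F (E d), ![E d, E (-d)], by omega, ?_, ?_, ?_⟩
    · apply isMDecomposition_of_isCompl
      · have : 0 < Fintype.card ι := Fintype.card_pos
        omega
      · rfl
      · exact hm.symm
      · exact hdis
      · exact htop
    · intro i
      fin_cases i
      · exact hts d hd0
      · exact hts (-d) (neg_ne_zero.2 hd0)
    · intro g hg
      have hmap : ∀ s s', (∀ v ∈ E s, (g : Matrix ι ι F) *ᵥ v ∈ E s') → finrank F (E s) = finrank F (E s') →
          (E s).map (Matrix.toLin' (g : Matrix ι ι F)) = E s' := by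
        intro s s' h5 h6
        apply Submodule.eq_of_le_of_finrank_eq
        · rintro _ ⟨v, hv, rfl⟩
          exact h5 v hv
        · rw [finrank_map_gl, h6]
      rcases hl g hg with h5 | h5
      · refine ⟨1, fun i => ?_⟩
        fin_cases i
        · exact hmap d d (fun v hv => by
            rw [hE] at hv ⊢
            rw [Matrix.mulVec_mulVec, ← h5, ← Matrix.mulVec_mulVec, hv, Matrix.mulVec_smul]) rfl
        · exact hmap (-d) (-d) (fun v hv => by
            rw [hE] at hv ⊢
            rw [Matrix.mulVec_mulVec, ← h5, ← Matrix.mulVec_mulVec, hv, Matrix.mulVec_smul]) rfl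
      · have h6 : S * (g : Matrix ι ι F) = -((g : Matrix ι ι F) * S) := by rw [h5, neg_neg]
        refine ⟨Equiv.swap 0 1, fun i => ?_⟩
        fin_cases i
        · exact hmap d (-d) (fun v hv => by
            rw [hE] at hv ⊢
            rw [Matrix.mulVec_mulVec, h6, Matrix.neg_mulVec, ← Matrix.mulVec_mulVec, hv, Matrix.mulVec_smul, neg_smul]) hm
        · exact hmap (-d) d (fun v hv => by
            rw [hE] at hv ⊢
            rw [Matrix.mulVec_mulVec, h6, Matrix.neg_mulVec, ← Matrix.mulVec_mulVec, hv, Matrix.mulVec_smul, neg_smul, neg_neg]) hm.symm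
  · right
    push Not at hsq
    have hlin : ∀ x y : F, x • (1 : Matrix ι ι F) + y • S = 0 → x = 0 ∧ y = 0 := by
      intro x y hxy
      have hy : y = 0 := by
        by_contra hy
        have h3 : S = (-(x / y)) • (1 : Matrix ι ι F) := by
          have h4 : y • S = (-x) • (1 : Matrix ι ι F) := by
            rw [neg_smul]; exact eq_neg_of_add_eq_zero_right hxy
          calc S = y⁻¹ • (y • S) := by rw [smul_smul, inv_mul_cancel₀ hy, one_smul]
            _ = _ := by rw [h4, smul_smul]; congr 1; field_simp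
        have h5 : (x / y) * (x / y) = c := by
          have h6 : S * S = ((x / y) * (x / y)) • (1 : Matrix ι ι F) := by
            rw [h3, Matrix.smul_mul, one_mul, smul_smul]; congr 1; ring
          rw [hS] at h6
          have h7 : (c - (x / y) * (x / y)) • (1 : Matrix ι ι F) = 0 := by rw [sub_smul, h6, sub_self]
          rcases smul_eq_zero.1 h7 with h8 | h8
          · exact (sub_eq_zero.1 h8).symm
          · exact absurd h8 one_ne_zero
        exact hsq _ h5
      subst hy
      rw [zero_smul, add_zero] at hxy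
      exact ⟨(smul_eq_zero.1 hxy).resolve_right one_ne_zero, rfl⟩
    let K := quadAlg S c hS
    have hSK : S ∈ K := ⟨0, 1, by simp⟩
    have hmv : ∀ (x y : F) (v : ι → F), (x • (1 : Matrix ι ι F) + y • S) *ᵥ v = x • v + y • (S *ᵥ v) := by
      intro x y v
      rw [Matrix.add_mulVec, Matrix.smul_mulVec, Matrix.smul_mulVec, Matrix.one_mulVec]
    refine ⟨K, ⟨?_, ?_, ?_⟩, ?_, ?_, ?_, ?_⟩
    · rintro _ ⟨x, y, rfl⟩ _ ⟨x', y', rfl⟩
      simp only [add_mul, mul_add, Matrix.smul_mul, Matrix.mul_smul, one_mul, mul_one, hS]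
      module
    · rintro _ ⟨x, y, rfl⟩ hne
      have hN : x * x - c * (y * y) ≠ 0 := by
        intro h3
        by_cases hy : y = 0
        · subst hy
          have hx : x = 0 := by
            have : x * x = 0 := by linear_combination h3
            exact mul_self_eq_zero.1 this
          subst hx
          exact hne (by simp)
        · apply hsq (x / y)
          field_simp
          linear_combination h3
      refine ⟨(x * x - c * (y * y))⁻¹ • (x • (1 : Matrix ι ι F) + (-y) • S), K.smul_mem ⟨x, -y, rfl⟩ _, ?_⟩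
      rw [Matrix.mul_smul]
      have h3 : (x • (1 : Matrix ι ι F) + y • S) * (x • (1 : Matrix ι ι F) + (-y) • S) = (x * x - c * (y * y)) • (1 : Matrix ι ι F) := by
        simp only [add_mul, mul_add, Matrix.smul_mul, Matrix.mul_smul, one_mul, mul_one, hS]
        module
      rw [h3, smul_smul, inv_mul_cancel₀ hN, one_smul]
    · -- dimension two
      have hli : LinearIndependent F ![(⟨1, K.one_mem⟩ : K), ⟨S, hSK⟩] := by
        rw [LinearIndependent.pair_iff]
        intro x y hxy
        exact hlin x y (congrArg Subtype.val hxy)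
      have hspan : ⊤ ≤ Submodule.span F (Set.range ![(⟨1, K.one_mem⟩ : K), ⟨S, hSK⟩]) := by
        rintro ⟨_, ⟨x, y, rfl⟩⟩ _
        have : (⟨x • (1 : Matrix ι ι F) + y • S, ⟨x, y, rfl⟩⟩ : K) = x • (⟨1, K.one_mem⟩ : K) + y • (⟨S, hSK⟩ : K) := rfl
        rw [this]
        apply Submodule.add_mem
        · exact Submodule.smul_mem _ _ (Submodule.subset_span ⟨0, rfl⟩)
        · exact Submodule.smul_mem _ _ (Submodule.subset_span ⟨1, rfl⟩)
      have := Module.finrank_eq_card_basis (Basis.mk hli hspan)
      simpa using this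
    · rintro _ ⟨x, y, rfl⟩
      refine ⟨x • (1 : Matrix ι ι F) + (-y) • S, ⟨x, -y, rfl⟩, fun u v => ?_⟩
      rw [hmv, hmv, h.sesq.add_left, h.sesq.smul_left, h.sesq.smul_left, h.sesq.add_right, h.sesq.smul_right, h.sesq.smul_right, hadj]
      simp only [RingEquiv.refl_apply]
      ring
    · intro hself
      have h3 := hself S hSK
      obtain ⟨i⟩ := (inferInstance : Nonempty ι)
      have hne : ∃ u, S *ᵥ u ≠ 0 := by
        by_contra hcon
        push Not at hcon
        apply hS0
        ext i j
        have := congrFun (hcon (Pi.single j 1)) i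
        simpa using this
      obtain ⟨u, hu⟩ := hne
      obtain ⟨x, hx⟩ := h.nondeg _ hu
      apply hx
      have h4 := hadj u x
      rw [h3 u x] at h4
      rw [h3 u x]
      have h5 : (2 : F) * f u (S *ᵥ x) = 0 := by linear_combination h4
      exact (mul_eq_zero.1 h5).resolve_left h2
    · rintro _ ⟨x, y, rfl⟩
      refine ⟨x * x - c * (y * y), fun v => ?_⟩
      rw [hmv, h.sesq.add_left, h.sesq.smul_left, h.sesq.smul_left, h.sesq.add_right, h.sesq.smul_right, h.sesq.smul_right,
        h.sesq.add_right, h.sesq.smul_right, h.sesq.smul_right, hadj, hadj]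
      rw [Matrix.mulVec_mulVec, hS, Matrix.smul_mulVec, Matrix.one_mulVec, h.sesq.smul_right]
      simp only [RingEquiv.refl_apply]
      ring
    · intro g hg
      have key : ∀ g ∈ H, ∀ k ∈ K, (g : Matrix ι ι F) * k * ((g⁻¹ : GL ι F) : Matrix ι ι F) ∈ K := by
        rintro g hg _ ⟨x, y, rfl⟩
        obtain ⟨l, hl⟩ := hH g hg
        refine ⟨x, y * l, ?_⟩
        rw [mul_add, add_mul, Matrix.mul_smul, Matrix.smul_mul, mul_one, hginv', Matrix.mul_smul, Matrix.smul_mul, hl, smul_smul]
      intro k
      constructor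
      · exact key g hg k
      · intro h3
        have h4 := key g⁻¹ (H.inv_mem hg) _ h3
        rw [inv_inv] at h4
        have h5 : ((g⁻¹ : GL ι F) : Matrix ι ι F) * ((g : Matrix ι ι F) * k * ((g⁻¹ : GL ι F) : Matrix ι ι F)) * (g : Matrix ι ι F) = k := by
          calc _ = (((g⁻¹ : GL ι F) : Matrix ι ι F) * (g : Matrix ι ι F)) * k * (((g⁻¹ : GL ι F) : Matrix ι ι F) * (g : Matrix ι ι F)) := by
                simp only [mul_assoc]
            _ = k := by rw [hginv, one_mul, mul_one]
        rwa [h5] at h4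

end Cfsg.Agent.Asch
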