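import Mathlib
import Cfsg.Prelude.Def_GeometricClasses
import Cfsg.Agent.Asch.Transfer
import Cfsg.Agent.Asch.FormTensor
import Cfsg.Agent.Asch.FormOfGram
set_option autoImplicit false
set_option linter.unusedSectionVars false

/-!
A tensor decomposition of a form normalised by a group of isometries, as a structure.
-/

namespace Cfsg.Agent.Asch

open Module Cfsg.Geo EForm

open scoped Matrix Kronecker MatrixGroups

variable {ι : Type} [Fintype ι] [DecidableEq ι] {F : Type*} [Field F]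

lemma EForm.of_symplectic {f : (ι → F) → (ι → F) → F} (hf : IsSymplecticForm f) : EForm (RingEquiv.refl F) (-1) f where
  sesq := isSesq_of_bilinear hf.bilinear
  invol := fun _ => rfl
  herm := fun u v => by rw [hf.skew u v]; simp
  nondeg := fun v hv => (hf.nondegenerate v hv).2

lemma EForm.of_symmetric {f : (ι → F) → (ι → F) → F} (hf : IsSymmetricForm f) : EForm (RingEquiv.refl F) 1 f where
  sesq := isSesq_of_bilinear hf.bilinear
  invol := fun _ => rfl
  herm := fun u v => by rw [hf.symm u v]; simp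
  nondeg := fun v hv => (hf.nondegenerate v hv).2

lemma EForm.of_unitary {σ : F ≃+* F} {f : (ι → F) → (ι → F) → F} (hf : IsUnitaryForm σ f) : EForm σ 1 f where
  sesq := isSesq_of_unitary hf
  invol := hf.involutive
  herm := fun u v => by rw [hf.herm u v]; simp
  nondeg := fun v hv => (hf.nondegenerate v hv).2

lemma isSymmetricForm_polar {Q : (ι → F) → F} (hQ : IsNondegenerateQuadraticForm Q) : IsSymmetricForm (QuadraticMap.polar Q) where
  bilinear := hQ.polar_bilinear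
  symm := fun u v => by unfold QuadraticMap.polar; rw [add_comm]; ring
  nondegenerate := hQ.nondegenerate

lemma fixesForm_iff_isIsom {f : (ι → F) → (ι → F) → F} {H : Subgroup (GL ι F)} :
    FixesForm (matrixSet H) f ↔ ∀ g ∈ H, IsIsom f g := by
  constructor
  · intro h g hg
    exact h _ ⟨g, hg, rfl⟩
  · rintro h _ ⟨g, hg, rfl⟩
    exact h g hg

/-- a tensor decomposition of the form `f` preserved by the group of isometries `H` -/
structure TensorForm (σ : F ≃+* F) (f : (ι → F) → (ι → F) → F) (H : Subgroup (GL ι F)) (a k : ℕ)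
    (b : Basis (Fin a × Fin k) F (ι → F)) (G₁ : GL (Fin a) F) (G₂ : GL (Fin k) F) (c l₁ l₂ : F) : Prop where
  card_eq : Fintype.card ι = a * k
  two_le₁ : 2 ≤ a
  two_le₂ : 2 ≤ k
  c_ne : c ≠ 0
  gram : gramB f b = c • ((G₁ : Matrix (Fin a) (Fin a) F) ⊗ₖ (G₂ : Matrix (Fin k) (Fin k) F))
  mul₁ : l₁ * σ l₁ = 1
  mul₂ : l₂ * σ l₂ = 1
  star₁ : ((G₁ : Matrix (Fin a) (Fin a) F).map σ)ᵀ = l₁ • (G₁ : Matrix (Fin a) (Fin a) F)
  star₂ : ((G₂ : Matrix (Fin k) (Fin k) F).map σ)ᵀ = l₂ • (G₂ : Matrix (Fin k) (Fin k) F)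
  act : ∀ g ∈ H, ∃ (P : GL (Fin a) F) (Q : GL (Fin k) F) (μ : F), μ ≠ 0 ∧
    LinearMap.toMatrix b b (Matrix.toLin' (g : Matrix ι ι F)) = (P : Matrix (Fin a) (Fin a) F) ⊗ₖ (Q : Matrix (Fin k) (Fin k) F) ∧
    (P : Matrix (Fin a) (Fin a) F)ᵀ * (G₁ : Matrix (Fin a) (Fin a) F) * (P : Matrix (Fin a) (Fin a) F).map σ = μ • (G₁ : Matrix (Fin a) (Fin a) F) ∧
    (Q : Matrix (Fin k) (Fin k) F)ᵀ * (G₂ : Matrix (Fin k) (Fin k) F) * (Q : Matrix (Fin k) (Fin k) F).map σ = μ⁻¹ • (G₂ : Matrix (Fin k) (Fin k) F)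

namespace TensorForm

variable {σ : F ≃+* F} {ε : F} {f : (ι → F) → (ι → F) → F} {H : Subgroup (GL ι F)} {a k : ℕ}
    {b : Basis (Fin a × Fin k) F (ι → F)} {G₁ : GL (Fin a) F} {G₂ : GL (Fin k) F} {c l₁ l₂ : F}

theorem swap (h : TensorForm σ f H a k b G₁ G₂ c l₁ l₂) :
    TensorForm σ f H k a (b.reindex (Equiv.prodComm _ _)) G₂ G₁ c l₂ l₁ where
  card_eq := by rw [h.card_eq, mul_comm]
  two_le₁ := h.two_le₂
  two_le₂ := h.two_le₁
  c_ne := h.c_ne
  gram := gramB_swap b h.gram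
  mul₁ := h.mul₂
  mul₂ := h.mul₁
  star₁ := h.star₂
  star₂ := h.star₁
  act := by
    intro g hg
    obtain ⟨P, Q, μ, hμ, h1, h2, h3⟩ := h.act g hg
    exact ⟨Q, P, μ⁻¹, inv_ne_zero hμ, toMatrix_swap b h1, h3, by rw [inv_inv]; exact h2⟩

/-- `H` lies in the stabiliser of the tensor decomposition -/
theorem le_tensor (h : TensorForm σ f H a k b G₁ G₂ c l₁ l₂) (e : ι ≃ Fin a × Fin k) :
    H ≤ tensorProductSubgroup a k e (basisGL b e) := by
  intro g hg
  obtain ⟨P, Q, μ, hμ, h1, h2, h3⟩ := h.act g hg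
  exact mem_tensorProductSubgroup b e g P Q h1

theorem equiv (h : TensorForm σ f H a k b G₁ G₂ c l₁ l₂) : Nonempty (ι ≃ Fin a × Fin k) :=
  ⟨Fintype.equivOfCardEq (by simp [h.card_eq])⟩

/-- the sign rule -/
theorem sign_mul (h : TensorForm σ f H a k b G₁ G₂ c l₁ l₂) (hf : EForm σ ε f) : σ c * (l₁ * l₂) * ε = c := by
  have h1 : ∀ i j, gramB f b i j = ε * σ (gramB f b j i) := fun i j => hf.herm _ _
  have hG : (G₁ : Matrix (Fin a) (Fin a) F) ⊗ₖ (G₂ : Matrix (Fin k) (Fin k) F) ≠ 0 := by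
    have hdet : ((G₁ : Matrix (Fin a) (Fin a) F) ⊗ₖ (G₂ : Matrix (Fin k) (Fin k) F)).det ≠ 0 := by
      rw [Matrix.det_kronecker]
      exact mul_ne_zero (pow_ne_zero _ (Matrix.GeneralLinearGroup.det_ne_zero G₁)) (pow_ne_zero _ (Matrix.GeneralLinearGroup.det_ne_zero G₂))
    intro h0
    have h2a := h.two_le₁
    have h2b := h.two_le₂
    have : Nonempty (Fin a × Fin k) := ⟨(⟨0, by omega⟩, ⟨0, by omega⟩)⟩
    rw [h0, Matrix.det_zero] at hdet
    exact hdet rfl
  obtain ⟨⟨i, j⟩, ⟨i', j'⟩, hne⟩ : ∃ p q, ((G₁ : Matrix (Fin a) (Fin a) F) ⊗ₖ (G₂ : Matrix (Fin k) (Fin k) F)) p q ≠ 0 := by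
    by_contra hcon
    push Not at hcon
    exact hG (by ext p q; exact hcon p q)
  have h2 := h1 (i, j) (i', j')
  have h3 := congrFun (congrFun h.star₁ i) i'
  have h4 := congrFun (congrFun h.star₂ j) j'
  rw [h.gram] at h2
  simp only [Matrix.smul_apply, Matrix.kroneckerMap_apply, smul_eq_mul, map_mul, Matrix.transpose_apply, Matrix.map_apply] at h2 h3 h4 hne
  rw [h3, h4] at h2
  have h5 : (σ c * (l₁ * l₂) * ε - c) * ((G₁ : Matrix (Fin a) (Fin a) F) i i' * (G₂ : Matrix (Fin k) (Fin k) F) j j') = 0 := by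
    linear_combination -h2
  exact sub_eq_zero.1 ((mul_eq_zero.1 h5).resolve_right hne)

end TensorForm

theorem exists_tensorForm [Finite F] [Nonempty ι] {σ : F ≃+* F} {ε : F} {f : (ι → F) → (ι → F) → F} (h : EForm σ ε f)
    {H : Subgroup (GL ι F)} (hfix : ∀ g ∈ H, IsIsom f g) {R : Subgroup (GL ι F)} (hRH : R ≤ H) (hR : NormBy H R)
    (hns : ¬ R ≤ scalars ι F) (hnt : spanAlg R ≠ ⊤) (hss : IsSemisimpleModule (spanAlg R) (ι → F)) (hiso : IsIsotypic (spanAlg R) (ι → F))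
    (hcen : Subalgebra.center F (spanAlg R) = ⊥) :
    ∃ (a k : ℕ) (b : Basis (Fin a × Fin k) F (ι → F)) (G₁ : GL (Fin a) F) (G₂ : GL (Fin k) F) (c l₁ l₂ : F),
      TensorForm σ f H a k b G₁ G₂ c l₁ l₂ := by
  classical
  have hnt' : Nontrivial (ι → F) := inferInstance
  have hsimple := isSimpleRing_of_isotypic hiso
  obtain ⟨a, ha, ⟨e⟩⟩ := exists_matrix_of_center_eq_bot (F := F) (B := spanAlg R) hcen
  have hstar : StarClosed f (spanAlg R) := h.starClosed_spanAlg (fun g hg => hfix g (hRH hg))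
  obtain ⟨k, b, G₁, G₂, c, l₁, l₂, hcard, hk0, hc, hgram, hm1, hm2, hs1, hs2, hA, hact⟩ := tensor_form h ha e hstar
  have hfrA : finrank F (spanAlg R) = a * a := by
    rw [LinearEquiv.finrank_eq e.toLinearEquiv, Module.finrank_matrix]
    simp
  have ha1 : a ≠ 1 := by
    rintro rfl
    have hfree : Module.Free F (spanAlg R) := Module.Free.of_divisionRing F (spanAlg R)
    exact hns (le_scalars_of_spanAlg_eq_bot (Subalgebra.eq_bot_of_finrank_one hfrA))
  have hk1 : k ≠ 1 := by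
    rintro rfl
    apply hnt
    have h5 : finrank F (Module.End F (ι → F)) = a * a := by
      rw [Module.finrank_linearMap, Module.finrank_fintype_fun_eq_card, hcard, mul_one]
    rw [← Algebra.toSubmodule_eq_top]
    apply Submodule.eq_top_of_finrank_eq
    rw [h5]; exact hfrA
  refine ⟨a, k, b, G₁, G₂, c, l₁, l₂, hcard, by omega, by omega, hc, hgram, hm1, hm2, hs1, hs2, ?_⟩
  intro g hg
  exact hact g (hfix g hg) (fun T hT => spanAlg_normAlg hR ⟨g, hg⟩ T hT)

end Cfsg.Agent.Asch
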