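import Mathlib
import Cfsg.Prelude.Def_GeometricClasses
import Cfsg.Agent.Asch.TensorForm
import Cfsg.Agent.Asch.FormPower
import Cfsg.Agent.Asch.PureVec
import Cfsg.Agent.Asch.Skew
import Cfsg.Agent.Asch.Members
import Cfsg.Agent.Asch.Linear
set_option autoImplicit false
set_option linter.unusedSectionVars false

/-!
Tensor decompositions of symplectic forms: members of the geometric classes.
-/

namespace Cfsg.Agent.Asch

open Module Cfsg.Geo EForm

open scoped Matrix Kronecker MatrixGroups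

variable {ι : Type} [Fintype ι] [DecidableEq ι] {F : Type*} [Field F]

section TwoByTwo

/-- the standard alternating matrix of size two -/
def altTwo (F : Type*) [Field F] : Matrix (Fin 2) (Fin 2) F := !![0, 1; -1, 0]

lemma mul_altTwo_mul (M : Matrix (Fin 2) (Fin 2) F) : M * altTwo F * Mᵀ = M.det • altTwo F := by
  ext i j
  fin_cases i <;> fin_cases j <;>
    simp [altTwo, Matrix.mul_apply, Fin.sum_univ_two, Matrix.det_fin_two] <;> ring

lemma altTwo_sq : altTwo F * altTwo F = -1 := by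
  ext i j
  fin_cases i <;> fin_cases j <;> simp [altTwo, Matrix.mul_apply, Fin.sum_univ_two]

lemma altTwo_transpose : (altTwo F)ᵀ = - altTwo F := by
  ext i j
  fin_cases i <;> fin_cases j <;> simp [altTwo]

variable {G : GL (Fin 2) F}

/-- the skew element attached to a symmetric form in dimension two -/
lemma skewTwo (hG : (G : Matrix (Fin 2) (Fin 2) F)ᵀ = (G : Matrix (Fin 2) (Fin 2) F)) :
    ∃ S : Matrix (Fin 2) (Fin 2) F, (∃ d : F, d ≠ 0 ∧ S * S = d • (1 : Matrix (Fin 2) (Fin 2) F)) ∧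
      Sᵀ * (G : Matrix (Fin 2) (Fin 2) F) = -((G : Matrix (Fin 2) (Fin 2) F) * S) ∧
      ∀ (Q : GL (Fin 2) F) (μ : F), (Q : Matrix (Fin 2) (Fin 2) F)ᵀ * (G : Matrix (Fin 2) (Fin 2) F) * (Q : Matrix (Fin 2) (Fin 2) F) =
        μ • (G : Matrix (Fin 2) (Fin 2) F) → ∃ l : F, (Q : Matrix (Fin 2) (Fin 2) F) * S = l • (S * (Q : Matrix (Fin 2) (Fin 2) F)) := by
  set M : Matrix (Fin 2) (Fin 2) F := ((G⁻¹ : GL (Fin 2) F) : Matrix (Fin 2) (Fin 2) F) with hM
  have hGM : (G : Matrix (Fin 2) (Fin 2) F) * M = 1 := by rw [hM, ← Units.val_mul, mul_inv_cancel, Units.val_one]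
  have hMG : M * (G : Matrix (Fin 2) (Fin 2) F) = 1 := by rw [hM, ← Units.val_mul, inv_mul_cancel, Units.val_one]
  have hMs : Mᵀ = M := by
    have h1 : Mᵀ * (G : Matrix (Fin 2) (Fin 2) F) = 1 := by
      have := congrArg Matrix.transpose hGM
      rw [Matrix.transpose_mul, hG, Matrix.transpose_one] at this
      exact this
    calc Mᵀ = Mᵀ * ((G : Matrix (Fin 2) (Fin 2) F) * M) := by rw [hGM, mul_one]
      _ = M := by rw [← mul_assoc, h1, one_mul]
  have hdetM : M.det ≠ 0 := Matrix.GeneralLinearGroup.det_ne_zero _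
  have hMJM : M * altTwo F * M = M.det • altTwo F := by
    have := mul_altTwo_mul M
    rwa [hMs] at this
  refine ⟨M * altTwo F, ⟨-M.det, neg_ne_zero.2 hdetM, ?_⟩, ?_, ?_⟩
  · rw [← mul_assoc, hMJM, Matrix.smul_mul, altTwo_sq, neg_smul, smul_neg]
  · rw [Matrix.transpose_mul, hMs, mul_assoc, hMG, mul_one, altTwo_transpose, ← mul_assoc, hGM, one_mul]
  · intro Q μ hQ
    have hdetQ : (Q : Matrix (Fin 2) (Fin 2) F).det ≠ 0 := Matrix.GeneralLinearGroup.det_ne_zero _
    have h1 : (Q : Matrix (Fin 2) (Fin 2) F)ᵀ * altTwo F * (Q : Matrix (Fin 2) (Fin 2) F) = (Q : Matrix (Fin 2) (Fin 2) F).det • altTwo F := by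
      have := mul_altTwo_mul (Q : Matrix (Fin 2) (Fin 2) F)ᵀ
      rwa [Matrix.transpose_transpose, Matrix.det_transpose] at this
    -- `Q M Qᵀ = μ M`
    have h2 : (Q : Matrix (Fin 2) (Fin 2) F) * M * (Q : Matrix (Fin 2) (Fin 2) F)ᵀ = μ • M := by
      have h3 : (Q : Matrix (Fin 2) (Fin 2) F)ᵀ * ((G : Matrix (Fin 2) (Fin 2) F) * ((Q : Matrix (Fin 2) (Fin 2) F) * M)) = μ • 1 := by
        rw [← mul_assoc, ← mul_assoc, hQ, Matrix.smul_mul, hGM]
      have h4 : (G : Matrix (Fin 2) (Fin 2) F) * ((Q : Matrix (Fin 2) (Fin 2) F) * M) * (Q : Matrix (Fin 2) (Fin 2) F)ᵀ = μ • 1 := by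
        have hQi : ((Q⁻¹ : GL (Fin 2) F) : Matrix (Fin 2) (Fin 2) F) * (Q : Matrix (Fin 2) (Fin 2) F) = 1 := by
          rw [← Units.val_mul, inv_mul_cancel, Units.val_one]
        have hQi' : (Q : Matrix (Fin 2) (Fin 2) F)ᵀ * ((Q⁻¹ : GL (Fin 2) F) : Matrix (Fin 2) (Fin 2) F)ᵀ = 1 := by
          rw [← Matrix.transpose_mul, hQi, Matrix.transpose_one]
        have hQi'' : ((Q⁻¹ : GL (Fin 2) F) : Matrix (Fin 2) (Fin 2) F)ᵀ * (Q : Matrix (Fin 2) (Fin 2) F)ᵀ = 1 := by
          rw [← Matrix.transpose_mul, ← Units.val_mul, mul_inv_cancel, Units.val_one, Matrix.transpose_one]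
        have h5 : (G : Matrix (Fin 2) (Fin 2) F) * ((Q : Matrix (Fin 2) (Fin 2) F) * M) =
            μ • ((Q⁻¹ : GL (Fin 2) F) : Matrix (Fin 2) (Fin 2) F)ᵀ := by
          calc (G : Matrix (Fin 2) (Fin 2) F) * ((Q : Matrix (Fin 2) (Fin 2) F) * M)
              = (((Q⁻¹ : GL (Fin 2) F) : Matrix (Fin 2) (Fin 2) F)ᵀ * (Q : Matrix (Fin 2) (Fin 2) F)ᵀ) *
                  ((G : Matrix (Fin 2) (Fin 2) F) * ((Q : Matrix (Fin 2) (Fin 2) F) * M)) := by rw [hQi'', one_mul]
            _ = _ := by rw [mul_assoc, h3, Matrix.mul_smul, mul_one]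
        rw [h5, Matrix.smul_mul, hQi'']
      calc (Q : Matrix (Fin 2) (Fin 2) F) * M * (Q : Matrix (Fin 2) (Fin 2) F)ᵀ
          = (M * (G : Matrix (Fin 2) (Fin 2) F)) * ((Q : Matrix (Fin 2) (Fin 2) F) * M * (Q : Matrix (Fin 2) (Fin 2) F)ᵀ) := by rw [hMG, one_mul]
        _ = M * ((G : Matrix (Fin 2) (Fin 2) F) * ((Q : Matrix (Fin 2) (Fin 2) F) * M) * (Q : Matrix (Fin 2) (Fin 2) F)ᵀ) := by
            simp only [mul_assoc]
        _ = μ • M := by rw [h4, Matrix.mul_smul, mul_one]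
    refine ⟨μ * (Q : Matrix (Fin 2) (Fin 2) F).det⁻¹, ?_⟩
    -- `M J Q = (Q M Qᵀ) J Q / μ`
    have h6 : μ • (M * altTwo F * (Q : Matrix (Fin 2) (Fin 2) F)) = (Q : Matrix (Fin 2) (Fin 2) F).det • ((Q : Matrix (Fin 2) (Fin 2) F) * (M * altTwo F)) := by
      calc μ • (M * altTwo F * (Q : Matrix (Fin 2) (Fin 2) F)) = (μ • M) * altTwo F * (Q : Matrix (Fin 2) (Fin 2) F) := by
            rw [Matrix.smul_mul, Matrix.smul_mul]
        _ = (Q : Matrix (Fin 2) (Fin 2) F) * M * ((Q : Matrix (Fin 2) (Fin 2) F)ᵀ * altTwo F * (Q : Matrix (Fin 2) (Fin 2) F)) := by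
            rw [← h2]; simp only [mul_assoc]
        _ = _ := by rw [h1, Matrix.mul_smul, mul_assoc]
    rw [mul_comm μ, mul_smul, h6, smul_smul, inv_mul_cancel₀ hdetQ, one_smul]

end TwoByTwo

lemma EForm.isAdj_of_gram {σ : F ≃+* F} {ε : F} {f : (ι → F) → (ι → F) → F} (h : EForm σ ε f) {κ : Type} [Fintype κ]
    [DecidableEq κ] (b : Basis κ F (ι → F)) {T T' : Module.End F (ι → F)}
    (hm : (LinearMap.toMatrix b b T)ᵀ * gramB f b = gramB f b * (LinearMap.toMatrix b b T').map σ) : IsAdj f T T' := by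
  obtain ⟨T'', hT''⟩ := h.adj_exists T
  have h1 := h.gramB_adj b hT''
  rw [hm] at h1
  have hdet := h.gramB_det_ne_zero b
  have h2 : (LinearMap.toMatrix b b T').map σ = (LinearMap.toMatrix b b T'').map σ := by
    have hu : IsUnit (gramB f b).det := isUnit_iff_ne_zero.2 hdet
    have h3 := congrArg (fun X => (gramB f b)⁻¹ * X) h1
    simp only [← mul_assoc, Matrix.nonsing_inv_mul _ hu, one_mul] at h3
    exact h3
  have h4 : LinearMap.toMatrix b b T' = LinearMap.toMatrix b b T'' := by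
    ext i j
    have := congrFun (congrFun h2 i) j
    exact σ.injective this
  have h5 : T' = T'' := (LinearMap.toMatrix b b).injective h4
  rw [h5]; exact hT''

/-- the skew operator of a tensor decomposition with a symmetric factor of dimension two -/
theorem TensorForm.exists_skew {ε : F} {f : (ι → F) → (ι → F) → F} {H : Subgroup (GL ι F)} {a : ℕ}
    {b : Basis (Fin a × Fin 2) F (ι → F)} {G₁ : GL (Fin a) F} {G₂ : GL (Fin 2) F} {c l₁ l₂ : F}
    (h : TensorForm (RingEquiv.refl F) f H a 2 b G₁ G₂ c l₁ l₂) (hf : EForm (RingEquiv.refl F) ε f)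
    (hG : (G₂ : Matrix (Fin 2) (Fin 2) F)ᵀ = (G₂ : Matrix (Fin 2) (Fin 2) F)) :
    ∃ (S : Matrix ι ι F) (d : F), d ≠ 0 ∧ S * S = d • (1 : Matrix ι ι F) ∧ (∀ u v, f (S *ᵥ u) v = - f u (S *ᵥ v)) ∧
      ∀ g ∈ H, ∃ l : F, (g : Matrix ι ι F) * S * ((g⁻¹ : GL ι F) : Matrix ι ι F) = l • S := by
  classical
  obtain ⟨S₂, ⟨d, hd, hS₂⟩, hadj, hnorm⟩ := skewTwo hG
  let T : Module.End F (ι → F) := Matrix.toLin b b ((1 : Matrix (Fin a) (Fin a) F) ⊗ₖ S₂)
  have hT : LinearMap.toMatrix b b T = (1 : Matrix (Fin a) (Fin a) F) ⊗ₖ S₂ := LinearMap.toMatrix_toLin b b _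
  have hTS : Matrix.toLin' (LinearMap.toMatrix' T) = T := Matrix.toLin'_toMatrix' T
  have hTT : T * T = d • (1 : Module.End F (ι → F)) := by
    apply (LinearMap.toMatrix b b).injective
    rw [Module.End.mul_eq_comp, LinearMap.toMatrix_comp b b b, hT, ← Matrix.mul_kronecker_mul, one_mul, hS₂, Matrix.kronecker_smul,
      Matrix.one_kronecker_one, map_smul, LinearMap.toMatrix_one]
  refine ⟨LinearMap.toMatrix' T, d, hd, ?_, ?_, ?_⟩
  · apply Matrix.toLin'.injective
    rw [Matrix.toLin'_mul, hTS, map_smul, Matrix.toLin'_one]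
    exact hTT
  · have h1 : IsAdj f T (-T) := by
      apply hf.isAdj_of_gram b
      rw [map_neg, hT, h.gram]
      have e1 : (-((1 : Matrix (Fin a) (Fin a) F) ⊗ₖ S₂)).map (RingEquiv.refl F) = -((1 : Matrix (Fin a) (Fin a) F) ⊗ₖ S₂) := by
        ext i j; rfl
      rw [e1, ← Matrix.kroneckerMap_transpose, Matrix.transpose_one, Matrix.mul_smul, ← Matrix.mul_kronecker_mul, one_mul, hadj,
        Matrix.smul_mul, mul_neg, ← Matrix.mul_kronecker_mul, mul_one]
      ext ⟨i, j⟩ ⟨i', j'⟩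
      simp
    intro u v
    have h2 := h1 u v
    rw [LinearMap.neg_apply, ← hTS, Matrix.toLin'_apply, Matrix.toLin'_apply] at h2
    rw [h2]
    have h3 : -((LinearMap.toMatrix' T) *ᵥ v) = (-1 : F) • ((LinearMap.toMatrix' T) *ᵥ v) := by rw [neg_smul, one_smul]
    rw [h3, hf.sesq.smul_right]
    simp
  · intro g hg
    obtain ⟨P, Q, μ, hμ, h1, h2, h3⟩ := h.act g hg
    obtain ⟨l, hl⟩ := hnorm Q μ⁻¹ (by
      have : (Q : Matrix (Fin 2) (Fin 2) F).map (RingEquiv.refl F) = (Q : Matrix (Fin 2) (Fin 2) F) := by ext i j; rfl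
      rw [this] at h3
      exact h3)
    refine ⟨l, ?_⟩
    have h4 : (Matrix.toLin' (g : Matrix ι ι F) : Module.End F (ι → F)) * T = l • (T * Matrix.toLin' (g : Matrix ι ι F)) := by
      apply (LinearMap.toMatrix b b).injective
      rw [Module.End.mul_eq_comp, Module.End.mul_eq_comp, map_smul, LinearMap.toMatrix_comp b b b, LinearMap.toMatrix_comp b b b,
        hT, h1, ← Matrix.mul_kronecker_mul, ← Matrix.mul_kronecker_mul, hl, Matrix.kronecker_smul, one_mul, mul_one]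
    have h5 : (g : Matrix ι ι F) * LinearMap.toMatrix' T = l • (LinearMap.toMatrix' T * (g : Matrix ι ι F)) := by
      apply Matrix.toLin'.injective
      rw [Matrix.toLin'_mul, hTS, map_smul, Matrix.toLin'_mul, hTS]
      exact h4
    rw [h5, Matrix.smul_mul, mul_assoc, ← Units.val_mul, mul_inv_cancel, Units.val_one, mul_one]

lemma eq_one_or_neg_one_of_mul {l : F} (h : l * (RingEquiv.refl F) l = 1) : l = 1 ∨ l = -1 := by
  have h1 : (l - 1) * (l + 1) = 0 := by
    have h2 : l * l = 1 := h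
    linear_combination h2
  rcases mul_eq_zero.1 h1 with h2 | h2
  · left; exact sub_eq_zero.1 h2
  · right; exact eq_neg_of_add_eq_zero_left h2

lemma map_refl {m n : Type*} (M : Matrix m n F) : M.map (RingEquiv.refl F) = M := by
  ext i j; rfl

/-- `H` fixes a quadratic form with polar form `f` -/
lemma sp_member_of_quad [Fintype F] {f : (ι → F) → (ι → F) → F} (hf : IsSymplecticForm f) (h2 : (2 : F) = 0)
    {H : Subgroup (GL ι F)} {Q : (ι → F) → F} (hQ : IsQuadFor f Q) (hH : ∀ g ∈ H, ∀ v, Q ((g : Matrix ι ι F) *ᵥ v) = Q v) :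
    ∃ M, SpMember f M ∧ H ≤ M := by
  obtain ⟨h3, h4⟩ := hQ.nondegenerate hf.bilinear hf.nondegenerate
  refine ⟨_, Or.inr (Or.inr (Or.inr (Or.inr (Or.inr (Or.inr (Or.inr (Or.inr (Or.inr (Or.inr ⟨Q, ?_, h3, h4, rfl⟩))))))))), ?_⟩
  · intro h5
    exact two_ne_zero_iff_odd_card.2 h5 h2
  · intro g hg
    exact ⟨1, fun v => by rw [hH g hg v]; simp⟩

lemma TensorForm.sp_member_odd [Fintype F] [Nonempty ι] {f : (ι → F) → (ι → F) → F} (hf : IsSymplecticForm f)
    {H : Subgroup (GL ι F)} {a k : ℕ} {b : Basis (Fin a × Fin k) F (ι → F)} {G₁ : GL (Fin a) F} {G₂ : GL (Fin k) F} {c : F}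
    (h : TensorForm (RingEquiv.refl F) f H a k b G₁ G₂ c (-1) 1) (h2 : (2 : F) ≠ 0) : ∃ M, SpMember f M ∧ H ≤ M := by
  have hE := EForm.of_symplectic hf
  have hodd := two_ne_zero_iff_odd_card.1 h2
  have hs1 := h.star₁
  have hs2 := h.star₂
  rw [map_refl, neg_smul, one_smul] at hs1
  rw [map_refl, one_smul] at hs2
  obtain ⟨e⟩ := h.equiv
  by_cases hk : 3 ≤ k
  · refine ⟨_, Or.inr (Or.inr (Or.inr (Or.inr (Or.inr (Or.inr (Or.inl ⟨a, k, e, basisGL b e,
      formOfGram id (G₁ : Matrix (Fin a) (Fin a) F), formOfGram id (G₂ : Matrix (Fin k) (Fin k) F), hodd, hk,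
      isSymplecticForm_formOfGram_of_two (Matrix.GeneralLinearGroup.det_ne_zero G₁) hs1 h2,
      isSymmetricForm_formOfGram (Matrix.GeneralLinearGroup.det_ne_zero G₂) hs2,
      isTensorFormStructure_of_gram hE b e h.c_ne h.gram, rfl⟩)))))), h.le_tensor e⟩
  · have hk2 : k = 2 := by have := h.two_le₂; omega
    subst hk2
    obtain ⟨S, d, hd, hS, hadj, hnorm⟩ := h.exists_skew hE hs2
    rcases skew_cases hE h2 hd hS hadj hnorm with ⟨m, D, h3, h4, h5, h6⟩ | ⟨K, h3, h4, h5, h6, h7⟩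
    · exact ⟨_, Or.inr (Or.inr (Or.inr (Or.inl ⟨m, D, hodd, h4, h5, rfl⟩))), h6⟩
    · exact ⟨_, Or.inr (Or.inr (Or.inr (Or.inr (Or.inr (Or.inl ⟨K, hodd, h3, h4, h5, rfl⟩))))), h7⟩

/-- **Tensor decompositions of symplectic forms.** -/
theorem TensorForm.sp_member [Fintype F] [Nonempty ι] {f : (ι → F) → (ι → F) → F} (hf : IsSymplecticForm f)
    {H : Subgroup (GL ι F)} (hirr : Irred (natRep H)) (hfix : ∀ g ∈ H, IsIsom f g) {a k : ℕ}
    {b : Basis (Fin a × Fin k) F (ι → F)} {G₁ : GL (Fin a) F} {G₂ : GL (Fin k) F} {c l₁ l₂ : F}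
    (h : TensorForm (RingEquiv.refl F) f H a k b G₁ G₂ c l₁ l₂) : ∃ M, SpMember f M ∧ H ≤ M := by
  have hE := EForm.of_symplectic hf
  have hl1 := eq_one_or_neg_one_of_mul h.mul₁
  have hl2 := eq_one_or_neg_one_of_mul h.mul₂
  by_cases h2 : (2 : F) = 0
  · have hneg : (-1 : F) = 1 := by
      have : (1 : F) + 1 = 0 := by rw [one_add_one_eq_two]; exact h2
      exact (eq_neg_of_add_eq_zero_left this).symm
    have e1 : l₁ = 1 := by rcases hl1 with h3 | h3 <;> [exact h3; rw [h3, hneg]]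
    have e2 : l₂ = 1 := by rcases hl2 with h3 | h3 <;> [exact h3; rw [h3, hneg]]
    subst e1 e2
    have hs1 := h.star₁
    have hs2 := h.star₂
    rw [map_refl, one_smul] at hs1 hs2
    have halt : ∀ {a k : ℕ} {b : Basis (Fin a × Fin k) F (ι → F)} {G₁ : GL (Fin a) F} {G₂ : GL (Fin k) F} {c : F},
        TensorForm (RingEquiv.refl F) f H a k b G₁ G₂ c 1 1 → ∀ u, formOfGram id (G₁ : Matrix (Fin a) (Fin a) F) u u = 0 := by
      intro a k b G₁ G₂ c h
      have hs1 := h.star₁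
      rw [map_refl, one_smul] at hs1
      have := h.two_le₂
      apply alt_of_irred h2 hirr b h.two_le₁ (by omega) hs1
      intro g hg
      obtain ⟨P, Q, μ, hμ, h3, h4, h5⟩ := h.act g hg
      refine ⟨P, Q, μ, h3, ?_⟩
      rwa [map_refl] at h4
    obtain ⟨Q, hQ, hQ0, hQH⟩ := exists_quad_two hE (fun u v => by
      rw [hf.skew u v]
      have : -(f v u) = (-1) * f v u := by ring
      rw [this, hneg, one_mul]) h.gram (halt h) (halt h.swap)
    exact sp_member_of_quad hf h2 hQ (fun g hg v => hQH g (hfix g hg) (by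
      obtain ⟨P, Q, μ, hμ, h3, h4, h5⟩ := h.act g hg
      exact ⟨P, Q, h3⟩) v)
  · have hs := h.sign_mul hE
    have hs' : (l₁ * l₂ + 1) * c = 0 := by
      have : c * (l₁ * l₂) * (-1) = c := hs
      linear_combination -this
    have hs'' : l₁ * l₂ = -1 := eq_neg_of_add_eq_zero_left ((mul_eq_zero.1 hs').resolve_right h.c_ne)
    have hne : (1 : F) ≠ -1 := by
      intro h3
      apply h2
      rw [← one_add_one_eq_two]
      nth_rewrite 1 [h3]
      ring
    rcases hl1 with h3 | h3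
    · rcases hl2 with h4 | h4
      · rw [h3, h4, one_mul] at hs''
        exact absurd hs'' hne
      · subst h3 h4
        exact h.swap.sp_member_odd hf h2
    · rcases hl2 with h4 | h4
      · subst h3 h4
        exact h.sp_member_odd hf h2
      · rw [h3, h4] at hs''
        exact absurd (by rw [← hs'']; ring) hne

end Cfsg.Agent.Asch
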