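import Mathlib
import Cfsg.Prelude.Def_GeometricClasses
import Cfsg.Agent.Asch.SpTensor
set_option autoImplicit false
set_option linter.unusedSectionVars false

/-!
Tensor powers of symplectic forms: members of the geometric classes.
-/

namespace Cfsg.Agent.Asch

open Module Cfsg.Geo EForm

open scoped Matrix Kronecker MatrixGroups

variable {ι : Type} [Fintype ι] [DecidableEq ι] {F : Type*} [Field F]

lemma adjoin_preimage_eq_top {A B : Type*} [Ring A] [Ring B] [Algebra F A] [Algebra F B] (φ : A →ₐ[F] B)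
    (hφ : Function.Injective φ) {S : Set B} (hS : Algebra.adjoin F S = φ.range) : Algebra.adjoin F (φ ⁻¹' S) = ⊤ := by
  apply Subalgebra.map_injective hφ
  rw [AlgHom.map_adjoin, Set.image_preimage_eq_inter_range, Set.inter_eq_left.2, hS, Algebra.map_top]
  intro x hx
  have : x ∈ Algebra.adjoin F S := Algebra.subset_adjoin hx
  rw [hS] at this
  exact this

namespace PowerForm

variable {σ : F ≃+* F} {ε : F} {f : (ι → F) → (ι → F) → F} {k : ℕ} {L : Fin k → Subgroup (GL ι F)} {a : ℕ}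
    {φ : Fin k → (Matrix (Fin a) (Fin a) F →ₐ[F] Module.End F (ι → F))} {b : Basis (Fin k → Fin a) F (ι → F)}
    {G : GL (Fin a) F} {c l : F}

/-- the sign rule -/
theorem sign_mul (hP : PowerForm σ f L a φ b G c l) (hf : EForm σ ε f) : σ c * l ^ k * ε = c := by
  obtain ⟨p, q, hpq⟩ : ∃ p q, (G : Matrix (Fin a) (Fin a) F) p q ≠ 0 := by
    by_contra hcon
    push Not at hcon
    exact hP.G_ne_zero (by ext p q; exact hcon p q)
  have h1 : gramB f b (fun _ => p) (fun _ => q) = ε * σ (gramB f b (fun _ => q) (fun _ => p)) := hf.herm _ _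
  have h2 := congrFun (congrFun hP.G_star p) q
  rw [hP.gram] at h1
  simp only [Matrix.smul_apply, piMat, smul_eq_mul, map_mul, Matrix.transpose_apply, Matrix.map_apply, Finset.prod_const,
    Finset.card_univ, Fintype.card_fin, map_pow] at h1 h2
  rw [h2, mul_pow] at h1
  have h3 : (σ c * l ^ k * ε - c) * (G : Matrix (Fin a) (Fin a) F) p q ^ k = 0 := by linear_combination -h1
  exact sub_eq_zero.1 ((mul_eq_zero.1 h3).resolve_right (pow_ne_zero _ hpq))

lemma φ_injective [Nonempty ι] (hP : PowerForm σ f L a φ b G c l) (i : Fin k) : Function.Injective (φ i) := by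
  have h1 : Nonempty (Fin a) := ⟨⟨0, Nat.pos_of_ne_zero hP.a_ne⟩⟩
  have hnt : Nontrivial (Module.End F (ι → F)) := inferInstance
  exact (φ i).toRingHom.injective

/-- the matrices of the elements of one component -/
def comp (φ : Fin k → (Matrix (Fin a) (Fin a) F →ₐ[F] Module.End F (ι → F))) (L : Fin k → Subgroup (GL ι F)) (i : Fin k) :
    Set (Matrix (Fin a) (Fin a) F) := {X | ∃ g ∈ L i, φ i X = Matrix.toLin' (g : Matrix ι ι F)}

lemma adjoin_comp [Nonempty ι] (hP : PowerForm σ f L a φ b G c l) (i : Fin k) : Algebra.adjoin F (comp φ L i) = ⊤ := by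
  have h1 : comp φ L i = φ i ⁻¹' ((fun g : GL ι F => (Matrix.toLin' (g : Matrix ι ι F) : Module.End F (ι → F))) '' (L i : Set (GL ι F))) := by
    ext X
    constructor
    · rintro ⟨g, hg, h⟩; exact ⟨g, hg, h.symm⟩
    · rintro ⟨g, hg, h⟩; exact ⟨g, hg, h.symm⟩
  rw [h1]
  apply adjoin_preimage_eq_top _ (hP.φ_injective i)
  rw [hP.range_eq]
  rfl

lemma comp_isom (hP : PowerForm σ f L a φ b G c l) {i : Fin k} (hL : ∀ x ∈ L i, IsIsom f x) {X : Matrix (Fin a) (Fin a) F}
    [Nonempty ι] (hX : X ∈ comp φ L i) : Xᵀ * (G : Matrix (Fin a) (Fin a) F) * X.map σ = (G : Matrix (Fin a) (Fin a) F) := by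
  obtain ⟨g, hg, hX⟩ := hX
  have h1 : (Matrix.toLin' ((g⁻¹ : GL ι F) : Matrix ι ι F) : Module.End F (ι → F)) ∈ (φ i).range := by
    rw [hP.range_eq]; exact toLin'_mem_spanAlg ((L i).inv_mem hg)
  obtain ⟨Y, hY⟩ := h1
  have h2 : IsAdj f (φ i X) (φ i Y) := by
    rw [hX, show φ i Y = _ from hY]
    exact (hL g hg).isAdj
  have h3 := hP.adj i X Y h2
  have h4 : Y * X = 1 := by
    apply hP.φ_injective i
    rw [map_mul, hX, show φ i Y = _ from hY, map_one, toLin'_inv_mul]
  have hmm : Y.map σ * X.map σ = (Y * X).map σ := (Matrix.map_mul (f := (σ : F →+* F))).symm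
  rw [h3, mul_assoc, hmm, h4]
  have : (1 : Matrix (Fin a) (Fin a) F).map σ = 1 := by
    ext i j
    by_cases hij : i = j
    · subst hij; simp
    · simp [hij]
  rw [this, mul_one]

/-- in characteristic two the Gram matrix of the factor is alternating -/
lemma alternating [Finite F] [Nonempty ι] {L : Fin k → Subgroup (GL ι F)}
    {φ : Fin k → (Matrix (Fin a) (Fin a) F →ₐ[F] Module.End F (ι → F))} (hP : PowerForm (RingEquiv.refl F) f L a φ b G c l)
    (hk : 0 < k) (h2 : (2 : F) = 0) (ha : 2 ≤ a) (hL : ∀ i, ∀ x ∈ L i, IsIsom f x)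
    (hG : (G : Matrix (Fin a) (Fin a) F)ᵀ = (G : Matrix (Fin a) (Fin a) F)) :
    ∀ u, formOfGram id (G : Matrix (Fin a) (Fin a) F) u u = 0 := by
  apply alt_of_span h2 ha hG (hP.adjoin_comp ⟨0, hk⟩)
  intro X hX
  refine ⟨1, ?_⟩
  have := hP.comp_isom (hL ⟨0, hk⟩) hX
  rw [map_refl] at this
  rw [this, one_smul]

end PowerForm

/-- **Tensor powers of symplectic forms.** -/
theorem PowerForm.sp_member [Fintype F] [Nonempty ι] {f : (ι → F) → (ι → F) → F} (hf : IsSymplecticForm f)
    {H : Subgroup (GL ι F)} (hfix : ∀ g ∈ H, IsIsom f g) {k : ℕ} {L : Fin k → Subgroup (GL ι F)} {a : ℕ}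
    {φ : Fin k → (Matrix (Fin a) (Fin a) F →ₐ[F] Module.End F (ι → F))} {b : Basis (Fin k → Fin a) F (ι → F)}
    {G : GL (Fin a) F} {c l : F} (hP : PowerForm (RingEquiv.refl F) f L a φ b G c l) (hk : 2 ≤ k)
    (hLH : ∀ i, L i ≤ H) (hnt : ∀ i, ¬ L i ≤ scalars ι F)
    (hperm : ∀ g ∈ H, ∃ σ : Equiv.Perm (Fin k), ∀ i, ∀ x ∈ L i, g * x * g⁻¹ ∈ L (σ i))
    (hex : ¬ (Fintype.card F = 3 ∧ a = 2)) : ∃ M, SpMember f M ∧ H ≤ M := by
  have hE := EForm.of_symplectic hf
  have ha2 : 2 ≤ a := hP.two_le (by omega) hnt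
  have hs := hP.G_star
  rw [map_refl] at hs
  by_cases h2 : (2 : F) = 0
  · have hneg : (-1 : F) = 1 := by
      have : (1 : F) + 1 = 0 := by rw [one_add_one_eq_two]; exact h2
      exact (eq_neg_of_add_eq_zero_left this).symm
    have e1 : l = 1 := by rcases eq_one_or_neg_one_of_mul hP.l_mul with h3 | h3 <;> [exact h3; rw [h3, hneg]]
    subst e1
    rw [one_smul] at hs
    have halt := hP.alternating (by omega) h2 ha2 (fun i x hx => hfix x (hLH i hx)) hs
    obtain ⟨Q, hQ, hQ0, hQH⟩ := exists_quad_power hE (fun u v => by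
      rw [hf.skew u v]
      have : -(f v u) = (-1) * f v u := by ring
      rw [this, hneg, one_mul]) hk hP.gram halt
    refine sp_member_of_quad hf h2 hQ (fun g hg v => hQH g (hfix g hg) ?_ v)
    obtain ⟨τ, hτ⟩ := hperm g hg
    obtain ⟨P, μ, -, h3, -⟩ := hP.exists_perm_mul hE (by omega) (hfix g hg) hτ
    exact ⟨τ, _, h3⟩
  · have hodd := two_ne_zero_iff_odd_card.1 h2
    have hsg := hP.sign_mul hE
    have hl : l ^ k = -1 := by
      have h3 : (l ^ k + 1) * c = 0 := by
        have : c * l ^ k * (-1) = c := hsg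
        linear_combination -this
      exact eq_neg_of_add_eq_zero_left ((mul_eq_zero.1 h3).resolve_right hP.c_ne)
    have hne : (1 : F) ≠ -1 := by
      intro h3
      apply h2
      rw [← one_add_one_eq_two]
      nth_rewrite 1 [h3]
      ring
    rcases eq_one_or_neg_one_of_mul hP.l_mul with h3 | h3
    · subst h3
      rw [one_pow] at hl
      exact absurd hl hne
    · subst h3
      have hkodd : Odd k := by
        rcases Nat.even_or_odd k with h4 | h4
        · rw [h4.neg_one_pow] at hl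
          exact absurd hl hne
        · exact h4
      rw [neg_smul, one_smul] at hs
      obtain ⟨e⟩ : Nonempty (ι ≃ (Fin k → Fin a)) := ⟨Fintype.equivOfCardEq (by simp [hP.card_eq])⟩
      have hk3 : 3 ≤ k := by
        obtain ⟨j, hj⟩ := hkodd
        omega
      refine ⟨_, Or.inr (Or.inr (Or.inr (Or.inr (Or.inr (Or.inr (Or.inr (Or.inr (Or.inr (Or.inl ⟨a, k, e, basisGL b e,
        formOfGram id (G : Matrix (Fin a) (Fin a) F), hodd, hkodd, hk3, hex,
        isSymplecticForm_formOfGram_of_two (Matrix.GeneralLinearGroup.det_ne_zero G) hs h2,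
        isTensorPowerFormStructure_of_gram hE b e hP.c_ne hP.gram, rfl⟩))))))))), hP.le_wreath (by omega) e hperm⟩

end Cfsg.Agent.Asch
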