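import Mathlib
import Cfsg.Prelude.Def_GeometricClasses
import Cfsg.Agent.Asch.SpPower
import Cfsg.Agent.AutLie.Norm
set_option autoImplicit false
set_option linter.unusedSectionVars false

/-!
Changing the basis in a tensor decomposition of a form; hermitian normalisation.
-/

namespace Cfsg.Agent.Asch

open Module Cfsg.Geo EForm

open scoped Matrix Kronecker MatrixGroups

variable {ι : Type} [Fintype ι] [DecidableEq ι] {F : Type*} [Field F]

section Basis

variable {κ : Type} [Fintype κ] [DecidableEq κ]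

/-- the linear equivalence with a given matrix in a basis -/
noncomputable def matEquiv (b : Basis κ F (ι → F)) (M : GL κ F) : (ι → F) ≃ₗ[F] (ι → F) :=
  LinearEquiv.ofLinearMap (Matrix.toLin b b (M : Matrix κ κ F)) (Matrix.toLin b b ((M⁻¹ : GL κ F) : Matrix κ κ F))
    (by rw [← Matrix.toLin_mul, ← Units.val_mul, mul_inv_cancel, Units.val_one, Matrix.toLin_one])
    (by rw [← Matrix.toLin_mul, ← Units.val_mul, inv_mul_cancel, Units.val_one, Matrix.toLin_one])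

lemma matEquiv_coe (b : Basis κ F (ι → F)) (M : GL κ F) :
    (matEquiv b M : (ι → F) →ₗ[F] (ι → F)) = Matrix.toLin b b (M : Matrix κ κ F) := rfl

lemma matEquiv_symm_coe (b : Basis κ F (ι → F)) (M : GL κ F) :
    ((matEquiv b M).symm : (ι → F) →ₗ[F] (ι → F)) = Matrix.toLin b b ((M⁻¹ : GL κ F) : Matrix κ κ F) := rfl

/-- the new basis -/
noncomputable def rebase (b : Basis κ F (ι → F)) (M : GL κ F) : Basis κ F (ι → F) := b.map (matEquiv b M)

lemma rebase_apply (b : Basis κ F (ι → F)) (M : GL κ F) (i : κ) : rebase b M i = ∑ j, (M : Matrix κ κ F) j i • b j := by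
  rw [rebase, Basis.map_apply]
  show Matrix.toLin b b (M : Matrix κ κ F) (b i) = _
  rw [Matrix.toLin_self]

lemma toMatrix_rebase (b : Basis κ F (ι → F)) (M : GL κ F) (T : Module.End F (ι → F)) :
    LinearMap.toMatrix (rebase b M) (rebase b M) T =
      ((M⁻¹ : GL κ F) : Matrix κ κ F) * LinearMap.toMatrix b b T * (M : Matrix κ κ F) := by
  have h1 : LinearMap.toMatrix (rebase b M) (rebase b M) T =
      LinearMap.toMatrix b b (((matEquiv b M).symm : (ι → F) →ₗ[F] (ι → F)) ∘ₗ T ∘ₗ (matEquiv b M : (ι → F) →ₗ[F] (ι → F))) := by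
    ext i j
    rw [LinearMap.toMatrix_apply, LinearMap.toMatrix_apply]
    rfl
  rw [h1, LinearMap.toMatrix_comp b b b, LinearMap.toMatrix_comp b b b, matEquiv_coe, matEquiv_symm_coe, LinearMap.toMatrix_toLin,
    LinearMap.toMatrix_toLin, mul_assoc]

lemma gramB_rebase {σ : F ≃+* F} {ε : F} {f : (ι → F) → (ι → F) → F} (h : EForm σ ε f) (b : Basis κ F (ι → F)) (M : GL κ F) :
    gramB f (rebase b M) = (M : Matrix κ κ F)ᵀ * gramB f b * (M : Matrix κ κ F).map σ := by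
  ext i j
  show f (rebase b M i) (rebase b M j) = _
  rw [rebase_apply, rebase_apply, h.apply_sum]
  rw [Matrix.mul_apply]
  simp only [Matrix.mul_apply, Matrix.transpose_apply, Matrix.map_apply, Finset.sum_mul]
  rw [Finset.sum_comm]

end Basis

lemma exists_herm_scalar {σ : F ≃+* F} (hσ : σ ≠ RingEquiv.refl F) (hσ2 : ∀ a, σ (σ a) = a) {l : F} (hl : l * σ l = 1) :
    ∃ d : F, d ≠ 0 ∧ σ d * l = d := by
  by_contra hcon
  push Not at hcon
  have h1 : ∀ x, x + l * σ x = 0 := by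
    intro x
    by_contra hx
    apply hcon _ hx
    rw [map_add, map_mul, hσ2]
    linear_combination x * hl
  have h2 : l = -1 := by
    have := h1 1
    rw [map_one, mul_one] at this
    exact eq_neg_of_add_eq_zero_right this
  apply hσ
  ext x
  have := h1 x
  rw [h2] at this
  show σ x = x
  linear_combination -this

/-- a scalar multiple of an invertible matrix -/
noncomputable def smulGL {κ : Type} [Fintype κ] [DecidableEq κ] (d : F) (hd : d ≠ 0) (G : GL κ F) : GL κ F :=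
  Matrix.GeneralLinearGroup.mkOfDetNeZero (d • (G : Matrix κ κ F)) (by
    rw [Matrix.det_smul]
    exact mul_ne_zero (pow_ne_zero _ hd) (Matrix.GeneralLinearGroup.det_ne_zero G))

lemma coe_smulGL {κ : Type} [Fintype κ] [DecidableEq κ] (d : F) (hd : d ≠ 0) (G : GL κ F) :
    (smulGL d hd G : Matrix κ κ F) = d • (G : Matrix κ κ F) := rfl

lemma map_smulMat {m n : Type*} (σ : F ≃+* F) (c : F) (M : Matrix m n F) : (c • M).map σ = σ c • M.map σ := by
  ext i j; simp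

/-- hermitian matrices are congruent to the identity -/
lemma exists_herm_one [Finite F] {σ : F ≃+* F} (hσ : σ ≠ RingEquiv.refl F) (hσ2 : ∀ a, σ (σ a) = a) {κ : Type} [Fintype κ] [DecidableEq κ]
    {G : GL κ F} (hG : ((G : Matrix κ κ F).map σ)ᵀ = (G : Matrix κ κ F)) :
    ∃ X : GL κ F, (X : Matrix κ κ F)ᵀ * (G : Matrix κ κ F) * (X : Matrix κ κ F).map σ = 1 := by
  obtain ⟨C, hC⟩ := AutLie.exists_herm_eq σ hσ hσ2 G (by
    intro i j
    have := congrFun (congrFun hG j) i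
    rw [← this]
    simp)
  -- `G = C * (σ C)ᵀ`
  have hC' : (G : Matrix κ κ F) = (C : Matrix κ κ F) * ((C : Matrix κ κ F).map σ)ᵀ := by
    have h1 := congrArg (fun g : GL κ F => (g : Matrix κ κ F)) hC
    simp only [Units.val_mul] at h1
    rw [h1, AutPSL.coe_mapGL_inv, AutPSL.coe_invTGL_inv]
    rfl
  have hCi : (C : Matrix κ κ F) * ((C⁻¹ : GL κ F) : Matrix κ κ F) = 1 := by rw [← Units.val_mul, mul_inv_cancel, Units.val_one]
  have hCi' : ((C⁻¹ : GL κ F) : Matrix κ κ F) * (C : Matrix κ κ F) = 1 := by rw [← Units.val_mul, inv_mul_cancel, Units.val_one]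
  have hone : (1 : Matrix κ κ F).map σ = 1 := by
    ext i j
    by_cases hij : i = j
    · subst hij; simp
    · simp [hij]
  have hmm : ∀ X Y : Matrix κ κ F, (X * Y).map σ = X.map σ * Y.map σ := fun X Y => Matrix.map_mul (f := (σ : F →+* F))
  let X : GL κ F := ⟨((C⁻¹ : GL κ F) : Matrix κ κ F)ᵀ, (C : Matrix κ κ F)ᵀ, by rw [← Matrix.transpose_mul, hCi, Matrix.transpose_one],
    by rw [← Matrix.transpose_mul, hCi', Matrix.transpose_one]⟩
  refine ⟨X, ?_⟩
  show (((C⁻¹ : GL κ F) : Matrix κ κ F)ᵀ)ᵀ * (G : Matrix κ κ F) * (((C⁻¹ : GL κ F) : Matrix κ κ F)ᵀ).map σ = 1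
  rw [Matrix.transpose_transpose, hC', ← mul_assoc, hCi', one_mul, ← Matrix.transpose_map, ← hmm, ← Matrix.transpose_mul, hCi',
    Matrix.transpose_one, hone]

namespace TensorForm

variable {σ : F ≃+* F} {ε : F} {f : (ι → F) → (ι → F) → F} {H : Subgroup (GL ι F)} {a k : ℕ}
    {b : Basis (Fin a × Fin k) F (ι → F)} {G₁ : GL (Fin a) F} {G₂ : GL (Fin k) F} {c l₁ l₂ : F}

/-- scaling the Gram matrix of the first factor -/
theorem scale₁ (h : TensorForm σ f H a k b G₁ G₂ c l₁ l₂) (hσ2 : ∀ a, σ (σ a) = a) {d : F} (hd : d ≠ 0) :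
    TensorForm σ f H a k b (smulGL d hd G₁) G₂ (c * d⁻¹) (σ d * l₁ * d⁻¹) l₂ where
  card_eq := h.card_eq
  two_le₁ := h.two_le₁
  two_le₂ := h.two_le₂
  c_ne := mul_ne_zero h.c_ne (inv_ne_zero hd)
  gram := by
    rw [h.gram, coe_smulGL, Matrix.smul_kronecker, smul_smul, mul_assoc, inv_mul_cancel₀ hd, mul_one]
  mul₁ := by
    have h1 : σ d ≠ 0 := by rwa [ne_eq, map_eq_zero]
    rw [map_mul, map_mul, map_inv₀, hσ2]
    field_simp
    exact h.mul₁
  mul₂ := h.mul₂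
  star₁ := by
    rw [coe_smulGL, map_smulMat, Matrix.transpose_smul, h.star₁, smul_smul, smul_smul]
    congr 1
    field_simp
  star₂ := h.star₂
  act := by
    intro g hg
    obtain ⟨P, Q, μ, hμ, h1, h2, h3⟩ := h.act g hg
    refine ⟨P, Q, μ, hμ, h1, ?_, h3⟩
    rw [coe_smulGL, Matrix.mul_smul, Matrix.smul_mul, h2, smul_comm]

theorem scale₂ (h : TensorForm σ f H a k b G₁ G₂ c l₁ l₂) (hσ2 : ∀ a, σ (σ a) = a) {d : F} (hd : d ≠ 0) :
    TensorForm σ f H a k b G₁ (smulGL d hd G₂) (c * d⁻¹) l₁ (σ d * l₂ * d⁻¹) where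
  card_eq := h.card_eq
  two_le₁ := h.two_le₁
  two_le₂ := h.two_le₂
  c_ne := mul_ne_zero h.c_ne (inv_ne_zero hd)
  gram := by
    rw [h.gram, coe_smulGL, Matrix.kronecker_smul, smul_smul, mul_assoc, inv_mul_cancel₀ hd, mul_one]
  mul₂ := by
    have h1 : σ d ≠ 0 := by rwa [ne_eq, map_eq_zero]
    rw [map_mul, map_mul, map_inv₀, hσ2]
    field_simp
    exact h.mul₂
  mul₁ := h.mul₁
  star₂ := by
    rw [coe_smulGL, map_smulMat, Matrix.transpose_smul, h.star₂, smul_smul, smul_smul]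
    congr 1
    field_simp
  star₁ := h.star₁
  act := by
    intro g hg
    obtain ⟨P, Q, μ, hμ, h1, h2, h3⟩ := h.act g hg
    refine ⟨P, Q, μ, hμ, h1, h2, ?_⟩
    rw [coe_smulGL, Matrix.mul_smul, Matrix.smul_mul, h3, smul_comm]

/-- the Gram matrices of the factors of a unitary form can be taken hermitian -/
theorem exists_herm (h : TensorForm σ f H a k b G₁ G₂ c l₁ l₂) (hσ : σ ≠ RingEquiv.refl F) (hσ2 : ∀ a, σ (σ a) = a) :
    ∃ (G₁' : GL (Fin a) F) (G₂' : GL (Fin k) F) (c' : F), TensorForm σ f H a k b G₁' G₂' c' 1 1 := by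
  obtain ⟨d, hd, hd'⟩ := exists_herm_scalar hσ hσ2 h.mul₁
  obtain ⟨e, he, he'⟩ := exists_herm_scalar hσ hσ2 h.mul₂
  have h1 := (h.scale₁ hσ2 hd).scale₂ hσ2 he
  rw [hd', he', mul_inv_cancel₀ hd, mul_inv_cancel₀ he] at h1
  exact ⟨_, _, _, h1⟩

/-- changing the basis of the factors -/
theorem rebase (h : TensorForm σ f H a k b G₁ G₂ c l₁ l₂) (hf : EForm σ ε f) (X : GL (Fin a) F) (Y : GL (Fin k) F)
    {G₁' : GL (Fin a) F} {G₂' : GL (Fin k) F}
    (hX : (X : Matrix (Fin a) (Fin a) F)ᵀ * (G₁ : Matrix (Fin a) (Fin a) F) * (X : Matrix (Fin a) (Fin a) F).map σ = (G₁' : Matrix (Fin a) (Fin a) F))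
    (hY : (Y : Matrix (Fin k) (Fin k) F)ᵀ * (G₂ : Matrix (Fin k) (Fin k) F) * (Y : Matrix (Fin k) (Fin k) F).map σ = (G₂' : Matrix (Fin k) (Fin k) F)) :
    ∃ b' : Basis (Fin a × Fin k) F (ι → F), TensorForm σ f H a k b' G₁' G₂' c l₁ l₂ := by
  have hdet : ((X : Matrix (Fin a) (Fin a) F) ⊗ₖ (Y : Matrix (Fin k) (Fin k) F)).det ≠ 0 := by
    rw [Matrix.det_kronecker]
    exact mul_ne_zero (pow_ne_zero _ (Matrix.GeneralLinearGroup.det_ne_zero X)) (pow_ne_zero _ (Matrix.GeneralLinearGroup.det_ne_zero Y))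
  let M : GL (Fin a × Fin k) F := Matrix.GeneralLinearGroup.mkOfDetNeZero _ hdet
  have hM : (M : Matrix (Fin a × Fin k) (Fin a × Fin k) F) = (X : Matrix (Fin a) (Fin a) F) ⊗ₖ (Y : Matrix (Fin k) (Fin k) F) := rfl
  have hMi : ((M⁻¹ : GL (Fin a × Fin k) F) : Matrix (Fin a × Fin k) (Fin a × Fin k) F) =
      ((X⁻¹ : GL (Fin a) F) : Matrix (Fin a) (Fin a) F) ⊗ₖ ((Y⁻¹ : GL (Fin k) F) : Matrix (Fin k) (Fin k) F) := by
    have h1 : ((M⁻¹ : GL (Fin a × Fin k) F) : Matrix (Fin a × Fin k) (Fin a × Fin k) F) * (M : Matrix (Fin a × Fin k) (Fin a × Fin k) F) = 1 := by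
      rw [← Units.val_mul, inv_mul_cancel, Units.val_one]
    have h2 : (M : Matrix (Fin a × Fin k) (Fin a × Fin k) F) * (((X⁻¹ : GL (Fin a) F) : Matrix (Fin a) (Fin a) F) ⊗ₖ ((Y⁻¹ : GL (Fin k) F) : Matrix (Fin k) (Fin k) F)) = 1 := by
      rw [hM, ← Matrix.mul_kronecker_mul, ← Units.val_mul, ← Units.val_mul, mul_inv_cancel, mul_inv_cancel, Units.val_one, Units.val_one,
        Matrix.one_kronecker_one]
    calc _ = ((M⁻¹ : GL (Fin a × Fin k) F) : Matrix (Fin a × Fin k) (Fin a × Fin k) F) *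
          ((M : Matrix (Fin a × Fin k) (Fin a × Fin k) F) * (((X⁻¹ : GL (Fin a) F) : Matrix (Fin a) (Fin a) F) ⊗ₖ ((Y⁻¹ : GL (Fin k) F) : Matrix (Fin k) (Fin k) F))) := by
            rw [h2, mul_one]
      _ = _ := by rw [← mul_assoc, h1, one_mul]
  have hma : ∀ A B : Matrix (Fin a) (Fin a) F, (A * B).map σ = A.map σ * B.map σ := fun A B => Matrix.map_mul (f := (σ : F →+* F))
  have hmk : ∀ A B : Matrix (Fin k) (Fin k) F, (A * B).map σ = A.map σ * B.map σ := fun A B => Matrix.map_mul (f := (σ : F →+* F))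
  have star : ∀ {n : ℕ} {G : GL (Fin n) F} {G' : GL (Fin n) F} {Z : GL (Fin n) F} {l : F},
      (Z : Matrix (Fin n) (Fin n) F)ᵀ * (G : Matrix (Fin n) (Fin n) F) * (Z : Matrix (Fin n) (Fin n) F).map σ = (G' : Matrix (Fin n) (Fin n) F) →
      ((G : Matrix (Fin n) (Fin n) F).map σ)ᵀ = l • (G : Matrix (Fin n) (Fin n) F) →
      ((G' : Matrix (Fin n) (Fin n) F).map σ)ᵀ = l • (G' : Matrix (Fin n) (Fin n) F) := by
    intro n G G' Z l h1 h2
    have hmn : ∀ A B : Matrix (Fin n) (Fin n) F, (A * B).map σ = A.map σ * B.map σ := fun A B => Matrix.map_mul (f := (σ : F →+* F))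
    have h3 : ((Z : Matrix (Fin n) (Fin n) F).map σ).map σ = (Z : Matrix (Fin n) (Fin n) F) := by ext i j; simp [hf.invol]
    rw [← h1, hmn, hmn, h3, Matrix.transpose_mul, Matrix.transpose_mul, h2, Matrix.transpose_map, Matrix.transpose_transpose,
      Matrix.smul_mul, Matrix.mul_smul, ← mul_assoc]
  have conj : ∀ {n : ℕ} {G : GL (Fin n) F} {G' : GL (Fin n) F} {Z : GL (Fin n) F} {P : GL (Fin n) F} {μ : F},
      (Z : Matrix (Fin n) (Fin n) F)ᵀ * (G : Matrix (Fin n) (Fin n) F) * (Z : Matrix (Fin n) (Fin n) F).map σ = (G' : Matrix (Fin n) (Fin n) F) →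
      (P : Matrix (Fin n) (Fin n) F)ᵀ * (G : Matrix (Fin n) (Fin n) F) * (P : Matrix (Fin n) (Fin n) F).map σ = μ • (G : Matrix (Fin n) (Fin n) F) →
      ((Z⁻¹ * P * Z : GL (Fin n) F) : Matrix (Fin n) (Fin n) F)ᵀ * (G' : Matrix (Fin n) (Fin n) F) *
        ((Z⁻¹ * P * Z : GL (Fin n) F) : Matrix (Fin n) (Fin n) F).map σ = μ • (G' : Matrix (Fin n) (Fin n) F) := by
    intro n G G' Z P μ h1 h2
    have hmn : ∀ A B : Matrix (Fin n) (Fin n) F, (A * B).map σ = A.map σ * B.map σ := fun A B => Matrix.map_mul (f := (σ : F →+* F))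
    have hone : (1 : Matrix (Fin n) (Fin n) F).map σ = 1 := by
      ext i j
      by_cases hij : i = j
      · subst hij; simp
      · simp [hij]
    have hZi : (Z : Matrix (Fin n) (Fin n) F) * ((Z⁻¹ : GL (Fin n) F) : Matrix (Fin n) (Fin n) F) = 1 := by
      rw [← Units.val_mul, mul_inv_cancel, Units.val_one]
    have hZm : (Z : Matrix (Fin n) (Fin n) F).map σ * ((Z⁻¹ : GL (Fin n) F) : Matrix (Fin n) (Fin n) F).map σ = 1 := by
      rw [← hmn, hZi, hone]
    have hZt : ((Z⁻¹ : GL (Fin n) F) : Matrix (Fin n) (Fin n) F)ᵀ * (Z : Matrix (Fin n) (Fin n) F)ᵀ = 1 := by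
      rw [← Matrix.transpose_mul, hZi, Matrix.transpose_one]
    rw [Units.val_mul, Units.val_mul, hmn, hmn, Matrix.transpose_mul, Matrix.transpose_mul, ← h1]
    calc (Z : Matrix (Fin n) (Fin n) F)ᵀ * ((P : Matrix (Fin n) (Fin n) F)ᵀ * ((Z⁻¹ : GL (Fin n) F) : Matrix (Fin n) (Fin n) F)ᵀ) *
          ((Z : Matrix (Fin n) (Fin n) F)ᵀ * (G : Matrix (Fin n) (Fin n) F) * (Z : Matrix (Fin n) (Fin n) F).map σ) *
          (((Z⁻¹ : GL (Fin n) F) : Matrix (Fin n) (Fin n) F).map σ * (P : Matrix (Fin n) (Fin n) F).map σ * (Z : Matrix (Fin n) (Fin n) F).map σ)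
        = (Z : Matrix (Fin n) (Fin n) F)ᵀ * ((P : Matrix (Fin n) (Fin n) F)ᵀ * ((((Z⁻¹ : GL (Fin n) F) : Matrix (Fin n) (Fin n) F)ᵀ * (Z : Matrix (Fin n) (Fin n) F)ᵀ) *
          ((G : Matrix (Fin n) (Fin n) F) * (((Z : Matrix (Fin n) (Fin n) F).map σ * ((Z⁻¹ : GL (Fin n) F) : Matrix (Fin n) (Fin n) F).map σ) *
          (P : Matrix (Fin n) (Fin n) F).map σ)))) * (Z : Matrix (Fin n) (Fin n) F).map σ := by simp only [mul_assoc]
      _ = (Z : Matrix (Fin n) (Fin n) F)ᵀ * ((P : Matrix (Fin n) (Fin n) F)ᵀ * (G : Matrix (Fin n) (Fin n) F) * (P : Matrix (Fin n) (Fin n) F).map σ) *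
          (Z : Matrix (Fin n) (Fin n) F).map σ := by rw [hZt, hZm, one_mul, one_mul]; simp only [mul_assoc]
      _ = _ := by rw [h2, Matrix.mul_smul, Matrix.smul_mul]
  refine ⟨Asch.rebase b M, ?_⟩
  exact
  { card_eq := h.card_eq
    two_le₁ := h.two_le₁
    two_le₂ := h.two_le₂
    c_ne := h.c_ne
    gram := by
      rw [gramB_rebase hf, h.gram, hM, kronecker_map, ← Matrix.kroneckerMap_transpose, Matrix.mul_smul, Matrix.smul_mul,
        ← Matrix.mul_kronecker_mul, ← Matrix.mul_kronecker_mul, hX, hY]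
    mul₁ := h.mul₁
    mul₂ := h.mul₂
    star₁ := star hX h.star₁
    star₂ := star hY h.star₂
    act := by
      intro g hg
      obtain ⟨P, Q, μ, hμ, h1, h2, h3⟩ := h.act g hg
      refine ⟨X⁻¹ * P * X, Y⁻¹ * Q * Y, μ, hμ, ?_, conj hX h2, conj hY h3⟩
      rw [toMatrix_rebase, h1, hMi, hM, ← Matrix.mul_kronecker_mul, ← Matrix.mul_kronecker_mul, Units.val_mul, Units.val_mul, Units.val_mul,
        Units.val_mul] }

/-- standard bases for unitary forms -/
theorem exists_one [Finite F] (h : TensorForm σ f H a k b G₁ G₂ c l₁ l₂) (hf : EForm σ ε f) (hσ : σ ≠ RingEquiv.refl F) :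
    ∃ (b' : Basis (Fin a × Fin k) F (ι → F)) (c' : F), TensorForm σ f H a k b' 1 1 c' 1 1 := by
  obtain ⟨G₁', G₂', c', h1⟩ := h.exists_herm hσ hf.invol
  obtain ⟨X, hX⟩ := exists_herm_one hσ hf.invol (by have := h1.star₁; rwa [one_smul] at this)
  obtain ⟨Y, hY⟩ := exists_herm_one hσ hf.invol (by have := h1.star₂; rwa [one_smul] at this)
  obtain ⟨b', h2⟩ := h1.rebase hf X Y (G₁' := 1) (G₂' := 1) hX hY
  exact ⟨b', c', h2⟩

end TensorForm

end Cfsg.Agent.Asch
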