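import Mathlib
import Cfsg.Prelude.Def_GeometricClasses
import Cfsg.Agent.Asch.Rebase
import Cfsg.Agent.Witt.Bases
import Cfsg.Agent.Witt.Ortho
set_option autoImplicit false
set_option linter.unusedSectionVars false

/-!
Congruence of alternating and symmetric matrices over finite fields.
-/

namespace Cfsg.Agent.Asch

open Module Cfsg.Geo EForm

open scoped Matrix MatrixGroups

variable {F : Type*} [Field F] {n : ℕ}

lemma formOfGram_eq_toBilin' (G : Matrix (Fin n) (Fin n) F) (u v : Fin n → F) : formOfGram id G u v = Matrix.toBilin' G u v := by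
  rw [Matrix.toBilin'_apply]
  rfl

/-- bases with the same Gram matrices give a congruence -/
theorem cong_of_bases {κ : Type} [Fintype κ] {G G' : Matrix (Fin n) (Fin n) F} (b b' : Basis κ F (Fin n → F))
    (h : ∀ i j, Matrix.toBilin' G (b i) (b j) = Matrix.toBilin' G' (b' i) (b' j)) :
    ∃ X : GL (Fin n) F, (X : Matrix (Fin n) (Fin n) F)ᵀ * G * (X : Matrix (Fin n) (Fin n) F) = G' := by
  classical
  let E : (Fin n → F) ≃ₗ[F] (Fin n → F) := b'.equiv b (Equiv.refl κ)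
  have hE : ∀ i, E (b' i) = b i := fun i => by simp [E]
  have h1 : (Matrix.toBilin' G).comp (E : (Fin n → F) →ₗ[F] (Fin n → F)) (E : (Fin n → F) →ₗ[F] (Fin n → F)) = Matrix.toBilin' G' := by
    apply LinearMap.BilinForm.ext_basis b'
    intro i j
    rw [LinearMap.BilinForm.comp_apply, LinearEquiv.coe_coe, hE, hE, h]
  let X : GL (Fin n) F := ⟨LinearMap.toMatrix' (E : (Fin n → F) →ₗ[F] (Fin n → F)), LinearMap.toMatrix' (E.symm : (Fin n → F) →ₗ[F] (Fin n → F)),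
    by rw [← LinearMap.toMatrix'_comp, LinearEquiv.comp_coe, LinearEquiv.symm_trans_self, LinearEquiv.refl_toLinearMap, LinearMap.toMatrix'_id],
    by rw [← LinearMap.toMatrix'_comp, LinearEquiv.comp_coe, LinearEquiv.self_trans_symm, LinearEquiv.refl_toLinearMap, LinearMap.toMatrix'_id]⟩
  refine ⟨X, ?_⟩
  have h2 := congrArg LinearMap.BilinForm.toMatrix' h1
  rw [LinearMap.BilinForm.toMatrix'_comp, LinearMap.BilinForm.toMatrix'_toBilin', LinearMap.BilinForm.toMatrix'_toBilin'] at h2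
  exact h2

lemma toBilin'_nondegenerate {G : Matrix (Fin n) (Fin n) F} (hdet : G.det ≠ 0) : (Matrix.toBilin' G).Nondegenerate :=
  Matrix.Nondegenerate.toBilin' (Matrix.nondegenerate_of_det_ne_zero hdet)

/-- alternating matrices of the same size are congruent -/
theorem cong_alt {G G' : Matrix (Fin n) (Fin n) F} (hdet : G.det ≠ 0) (hdet' : G'.det ≠ 0) (hG : ∀ u, formOfGram id G u u = 0)
    (hG' : ∀ u, formOfGram id G' u u = 0) :
    ∃ X : GL (Fin n) F, (X : Matrix (Fin n) (Fin n) F)ᵀ * G * (X : Matrix (Fin n) (Fin n) F) = G' := by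
  have hA : (Matrix.toBilin' G).IsAlt := fun u => by rw [← formOfGram_eq_toBilin']; exact hG u
  have hA' : (Matrix.toBilin' G').IsAlt := fun u => by rw [← formOfGram_eq_toBilin']; exact hG' u
  obtain ⟨k, e, f, b, h1, h2, h3, h4⟩ := Witt.exists_darboux _ hA (toBilin'_nondegenerate hdet)
  obtain ⟨k', e', f', b', h1', h2', h3', h4'⟩ := Witt.exists_darboux _ hA' (toBilin'_nondegenerate hdet')
  have hk : k = k' := by omega
  subst hk
  apply cong_of_bases b b'
  rintro (i | i) (j | j)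
  · rw [h2, h2, h2', h2', h1.ee, h1'.ee]
  · rw [h2, h3, h2', h3', h1.ef, h1'.ef]
  · rw [h2, h3, h2', h3', h1.fe hA, h1'.fe hA']
  · rw [h3, h3, h3', h3', h1.ff, h1'.ff]

/-- symmetric matrices are congruent to `diag(1, ..., 1, d)` -/
theorem exists_diag [Finite F] (h2 : (2 : F) ≠ 0) {m : ℕ} {G : Matrix (Fin (m + 1)) (Fin (m + 1)) F} (hdet : G.det ≠ 0) (hG : Gᵀ = G) :
    ∃ (X : GL (Fin (m + 1)) F) (d : F), (X : Matrix (Fin (m + 1)) (Fin (m + 1)) F)ᵀ * G * (X : Matrix (Fin (m + 1)) (Fin (m + 1)) F) =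
      Matrix.diagonal (Fin.snoc (fun _ : Fin m => (1 : F)) d) := by
  have hS : (Matrix.toBilin' G).IsSymm := Matrix.isSymm_toBilin'_iff_isSymm.2 hG
  have hnd := toBilin'_nondegenerate hdet
  have hfr : Module.finrank F (Fin (m + 1) → F) = m + 1 := by simp
  obtain ⟨v, hv⟩ := Witt.exists_orthonormal_symm h2 hS hnd m (by rw [hfr]; omega)
  have hW := Witt.isWittForm_of_isSymm h2 _ hnd hS
  have hof : Witt.IsOrthoFam (σ := RingHom.id F) (Matrix.toBilin' G) v :=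
    ⟨fun i j hij => by rw [hv, if_neg hij], fun i => by rw [hv, if_pos rfl]; exact one_ne_zero⟩
  obtain ⟨u, hu, huu⟩ := hof.exists_ortho hW (Witt.hasAniso_of_isSymm h2 hS) (by rw [hfr]; omega)
  have hof' := hof.snoc hW hu huu
  let b : Basis (Fin (m + 1)) F (Fin (m + 1) → F) := basisOfLinearIndependentOfCardEqFinrank hof'.linearIndependent (by simp)
  have hb : ∀ i, b i = (Fin.snoc v u : Fin (m + 1) → (Fin (m + 1) → F)) i := fun i => by
    simp [b]
  obtain ⟨X, hX⟩ := cong_of_bases (G := G) (G' := Matrix.diagonal (Fin.snoc (fun _ : Fin m => (1 : F)) (Matrix.toBilin' G u u))) b (Pi.basisFun F (Fin (m + 1))) (by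
    intro i j
    rw [hb, hb, Pi.basisFun_apply, Pi.basisFun_apply, Matrix.toBilin'_single, Matrix.diagonal_apply]
    refine Fin.lastCases ?_ (fun i' => ?_) i <;> refine Fin.lastCases ?_ (fun j' => ?_) j
    · simp
    · rw [Fin.snoc_last, Fin.snoc_castSucc, hW.zero_comm (hu j'), if_neg (Fin.castSucc_lt_last j').ne']
    · rw [Fin.snoc_last, Fin.snoc_castSucc, hu, if_neg (Fin.castSucc_lt_last i').ne]
    · rw [Fin.snoc_castSucc, Fin.snoc_castSucc, hv]
      simp)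
  exact ⟨X, _, hX⟩

lemma det_diag_snoc {m : ℕ} (d : F) : (Matrix.diagonal (Fin.snoc (fun _ : Fin m => (1 : F)) d : Fin (m + 1) → F)).det = d := by
  rw [Matrix.det_diagonal, Fin.prod_univ_castSucc]
  simp

/-- symmetric matrices whose determinants differ by a square are congruent -/
theorem cong_symm [Finite F] (h2 : (2 : F) ≠ 0) (hn : n ≠ 0) {G G' : Matrix (Fin n) (Fin n) F} (hdet : G.det ≠ 0)
    (hG : Gᵀ = G) (hG' : G'ᵀ = G') {s : F} (hs : s ≠ 0) (hd : G'.det = s ^ 2 * G.det) :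
    ∃ X : GL (Fin n) F, (X : Matrix (Fin n) (Fin n) F)ᵀ * G * (X : Matrix (Fin n) (Fin n) F) = G' := by
  obtain ⟨m, rfl⟩ : ∃ m, n = m + 1 := ⟨n - 1, by omega⟩
  have hdet' : G'.det ≠ 0 := by rw [hd]; exact mul_ne_zero (pow_ne_zero _ hs) hdet
  obtain ⟨X, d, hX⟩ := exists_diag h2 hdet hG
  obtain ⟨X', d', hX'⟩ := exists_diag h2 hdet' hG'
  have hdX := Matrix.GeneralLinearGroup.det_ne_zero X
  have hdX' := Matrix.GeneralLinearGroup.det_ne_zero X'
  have e1 : d = (X : Matrix (Fin (m + 1)) (Fin (m + 1)) F).det ^ 2 * G.det := by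
    have := congrArg Matrix.det hX
    rw [det_diag_snoc, Matrix.det_mul, Matrix.det_mul, Matrix.det_transpose] at this
    rw [← this]; ring
  have e2 : d' = (X' : Matrix (Fin (m + 1)) (Fin (m + 1)) F).det ^ 2 * G'.det := by
    have := congrArg Matrix.det hX'
    rw [det_diag_snoc, Matrix.det_mul, Matrix.det_mul, Matrix.det_transpose] at this
    rw [← this]; ring
  set t : F := (X' : Matrix (Fin (m + 1)) (Fin (m + 1)) F).det * s * ((X : Matrix (Fin (m + 1)) (Fin (m + 1)) F).det)⁻¹ with ht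
  have ht0 : t ≠ 0 := mul_ne_zero (mul_ne_zero hdX' hs) (inv_ne_zero hdX)
  have e3 : d' = t ^ 2 * d := by
    rw [e2, e1, hd, ht]
    field_simp
  let Y : GL (Fin (m + 1)) F := Matrix.GeneralLinearGroup.mkOfDetNeZero (Matrix.diagonal (Fin.snoc (fun _ : Fin m => (1 : F)) t)) (by
    rw [det_diag_snoc]; exact ht0)
  have hY : (Y : Matrix (Fin (m + 1)) (Fin (m + 1)) F) = Matrix.diagonal (Fin.snoc (fun _ : Fin m => (1 : F)) t) := rfl
  have hXi' : (X' : Matrix (Fin (m + 1)) (Fin (m + 1)) F) * ((X'⁻¹ : GL (Fin (m + 1)) F) : Matrix (Fin (m + 1)) (Fin (m + 1)) F) = 1 := by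
    rw [← Units.val_mul, mul_inv_cancel, Units.val_one]
  have hXt' : ((X'⁻¹ : GL (Fin (m + 1)) F) : Matrix (Fin (m + 1)) (Fin (m + 1)) F)ᵀ * (X' : Matrix (Fin (m + 1)) (Fin (m + 1)) F)ᵀ = 1 := by
    rw [← Matrix.transpose_mul, hXi', Matrix.transpose_one]
  refine ⟨X * Y * X'⁻¹, ?_⟩
  rw [Units.val_mul, Units.val_mul, Matrix.transpose_mul, Matrix.transpose_mul]
  calc ((X'⁻¹ : GL (Fin (m + 1)) F) : Matrix (Fin (m + 1)) (Fin (m + 1)) F)ᵀ * ((Y : Matrix (Fin (m + 1)) (Fin (m + 1)) F)ᵀ *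
        (X : Matrix (Fin (m + 1)) (Fin (m + 1)) F)ᵀ) * G * ((X : Matrix (Fin (m + 1)) (Fin (m + 1)) F) * (Y : Matrix (Fin (m + 1)) (Fin (m + 1)) F) *
        ((X'⁻¹ : GL (Fin (m + 1)) F) : Matrix (Fin (m + 1)) (Fin (m + 1)) F))
      = ((X'⁻¹ : GL (Fin (m + 1)) F) : Matrix (Fin (m + 1)) (Fin (m + 1)) F)ᵀ * ((Y : Matrix (Fin (m + 1)) (Fin (m + 1)) F)ᵀ *
        ((X : Matrix (Fin (m + 1)) (Fin (m + 1)) F)ᵀ * G * (X : Matrix (Fin (m + 1)) (Fin (m + 1)) F)) * (Y : Matrix (Fin (m + 1)) (Fin (m + 1)) F)) *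
        ((X'⁻¹ : GL (Fin (m + 1)) F) : Matrix (Fin (m + 1)) (Fin (m + 1)) F) := by simp only [mul_assoc]
    _ = ((X'⁻¹ : GL (Fin (m + 1)) F) : Matrix (Fin (m + 1)) (Fin (m + 1)) F)ᵀ * ((X' : Matrix (Fin (m + 1)) (Fin (m + 1)) F)ᵀ * G' *
        (X' : Matrix (Fin (m + 1)) (Fin (m + 1)) F)) * ((X'⁻¹ : GL (Fin (m + 1)) F) : Matrix (Fin (m + 1)) (Fin (m + 1)) F) := by
        have h3 : (Y : Matrix (Fin (m + 1)) (Fin (m + 1)) F)ᵀ * ((X : Matrix (Fin (m + 1)) (Fin (m + 1)) F)ᵀ * G * (X : Matrix (Fin (m + 1)) (Fin (m + 1)) F)) *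
            (Y : Matrix (Fin (m + 1)) (Fin (m + 1)) F) = (X' : Matrix (Fin (m + 1)) (Fin (m + 1)) F)ᵀ * G' * (X' : Matrix (Fin (m + 1)) (Fin (m + 1)) F) := by
          rw [hX, hX', hY, Matrix.diagonal_transpose, Matrix.diagonal_mul_diagonal, Matrix.diagonal_mul_diagonal]
          congr 1
          funext i
          refine Fin.lastCases ?_ (fun i' => ?_) i
          · simp only [Fin.snoc_last]; rw [e3]; ring
          · simp
        rw [h3]
    _ = (((X'⁻¹ : GL (Fin (m + 1)) F) : Matrix (Fin (m + 1)) (Fin (m + 1)) F)ᵀ * (X' : Matrix (Fin (m + 1)) (Fin (m + 1)) F)ᵀ) * G' *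
        ((X' : Matrix (Fin (m + 1)) (Fin (m + 1)) F) * ((X'⁻¹ : GL (Fin (m + 1)) F) : Matrix (Fin (m + 1)) (Fin (m + 1)) F)) := by simp only [mul_assoc]
    _ = G' := by rw [hXt', hXi', one_mul, mul_one]

/-- symmetric matrices of the same odd size are similar -/
theorem cong_symm_odd [Finite F] (h2 : (2 : F) ≠ 0) (hn : Odd n) {G G' : Matrix (Fin n) (Fin n) F} (hdet : G.det ≠ 0) (hdet' : G'.det ≠ 0)
    (hG : Gᵀ = G) (hG' : G'ᵀ = G') :
    ∃ (X : GL (Fin n) F) (d : F), d ≠ 0 ∧ (X : Matrix (Fin n) (Fin n) F)ᵀ * G * (X : Matrix (Fin n) (Fin n) F) = d • G' := by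
  obtain ⟨m, hm⟩ := hn
  obtain ⟨X, hX⟩ := cong_symm (G' := (G.det * G'.det) • G') h2 (by omega) hdet hG (by rw [Matrix.transpose_smul, hG'])
    (s := (G.det * G'.det) ^ m * G'.det) (mul_ne_zero (pow_ne_zero _ (mul_ne_zero hdet hdet')) hdet') (by
      have e : ∀ x : F, x ^ n = x ^ (2 * m + 1) := fun x => by rw [hm]
      rw [Matrix.det_smul, Fintype.card_fin, e]; ring)
  exact ⟨X, _, mul_ne_zero hdet hdet', hX⟩

end Cfsg.Agent.Asch
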