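import Mathlib
import Cfsg.Prelude.Def_GeometricClasses
import Cfsg.Agent.Asch.CSAlt
import Cfsg.Agent.GeoMax.SympPair
set_option autoImplicit false
set_option linter.unusedSectionVars false
set_option linter.unusedVariables false
set_option linter.unusedSimpArgs false
set_option linter.style.haveILetI false

/-!
Invariant subspaces of the coefficient algebras, symplectic case, all characteristics.
-/

namespace Cfsg.Agent.Asch.CW

open Matrix Module Cfsg.Geo Cfsg.Agent.GeoMax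

open scoped Matrix

section pairs

variable {k : ℕ} {F : Type*} [Field F] (φ : SpF k F)

/-- the form is symplectic -/
lemma SpF.symp : IsSymplecticForm φ.f where
  bilinear := ⟨fun u u' v => φ.f_add_left u u' v, fun c u v => φ.f_smul_left c u v, fun u v v' => φ.f_add_right u v v',
    fun c u v => φ.f_smul_right c u v⟩
  skew u v := φ.f_neg v u
  alternating u := φ.f_self u
  nondegenerate u hu := by
    obtain ⟨v, hv⟩ := φ.exists_hyp hu
    exact ⟨⟨v, by rw [φ.f_neg u v, hv]; exact neg_ne_zero.2 one_ne_zero⟩, ⟨v, by rw [hv]; exact one_ne_zero⟩⟩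

lemma SpF.tr_tv (c : F) (z a : Fin k → F) : (Symp.tr φ.symp z c : Matrix (Fin k) (Fin k) F) *ᵥ a = φ.tv (-c) z a := by
  rw [Symp.tr_mulVec, SpF.tv, φ.f_neg z a]
  congr 2
  ring

/-- orthogonal independent pairs form one orbit -/
theorem SpF.pair_move (hk : 4 < k) {P : (Fin k → F) → (Fin k → F) → Prop} (hP : ∀ c y u v, P u v → P (φ.tv c y u) (φ.tv c y v))
    {u v : Fin k → F} (hu : u ≠ 0) (huv : φ.f u v = 0) (hli : v ∉ Submodule.span F {u}) (h : P u v)
    {u' v' : Fin k → F} (hu' : u' ≠ 0) (huv' : φ.f u' v' = 0) (hli' : v' ∉ Submodule.span F {u'}) : P u' v' := by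
  refine Symp.pair_induction φ.symp (by rw [Fintype.card_fin]; exact hk) (P := P) (fun a b z t hab => ?_) hu hli huv h hu' hli' huv'
  rw [φ.tr_tv, φ.tr_tv]
  exact hP _ _ _ _ hab

/-- vectors orthogonal to a list and outside the span of a list -/
lemma SpF.exists_perp (l l' : List (Fin k → F)) (hl : l.length + l'.length < k) :
    ∃ w : Fin k → F, w ∉ Submodule.span F {x | x ∈ l'} ∧ ∀ v ∈ l, φ.f w v = 0 :=
  Symp.exists_perp_notMem φ.symp l l' (by rw [Fintype.card_fin]; exact hl)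

/-- a hyperbolic pair orthogonal to two vectors -/
lemma SpF.exists_vx (hk : 4 < k) (u y : Fin k → F) : ∃ v x, φ.f u v = 0 ∧ φ.f y v = 0 ∧ φ.f u x = 0 ∧ φ.f y x = 0 ∧ φ.f v x = 1 := by
  obtain ⟨v, hv1, hv2⟩ := φ.exists_perp [u, y] [u, y] (by simpa using hk)
  obtain ⟨x, hx1, hx2⟩ := Symp.exists_perp_ne φ.symp hv1
  have hu : φ.f u x = 0 := hx1 u (Submodule.subset_span (by simp))
  have hy : φ.f y x = 0 := hx1 y (Submodule.subset_span (by simp))
  refine ⟨v, (φ.f v x)⁻¹ • x, φ.f_zero_symm (hv2 u (by simp)), φ.f_zero_symm (hv2 y (by simp)), ?_, ?_, ?_⟩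
  · rw [φ.f_smul_right, hu, mul_zero]
  · rw [φ.f_smul_right, hy, mul_zero]
  · rw [φ.f_smul_right, inv_mul_cancel₀ hx2]

end pairs

section pe

variable {k : ℕ} {ι : Type} [Fintype ι] [DecidableEq ι] {F : Type*} [Field F] {E : Matrix (Fin k) (Fin k) F →ₐ[F] Matrix ι ι F} {φ : SpF k F}
  {K : Subgroup (GL ι F)}

/-- pair elements -/
def PE (E : Matrix (Fin k) (Fin k) F →ₐ[F] Matrix ι ι F) (φ : SpF k F) (u v : Fin k → F) (a b : Matrix ι ι F) : Matrix ι ι F :=
  E (φ.et u v) * a + E (φ.et v u) * b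

lemma PE_swap (u v : Fin k → F) (a b : Matrix ι ι F) : PE E φ u v a b = PE E φ v u b a := add_comm _ _

lemma PE_add (u v : Fin k → F) (a b a' b' : Matrix ι ι F) : PE E φ u v (a + a') (b + b') = PE E φ u v a b + PE E φ u v a' b' := by
  rw [PE, PE, PE, mul_add, mul_add]; abel

lemma PE_smul (c : F) (u v : Fin k → F) (a b : Matrix ι ι F) : PE E φ u v (c • a) (c • b) = c • PE E φ u v a b := by
  rw [PE, PE, mul_smul_comm, mul_smul_comm, smul_add]

lemma PE_smul_left (c : F) (u v : Fin k → F) (a b : Matrix ι ι F) : PE E φ (c • u) v a b = c • PE E φ u v a b := by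
  rw [PE, PE, φ.et_smul_left, φ.et_smul_right, map_smul, map_smul, smul_mul_assoc, smul_mul_assoc, smul_add]

lemma PE_smul_right (c : F) (u v : Fin k → F) (a b : Matrix ι ι F) : PE E φ u (c • v) a b = c • PE E φ u v a b := by
  rw [PE_swap, PE_smul_left, PE_swap]

lemma PE_add_right (u v v' : Fin k → F) (a b : Matrix ι ι F) : PE E φ u (v + v') a b = PE E φ u v a b + PE E φ u v' a b := by
  rw [PE, PE, PE, φ.et_add_left, φ.et_add_right, map_add, map_add, add_mul, add_mul]; abel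

lemma PE_sub_right (u v v' : Fin k → F) (a b : Matrix ι ι F) : PE E φ u (v - v') a b = PE E φ u v a b - PE E φ u v' a b := by
  rw [PE, PE, PE, φ.et_sub_left, φ.et_sub_right, map_sub, map_sub, sub_mul, sub_mul]; abel

lemma PE_mul {u v x y : Fin k → F} {a b c d : Matrix ι ι F} (ha : Cmt E a) (hb : Cmt E b) : PE E φ u v a b * PE E φ x y c d =
    φ.f v x • (E (φ.et u y) * (a * c)) + φ.f v y • (E (φ.et u x) * (a * d)) + φ.f u x • (E (φ.et v y) * (b * c)) + φ.f u y • (E (φ.et v x) * (b * d)) := by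
  rw [PE, PE, add_mul, mul_add, mul_add, E_mul_A ha, E_mul_A ha, E_mul_A hb, E_mul_A hb, φ.et_mul, φ.et_mul, φ.et_mul, φ.et_mul]
  simp only [map_smul, smul_mul_assoc]
  abel

lemma PE_conj {u v : Fin k → F} {a b : Matrix ι ι F} (ha : Cmt E a) (hb : Cmt E b) (c : F) (y : Fin k → F) :
    E (1 + c • φ.et y y) * PE E φ u v a b * E (1 - c • φ.et y y) = PE E φ (φ.tv c y u) (φ.tv c y v) a b := by
  have e : ∀ (x : Matrix (Fin k) (Fin k) F) {A : Matrix ι ι F}, Cmt E A → E (1 + c • φ.et y y) * (E x * A) * E (1 - c • φ.et y y) =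
      E ((1 + c • φ.et y y) * x * (1 - c • φ.et y y)) * A := by
    intro x A hA
    rw [map_mul, map_mul]
    calc E (1 + c • φ.et y y) * (E x * A) * E (1 - c • φ.et y y) = E (1 + c • φ.et y y) * E x * (A * E (1 - c • φ.et y y)) := by simp only [mul_assoc]
      _ = _ := by rw [← hA]; simp only [mul_assoc]
  rw [PE, PE, mul_add (E (1 + c • φ.et y y)), add_mul _ _ (E (1 - c • φ.et y y)), e _ ha, e _ hb, φ.et_conj, φ.et_conj]

lemma cb_PE (p q u v : Fin k → F) {a b : Matrix ι ι F} (ha : Cmt E a) (hb : Cmt E b) :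
    cb φ E p q (PE E φ u v a b) = (φ.f p u * φ.f v q) • a + (φ.f p v * φ.f u q) • b := by
  rw [PE, cb_add, cb_et _ _ _ _ ha, cb_et _ _ _ _ hb]

lemma ring_two {R : Type*} [Ring R] {X X' b : R} (h1 : X * X' = 0) (h2 : X' * X = 0) :
    (1 + X') * ((1 + X) * b * (1 - X) - b) * (1 - X') - ((1 + X) * b * (1 - X) - b) = -(X' * b * X + X * b * X') := by
  obtain ⟨c, hc⟩ : ∃ c, c = (1 + X) * b * (1 - X) - b := ⟨_, rfl⟩
  rw [← hc]
  have e1 : X' * c = -(X' * b * X) := by
    calc X' * c = (X' * X) * b * (1 - X) - X' * b * X := by rw [hc]; noncomm_ring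
      _ = _ := by rw [h2]; noncomm_ring
  have e2 : c * X' = X * b * X' := by
    calc c * X' = X * b * X' - (1 + X) * b * (X * X') := by rw [hc]; noncomm_ring
      _ = _ := by rw [h1]; noncomm_ring
  have e3 : X' * c * X' = 0 := by
    rw [e1]
    calc -(X' * b * X) * X' = -(X' * b * (X * X')) := by noncomm_ring
      _ = 0 := by rw [h1]; noncomm_ring
  calc (1 + X') * c * (1 - X') - c = X' * c - c * X' - X' * c * X' := by noncomm_ring
    _ = _ := by rw [e3, e1, e2]; noncomm_ring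

/-- blocks of orthogonal independent pairs determine commutation -/
lemma exists_block (hk : 4 < k) {Z : Matrix ι ι F} (h : ¬ Cmt E Z) :
    ∃ u v : Fin k → F, u ≠ 0 ∧ φ.f u v = 0 ∧ v ∉ Submodule.span F {u} ∧ cb φ E u v Z ≠ 0 := by
  by_contra hcon
  push Not at hcon
  apply h
  have z1 : ∀ v, cb φ E 0 v Z = 0 := by
    intro v
    have := cb_smul_left (φ := φ) (E := E) 0 0 v Z
    rw [zero_smul, zero_smul] at this
    exact this
  have h1 : ∀ u, cb φ E u u Z = 0 := by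
    intro u
    by_cases hu : u = 0
    · rw [hu]; exact z1 0
    obtain ⟨z, hz1, hz2⟩ := φ.exists_perp [u] [u] (by simp; omega)
    obtain ⟨s, hs1, hs2⟩ := φ.exists_perp [u, z] [u, z] (by simpa using hk)
    have hzu : φ.f z u = 0 := hz2 u (by simp)
    have hsu : φ.f s u = 0 := hs2 u (by simp)
    have hsz : φ.f s z = 0 := hs2 z (by simp)
    have hz1' : z ∉ Submodule.span F {u} := by simpa using hz1
    have hs1' : s ∉ Submodule.span F {u, z} := by
      have : {x | x ∈ [u, z]} = ({u, z} : Set (Fin k → F)) := by ext x; simp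
      rwa [this] at hs1
    have hs0 : s ≠ 0 := by rintro rfl; exact hs1' (Submodule.zero_mem _)
    have hsu' : u ∉ Submodule.span F {s} := by
      intro hc
      obtain ⟨c, hc⟩ := Submodule.mem_span_singleton.1 hc
      have hc0 : c ≠ 0 := by rintro rfl; rw [zero_smul] at hc; exact hu hc.symm
      apply hs1'
      have : s = c⁻¹ • u := by rw [← hc, smul_smul, inv_mul_cancel₀ hc0, one_smul]
      rw [this]
      exact Submodule.smul_mem _ _ (Submodule.subset_span (by simp))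
    have hsz' : z ∉ Submodule.span F {s} := by
      intro hc
      obtain ⟨c, hc⟩ := Submodule.mem_span_singleton.1 hc
      have hc0 : c ≠ 0 := by
        rintro rfl; rw [zero_smul] at hc
        exact hz1' (by rw [← hc]; exact Submodule.zero_mem _)
      apply hs1'
      have : s = c⁻¹ • z := by rw [← hc, smul_smul, inv_mul_cancel₀ hc0, one_smul]
      rw [this]
      exact Submodule.smul_mem _ _ (Submodule.subset_span (by simp))
    have hus : u + s ≠ 0 := by
      intro h0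
      apply hsu'
      rw [eq_neg_of_add_eq_zero_left h0]
      exact Submodule.neg_mem _ (Submodule.mem_span_singleton_self s)
    have huz : u + z ∉ Submodule.span F {u + s} := by
      intro hc
      obtain ⟨c, hc⟩ := Submodule.mem_span_singleton.1 hc
      by_cases hc0 : c = 0
      · rw [hc0, zero_smul] at hc
        apply hz1'
        have : z = - u := eq_neg_of_add_eq_zero_right hc.symm
        rw [this]; exact Submodule.neg_mem _ (Submodule.mem_span_singleton_self u)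
      · apply hs1'
        have : s = c⁻¹ • (u + z) - u := by rw [← hc, smul_smul, inv_mul_cancel₀ hc0, one_smul, add_sub_cancel_left]
        rw [this]
        exact Submodule.sub_mem _ (Submodule.smul_mem _ _ (Submodule.add_mem _ (Submodule.subset_span (by simp)) (Submodule.subset_span (by simp))))
          (Submodule.subset_span (by simp))
    have hz0 : φ.f u z = 0 := φ.f_zero_symm hzu
    have e1 := hcon (u + s) (u + z) hus (by rw [φ.f_add_left, φ.f_add_right, φ.f_add_right, φ.f_self, hz0, hsu, hsz]; ring) huz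
    rw [cb_add_left, cb_add_right, cb_add_right, hcon u z hu hz0 hz1', hcon s u hs0 hsu hsu', hcon s z hs0 hsz hsz', add_zero, add_zero, add_zero] at e1
    exact e1
  apply cmt_of_cb (φ := φ)
  intro u v huv
  by_cases hu : u = 0
  · rw [hu]; exact z1 v
  by_cases hv : v ∈ Submodule.span F {u}
  · obtain ⟨c, rfl⟩ := Submodule.mem_span_singleton.1 hv
    rw [cb_smul_right, h1, smul_zero]
  · exact hcon u v hu huv hv

end pe

namespace Sys

variable {k : ℕ} {T ι : Type} [DecidableEq T] [Fintype ι] [DecidableEq ι] {F : Type*} [Field F] {S : Sys k T ι F} {φ : SpF k F}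

/-- submodules invariant under conjugation with the roots of the factors in `J` -/
structure InvE (S : Sys k T ι F) (φ : SpF k F) (J : Finset T) (B : Submodule F (Matrix ι ι F)) : Prop where
  on : ∀ b ∈ B, S.On J b
  conj : ∀ j ∈ J, ∀ (c : F) w, ∀ b ∈ B, S.E j (1 + c • φ.et w w) * b * S.E j (1 - c • φ.et w w) ∈ B

/-- coefficients of pair elements -/
def mP (S : Sys k T ι F) (φ : SpF k F) (j : T) (B : Submodule F (Matrix ι ι F)) : Submodule F (Matrix ι ι F) where
  carrier := {a | Cmt (S.E j) a ∧ ∃ b, Cmt (S.E j) b ∧ ∀ u v, φ.f u v = 0 → PE (S.E j) φ u v a b ∈ B}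
  add_mem' := fun ⟨h1, b, h2, h3⟩ ⟨h4, b', h5, h6⟩ => ⟨h1.add h4, b + b', h2.add h5, fun u v huv => by
    rw [PE_add]; exact B.add_mem (h3 u v huv) (h6 u v huv)⟩
  zero_mem' := ⟨Cmt.zero, 0, Cmt.zero, fun u v _ => by rw [PE, mul_zero, mul_zero, add_zero]; exact B.zero_mem⟩
  smul_mem' := fun c a ⟨h1, b, h2, h3⟩ => ⟨h1.smul c, c • b, h2.smul c, fun u v huv => by rw [PE_smul]; exact B.smul_mem c (h3 u v huv)⟩

/-- pure coefficients -/
def mQ (S : Sys k T ι F) (φ : SpF k F) (j : T) (B : Submodule F (Matrix ι ι F)) : Submodule F (Matrix ι ι F) where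
  carrier := {a | Cmt (S.E j) a ∧ ∀ u v, φ.f u v = 0 → S.E j (φ.et u v) * a ∈ B}
  add_mem' := fun ⟨h1, h3⟩ ⟨h4, h6⟩ => ⟨h1.add h4, fun u v huv => by rw [mul_add]; exact B.add_mem (h3 u v huv) (h6 u v huv)⟩
  zero_mem' := ⟨Cmt.zero, fun u v _ => by rw [mul_zero]; exact B.zero_mem⟩
  smul_mem' := fun c a ⟨h1, h3⟩ => ⟨h1.smul c, fun u v huv => by rw [mul_smul_comm]; exact B.smul_mem c (h3 u v huv)⟩

namespace InvE

variable {J : Finset T} {B : Submodule F (Matrix ι ι F)} (hB : S.InvE φ J B)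

include hB

lemma two {j : T} (hj : j ∈ J) {u v : Fin k → F} (huv : φ.f u v = 0) {b : Matrix ι ι F} (hb : b ∈ B) :
    PE (S.E j) φ u v (cb φ (S.E j) u v b) (cb φ (S.E j) v u b) ∈ B := by
  have h1 : S.E j (φ.et v v) * S.E j (φ.et u u) = 0 := by rw [← map_mul, φ.et_mul, φ.f_zero_symm huv, zero_smul, map_zero]
  have h2 : S.E j (φ.et u u) * S.E j (φ.et v v) = 0 := by rw [← map_mul, φ.et_mul, huv, zero_smul, map_zero]
  have h3 := ring_two (b := b) h1 h2
  have h4 : ∀ w : Fin k → F, ∀ b ∈ B, (1 + S.E j (φ.et w w)) * b * (1 - S.E j (φ.et w w)) ∈ B := by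
    intro w b hb
    have := hB.conj j hj 1 w b hb
    rwa [one_smul, map_add, map_sub, map_one] at this
  have h5 : (1 + S.E j (φ.et v v)) * b * (1 - S.E j (φ.et v v)) - b ∈ B := B.sub_mem (h4 v b hb) hb
  have h6 := B.sub_mem (h4 u _ h5) h5
  rw [h3, E_cb, E_cb] at h6
  exact (Submodule.neg_mem_iff _).1 h6

lemma mem_mP (hk : 4 < k) {j : T} (hj : j ∈ J) {u v : Fin k → F} (hu : u ≠ 0) (huv : φ.f u v = 0) (hli : v ∉ Submodule.span F {u})
    {a b : Matrix ι ι F} (ha : Cmt (S.E j) a) (hb : Cmt (S.E j) b) (h : PE (S.E j) φ u v a b ∈ B) :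
    ∀ u v, φ.f u v = 0 → PE (S.E j) φ u v a b ∈ B := by
  have key : ∀ u' v' : Fin k → F, u' ≠ 0 → φ.f u' v' = 0 → v' ∉ Submodule.span F {u'} → PE (S.E j) φ u' v' a b ∈ B := by
    intro u' v' h1 h2 h3
    refine φ.pair_move hk (P := fun u v => PE (S.E j) φ u v a b ∈ B) (fun c y u v h => ?_) hu huv hli h h1 h2 h3
    rw [← PE_conj ha hb]
    exact hB.conj j hj c y _ h
  intro u' v' h2
  by_cases h1 : u' = 0
  · rw [h1, PE, φ.et_zero_left, φ.et_zero_right, map_zero, zero_mul, zero_mul, add_zero]; exact B.zero_mem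
  by_cases h3 : v' ∈ Submodule.span F {u'}
  · obtain ⟨z, hz1, hz2⟩ := φ.exists_perp [u'] [u'] (by simp; omega)
    have hz1' : z ∉ Submodule.span F {u'} := by simpa using hz1
    have hz0 : φ.f u' z = 0 := φ.f_zero_symm (hz2 u' (by simp))
    have e1 := key u' z h1 hz0 hz1'
    have e2 := key u' (v' + z) h1 (by rw [φ.f_add_right, h2, hz0, add_zero]) (fun hc => hz1' (by
      have := Submodule.sub_mem _ hc h3
      rwa [add_sub_cancel_left] at this))
    have e3 := B.sub_mem e2 e1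
    rwa [← PE_sub_right, add_sub_cancel_right] at e3
  · exact key u' v' h1 h2 h3


lemma cmt_stp {i j : T} (hij : i ≠ j) (p q x : Matrix (Fin k) (Fin k) F) (d : Matrix ι ι F) :
    S.E i p * (S.E j x * d) * S.E i q = S.E j x * (S.E i p * d * S.E i q) := by
  rw [← mul_assoc, S.comm i j hij]; simp only [mul_assoc]

lemma on_erase {j : T} {d : Matrix ι ι F} (h : S.On J d) (hd : Cmt (S.E j) d) : S.On (J.erase j) d := by
  intro l hl
  by_cases hlj : l = j
  · subst hlj; exact hd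
  · exact h l fun h4 => hl (Finset.mem_erase.2 ⟨hlj, h4⟩)

lemma mP_inv (hk : 4 < k) {j : T} (hj : j ∈ J) : S.InvE φ (J.erase j) (S.mP φ j B) where
  on := by
    rintro a ⟨ha, b, hb, h⟩
    apply on_erase hB _ ha
    have hu : (Pi.single (⟨0, by omega⟩ : Fin k) (1 : F) : Fin k → F) ≠ 0 := by
      intro h0; have := congrFun h0 (⟨0, by omega⟩ : Fin k); rw [Pi.single_eq_same] at this; exact one_ne_zero this
    obtain ⟨z, z', h1, h2, h3, h4⟩ := exists_indep φ (by omega) hu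
    obtain ⟨x, hx⟩ := φ.exists_hyp hu
    have h5 := hB.on _ (h _ _ h1)
    have h6 : S.On J (cb φ (S.E j) x z' (PE (S.E j) φ (Pi.single (⟨0, by omega⟩ : Fin k) (1 : F)) z a b)) := by
      rw [cb, ctr]
      exact On.sum fun r _ => ((on_E hj _).mul h5).mul (on_E hj _)
    rw [cb_PE _ _ _ _ ha hb, h2, h3, mul_zero, zero_smul, add_zero, mul_one, φ.f_neg _ x, hx] at h6
    have := h6.smul (-1 : F)
    rwa [smul_smul, neg_one_mul, neg_neg, one_smul] at this
  conj := by
    rintro i hi c w a ⟨ha, b, hb, h⟩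
    obtain ⟨hij, hiJ⟩ := Finset.mem_erase.1 hi
    have hc : ∀ {d : Matrix ι ι F}, Cmt (S.E j) d → Cmt (S.E j) (S.E i (1 + c • φ.et w w) * d * S.E i (1 - c • φ.et w w)) := fun hd =>
      ((cmt_E (Ne.symm hij) _).mul hd).mul (cmt_E (Ne.symm hij) _)
    refine ⟨hc ha, _, hc hb, fun u v huv => ?_⟩
    have h1 := hB.conj i hiJ c w _ (h u v huv)
    rw [PE, mul_add, add_mul, cmt_stp hB hij, cmt_stp hB hij] at h1
    exact h1

lemma mQ_inv (hk : 4 < k) {j : T} (hj : j ∈ J) : S.InvE φ (J.erase j) (S.mQ φ j B) where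
  on := by
    rintro a ⟨ha, h⟩
    have hu : (Pi.single (⟨0, by omega⟩ : Fin k) (1 : F) : Fin k → F) ≠ 0 := by
      intro h0; have := congrFun h0 (⟨0, by omega⟩ : Fin k); rw [Pi.single_eq_same] at this; exact one_ne_zero this
    have h3 := coeff_on hj hu (φ.fr_ne_zero hu) ha (hB.on _ (h _ _ (φ.f_self _)))
    exact on_erase hB h3 ha
  conj := by
    rintro i hi c w a ⟨ha, h⟩
    obtain ⟨hij, hiJ⟩ := Finset.mem_erase.1 hi
    refine ⟨((cmt_E (Ne.symm hij) _).mul ha).mul (cmt_E (Ne.symm hij) _), fun u v huv => ?_⟩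
    have h1 := hB.conj i hiJ c w _ (h u v huv)
    rwa [cmt_stp hB hij] at h1

lemma mP_nonzero (hk : 4 < k) {j : T} (hj : j ∈ J) {b : Matrix ι ι F} (hb : b ∈ B) (hnc : ¬ Cmt (S.E j) b) : ∃ a ∈ S.mP φ j B, a ≠ 0 := by
  obtain ⟨u, v, hu, huv, hli, hne⟩ := exists_block (φ := φ) hk hnc
  exact ⟨_, ⟨cb_cmt _ _ _, _, cb_cmt _ _ _, hB.mem_mP hk hj hu huv hli (cb_cmt _ _ _) (cb_cmt _ _ _) (hB.two hj huv hb)⟩, hne⟩

/-- elements commuting with a factor lie on the others -/
lemma erase {j : T} (hj : j ∈ J) (h : ∀ b ∈ B, Cmt (S.E j) b) : S.InvE φ (J.erase j) B where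
  on b hb := on_erase hB (hB.on b hb) (h b hb)
  conj i hi c w b hb := hB.conj i (Finset.mem_of_mem_erase hi) c w b hb

/-- products of pair elements -/
lemma PE_prod {j : T} {u v x y : Fin k → F} {a b c d : Matrix ι ι F} (ha : Cmt (S.E j) a) (hb : Cmt (S.E j) b)
    (h1 : φ.f v x = 1) (h2 : φ.f v y = 0) (h3 : φ.f u x = 0) (h4 : φ.f u y = 0) :
    PE (S.E j) φ u v a b * PE (S.E j) φ x y c d = S.E j (φ.et u y) * (a * c) := by
  rw [PE_mul ha hb, h1, h2, h3, h4, one_smul, zero_smul, zero_smul, zero_smul, add_zero, add_zero, add_zero]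

end InvE

omit [DecidableEq T] in
lemma not_cmt_of_not_scalar {J : Finset T} {b : Matrix ι ι F} (hb : S.On J b) (h : ¬ ∃ c : F, b = c • (1 : Matrix ι ι F)) : ∃ j ∈ J, ¬ Cmt (S.E j) b := by
  by_contra hcon
  push Not at hcon
  apply h
  apply S.cent
  intro i
  by_cases hi : i ∈ J
  · exact hcon i hi
  · exact hb i hi

/-- **a non-zero invariant subspace has a non-zero product** -/
theorem exists_prod_ne [Nonempty ι] (hk : 4 < k) : ∀ (n : ℕ) (J : Finset T) (B : Submodule F (Matrix ι ι F)), J.card = n → S.InvE φ J B → (∃ b ∈ B, b ≠ 0) →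
    ∃ a ∈ B, ∃ b ∈ B, a * b ≠ 0 := by
  intro n
  induction n using Nat.strong_induction_on with
  | _ n ih =>
    intro J B hn hB ⟨b, hb, hb0⟩
    by_cases hJ : ∃ j ∈ J, ∃ b ∈ B, ¬ Cmt (S.E j) b
    · obtain ⟨j, hj, b', hb', hnc⟩ := hJ
      have hlt : (J.erase j).card < n := by rw [← hn]; exact Finset.card_erase_lt_of_mem hj
      obtain ⟨α, hα, β, hβ, hne⟩ := ih _ hlt (J.erase j) _ rfl (hB.mP_inv hk hj) (hB.mP_nonzero hk hj hb' hnc)
      obtain ⟨v, x, -, -, -, -, hvx⟩ := φ.exists_vx hk 0 0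
      have hv : v ≠ 0 := by rintro rfl; rw [φ.f_zero_left] at hvx; exact zero_ne_one hvx
      obtain ⟨u, hu1, hu2⟩ := φ.exists_perp [v, x] [v] (by simp; omega)
      have huv : φ.f u v = 0 := hu2 v (by simp)
      have hux : φ.f u x = 0 := hu2 x (by simp)
      have hu0 : u ≠ 0 := by rintro rfl; exact hu1 (Submodule.zero_mem _)
      obtain ⟨hα1, α', hα2, hα3⟩ := hα
      obtain ⟨hβ1, β', hβ2, hβ3⟩ := hβ
      refine ⟨_, hα3 u v huv, _, hβ3 x u (φ.f_zero_symm hux), ?_⟩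
      rw [InvE.PE_prod hB hα1 hα2 hvx (φ.f_zero_symm huv) hux (φ.f_self u)]
      intro h0
      exact hne (eq_zero_of_E_mul (S.E j) (hα1.mul hβ1) (φ.et_ne_zero hu0 hu0) h0)
    · push Not at hJ
      have hsc : ∃ c : F, b = c • (1 : Matrix ι ι F) := by
        by_contra h
        obtain ⟨j, hj, hnc⟩ := not_cmt_of_not_scalar (hB.on b hb) h
        exact hnc (hJ j hj b hb)
      obtain ⟨c, hc⟩ := hsc
      have hc0 : c ≠ 0 := by rintro rfl; exact hb0 (by rw [hc, zero_smul])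
      refine ⟨b, hb, b, hb, ?_⟩
      rw [hc, smul_mul_assoc, one_mul, smul_smul]
      exact smul_ne_zero (mul_ne_zero hc0 hc0) one_ne_zero

/-- pure coefficients of a multiplicatively closed subspace are multiplicatively closed -/
lemma mQ_mul (hk : 4 < k) {J : Finset T} {B : Submodule F (Matrix ι ι F)} (hm : ∀ a ∈ B, ∀ b ∈ B, a * b ∈ B) {j : T} :
    ∀ a ∈ S.mQ φ j B, ∀ b ∈ S.mQ φ j B, a * b ∈ S.mQ φ j B := by
  rintro a ⟨ha, h1⟩ b ⟨hb, h2⟩
  refine ⟨ha.mul hb, fun u y huy => ?_⟩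
  obtain ⟨v, x, huv, hyv, hux, hyx, hvx⟩ := φ.exists_vx hk u y
  have h3 := hm _ (h1 u v huv) _ (h2 x y (φ.f_zero_symm hyx))
  rwa [E_mul_A ha, φ.et_mul, hvx, one_smul] at h3

lemma mQ_nonzero [Nonempty ι] (hk : 4 < k) {J : Finset T} {B : Submodule F (Matrix ι ι F)} (hB : S.InvE φ J B) (hm : ∀ a ∈ B, ∀ b ∈ B, a * b ∈ B)
    {j : T} (hj : j ∈ J) {b : Matrix ι ι F} (hb : b ∈ B) (hnc : ¬ Cmt (S.E j) b) : ∃ a ∈ S.mQ φ j B, a ≠ 0 := by
  obtain ⟨α, hα, β, hβ, hne⟩ := exists_prod_ne hk _ (J.erase j) _ rfl (hB.mP_inv hk hj) (hB.mP_nonzero hk hj hb hnc)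
  obtain ⟨hα1, α', hα2, hα3⟩ := hα
  obtain ⟨hβ1, β', hβ2, hβ3⟩ := hβ
  refine ⟨α * β, ⟨hα1.mul hβ1, fun u y huy => ?_⟩, hne⟩
  obtain ⟨v, x, huv, hyv, hux, hyx, hvx⟩ := φ.exists_vx hk u y
  have h3 := hm _ (hα3 u v huv) _ (hβ3 x y (φ.f_zero_symm hyx))
  rwa [InvE.PE_prod hB hα1 hα2 hvx (φ.f_zero_symm hyv) hux huy] at h3

lemma E_mem_of_mQ_one (hk : 4 < k) {B : Submodule F (Matrix ι ι F)} (hm : ∀ a ∈ B, ∀ b ∈ B, a * b ∈ B) {j : T} (h : (1 : Matrix ι ι F) ∈ S.mQ φ j B)
    (a : Matrix (Fin k) (Fin k) F) : S.E j a ∈ B := by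
  obtain ⟨-, h1⟩ := h
  have h2 : ∀ u v, φ.f u v = 0 → S.E j (φ.et u v) ∈ B := fun u v huv => by
    have := h1 u v huv
    rwa [mul_one] at this
  refine φ.et_induction (P := fun a => S.E j a ∈ B) (by rw [map_zero]; exact B.zero_mem) (fun a b ha hb => by rw [map_add]; exact B.add_mem ha hb) (fun u y => ?_) a
  obtain ⟨v, x, huv, hyv, hux, hyx, hvx⟩ := φ.exists_vx hk u y
  have h3 := hm _ (h2 u v huv) _ (h2 x y (φ.f_zero_symm hyx))
  rwa [← map_mul, φ.et_mul, hvx, one_smul] at h3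

/-- **a non-zero multiplicatively closed invariant subspace contains one** -/
theorem one_mem_of_mul [Nonempty ι] (hk : 4 < k) : ∀ (n : ℕ) (J : Finset T) (B : Submodule F (Matrix ι ι F)), J.card = n → S.InvE φ J B →
    (∀ a ∈ B, ∀ b ∈ B, a * b ∈ B) → (∃ b ∈ B, b ≠ 0) → (1 : Matrix ι ι F) ∈ B := by
  intro n
  induction n using Nat.strong_induction_on with
  | _ n ih =>
    intro J B hn hB hm ⟨b, hb, hb0⟩
    by_cases hJ : ∃ j ∈ J, ∃ b ∈ B, ¬ Cmt (S.E j) b
    · obtain ⟨j, hj, b', hb', hnc⟩ := hJ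
      have hlt : (J.erase j).card < n := by rw [← hn]; exact Finset.card_erase_lt_of_mem hj
      have h1 := ih _ hlt (J.erase j) _ rfl (hB.mQ_inv hk hj) (mQ_mul hk (J := J) hm) (mQ_nonzero hk hB hm hj hb' hnc)
      have h2 := E_mem_of_mQ_one hk hm h1 1
      rwa [map_one] at h2
    · push Not at hJ
      have hsc : ∃ c : F, b = c • (1 : Matrix ι ι F) := by
        by_contra h
        obtain ⟨j, hj, hnc⟩ := not_cmt_of_not_scalar (hB.on b hb) h
        exact hnc (hJ j hj b hb)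
      obtain ⟨c, hc⟩ := hsc
      have hc0 : c ≠ 0 := by rintro rfl; exact hb0 (by rw [hc, zero_smul])
      have := B.smul_mem c⁻¹ hb
      rwa [hc, smul_smul, inv_mul_cancel₀ hc0, one_smul] at this

/-- **invariant subalgebras contain the factors they do not commute with** -/
theorem factor_mem_of_mul [Nonempty ι] (hk : 4 < k) {J : Finset T} {B : Submodule F (Matrix ι ι F)} (hB : S.InvE φ J B) (hm : ∀ a ∈ B, ∀ b ∈ B, a * b ∈ B)
    {j : T} (hj : j ∈ J) {b : Matrix ι ι F} (hb : b ∈ B) (hnc : ¬ Cmt (S.E j) b) (a : Matrix (Fin k) (Fin k) F) : S.E j a ∈ B :=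
  E_mem_of_mQ_one hk hm (one_mem_of_mul hk _ (J.erase j) _ rfl (hB.mQ_inv hk hj) (mQ_mul hk (J := J) hm) (mQ_nonzero hk hB hm hj hb hnc)) a

end Sys

end Cfsg.Agent.Asch.CW
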