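import Mathlib
import Cfsg.Prelude.Def_GeometricClasses
import Cfsg.Agent.Asch.EVBase
set_option autoImplicit false
set_option linter.unusedSectionVars false
set_option linter.unusedVariables false
set_option linter.unusedSimpArgs false
set_option linter.style.haveILetI false

/-!
Short root coefficients, symplectic case with `5 < k`, all characteristics.
-/

namespace Cfsg.Agent.Asch.CW

open Matrix Module Cfsg.Geo Cfsg.Agent.GeoMax

open scoped Matrix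

section comm3

variable {ι : Type} [Fintype ι] [DecidableEq ι] {F : Type*} [Field F] {K : Subgroup (GL ι F)}

/-- the commutator of two square zero elements, one triple product vanishing -/
lemma Mem1.comm3 {X Y : Matrix ι ι F} (hX : Mem1 K X) (hY : Mem1 K Y) (hX2 : X * X = 0) (hY2 : Y * Y = 0) (hYXY : Y * X * Y = 0) :
    Mem1 K (X * Y - Y * X - X * Y * X) := by
  obtain ⟨x, hx, hxX⟩ := hX
  obtain ⟨y, hy, hyY⟩ := hY
  refine ⟨x * y * (x⁻¹ * y⁻¹), K.mul_mem (K.mul_mem hx hy) (K.mul_mem (K.inv_mem hx) (K.inv_mem hy)), ?_⟩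
  rw [Units.val_mul, Units.val_mul, Units.val_mul, Mem1.inv_eq hxX hX2, Mem1.inv_eq hyY hY2, hxX, hyY]
  have h1 : (1 + X) * (1 + Y) * ((1 - X) * (1 - Y)) = 1 + (X * Y - Y * X - X * Y * X) - X * X - Y * Y + X * X * Y + Y * X * Y + X * (Y * X * Y) - X * (Y * Y) := by
    noncomm_ring
  rw [h1, hX2, hY2, hYXY]
  simp

end comm3

section pe2

variable {k : ℕ} {ι : Type} [Fintype ι] [DecidableEq ι] {F : Type*} [Field F] {E : Matrix (Fin k) (Fin k) F →ₐ[F] Matrix ι ι F} {φ : SpF k F}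
  {K : Subgroup (GL ι F)}

lemma PE_sq {u v : Fin k → F} (h : φ.f u v = 0) {a b c d : Matrix ι ι F} (ha : Cmt E a) (hb : Cmt E b) : PE E φ u v a b * PE E φ u v c d = 0 := by
  rw [PE_mul ha hb, h, φ.f_zero_symm h, φ.f_self, φ.f_self]
  simp

lemma PE_mul_et {u v p : Fin k → F} {a b c : Matrix ι ι F} (ha : Cmt E a) (hb : Cmt E b) :
    PE E φ u v a b * (E (φ.et p p) * c) = φ.f v p • (E (φ.et u p) * (a * c)) + φ.f u p • (E (φ.et v p) * (b * c)) := by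
  rw [PE, add_mul, E_mul_A ha, E_mul_A hb, φ.et_mul, φ.et_mul, map_smul, map_smul, smul_mul_assoc, smul_mul_assoc]

lemma et_mul_PE {u v p : Fin k → F} {a b c : Matrix ι ι F} (hc : Cmt E c) :
    E (φ.et p p) * c * PE E φ u v a b = φ.f p u • (E (φ.et p v) * (c * a)) + φ.f p v • (E (φ.et p u) * (c * b)) := by
  rw [PE, mul_add, E_mul_A hc, E_mul_A hc, φ.et_mul, φ.et_mul, map_smul, map_smul, smul_mul_assoc, smul_mul_assoc]

lemma PE_mem_conj (hR : RootsS φ E K) {u v : Fin k → F} {a b : Matrix ι ι F} (ha : Cmt E a) (hb : Cmt E b) (h : Mem1 K (PE E φ u v a b)) (c : F) (y : Fin k → F) :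
    Mem1 K (PE E φ (φ.tv c y u) (φ.tv c y v) a b) := by
  have h1 := (hR c y).cj h (E_sq (cet_sq φ c y))
  rw [← PE_conj ha hb, map_add, map_sub, map_one]
  exact h1

/-- one pair suffices -/
lemma PE_mem_all (hk : 4 < k) (hR : RootsS φ E K) {u v : Fin k → F} (hu : u ≠ 0) (huv : φ.f u v = 0) (hli : v ∉ Submodule.span F {u})
    {a b : Matrix ι ι F} (ha : Cmt E a) (hb : Cmt E b) (h : Mem1 K (PE E φ u v a b)) {u' v' : Fin k → F} (hu' : u' ≠ 0) (huv' : φ.f u' v' = 0)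
    (hli' : v' ∉ Submodule.span F {u'}) : Mem1 K (PE E φ u' v' a b) :=
  φ.pair_move hk (P := fun u v => Mem1 K (PE E φ u v a b)) (fun c y u v h => PE_mem_conj hR ha hb h c y) hu huv hli h hu' huv' hli'

lemma PE_one_mem (hR : RootsS φ E K) {u v : Fin k → F} (huv : φ.f u v = 0) : Mem1 K (PE E φ u v 1 1) := by
  have h1 := mem_D (one_mem_coS hR) huv 1
  rw [one_smul, mul_one] at h1
  rw [PE, mul_one, mul_one, ← map_add]
  exact h1

/-- **purification** -/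
lemma PE_purify (hk : 4 < k) (hR : RootsS φ E K) {u p : Fin k → F} (hu : u ≠ 0) (hup : φ.f u p = 0) (hli : p ∉ Submodule.span F {u})
    {a b κ : Matrix ι ι F} (ha : Cmt E a) (hb : Cmt E b) (hκ : Cmt E κ) (h : Mem1 K (PE E φ u p a b + E (φ.et u u) * κ))
    {u' v' : Fin k → F} (hu' : u' ≠ 0) (huv' : φ.f u' v' = 0) (hli' : v' ∉ Submodule.span F {u'}) : Mem1 K (PE E φ u' v' a b) := by
  obtain ⟨p', h1, h2⟩ := φ.exists_sep hli
  obtain ⟨q, hq1, hq2⟩ := φ.exists_perp [u, p, p'] [u] (by simp; omega)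
  have hq1' : q ∉ Submodule.span F {u} := by simpa using hq1
  have hqu : φ.f q u = 0 := hq2 u (by simp)
  have hqp : φ.f q p = 0 := hq2 p (by simp)
  have hqp' : φ.f q p' = 0 := hq2 p' (by simp)
  have huq := φ.f_zero_symm hqu
  have hpq := φ.f_zero_symm hqp
  have hp'u := φ.f_zero_symm h1
  have hpu := φ.f_zero_symm hup
  have hp'p : φ.f p' p = -1 := by rw [φ.f_neg p p', h2]
  have hY := PE_one_mem (u := p') (v := q) hR (φ.f_zero_symm hqp')
  refine PE_mem_all hk hR hu huq hq1' ha hb ?_ hu' huv' hli'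
  have e1 : (PE E φ u p a b + E (φ.et u u) * κ) * PE E φ p' q 1 1 = E (φ.et u q) * a := by
    rw [add_mul, PE_mul ha hb, et_mul_PE hκ, h1, h2, hpq, huq]
    simp
  have e2 : PE E φ p' q 1 1 * (PE E φ u p a b + E (φ.et u u) * κ) = -(E (φ.et q u) * b) := by
    rw [mul_add, PE_mul Cmt.one Cmt.one, PE_mul_et Cmt.one Cmt.one, hqu, hqp, hp'u, hp'p]
    simp
  have e3 : (PE E φ u p a b + E (φ.et u u) * κ) * (PE E φ u p a b + E (φ.et u u) * κ) = 0 := by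
    rw [add_mul, mul_add, mul_add, PE_sq hup ha hb, PE_mul_et ha hb, et_mul_PE hκ, E_mul_A hκ, hpu, φ.f_self, hup, φ.et_sq]
    simp
  have e4 : E (φ.et u q) * a * (PE E φ u p a b + E (φ.et u u) * κ) = 0 := by
    rw [mul_add, PE, mul_add, E_mul_A ha, E_mul_A ha, E_mul_A ha, φ.et_mul, φ.et_mul, φ.et_mul, hqu, hqp]
    simp
  have e5 : E (φ.et q u) * b * PE E φ p' q 1 1 = 0 := by
    rw [PE, mul_add, E_mul_A hb, E_mul_A hb, φ.et_mul, φ.et_mul, h1, huq]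
    simp
  have h3 := h.comm2 hY e3 (PE_sq (φ.f_zero_symm hqp') Cmt.one Cmt.one) (by rw [e1, e4]) (by rw [e2, neg_mul, e5, neg_zero])
  rw [e1, e2, sub_neg_eq_add] at h3
  exact h3

end pe2

namespace Sys

variable {k : ℕ} {T ι : Type} [DecidableEq T] [Fintype ι] [DecidableEq ι] {F : Type*} [Field F] {S : Sys k T ι F} {φ : SpF k F}

lemma st_PE (Θ : SSt S φ) {i : T} (u v : Fin k → F) {a b : Matrix ι ι F} (ha : Cmt (S.E i) a) (hb : Cmt (S.E i) b) :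
    Θ.st (PE (S.E i) φ u v a b) = - PE (S.E i) φ u v (Θ.st b) (Θ.st a) := by
  rw [PE, PE, Θ.st_add, Θ.st_mul, Θ.st_mul, Θ.st_et, Θ.st_et, mul_neg, mul_neg, ← Θ.st_cmt ha, ← Θ.st_cmt hb]
  abel

/-- pair elements are determined by their coefficients -/
lemma PE_inj [Nonempty ι] {i : T} {u v : Fin k → F} (hu : u ≠ 0) (huv : φ.f u v = 0) (hli : v ∉ Submodule.span F {u}) {a b : Matrix ι ι F}
    (ha : Cmt (S.E i) a) (hb : Cmt (S.E i) b) {c : F} (h : PE (S.E i) φ u v a b = c • (1 : Matrix ι ι F)) : a = 0 := by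
  obtain ⟨q, hq1, hq2⟩ := φ.exists_sep hli
  -- f u q = 0, f v q = 1
  obtain ⟨p, hp1, hp2⟩ : ∃ p, φ.f q p = 0 ∧ φ.f u p = 1 := by
    apply φ.exists_sep
    intro hc
    obtain ⟨d, hd⟩ := Submodule.mem_span_singleton.1 hc
    have : φ.f v u = 0 := φ.f_zero_symm huv
    rw [← hd, φ.f_smul_right, hq2, mul_one] at this
    rw [this, zero_smul] at hd
    exact hu hd.symm
  have h1 := congrArg (cb φ (S.E i) p q) h
  rw [cb_PE _ _ _ _ ha hb, hq1, hq2, mul_zero, zero_smul, add_zero, mul_one, φ.f_neg u p, hp2, cb_smul, cb_of_cmt _ _ Cmt.one,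
    φ.f_zero_symm hp1, zero_smul, smul_zero, neg_one_smul, neg_eq_zero] at h1
  exact h1

/-- short coefficients -/
def mG (Θ : SSt S φ) (i : T) (K : Subgroup (GL ι F)) : Submodule F (Matrix ι ι F) where
  carrier := {A | Cmt (S.E i) A ∧ ∀ u v, u ≠ 0 → φ.f u v = 0 → v ∉ Submodule.span F {u} → Mem1 K (PE (S.E i) φ u v A (Θ.st A))}
  add_mem' := fun {A B} ⟨h1, h2⟩ ⟨h3, h4⟩ => ⟨h1.add h3, fun u v hu huv hli => by
    rw [Θ.st_add, PE_add]
    exact (h2 u v hu huv hli).add (h4 u v hu huv hli) (PE_sq huv h1 (Θ.st_cmt h1))⟩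
  zero_mem' := ⟨Cmt.zero, fun u v hu huv hli => by rw [map_zero, PE, mul_zero, mul_zero, add_zero]; exact mem1_zero⟩
  smul_mem' := fun c A ⟨h1, h2⟩ => ⟨h1.smul c, fun u v hu huv hli => by
    rw [map_smul, PE_smul, ← PE_smul_left]
    by_cases hc : c = 0
    · rw [hc, zero_smul, PE, φ.et_zero_left, φ.et_zero_right, map_zero, zero_mul, zero_mul, add_zero]; exact mem1_zero
    · refine h2 (c • u) v (smul_ne_zero hc hu) (by rw [φ.f_smul_left, huv, mul_zero]) ?_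
      rw [Submodule.span_singleton_smul_eq (IsUnit.mk0 c hc)]
      exact hli⟩

section mg

variable {Θ : SSt S φ} {i : T} {K : Subgroup (GL ι F)}

lemma one_mem_mG (hR : RootsS φ (S.E i) K) : (1 : Matrix ι ι F) ∈ mG Θ i K :=
  ⟨Cmt.one, fun u v _ huv _ => by rw [Θ.st_one]; exact PE_one_mem hR huv⟩

lemma mem_mG_of [Nonempty ι] (hk : 4 < k) (hI : ∀ x ∈ K, Θ.Iso x) (hR : RootsS φ (S.E i) K) {u v : Fin k → F} (hu : u ≠ 0) (huv : φ.f u v = 0)
    (hli : v ∉ Submodule.span F {u}) {A B : Matrix ι ι F} (hA : Cmt (S.E i) A) (hB : Cmt (S.E i) B) (h : Mem1 K (PE (S.E i) φ u v A B)) :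
    A ∈ mG Θ i K ∧ B = Θ.st A := by
  have h1 : B = Θ.st A := by
    obtain ⟨x, hx, hxv⟩ := h
    have h2 := (hI x hx).st_neg_of_sq hxv (PE_sq huv hA hB)
    rw [st_PE Θ u v hA hB, neg_inj] at h2
    have h3 : PE (S.E i) φ u v (Θ.st B - A) (Θ.st A - B) = (0 : F) • (1 : Matrix ι ι F) := by
      have : PE (S.E i) φ u v (Θ.st B) (Θ.st A) = PE (S.E i) φ u v A B + PE (S.E i) φ u v (Θ.st B - A) (Θ.st A - B) := by
        rw [← PE_add]; congr 1 <;> abel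
      rw [h2, left_eq_add] at this
      rw [this, zero_smul]
    have h4 := PE_inj hu huv hli ((Θ.st_cmt hB).sub hA) ((Θ.st_cmt hA).sub hB) h3
    rw [← sub_eq_zero.1 h4, Θ.st_st]
  subst h1
  exact ⟨⟨hA, fun u' v' hu' huv' hli' => PE_mem_all hk hR hu huv hli hA hB h hu' huv' hli'⟩, rfl⟩

lemma mG_mul [Nonempty ι] (hk : 4 < k) (hI : ∀ x ∈ K, Θ.Iso x) (hR : RootsS φ (S.E i) K) {A B : Matrix ι ι F} (hA : A ∈ mG Θ i K) (hB : B ∈ mG Θ i K) :
    A * B ∈ mG Θ i K := by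
  obtain ⟨hA1, hA2⟩ := hA
  obtain ⟨hB1, hB2⟩ := hB
  refine ⟨hA1.mul hB1, fun u y hu huy hli => ?_⟩
  obtain ⟨v, x, huv, hyv, hux, hyx, hvx⟩ := φ.exists_vx hk u y
  have hvy := φ.f_zero_symm hyv
  have hxu := φ.f_zero_symm hux
  have hyu := φ.f_zero_symm huy
  have hxv : φ.f x v = -1 := by rw [φ.f_neg v x, hvx]
  have hy : y ≠ 0 := by rintro rfl; exact hli (Submodule.zero_mem _)
  have hx : x ≠ 0 := by rintro rfl; rw [φ.f_zero_right] at hvx; exact zero_ne_one hvx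
  have h1 := hA2 u v hu huv (fun hc => by
    obtain ⟨c, hc⟩ := Submodule.mem_span_singleton.1 hc
    rw [← hc, φ.f_smul_left, hux, mul_zero] at hvx
    exact zero_ne_one hvx)
  have h2 := hB2 x y hx (φ.f_zero_symm hyx) (fun hc => by
    obtain ⟨c, hc⟩ := Submodule.mem_span_singleton.1 hc
    rw [← hc, φ.f_smul_left, hxv] at hyv
    have hc0 : c = 0 := by simpa using hyv
    rw [hc0, zero_smul] at hc
    exact hy hc.symm)
  have e1 : PE (S.E i) φ u v A (Θ.st A) * PE (S.E i) φ x y B (Θ.st B) = S.E i (φ.et u y) * (A * B) := by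
    rw [PE_mul hA1 (Θ.st_cmt hA1), hvx, hvy, hux, huy]; simp
  have e2 : PE (S.E i) φ x y B (Θ.st B) * PE (S.E i) φ u v A (Θ.st A) = -(S.E i (φ.et y u) * (Θ.st B * Θ.st A)) := by
    rw [PE_mul hB1 (Θ.st_cmt hB1), hyu, hyv, hxu, hxv]; simp
  have e3 : S.E i (φ.et u y) * (A * B) * PE (S.E i) φ u v A (Θ.st A) = 0 := by
    rw [PE, mul_add, E_mul_A (hA1.mul hB1), E_mul_A (hA1.mul hB1), φ.et_mul, φ.et_mul, hyu, hyv]; simp
  have e4 : S.E i (φ.et y u) * (Θ.st B * Θ.st A) * PE (S.E i) φ x y B (Θ.st B) = 0 := by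
    rw [PE, mul_add, E_mul_A ((Θ.st_cmt hB1).mul (Θ.st_cmt hA1)), E_mul_A ((Θ.st_cmt hB1).mul (Θ.st_cmt hA1)), φ.et_mul, φ.et_mul, hux, huy]; simp
  have h3 := h1.comm2 h2 (PE_sq huv hA1 (Θ.st_cmt hA1)) (PE_sq (φ.f_zero_symm hyx) hB1 (Θ.st_cmt hB1)) (by rw [e1, e3]) (by rw [e2, neg_mul, e4, neg_zero])
  rw [e1, e2, sub_neg_eq_add, ← Θ.st_mul] at h3
  exact h3

lemma mG_trace (hk : 4 ≤ k) {A B : Matrix ι ι F} (hA : A ∈ mG Θ i K) (hB : B ∈ mG Θ i K) {u : Fin k → F} (hu : u ≠ 0) :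
    Mem1 K (S.E i (φ.et u u) * (A * Θ.st B + B * Θ.st A)) := by
  obtain ⟨hA1, hA2⟩ := hA
  obtain ⟨hB1, hB2⟩ := hB
  obtain ⟨v, x, huv, hux, hvx, hli⟩ := exists_indep φ hk hu
  have hvu := φ.f_zero_symm huv
  have hxu := φ.f_zero_symm hux
  have hxv : φ.f x v = -1 := by rw [φ.f_neg v x, hvx]
  have hli' : x ∉ Submodule.span F {u} := fun hc => by
    obtain ⟨c, hc⟩ := Submodule.mem_span_singleton.1 hc
    rw [← hc, φ.f_smul_right, hvu, mul_zero] at hvx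
    exact zero_ne_one hvx
  have h1 := hA2 u v hu huv hli
  have h2 := hB2 u x hu hux hli'
  have e1 : PE (S.E i) φ u v A (Θ.st A) * PE (S.E i) φ u x B (Θ.st B) = S.E i (φ.et u u) * (A * Θ.st B) := by
    rw [PE_mul hA1 (Θ.st_cmt hA1), hvx, hvu, hux, φ.f_self]; simp
  have e2 : PE (S.E i) φ u x B (Θ.st B) * PE (S.E i) φ u v A (Θ.st A) = -(S.E i (φ.et u u) * (B * Θ.st A)) := by
    rw [PE_mul hB1 (Θ.st_cmt hB1), hxu, hxv, huv, φ.f_self]; simp
  have e3 : S.E i (φ.et u u) * (A * Θ.st B) * PE (S.E i) φ u v A (Θ.st A) = 0 := by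
    rw [et_mul_PE (hA1.mul (Θ.st_cmt hB1)), φ.f_self, huv]; simp
  have e4 : S.E i (φ.et u u) * (B * Θ.st A) * PE (S.E i) φ u x B (Θ.st B) = 0 := by
    rw [et_mul_PE (hB1.mul (Θ.st_cmt hA1)), φ.f_self, hux]; simp
  have h3 := h1.comm2 h2 (PE_sq huv hA1 (Θ.st_cmt hA1)) (PE_sq hux hB1 (Θ.st_cmt hB1)) (by rw [e1, e3]) (by rw [e2, neg_mul, e4, neg_zero])
  rw [e1, e2, sub_neg_eq_add, ← mul_add] at h3
  exact h3

/-- long coefficients are short coefficients -/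
lemma mem_mG_of_long [Nonempty ι] (hk : 4 < k) (hI : ∀ x ∈ K, Θ.Iso x) (hR : RootsS φ (S.E i) K) {v : Fin k → F} (hv : v ≠ 0) {A : Matrix ι ι F}
    (hA : Cmt (S.E i) A) (hY : Mem1 K (S.E i (φ.et v v) * A)) : A ∈ mG Θ i K := by
  -- f v w = 1
  obtain ⟨w, hvw⟩ := φ.exists_hyp hv
  obtain ⟨u, hu1, hu2⟩ := φ.exists_perp [v, w] [v, w] (by simpa using hk)
  have huv : φ.f u v = 0 := hu2 v (by simp)
  have huw : φ.f u w = 0 := hu2 w (by simp)
  have hu : u ≠ 0 := by rintro rfl; exact hu1 (Submodule.zero_mem _)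
  have hwv : φ.f w v = -1 := by rw [φ.f_neg v w, hvw]
  have hvu := φ.f_zero_symm huv
  have hX := PE_one_mem (u := u) (v := w) hR huw
  have hliuv : v ∉ Submodule.span F {u} := fun hc => by
    obtain ⟨c, hc⟩ := Submodule.mem_span_singleton.1 hc
    rw [← hc, φ.f_smul_left, huw, mul_zero] at hvw
    exact zero_ne_one hvw
  have e1 : PE (S.E i) φ u w 1 1 * (S.E i (φ.et v v) * A) = -(S.E i (φ.et u v) * A) := by
    rw [PE_mul_et Cmt.one Cmt.one, hwv, huv]; simp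
  have e2 : S.E i (φ.et v v) * A * PE (S.E i) φ u w 1 1 = S.E i (φ.et v u) * A := by
    rw [et_mul_PE hA, hvu, hvw]; simp
  have e3 : S.E i (φ.et u v) * A * PE (S.E i) φ u w 1 1 = S.E i (φ.et u u) * A := by
    rw [PE, mul_add, E_mul_A hA, E_mul_A hA, φ.et_mul, φ.et_mul, hvu, hvw]; simp
  have e4 : S.E i (φ.et v u) * A * (S.E i (φ.et v v) * A) = 0 := by
    rw [E_mul_A hA, φ.et_mul, huv]; simp
  have h3 := hX.comm3 hY (PE_sq huw Cmt.one Cmt.one) (E_A_sq hA (φ.et_sq v)) (by rw [e2, e4])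
  rw [e1, e2, neg_mul, e3] at h3
  have h4 : Mem1 K (PE (S.E i) φ u v (-A) (-A) + S.E i (φ.et u u) * A) := by
    convert h3 using 1
    rw [PE]; noncomm_ring
  have h5 := PE_purify hk hR hu huv hliuv hA.neg hA.neg hA h4 hu huv hliuv
  have h6 := (mem_mG_of hk hI hR hu huv hliuv hA.neg hA.neg h5).1
  have := (mG Θ i K).neg_mem h6
  rwa [neg_neg] at this

variable {J : Finset T}

lemma mG_inv [Nonempty ι] (hk : 4 < k) (hK : ∀ x ∈ K, S.On J x.1) (hI : ∀ x ∈ K, Θ.Iso x) (hR : ∀ j ∈ J, RootsS φ (S.E j) K) (hi : i ∈ J) :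
    S.InvE φ (J.erase i) (mG Θ i K) where
  on := by
    rintro a ⟨ha, h⟩
    have hu : (Pi.single (⟨0, by omega⟩ : Fin k) (1 : F) : Fin k → F) ≠ 0 := by
      intro h0; have := congrFun h0 (⟨0, by omega⟩ : Fin k); rw [Pi.single_eq_same] at this; exact one_ne_zero this
    obtain ⟨z, z', h1, h2, h3, h4⟩ := exists_indep φ (by omega) hu
    obtain ⟨x, hx⟩ := φ.exists_hyp hu
    obtain ⟨y, hy, hyv⟩ := h _ z hu h1 h4
    have h5 : S.On J (PE (S.E i) φ (Pi.single (⟨0, by omega⟩ : Fin k) (1 : F)) z a (Θ.st a)) := by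
      have : PE (S.E i) φ (Pi.single (⟨0, by omega⟩ : Fin k) (1 : F)) z a (Θ.st a) = y.1 - 1 := by rw [hyv]; abel
      rw [this]; exact (hK y hy).sub On.one
    have h6 : S.On J (cb φ (S.E i) x z' (PE (S.E i) φ (Pi.single (⟨0, by omega⟩ : Fin k) (1 : F)) z a (Θ.st a))) := by
      rw [cb, ctr]
      exact On.sum fun r _ => ((on_E hi _).mul h5).mul (on_E hi _)
    rw [cb_PE _ _ _ _ ha (Θ.st_cmt ha), h2, h3, mul_zero, zero_smul, add_zero, mul_one, φ.f_neg _ x, hx] at h6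
    have h7 := h6.smul (-1 : F)
    rw [smul_smul, neg_one_mul, neg_neg, one_smul] at h7
    intro l hl
    by_cases hlj : l = i
    · subst hlj; exact ha
    · exact h7 l fun h4 => hl (Finset.mem_erase.2 ⟨hlj, h4⟩)
  conj := by
    rintro j hj c w A ⟨hA1, hA2⟩
    obtain ⟨hji, hjJ⟩ := Finset.mem_erase.1 hj
    obtain ⟨x, hx, hxv⟩ := hR j hjJ c w
    have hxi : (x⁻¹).1 = 1 - S.E j (c • φ.et w w) := Mem1.inv_eq hxv (E_sq (cet_sq φ c w))
    have hxc : Cmt (S.E i) x.1 := by rw [hxv]; exact Cmt.one.add (cmt_E (Ne.symm hji) _)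
    have hxc' : Cmt (S.E i) (x⁻¹).1 := cmt_mul_inv hxc
    have hgoal : x.1 * A * (x⁻¹).1 ∈ mG Θ i K := by
      refine ⟨(hxc.mul hA1).mul hxc', fun u v hu huv hli => ?_⟩
      have h4 := (hA2 u v hu huv hli).conj' hx
      convert h4 using 1
      have e : ∀ (p : Matrix (Fin k) (Fin k) F) (q : Matrix ι ι F), x.1 * (S.E i p * q) * (x⁻¹).1 = S.E i p * (x.1 * q * (x⁻¹).1) := by
        intro p q
        rw [← mul_assoc, ← hxc]; simp only [mul_assoc]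
      rw [PE, PE, mul_add x.1, add_mul _ _ (x⁻¹).1, e, e, (hI x hx).sim.st_conj]
    rw [hxi, hxv] at hgoal
    rw [map_add, map_sub, map_one]
    exact hgoal

/-- **scalar long coefficients imply scalar short coefficients** -/
theorem mG_scalar [Nonempty ι] (hk : 4 < k) (hK : ∀ x ∈ K, S.On J x.1) (hI : ∀ x ∈ K, Θ.Iso x) (hR : ∀ j ∈ J, RootsS φ (S.E j) K) (hi : i ∈ J)
    (hC : CoefS φ (S.E i) K) {A : Matrix ι ι F} (hA : A ∈ mG Θ i K) : ∃ c : F, A = c • (1 : Matrix ι ι F) := by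
  by_contra hns
  have hInv := mG_inv (Θ := Θ) (φ := φ) hk hK hI hR hi
  obtain ⟨j, hj, hnc⟩ := not_cmt_of_not_scalar (hInv.on A hA) hns
  obtain ⟨α, ⟨hα1, α', hα2, hα3⟩, β, ⟨hβ1, β', hβ2, hβ3⟩, hne⟩ := exists_prod_ne hk _ _ _ rfl (hInv.mP_inv hk hj) (hInv.mP_nonzero hk hj hA hnc)
  -- elements of a pair are adjoint
  have hadj : ∀ {α α' : Matrix ι ι F}, Cmt (S.E j) α → Cmt (S.E j) α' → (∀ u v, φ.f u v = 0 → PE (S.E j) φ u v α α' ∈ mG Θ i K) →
      ∀ u v, u ≠ 0 → φ.f u v = 0 → v ∉ Submodule.span F {u} → Θ.st (PE (S.E j) φ u v α α') = - PE (S.E j) φ u v α α' := by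
    intro α α' h1 h2 h3 u v hu huv hli
    obtain ⟨c, hc⟩ := hC u hu _ (((h3 u v huv).1.mul (Θ.st_cmt Cmt.one)).add (Cmt.one.mul (Θ.st_cmt (h3 u v huv).1)))
      (mG_trace (by omega) (h3 u v huv) (one_mem_mG (hR i hi)) hu)
    rw [Θ.st_one, mul_one, one_mul, st_PE Θ u v h1 h2] at hc
    have h4 : PE (S.E j) φ u v (α - Θ.st α') (α' - Θ.st α) = c • (1 : Matrix ι ι F) := by
      rw [← hc, sub_eq_add_neg, sub_eq_add_neg, PE_add, PE, PE, PE, mul_neg, mul_neg]; abel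
    have h5 := PE_inj hu huv hli (h1.sub (Θ.st_cmt h2)) (h2.sub (Θ.st_cmt h1)) h4
    have h6 : Θ.st α' = α := (sub_eq_zero.1 h5).symm
    have h7 : Θ.st α = α' := by rw [← h6, Θ.st_st]
    rw [st_PE Θ u v h1 h2, h6, h7]
  -- vectors
  have hu0 : (Pi.single (⟨0, by omega⟩ : Fin k) (1 : F) : Fin k → F) ≠ 0 := by
    intro h0; have := congrFun h0 (⟨0, by omega⟩ : Fin k); rw [Pi.single_eq_same] at this; exact one_ne_zero this
  obtain ⟨u, hu⟩ : ∃ u, u = (Pi.single (⟨0, by omega⟩ : Fin k) (1 : F) : Fin k → F) := ⟨_, rfl⟩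
  rw [← hu] at hu0
  obtain ⟨y, hy1, hy2⟩ := φ.exists_perp [u] [u] (by simp; omega)
  have hy1' : y ∉ Submodule.span F {u} := by simpa using hy1
  have hyu : φ.f y u = 0 := hy2 u (by simp)
  have huy := φ.f_zero_symm hyu
  have hy0 : y ≠ 0 := by rintro rfl; exact hy1' (Submodule.zero_mem _)
  obtain ⟨v, x, huv, hyv, hux, hyx, hvx⟩ := φ.exists_vx hk u y
  have hvy := φ.f_zero_symm hyv
  have hxu := φ.f_zero_symm hux
  have hxy := φ.f_zero_symm hyx
  have hxv : φ.f x v = -1 := by rw [φ.f_neg v x, hvx]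
  have hx : x ≠ 0 := by rintro rfl; rw [φ.f_zero_right] at hvx; exact zero_ne_one hvx
  have hliuv : v ∉ Submodule.span F {u} := fun hc => by
    obtain ⟨c, hc⟩ := Submodule.mem_span_singleton.1 hc
    rw [← hc, φ.f_smul_left, hux, mul_zero] at hvx
    exact zero_ne_one hvx
  have hlixy : y ∉ Submodule.span F {x} := fun hc => by
    obtain ⟨c, hc⟩ := Submodule.mem_span_singleton.1 hc
    rw [← hc, φ.f_smul_left, hxv] at hyv
    have hc0 : c = 0 := by simpa using hyv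
    rw [hc0, zero_smul] at hc
    exact hy0 hc.symm
  obtain ⟨c, hc⟩ := hC u hu0 _ (((hα3 u v huv).1.mul (Θ.st_cmt (hβ3 x y hxy).1)).add ((hβ3 x y hxy).1.mul (Θ.st_cmt (hα3 u v huv).1)))
    (mG_trace (by omega) (hα3 u v huv) (hβ3 x y hxy) hu0)
  rw [hadj hα1 hα2 hα3 u v hu0 huv hliuv, hadj hβ1 hβ2 hβ3 x y hx hxy hlixy] at hc
  have e1 : PE (S.E j) φ u v α α' * PE (S.E j) φ x y β β' = S.E j (φ.et u y) * (α * β) := by
    rw [PE_mul hα1 hα2, hvx, hvy, hux, huy]; simp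
  have e2 : PE (S.E j) φ x y β β' * PE (S.E j) φ u v α α' = -(S.E j (φ.et y u) * (β' * α')) := by
    rw [PE_mul hβ1 hβ2, hyu, hyv, hxu, hxv]; simp
  rw [mul_neg, mul_neg, e1, e2] at hc
  have h8 : PE (S.E j) φ u y (-(α * β)) (β' * α') = c • (1 : Matrix ι ι F) := by
    rw [← hc, PE]; noncomm_ring
  have h9 := PE_inj hu0 huy hy1' (hα1.mul hβ1).neg (hβ2.mul hα2) h8
  exact hne (neg_eq_zero.1 h9)

/-- **non-scalar coefficients contain a factor** -/
theorem mG_factor [Nonempty ι] (hk : 4 < k) (hK : ∀ x ∈ K, S.On J x.1) (hI : ∀ x ∈ K, Θ.Iso x) (hR : ∀ j ∈ J, RootsS φ (S.E j) K) (hi : i ∈ J)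
    {A : Matrix ι ι F} (hA : A ∈ mG Θ i K) {j : T} (hj : j ∈ J.erase i) (hnc : ¬ Cmt (S.E j) A) (a : Matrix (Fin k) (Fin k) F) : S.E j a ∈ mG Θ i K :=
  factor_mem_of_mul hk (mG_inv hk hK hI hR hi) (fun _ ha _ hb => mG_mul hk hI (hR i hi) ha hb) hj hA hnc a

end mg

end Sys

end Cfsg.Agent.Asch.CW
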