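import Mathlib
import Cfsg.Prelude.Def_GeometricClasses
import Cfsg.Agent.Asch.EVCo
import Cfsg.Agent.Asch.CSBlock
set_option autoImplicit false
set_option linter.unusedSectionVars false
set_option linter.unusedVariables false
set_option linter.unusedSimpArgs false
set_option linter.style.haveILetI false

/-!
The block lemma, symplectic case with `5 < k`, all characteristics.
-/

namespace Cfsg.Agent.Asch.CW

open Matrix Module Cfsg.Geo Cfsg.Agent.GeoMax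

open scoped Matrix

section cbm

variable {k : ℕ} {ι : Type} [Fintype ι] [DecidableEq ι] {F : Type*} [Field F] {E : Matrix (Fin k) (Fin k) F →ₐ[F] Matrix ι ι F} {φ : SpF k F}
  {K : Subgroup (GL ι F)}

lemma cb_et_mul (p q x y : Fin k → F) (Z : Matrix ι ι F) : cb φ E p q (E (φ.et x y) * Z) = φ.f p x • cb φ E y q Z := by
  rw [cb, cb, ctr, ctr, Finset.smul_sum]
  refine Finset.sum_congr rfl fun r _ => ?_
  rw [← mul_assoc, ← map_mul, SpF.et, vmv_mul, φ.fr_dot, map_smul, smul_mul_assoc, smul_mul_assoc]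

lemma cb_mul_et (p q x y : Fin k → F) (Z : Matrix ι ι F) : cb φ E p q (Z * E (φ.et x y)) = φ.f y q • cb φ E p x Z := by
  rw [cb, cb, ctr, ctr, Finset.smul_sum]
  refine Finset.sum_congr rfl fun r _ => ?_
  rw [← mul_assoc, mul_assoc _ (E (φ.et x y)), ← map_mul, SpF.et, vmv_mul, φ.fr_dot, map_smul, mul_smul_comm]

lemma cb_mul_left (p q : Fin k → F) {a : Matrix ι ι F} (ha : Cmt E a) (Z : Matrix ι ι F) : cb φ E p q (a * Z) = a * cb φ E p q Z := by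
  rw [cb, cb, ctr, ctr, Finset.mul_sum]
  refine Finset.sum_congr rfl fun r _ => ?_
  rw [← mul_assoc, ha]; simp only [mul_assoc]

lemma cb_mul_right (p q : Fin k → F) {a : Matrix ι ι F} (ha : Cmt E a) (Z : Matrix ι ι F) : cb φ E p q (Z * a) = cb φ E p q Z * a := by
  rw [cb, cb, ctr, ctr, Finset.sum_mul]
  refine Finset.sum_congr rfl fun r _ => ?_
  rw [← mul_assoc, mul_assoc _ a, ← ha]; simp only [mul_assoc]

lemma cb_zero_left (v : Fin k → F) (Z : Matrix ι ι F) : cb φ E 0 v Z = 0 := by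
  have := cb_smul_left (φ := φ) (E := E) 0 0 v Z
  rwa [zero_smul, zero_smul] at this

lemma cb_zero_right (v : Fin k → F) (Z : Matrix ι ι F) : cb φ E v 0 Z = 0 := by
  have := cb_smul_right (φ := φ) (E := E) 0 v 0 Z
  rwa [zero_smul, zero_smul] at this

/-- a vector with prescribed products, three vectors -/
lemma SpF.exists_dual3 (φ : SpF k F) {p : Fin k → F} (u w : Fin k → F) (h : p ∉ Submodule.span F {x | x ∈ [u, w]}) :
    ∃ z, φ.f u z = 0 ∧ φ.f w z = 0 ∧ φ.f p z = 1 := by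
  obtain ⟨x, hx1, hx2⟩ := Symp.exists_perp_ne φ.symp h
  have hu : φ.f u x = 0 := hx1 u (Submodule.subset_span (by simp))
  have hw : φ.f w x = 0 := hx1 w (Submodule.subset_span (by simp))
  refine ⟨(φ.f p x)⁻¹ • x, ?_, ?_, ?_⟩
  · rw [φ.f_smul_right, hu, mul_zero]
  · rw [φ.f_smul_right, hw, mul_zero]
  · rw [φ.f_smul_right, inv_mul_cancel₀ hx2]

/-- **purification with an additional term** -/
lemma PE_purify2 (hk : 5 < k) (hR : RootsS φ E K) {u p w : Fin k → F} (hu : u ≠ 0) (hup : φ.f u p = 0) (huw : φ.f u w = 0) (hwp : φ.f w p = 0)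
    (hli : p ∉ Submodule.span F {x | x ∈ [u, w]})
    {a b c d κ : Matrix ι ι F} (ha : Cmt E a) (hb : Cmt E b) (hc : Cmt E c) (hd : Cmt E d) (hκ : Cmt E κ)
    (h : Mem1 K (PE E φ u p a b + PE E φ u w c d + E (φ.et u u) * κ))
    {u' v' : Fin k → F} (hu' : u' ≠ 0) (huv' : φ.f u' v' = 0) (hli' : v' ∉ Submodule.span F {u'}) : Mem1 K (PE E φ u' v' a b) := by
  obtain ⟨p', h1, h1', h2⟩ := φ.exists_dual3 u w hli
  obtain ⟨q, hq1, hq2⟩ := φ.exists_perp [u, p, w, p'] [u] (by simp; omega)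
  have hq1' : q ∉ Submodule.span F {u} := by simpa using hq1
  have hqu : φ.f q u = 0 := hq2 u (by simp)
  have hqp : φ.f q p = 0 := hq2 p (by simp)
  have hqw : φ.f q w = 0 := hq2 w (by simp)
  have hqp' : φ.f q p' = 0 := hq2 p' (by simp)
  have huq := φ.f_zero_symm hqu
  have hpq := φ.f_zero_symm hqp
  have hwq := φ.f_zero_symm hqw
  have hp'u := φ.f_zero_symm h1
  have hp'w := φ.f_zero_symm h1'
  have hpu := φ.f_zero_symm hup
  have hwu := φ.f_zero_symm huw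
  have hpw := φ.f_zero_symm hwp
  have hp'p : φ.f p' p = -1 := by rw [φ.f_neg p p', h2]
  have hY := PE_one_mem (u := p') (v := q) hR (φ.f_zero_symm hqp')
  refine PE_mem_all (by omega) hR hu huq hq1' ha hb ?_ hu' huv' hli'
  have e1 : (PE E φ u p a b + PE E φ u w c d + E (φ.et u u) * κ) * PE E φ p' q 1 1 = E (φ.et u q) * a := by
    rw [add_mul, add_mul, PE_mul ha hb, PE_mul hc hd, et_mul_PE hκ, h1, h1', h2, hpq, huq, hwq]
    simp
  have e2 : PE E φ p' q 1 1 * (PE E φ u p a b + PE E φ u w c d + E (φ.et u u) * κ) = -(E (φ.et q u) * b) := by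
    rw [mul_add, mul_add, PE_mul Cmt.one Cmt.one, PE_mul Cmt.one Cmt.one, PE_mul_et Cmt.one Cmt.one, hqu, hqp, hqw, hp'u, hp'w, hp'p]
    simp
  have e3 : (PE E φ u p a b + PE E φ u w c d + E (φ.et u u) * κ) * (PE E φ u p a b + PE E φ u w c d + E (φ.et u u) * κ) = 0 := by
    rw [add_mul, add_mul, mul_add, mul_add, mul_add, mul_add, mul_add, mul_add, PE_sq hup ha hb, PE_sq huw hc hd, PE_mul ha hb, PE_mul hc hd, PE_mul_et ha hb, PE_mul_et hc hd,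
      et_mul_PE hκ, et_mul_PE hκ, E_mul_A hκ, hpu, φ.f_self, hup, φ.et_sq, huw, hwu, hwp, hpw]
    simp
  have e4 : E (φ.et u q) * a * (PE E φ u p a b + PE E φ u w c d + E (φ.et u u) * κ) = 0 := by
    rw [mul_add, mul_add, PE, mul_add, PE, mul_add, E_mul_A ha, E_mul_A ha, E_mul_A ha, E_mul_A ha, E_mul_A ha, φ.et_mul, φ.et_mul, φ.et_mul, φ.et_mul, φ.et_mul, hqu, hqp, hqw]
    simp
  have e5 : E (φ.et q u) * b * PE E φ p' q 1 1 = 0 := by
    rw [PE, mul_add, E_mul_A hb, E_mul_A hb, φ.et_mul, φ.et_mul, h1, huq]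
    simp
  have h3 := h.comm2 hY e3 (PE_sq (φ.f_zero_symm hqp') Cmt.one Cmt.one) (by rw [e1, e4]) (by rw [e2, neg_mul, e5, neg_zero])
  rw [e1, e2, sub_neg_eq_add] at h3
  exact h3

end cbm

namespace Sys

variable {k : ℕ} {T ι : Type} [DecidableEq T] [Fintype ι] [DecidableEq ι] {F : Type*} [Field F] {S : Sys k T ι F} {φ : SpF k F}
  {J : Finset T} {K : Subgroup (GL ι F)} {Θ : SSt S φ}

/-- the first step: images of the elements `et u₀ y` -/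
theorem block_row [Nonempty ι] (hk : 5 < k) (hK : ∀ x ∈ K, S.On J x.1) (hI : ∀ x ∈ K, Θ.Iso x)
    (hR : ∀ j ∈ J, RootsS φ (S.E j) K) {i : T} (hi : i ∈ J) (hC : CoefS φ (S.E i) K) {h : GL ι F} (hsim : Θ.Sim h)
    (hroot : ∀ (c : F) u, Mem1 K (h.1 * S.E i (c • φ.et u u) * (h⁻¹).1)) {u₀ u : Fin k → F} {γ : F} (hu₀ : u₀ ≠ 0) (hγ : γ ≠ 0) (hu : u ≠ 0)
    (hr : h.1 * S.E i (φ.et u₀ u₀) * (h⁻¹).1 = γ • S.E i (φ.et u u)) {y : Fin k → F} (hy : φ.f u₀ y = 0) :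
    ∃ (ψ : Fin k → F) (μ : Matrix ι ι F), Cmt (S.E i) μ ∧ φ.f u ψ = 0 ∧
      h.1 * S.E i (φ.et u₀ y) * (h⁻¹).1 = S.E i (φ.et u ψ) + S.E i (φ.et u u) * μ := by
  have Hmul : ∀ X Y : Matrix ι ι F, h.1 * (X * Y) * (h⁻¹).1 = (h.1 * X * (h⁻¹).1) * (h.1 * Y * (h⁻¹).1) := by
    intro X Y
    calc h.1 * (X * Y) * (h⁻¹).1 = h.1 * X * ((h⁻¹).1 * h.1) * Y * (h⁻¹).1 := by rw [inv_mul_val, mul_one]; simp only [mul_assoc]
      _ = _ := by simp only [mul_assoc]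
  have Hadd : ∀ X Y : Matrix ι ι F, h.1 * (X + Y) * (h⁻¹).1 = (h.1 * X * (h⁻¹).1) + (h.1 * Y * (h⁻¹).1) := fun X Y => by rw [mul_add, add_mul]
  obtain ⟨v₀, hv₀⟩ := φ.exists_hyp hu₀
  obtain ⟨Λ, hΛ⟩ : ∃ Λ, Λ = h.1 * S.E i (φ.et u₀ y) * (h⁻¹).1 := ⟨_, rfl⟩
  rw [← hΛ]
  obtain ⟨M, hM⟩ : ∃ M, M = h.1 * S.E i (φ.et v₀ y) * (h⁻¹).1 := ⟨_, rfl⟩
  have hΛM : Λ = γ • (S.E i (φ.et u u) * M) := by
    have : φ.et u₀ y = φ.et u₀ u₀ * φ.et v₀ y := by rw [φ.et_mul, hv₀, one_smul]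
    rw [hΛ, this, map_mul, Hmul, hr, ← hM, smul_mul_assoc]
  obtain ⟨lam, hlam⟩ : ∃ lam : (Fin k → F) → Matrix ι ι F, ∀ q, lam q = γ • cb φ (S.E i) u q M := ⟨_, fun _ => rfl⟩
  have hlc : ∀ q, Cmt (S.E i) (lam q) := fun q => by rw [hlam]; exact (cb_cmt _ _ _).smul _
  have hcb : ∀ p q, cb φ (S.E i) p q Λ = φ.f p u • lam q := by
    intro p q
    rw [hΛM, cb_smul, cb_et_mul, hlam, smul_comm]
  have hladd : ∀ q q', lam (q + q') = lam q + lam q' := fun q q' => by rw [hlam, hlam, hlam, cb_add_right, smul_add]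
  have hlsmul : ∀ (c : F) q, lam (c • q) = c • lam q := fun c q => by rw [hlam, hlam, cb_smul_right, smul_comm]
  obtain ⟨v₁, hv₁⟩ := φ.exists_hyp hu
  -- lam u = 0
  have hlu : lam u = 0 := by
    have h1 : Λ * S.E i (φ.et u u) = 0 := by
      have h2 : S.E i (φ.et u₀ y) * S.E i (φ.et u₀ u₀) = 0 := by rw [← map_mul, φ.et_mul, φ.f_zero_symm hy, zero_smul, map_zero]
      have h3 := Hmul (S.E i (φ.et u₀ y)) (S.E i (φ.et u₀ u₀))
      rw [h2, mul_zero, zero_mul, hr, ← hΛ, mul_smul_comm] at h3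
      exact (smul_eq_zero.1 h3.symm).resolve_left hγ
    have h2 := congrArg (cb φ (S.E i) v₁ v₁) h1
    rw [cb_mul_et, hv₁, one_smul, hcb, cb_zero, φ.f_neg u v₁, hv₁, neg_one_smul, neg_eq_zero] at h2
    exact h2
  -- the element of K
  obtain ⟨Z, hZ⟩ : ∃ Z, Z = Λ - Θ.st Λ := ⟨_, rfl⟩
  have hstΛ : Θ.st Λ = - (h.1 * S.E i (φ.et y u₀) * (h⁻¹).1) := by
    rw [hΛ, hsim.st_conj, Θ.st_et, mul_neg, neg_mul]
  have hZD : Z = h.1 * S.E i (φ.D u₀ y) * (h⁻¹).1 := by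
    rw [hZ, hstΛ, sub_neg_eq_add, hΛ, ← Hadd, ← map_add]; rfl
  have hZZ : Z * Z = 0 := by
    rw [hZD, ← Hmul, ← map_mul, φ.D_sq hy, map_zero, mul_zero, zero_mul]
  have hZK : Mem1 K Z := by
    have h1 := hroot 1 (u₀ + y)
    have h2 := hroot (-1) u₀
    have h3 := hroot (-1) y
    have hy0 : φ.f y u₀ = 0 := φ.f_zero_symm hy
    have h4 := h1.add h2 (by
      rw [← Hmul, ← map_mul, smul_mul_smul_comm, φ.et_mul, φ.f_add_left, φ.f_self, hy0, add_zero, zero_smul, smul_zero, map_zero, mul_zero, zero_mul])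
    have h5 := h4.add h3 (by
      rw [add_mul, ← Hmul, ← Hmul, ← map_mul, ← map_mul, smul_mul_smul_comm, smul_mul_smul_comm, φ.et_mul, φ.et_mul, φ.f_add_left, φ.f_self, hy]
      simp)
    convert h5 using 1
    rw [hZD, ← Hadd, ← Hadd, ← map_add, ← map_add, φ.D_eq]
    congr 3
    simp only [one_smul, neg_one_smul]
    abel
  have hZcb : ∀ p q, cb φ (S.E i) p q Z = φ.f p u • lam q + φ.f q u • Θ.st (lam p) := by
    intro p q
    rw [hZ, cb_sub, hcb, SSt.cb_st, hcb, map_smul, sub_neg_eq_add]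
  -- scalars
  have hsc : ∀ p, φ.f u p = 0 → ∃ c : F, lam p = c • (1 : Matrix ι ι F) := by
    intro p hup
    by_cases hpu : p ∈ Submodule.span F {u}
    · obtain ⟨c, rfl⟩ := Submodule.mem_span_singleton.1 hpu
      exact ⟨0, by rw [hlsmul, hlu, smul_zero, zero_smul]⟩
    have hpu' := φ.f_zero_symm hup
    have hX := hR i hi 1 p
    rw [one_smul] at hX
    have e1 : Z * S.E i (φ.et p p) = S.E i (φ.et u p) * lam p := by
      apply cb_ext (φ := φ) (E := S.E i)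
      intro r s
      rw [cb_mul_et, hZcb, cb_et _ _ _ _ (hlc p), hpu', zero_smul, add_zero, smul_smul, mul_comm]
    have e2 : S.E i (φ.et p p) * Z = -(S.E i (φ.et p u) * Θ.st (lam p)) := by
      apply cb_ext (φ := φ) (E := S.E i)
      intro r s
      rw [cb_et_mul, hZcb, cb_neg, cb_et _ _ _ _ (Θ.st_cmt (hlc p)), hpu', zero_smul, zero_add, smul_smul, φ.f_neg u s, mul_neg, neg_smul]
    have e3 : S.E i (φ.et u p) * lam p * Z = -(S.E i (φ.et u u) * (lam p * Θ.st (lam p))) := by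
      apply cb_ext (φ := φ) (E := S.E i)
      intro r s
      rw [mul_assoc, cb_et_mul, cb_mul_left _ _ (hlc p), hZcb, cb_neg, cb_et _ _ _ _ ((hlc p).mul (Θ.st_cmt (hlc p))), hpu', zero_smul, zero_add, mul_smul_comm, smul_smul,
        φ.f_neg u s, mul_neg, neg_smul]
    have e4 : S.E i (φ.et p p) * Z * S.E i (φ.et p p) = 0 := by
      rw [e2, neg_mul, mul_assoc, ← Θ.st_cmt (hlc p), ← mul_assoc, ← map_mul, φ.et_mul, hup, zero_smul, map_zero, zero_mul, neg_zero]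
    have h3 := hZK.comm3 hX hZZ (by rw [← map_mul, φ.et_sq, map_zero]) e4
    rw [e1, e2, e3] at h3
    have h4 : Mem1 K (PE (S.E i) φ u p (lam p) (Θ.st (lam p)) + S.E i (φ.et u u) * (lam p * Θ.st (lam p))) := by
      convert h3 using 1
      rw [PE]; noncomm_ring
    have h5 := PE_purify (by omega) (hR i hi) hu hup hpu (hlc p) (Θ.st_cmt (hlc p)) ((hlc p).mul (Θ.st_cmt (hlc p))) h4 hu hup hpu
    exact mG_scalar (by omega) hK hI hR hi hC (mem_mG_of (by omega) hI (hR i hi) hu hup hpu (hlc p) (Θ.st_cmt (hlc p)) h5).1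
  -- the functional
  have hperp : ∀ q, φ.f u (q - φ.f u q • v₁) = 0 := fun q => by rw [φ.f_sub_right, φ.f_smul_right, hv₁, mul_one, sub_self]
  choose κ hκ using fun q => hsc (q - φ.f u q • v₁) (hperp q)
  have hinj : ∀ {c d : F}, c • (1 : Matrix ι ι F) = d • (1 : Matrix ι ι F) → c = d := by
    intro c d hcd
    have := sub_eq_zero.2 hcd
    rw [← sub_smul] at this
    exact sub_eq_zero.1 ((smul_eq_zero.1 this).resolve_right one_ne_zero)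
  obtain ⟨ψ₀, hψ₀⟩ := exists_rep φ κ (by
    intro x z
    apply hinj
    rw [← hκ, add_smul, ← hκ, ← hκ, ← hladd]
    congr 1
    rw [φ.f_add_right, add_smul]; abel) (by
    intro c x
    apply hinj
    rw [← hκ, mul_smul, ← hκ, ← hlsmul]
    congr 1
    rw [φ.f_smul_right, smul_sub, smul_smul])
  have hκu : κ u = 0 := by
    apply hinj
    rw [← hκ, φ.f_self, zero_smul, sub_zero, hlu, zero_smul]
  refine ⟨-ψ₀, lam v₁, hlc v₁, ?_, ?_⟩
  · rw [φ.f_neg_right, hψ₀, hκu, neg_zero]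
  · apply cb_ext (φ := φ) (E := S.E i)
    intro p q
    have h1 : lam q = κ q • (1 : Matrix ι ι F) + φ.f u q • lam v₁ := by
      rw [← hκ, ← hlsmul, ← hladd, sub_add_cancel]
    have h2 : cb φ (S.E i) p q (S.E i (φ.et u (-ψ₀))) = (φ.f p u * φ.f (-ψ₀) q) • (1 : Matrix ι ι F) := by
      have := cb_et (φ := φ) (E := S.E i) p q u (-ψ₀) Cmt.one
      rwa [mul_one] at this
    rw [hcb, cb_add, h2, cb_et _ _ _ _ (hlc v₁), h1, smul_add, smul_smul, smul_smul, φ.f_neg_left, ← φ.f_neg, hψ₀]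


/-- the second step: roots go to roots -/
theorem block_next [Nonempty ι] (hk : 5 < k) (hK : ∀ x ∈ K, S.On J x.1) (hI : ∀ x ∈ K, Θ.Iso x)
    (hR : ∀ j ∈ J, RootsS φ (S.E j) K) {i : T} (hi : i ∈ J) (hC : CoefS φ (S.E i) K) {h : GL ι F} (hsim : Θ.Sim h)
    (hroot : ∀ (c : F) u, Mem1 K (h.1 * S.E i (c • φ.et u u) * (h⁻¹).1)) {u₀ u : Fin k → F} {γ : F} (hu₀ : u₀ ≠ 0) (hγ : γ ≠ 0) (hu : u ≠ 0)
    (hr : h.1 * S.E i (φ.et u₀ u₀) * (h⁻¹).1 = γ • S.E i (φ.et u u)) {y : Fin k → F} (hy : φ.f u₀ y = 0) (hli : y ∉ Submodule.span F {u₀}) :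
    ∃ (γ' : F) (ψ : Fin k → F), γ' ≠ 0 ∧ ψ ≠ 0 ∧ h.1 * S.E i (φ.et y y) * (h⁻¹).1 = γ' • S.E i (φ.et ψ ψ) := by
  have Hmul : ∀ X Y : Matrix ι ι F, h.1 * (X * Y) * (h⁻¹).1 = (h.1 * X * (h⁻¹).1) * (h.1 * Y * (h⁻¹).1) := by
    intro X Y
    calc h.1 * (X * Y) * (h⁻¹).1 = h.1 * X * ((h⁻¹).1 * h.1) * Y * (h⁻¹).1 := by rw [inv_mul_val, mul_one]; simp only [mul_assoc]
      _ = _ := by simp only [mul_assoc]
  obtain ⟨ψ, μ, hμ, huψ, hΛ⟩ := block_row hk hK hI hR hi hC hsim hroot hu₀ hγ hu hr hy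
  have hψu := φ.f_zero_symm huψ
  have hstΛ : h.1 * S.E i (φ.et y u₀) * (h⁻¹).1 = S.E i (φ.et ψ u) + S.E i (φ.et u u) * Θ.st μ := by
    have h1 : Θ.st (h.1 * S.E i (φ.et u₀ y) * (h⁻¹).1) = - (h.1 * S.E i (φ.et y u₀) * (h⁻¹).1) := by
      rw [hsim.st_conj, Θ.st_et, mul_neg, neg_mul]
    rw [hΛ, Θ.st_add, Θ.st_mul, Θ.st_et, Θ.st_et, mul_neg, ← Θ.st_cmt hμ, ← neg_add, neg_inj] at h1
    exact h1.symm
  -- independence
  have hψli : ψ ∉ Submodule.span F {u} := by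
    intro hcon
    obtain ⟨d, hd⟩ := Submodule.mem_span_singleton.1 hcon
    obtain ⟨z, hz1, hz2⟩ := φ.exists_sep hli
    -- f u₀ z = 0, f y z = 1
    have h1 := Hmul (S.E i (φ.et u₀ y)) (S.E i (φ.et z u₀))
    rw [← map_mul, φ.et_mul, hz2, one_smul, hr, hΛ, ← hd, φ.et_smul_right, map_smul] at h1
    have h2 : S.E i (φ.et u u) * (h.1 * S.E i (φ.et z u₀) * (h⁻¹).1) = 0 := by
      have h3 := Hmul (S.E i (φ.et u₀ u₀)) (S.E i (φ.et z u₀))
      rw [← map_mul, φ.et_mul, hz1, zero_smul, map_zero, mul_zero, zero_mul, hr, smul_mul_assoc] at h3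
      exact (smul_eq_zero.1 h3.symm).resolve_left hγ
    rw [add_mul, smul_mul_assoc, h2, smul_zero, zero_add, hμ, mul_assoc, h2, mul_zero] at h1
    have h3 := (smul_eq_zero.1 h1).resolve_left hγ
    exact φ.et_ne_zero hu hu (E_inj' (E := S.E i) (by rw [h3, map_zero]))
  -- the element
  obtain ⟨Y, hYdef⟩ : ∃ Y, Y = h.1 * S.E i (φ.et y y) * (h⁻¹).1 := ⟨_, rfl⟩
  obtain ⟨v₀, hv₀⟩ := φ.exists_hyp hu₀
  have hY1 : Y = (S.E i (φ.et ψ u) + S.E i (φ.et u u) * Θ.st μ) * (h.1 * S.E i (φ.et v₀ y) * (h⁻¹).1) := by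
    rw [← hstΛ, ← Hmul, ← map_mul, φ.et_mul, hv₀, one_smul, hYdef]
  have hYst : Θ.st Y = - Y := by rw [hYdef, hsim.st_conj, Θ.st_et, mul_neg, neg_mul]
  obtain ⟨ν, hν⟩ : ∃ ν : (Fin k → F) → Matrix ι ι F, ∀ s, ν s = cb φ (S.E i) u s (h.1 * S.E i (φ.et v₀ y) * (h⁻¹).1) := ⟨_, fun _ => rfl⟩
  have hνc : ∀ s, Cmt (S.E i) (ν s) := fun s => by rw [hν]; exact cb_cmt _ _ _
  have hYcb : ∀ r s, cb φ (S.E i) r s Y = φ.f r ψ • ν s + φ.f r u • (Θ.st μ * ν s) := by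
    intro r s
    rw [hY1, add_mul, cb_add, cb_et_mul, mul_assoc (S.E i (φ.et u u)), cb_et_mul, cb_mul_left _ _ (Θ.st_cmt hμ), hν]
  obtain ⟨r₀', hr1', hr2'⟩ := φ.exists_sep hψli
  -- f u r₀' = 0, f ψ r₀' = 1
  obtain ⟨r₀, hr₀⟩ : ∃ r₀, r₀ = -r₀' := ⟨_, rfl⟩
  have hr1 : φ.f r₀ u = 0 := by rw [hr₀, φ.f_neg_left, φ.f_neg u, hr1', neg_zero, neg_zero]
  have hr2 : φ.f r₀ ψ = 1 := by rw [hr₀, φ.f_neg_left, φ.f_neg ψ, hr2', neg_neg]
  have hν1 : ∀ s, ν s = φ.f s ψ • Θ.st (ν r₀) + φ.f s u • (Θ.st (ν r₀) * μ) := by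
    intro s
    have h1 : cb φ (S.E i) r₀ s Y = Θ.st (cb φ (S.E i) s r₀ Y) := by
      have h2 := SSt.cb_st (Θ := Θ) (φ := φ) i r₀ s Y
      rw [hYst, cb_neg, neg_inj] at h2
      exact h2
    rw [hYcb, hYcb, hr1, hr2, one_smul, zero_smul, add_zero, Θ.st_add, map_smul, map_smul, Θ.st_mul, Θ.st_st] at h1
    exact h1
  obtain ⟨ρ, hρ⟩ : ∃ ρ, ρ = Θ.st (ν r₀) := ⟨_, rfl⟩
  rw [← hρ] at hν1
  have hρc : Cmt (S.E i) ρ := by rw [hρ]; exact Θ.st_cmt (hνc _)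
  have hρst : Θ.st ρ = ρ := by
    have h1 := hν1 r₀
    rw [hr1, hr2, one_smul, zero_smul, add_zero] at h1
    exact (by rw [hρ, Θ.st_st] : Θ.st ρ = ν r₀).trans h1
  have hμ' := Θ.st_cmt hμ
  -- the shape of Y
  have hYs : Y = -(PE (S.E i) φ ψ u (ρ * μ) (Θ.st μ * ρ) + S.E i (φ.et ψ ψ) * ρ + S.E i (φ.et u u) * (Θ.st μ * ρ * μ)) := by
    apply cb_ext (φ := φ) (E := S.E i)
    intro r s
    rw [hYcb, hν1 s, cb_neg, cb_add, cb_add, cb_PE _ _ _ _ (hρc.mul hμ) (hμ'.mul hρc), cb_et _ _ _ _ hρc, cb_et _ _ _ _ ((hμ'.mul hρc).mul hμ),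
      φ.f_neg s u, φ.f_neg s ψ, mul_add, mul_smul_comm, mul_smul_comm, ← mul_assoc (Θ.st μ)]
    simp only [smul_add, smul_smul]
    module
  obtain ⟨Y₀, hY₀⟩ : ∃ Y₀, Y₀ = PE (S.E i) φ ψ u (ρ * μ) (Θ.st μ * ρ) + S.E i (φ.et ψ ψ) * ρ + S.E i (φ.et u u) * (Θ.st μ * ρ * μ) := ⟨_, rfl⟩
  rw [← hY₀] at hYs
  have hYK : Mem1 K Y₀ := by
    have h1 := hroot (-1) y
    rw [neg_one_smul, map_neg, mul_neg, neg_mul, ← hYdef, hYs, neg_neg] at h1
    exact h1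
  have hY0Y0 : Y₀ * Y₀ = 0 := by
    have h1 : Y * Y = 0 := by rw [hYdef, ← Hmul, ← map_mul, φ.et_sq, map_zero, mul_zero, zero_mul]
    rw [hYs, neg_mul_neg] at h1
    exact h1
  -- first commutator
  have hψ0 : ψ ≠ 0 := by rintro rfl; exact hψli (Submodule.zero_mem _)
  obtain ⟨p, hp1, hp2⟩ := φ.exists_sep hψli
  -- f u p = 0, f ψ p = 1
  obtain ⟨q, hq1, hq2⟩ := φ.exists_perp [ψ, u, p] [ψ, u] (by simpa using hk)
  have hqψ : φ.f q ψ = 0 := hq2 ψ (by simp)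
  have hqu : φ.f q u = 0 := hq2 u (by simp)
  have hqp : φ.f q p = 0 := hq2 p (by simp)
  have hψq := φ.f_zero_symm hqψ
  have huq := φ.f_zero_symm hqu
  have hpq := φ.f_zero_symm hqp
  have hpu := φ.f_zero_symm hp1
  have hpψ : φ.f p ψ = -1 := by rw [φ.f_neg ψ p, hp2]
  have hq0 : q ≠ 0 := by rintro rfl; exact hq1 (Submodule.zero_mem _)
  have hX := PE_one_mem (u := p) (v := q) (hR i hi) hpq
  have ha : Cmt (S.E i) (ρ * μ) := hρc.mul hμ
  have hb : Cmt (S.E i) (Θ.st μ * ρ) := hμ'.mul hρc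
  have hd : Cmt (S.E i) (Θ.st μ * ρ * μ) := hb.mul hμ
  have e1 : PE (S.E i) φ p q 1 1 * Y₀ = -(S.E i (φ.et q ψ) * ρ) - S.E i (φ.et q u) * (ρ * μ) := by
    rw [hY₀, mul_add, mul_add, PE_mul Cmt.one Cmt.one, PE_mul_et Cmt.one Cmt.one, PE_mul_et Cmt.one Cmt.one, hqψ, hqu, hpψ, hpu]
    simp only [zero_smul, zero_add, add_zero, neg_one_smul, one_mul]
    abel
  have e2 : Y₀ * PE (S.E i) φ p q 1 1 = S.E i (φ.et ψ q) * ρ + S.E i (φ.et u q) * (Θ.st μ * ρ) := by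
    rw [hY₀, add_mul, add_mul, PE_mul ha hb, et_mul_PE hρc, et_mul_PE hd, hp1, hp2, huq, hψq]
    simp only [zero_smul, zero_add, add_zero, one_smul, mul_one]
    abel
  have e3 : (-(S.E i (φ.et q ψ) * ρ) - S.E i (φ.et q u) * (ρ * μ)) * PE (S.E i) φ p q 1 1 = -(S.E i (φ.et q q) * ρ) := by
    rw [PE, sub_mul, neg_mul, mul_add, mul_add, E_mul_A hρc, E_mul_A hρc, E_mul_A ha, E_mul_A ha, φ.et_mul, φ.et_mul, φ.et_mul, φ.et_mul, hp1, hp2, hψq, huq]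
    simp
  have e4 : Y₀ * PE (S.E i) φ p q 1 1 * Y₀ = 0 := by
    rw [e2, hY₀, PE, add_mul]
    simp only [mul_add, E_mul_A hρc, E_mul_A hb, φ.et_mul, hqψ, hqu, zero_smul, map_zero, zero_mul, add_zero]
  have h3 := hX.comm3 hYK (PE_sq hpq Cmt.one Cmt.one) hY0Y0 e4
  rw [e1, e2, e3] at h3
  have hW : Mem1 K (PE (S.E i) φ q ψ (-ρ) (-ρ) + PE (S.E i) φ q u (-(ρ * μ)) (-(Θ.st μ * ρ)) + S.E i (φ.et q q) * ρ) := by
    convert h3 using 1
    rw [PE, PE]; noncomm_ring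
  have hW' : Mem1 K (PE (S.E i) φ q u (-(ρ * μ)) (-(Θ.st μ * ρ)) + PE (S.E i) φ q ψ (-ρ) (-ρ) + S.E i (φ.et q q) * ρ) := by
    convert hW using 1; abel
  -- independence of three vectors
  have hq1' : q ∉ Submodule.span F ({ψ, u} : Set (Fin k → F)) := by
    have : {x | x ∈ [ψ, u]} = ({ψ, u} : Set (Fin k → F)) := by ext x; simp
    rwa [this] at hq1
  have hl1 : ψ ∉ Submodule.span F {x | x ∈ [q, u]} := by
    have : {x | x ∈ [q, u]} = ({q, u} : Set (Fin k → F)) := by ext x; simp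
    rw [this]
    intro hc
    obtain ⟨a, b, hab⟩ := Submodule.mem_span_pair.1 hc
    by_cases ha0 : a = 0
    · rw [ha0, zero_smul, zero_add] at hab
      exact hψli (Submodule.mem_span_singleton.2 ⟨b, hab⟩)
    · apply hq1'
      refine Submodule.mem_span_pair.2 ⟨a⁻¹, -(a⁻¹ * b), ?_⟩
      rw [← hab, smul_add, smul_smul, smul_smul, inv_mul_cancel₀ ha0, one_smul, neg_smul]; abel
  have hl2 : u ∉ Submodule.span F {x | x ∈ [q, ψ]} := by
    have : {x | x ∈ [q, ψ]} = ({q, ψ} : Set (Fin k → F)) := by ext x; simp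
    rw [this]
    intro hc
    obtain ⟨a, b, hab⟩ := Submodule.mem_span_pair.1 hc
    by_cases ha0 : a = 0
    · rw [ha0, zero_smul, zero_add] at hab
      have hb0 : b ≠ 0 := by rintro rfl; rw [zero_smul] at hab; exact hu hab.symm
      exact hψli (Submodule.mem_span_singleton.2 ⟨b⁻¹, by rw [← hab, smul_smul, inv_mul_cancel₀ hb0, one_smul]⟩)
    · apply hq1'
      refine Submodule.mem_span_pair.2 ⟨-(a⁻¹ * b), a⁻¹, ?_⟩
      rw [← hab, smul_add, smul_smul, smul_smul, inv_mul_cancel₀ ha0, one_smul, neg_smul]; abel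
  have h5 := PE_purify2 hk (hR i hi) hq0 hqψ hqu huψ hl1 hρc.neg hρc.neg ha.neg hb.neg hρc hW hu huψ hψli
  have h6 := PE_purify2 hk (hR i hi) hq0 hqu hqψ hψu hl2 ha.neg hb.neg hρc.neg hρc.neg hρc hW' hu huψ hψli
  obtain ⟨α, hα⟩ := mG_scalar (Θ := Θ) (by omega) hK hI hR hi hC (mem_mG_of (by omega) hI (hR i hi) hu huψ hψli hρc.neg hρc.neg h5).1
  obtain ⟨β, hβ⟩ := mG_scalar (Θ := Θ) (by omega) hK hI hR hi hC (mem_mG_of (by omega) hI (hR i hi) hu huψ hψli ha.neg hb.neg h6).1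
  have hρα : ρ = (-α) • (1 : Matrix ι ι F) := by rw [neg_smul, ← hα, neg_neg]
  have hα0 : α ≠ 0 := by
    rintro rfl
    rw [neg_zero, zero_smul] at hρα
    have h7 : Y = 0 := by rw [hYs, hY₀, hρα, PE]; simp
    have h8 : S.E i (φ.et y y) = 0 := conj_eq_zero h (by rw [← hYdef, h7])
    have hy0 : y ≠ 0 := by rintro rfl; exact hli (Submodule.zero_mem _)
    exact φ.et_ne_zero hy0 hy0 (E_inj' (E := S.E i) (by rw [h8, map_zero]))
  have hμs : μ = (α⁻¹ * β) • (1 : Matrix ι ι F) := by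
    have h7 : ρ * μ = (-α) • μ := by rw [hρα, smul_mul_assoc, one_mul]
    rw [h7, neg_smul, neg_neg] at hβ
    rw [mul_smul, ← hβ, smul_smul, inv_mul_cancel₀ hα0, one_smul]
  refine ⟨α, ψ + (α⁻¹ * β) • u, hα0, ?_, ?_⟩
  · intro h0
    apply hψli
    rw [eq_neg_of_add_eq_zero_left h0]
    exact Submodule.neg_mem _ (Submodule.smul_mem _ _ (Submodule.mem_span_singleton_self u))
  · rw [← hYdef, hYs, hY₀, hρα, hμs, PE, map_smul, Θ.st_one, φ.et_add_left, φ.et_add_right, φ.et_add_right, φ.et_smul_left, φ.et_smul_right, φ.et_smul_left, φ.et_smul_right]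
    simp only [map_add, map_smul, mul_smul_comm, smul_mul_assoc, mul_one, one_mul, smul_smul, smul_add]
    module

/-- **the block lemma** -/
theorem block_E [Nonempty ι] (hk : 5 < k) (hK : ∀ x ∈ K, S.On J x.1) (hI : ∀ x ∈ K, Θ.Iso x)
    (hR : ∀ j ∈ J, RootsS φ (S.E j) K) {i : T} (hi : i ∈ J) (hC : CoefS φ (S.E i) K) {h : GL ι F} (hsim : Θ.Sim h)
    (hroot : ∀ (c : F) u, Mem1 K (h.1 * S.E i (c • φ.et u u) * (h⁻¹).1)) {u₀ u : Fin k → F} {γ : F} (hu₀ : u₀ ≠ 0) (hγ : γ ≠ 0) (hu : u ≠ 0)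
    (hr : h.1 * S.E i (φ.et u₀ u₀) * (h⁻¹).1 = γ • S.E i (φ.et u u)) : ∀ a, ∃ z, h.1 * S.E i a * (h⁻¹).1 = S.E i z := by
  have Hmul : ∀ X Y : Matrix ι ι F, h.1 * (X * Y) * (h⁻¹).1 = (h.1 * X * (h⁻¹).1) * (h.1 * Y * (h⁻¹).1) := by
    intro X Y
    calc h.1 * (X * Y) * (h⁻¹).1 = h.1 * X * ((h⁻¹).1 * h.1) * Y * (h⁻¹).1 := by rw [inv_mul_val, mul_one]; simp only [mul_assoc]
      _ = _ := by simp only [mul_assoc]
  have hall : ∀ y, y ≠ 0 → ∃ (γ' : F) (ψ : Fin k → F), γ' ≠ 0 ∧ ψ ≠ 0 ∧ h.1 * S.E i (φ.et y y) * (h⁻¹).1 = γ' • S.E i (φ.et ψ ψ) := by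
    intro y hy
    obtain ⟨w, hw1, hw2⟩ := φ.exists_perp [u₀, y] [u₀, y] (by simp; omega)
    have hwu : φ.f w u₀ = 0 := hw2 u₀ (by simp)
    have hwy : φ.f w y = 0 := hw2 y (by simp)
    have hw1' : w ∉ Submodule.span F ({u₀, y} : Set (Fin k → F)) := by
      have : {x | x ∈ [u₀, y]} = ({u₀, y} : Set (Fin k → F)) := by ext x; simp
      rwa [this] at hw1
    have hw0 : w ≠ 0 := by rintro rfl; exact hw1' (Submodule.zero_mem _)
    obtain ⟨γ₁, ψ₁, hγ₁, hψ₁, h1⟩ := block_next hk hK hI hR hi hC hsim hroot hu₀ hγ hu hr (φ.f_zero_symm hwu) (fun hc => hw1' (by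
      obtain ⟨c, hc⟩ := Submodule.mem_span_singleton.1 hc
      rw [← hc]; exact Submodule.smul_mem _ _ (Submodule.subset_span (by simp))))
    refine block_next hk hK hI hR hi hC hsim hroot hw0 hγ₁ hψ₁ h1 hwy (fun hc => hw1' ?_)
    obtain ⟨c, hc⟩ := Submodule.mem_span_singleton.1 hc
    have hc0 : c ≠ 0 := by rintro rfl; rw [zero_smul] at hc; exact hy hc.symm
    have : w = c⁻¹ • y := by rw [← hc, smul_smul, inv_mul_cancel₀ hc0, one_smul]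
    rw [this]; exact Submodule.smul_mem _ _ (Submodule.subset_span (by simp))
  intro a
  refine φ.et_induction (P := fun a => ∃ z, h.1 * S.E i a * (h⁻¹).1 = S.E i z) ⟨0, by rw [map_zero, mul_zero, zero_mul]⟩ ?_ ?_ a
  · rintro a b ⟨z, hz⟩ ⟨z', hz'⟩
    exact ⟨z + z', by rw [map_add, mul_add, add_mul, hz, hz', map_add]⟩
  · intro p q
    by_cases hp : p = 0
    · exact ⟨0, by rw [hp, φ.et_zero_left, map_zero, mul_zero, zero_mul]⟩
    by_cases hq : q = 0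
    · exact ⟨0, by rw [hq, φ.et_zero_right, map_zero, mul_zero, zero_mul]⟩
    obtain ⟨w, hw1, hw2⟩ : ∃ w, φ.f p w ≠ 0 ∧ φ.f w q ≠ 0 := by
      obtain ⟨a, ha⟩ := φ.exists_hyp hp
      obtain ⟨b, hb⟩ := φ.exists_hyp hq
      by_cases h1 : φ.f a q = 0
      · by_cases h2 : φ.f p b = 0
        · refine ⟨a + b, ?_, ?_⟩
          · rw [φ.f_add_right, ha, h2, add_zero]; exact one_ne_zero
          · rw [φ.f_add_left, h1, zero_add, φ.f_neg, hb]; exact neg_ne_zero.2 one_ne_zero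
        · exact ⟨b, h2, by rw [φ.f_neg, hb]; exact neg_ne_zero.2 one_ne_zero⟩
      · exact ⟨a, by rw [ha]; exact one_ne_zero, h1⟩
    have hw : w ≠ 0 := by rintro rfl; exact hw1 (φ.f_zero_right p)
    obtain ⟨c₁, ψ₁, -, -, h1⟩ := hall p hp
    obtain ⟨c₂, ψ₂, -, -, h2⟩ := hall w hw
    obtain ⟨c₃, ψ₃, -, -, h3⟩ := hall q hq
    have e : φ.et p q = (φ.f p w * φ.f w q)⁻¹ • (φ.et p p * φ.et w w * φ.et q q) := by
      rw [φ.et_mul, smul_mul_assoc, φ.et_mul, smul_smul, smul_smul, mul_assoc, inv_mul_cancel₀ (mul_ne_zero hw1 hw2), one_smul]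
    refine ⟨(φ.f p w * φ.f w q)⁻¹ • (c₁ • φ.et ψ₁ ψ₁ * c₂ • φ.et ψ₂ ψ₂ * c₃ • φ.et ψ₃ ψ₃), ?_⟩
    rw [e, map_smul, mul_smul_comm, smul_mul_assoc, map_mul, map_mul, Hmul, Hmul, h1, h2, h3]
    simp only [map_smul, map_mul]

end Sys

end Cfsg.Agent.Asch.CW
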