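import Mathlib
import Cfsg.Prelude.Def_GeometricClasses
import Cfsg.Agent.Asch.EVBlock
import Cfsg.Agent.Asch.CSInd
set_option autoImplicit false
set_option linter.unusedSectionVars false
set_option linter.unusedVariables false
set_option linter.unusedSimpArgs false
set_option linter.style.haveILetI false

/-!
The induction in the symplectic case, `5 < k`, all characteristics.
-/

namespace Cfsg.Agent.Asch.CW

open Matrix Module

open scoped Matrix

namespace Sys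

variable {k : ℕ} {T ι : Type} [DecidableEq T] [Fintype ι] [DecidableEq ι] {F : Type*} [Field F] {S : Sys k T ι F} {φ : SpF k F} {J : Finset T}
  {K K' : Subgroup (GL ι F)} {Θ : SSt S φ}

/-- long coefficients are short coefficients, commutator version -/
lemma mem_mG_of_comm [Nonempty ι] {i : T} (hk : 4 < k) (hI : ∀ x ∈ K, Θ.Iso x) (hR : RootsS φ (S.E i) K) {v : Fin k → F} (hv : v ≠ 0) {A : Matrix ι ι F}
    (hA : Cmt (S.E i) A) (hY : ∀ u w, φ.f u w = 0 → φ.f v u = 0 → Mem1 K (PE (S.E i) φ u w 1 1 * (S.E i (φ.et v v) * A) - S.E i (φ.et v v) * A * PE (S.E i) φ u w 1 1 -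
      PE (S.E i) φ u w 1 1 * (S.E i (φ.et v v) * A) * PE (S.E i) φ u w 1 1)) : A ∈ mG Θ i K := by
  -- f v w = 1
  obtain ⟨w, hvw⟩ := φ.exists_hyp hv
  obtain ⟨u, hu1, hu2⟩ := φ.exists_perp [v, w] [v, w] (by simpa using hk)
  have huv : φ.f u v = 0 := hu2 v (by simp)
  have huw : φ.f u w = 0 := hu2 w (by simp)
  have hu : u ≠ 0 := by rintro rfl; exact hu1 (Submodule.zero_mem _)
  have hwv : φ.f w v = -1 := by rw [φ.f_neg v w, hvw]
  have hvu := φ.f_zero_symm huv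
  have hliuv : v ∉ Submodule.span F {u} := fun hc => by
    obtain ⟨c, hc⟩ := Submodule.mem_span_singleton.1 hc
    rw [← hc, φ.f_smul_left, huw, mul_zero] at hvw
    exact zero_ne_one hvw
  have e1 : PE (S.E i) φ u w 1 1 * (S.E i (φ.et v v) * A) = -(S.E i (φ.et u v) * A) := by
    rw [PE_mul_et Cmt.one Cmt.one, hwv, huv]; simp
  have e2 : S.E i (φ.et v v) * A * PE (S.E i) φ u w 1 1 = S.E i (φ.et v u) * A := by
    rw [et_mul_PE hA, hvu, hvw]; simp
  have e3 : S.E i (φ.et u v) * A * PE (S.E i) φ u w 1 1 = S.E i (φ.et u u) * A := by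
    rw [PE, mul_add, E_mul_A hA, E_mul_A hA, φ.et_mul, φ.et_mul, hvu, hvw]; simp
  have h3 := hY u w huw hvu
  rw [e1, e2, neg_mul, e3] at h3
  have h4 : Mem1 K (PE (S.E i) φ u v (-A) (-A) + S.E i (φ.et u u) * A) := by
    convert h3 using 1
    rw [PE]; noncomm_ring
  have h5 := PE_purify hk hR hu huv hliuv hA.neg hA.neg hA h4 hu huv hliuv
  have h6 := (mem_mG_of (Θ := Θ) hk hI hR hu huv hliuv hA.neg hA.neg h5).1
  have := (mG Θ i K).neg_mem h6
  rwa [neg_neg] at this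

/-- the step when a root of a factor goes to a root of the same factor -/
theorem block_step_sameE [Nonempty ι] (hk : 5 < k) {i : T} (hi : i ∈ J) (IH : ClaimS Θ (J.erase i))
    (hK' : ∀ x ∈ K', S.On J x.1) (hI : ∀ x ∈ K', Θ.Iso x) (hR : ∀ i ∈ J, RootsS φ (S.E i) K') (hC : ∀ i ∈ J, CoefS φ (S.E i) K')
    {h : GL ι F} (hh : S.On J h.1) (hs : Θ.Sim h)
    (hroot : ∀ i ∈ J, ∀ (c : F) (u : Fin k → F), Mem1 K' (h.1 * S.E i (c • φ.et u u) * (h⁻¹).1))
    {u₀ u : Fin k → F} {γ : F} (hu₀ : u₀ ≠ 0) (hγ : γ ≠ 0) (hu : u ≠ 0) (hr : h.1 * S.E i (φ.et u₀ u₀) * (h⁻¹).1 = γ • S.E i (φ.et u u)) :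
    h ∈ S.Mon J := by
  have hk0 : k ≠ 0 := by rintro rfl; exact hu (Subsingleton.elim _ _)
  haveI : Nonempty (Fin k) := ⟨⟨0, Nat.pos_of_ne_zero hk0⟩⟩
  have hblock := block_E hk hK' hI hR hi (hC i hi) hs (hroot i hi) hu₀ hγ hu hr
  obtain ⟨B, hB⟩ := exists_conj_of_alg hk0 hblock
  obtain ⟨a, haB⟩ : ∃ a, a = (EU (S.E i) B)⁻¹ * h := ⟨_, rfl⟩
  have hBa : h = EU (S.E i) B * a := by rw [haB, mul_inv_cancel_left]
  have ha : Cmt (S.E i) a.1 := by rw [haB]; exact cmt_conj_iff hB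
  have haJ : S.On (J.erase i) a.1 := by
    have h1 : S.On J a.1 := by
      rw [haB, Units.val_mul]
      exact (On.inv (on_EU hi B)).mul hh
    intro l hl
    by_cases hli : l = i
    · subst hli; exact ha
    · exact h1 l fun h2 => hl (Finset.mem_erase.2 ⟨hli, h2⟩)
  have hEUc : ∀ {Z : Matrix ι ι F}, Cmt (S.E i) Z → (EU (S.E i) B).1 * Z * ((EU (S.E i) B)⁻¹).1 = Z := by
    intro Z hZ
    rw [EU_val, hZ, mul_assoc, ← EU_val, mul_inv_val, mul_one]
  -- similarity of the factor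
  have hsB : Θ.Sim (EU (S.E i) B) := by
    apply SSt.sim_of_conj
    intro l x
    by_cases hl : l = i
    · subst hl
      refine ⟨l, B.1 * x * (B⁻¹).1, ?_, ?_⟩
      · rw [EU_val, EU_inv_val, ← map_mul, ← map_mul]
      · rw [EU_val, EU_inv_val, ← map_mul, ← map_mul, ← hB, ← Θ.st_E, ← Θ.st_E, ← hB, hs.st_conj]
    · exact ⟨l, x, hEUc (cmt_E (Ne.symm hl) _), hEUc (cmt_E (Ne.symm hl) _)⟩
  have hsa : Θ.Sim a := by rw [haB]; exact hsB.inv.mul hs
  have hamon : a ∈ S.Mon (J.erase i) := by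
    apply IH (subS Θ i K')
    · rintro x ⟨⟨hx, D, hD⟩, -⟩ l hl
      by_cases hli : l = i
      · subst hli; exact hx
      · have h1 : S.On J x.1 := by
          have : x = (EU (S.E i) D)⁻¹ * (EU (S.E i) D * x) := by rw [inv_mul_cancel_left]
          rw [this, Units.val_mul]
          exact (On.inv (on_EU hi D)).mul (hK' _ hD)
        exact h1 l fun h2 => hl (Finset.mem_erase.2 ⟨hli, h2⟩)
    · exact fun x hx => hx.2
    · intro j hj c v
      obtain ⟨hji, hjJ⟩ := Finset.mem_erase.1 hj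
      obtain ⟨x, hx, hxv⟩ := hR j hjJ c v
      refine ⟨x, ⟨⟨?_, 1, ?_⟩, hI x hx⟩, hxv⟩
      · rw [hxv]; exact Cmt.one.add (cmt_E (Ne.symm hji) _)
      · have h1 : EU (S.E i) 1 = 1 := map_one (Units.map _)
        rw [h1, one_mul]; exact hx
    · intro j hj v hv0 A hA hmem
      obtain ⟨hji, hjJ⟩ := Finset.mem_erase.1 hj
      obtain ⟨x, ⟨⟨hxc, D, hD⟩, hxI⟩, hxv⟩ := hmem
      obtain ⟨w, hvw⟩ := φ.exists_hyp hv0
      have hAA : S.E j (φ.et v v) * A * (S.E j (φ.et v v) * A) = 0 := E_A_sq hA (φ.et_sq v)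
      have hxi := Mem1.inv_eq hxv hAA
      have hY : ∀ u w : Fin k → F, φ.f u w = 0 → φ.f v u = 0 → Mem1 K' (PE (S.E j) φ u w 1 1 * (S.E j (φ.et v v) * A) - S.E j (φ.et v v) * A * PE (S.E j) φ u w 1 1 -
          PE (S.E j) φ u w 1 1 * (S.E j (φ.et v v) * A) * PE (S.E j) φ u w 1 1) := by
        intro u' w' huw' hvu'
        obtain ⟨y, hy, hyw⟩ := PE_one_mem (hR j hjJ) huw'
        have hyi := Mem1.inv_eq hyw (PE_sq huw' Cmt.one Cmt.one)
        have hyc : Cmt (S.E i) y.1 := by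
          rw [hyw, PE, mul_one, mul_one]
          exact Cmt.one.add ((cmt_E (Ne.symm hji) _).add (cmt_E (Ne.symm hji) _))
        have hyic : Cmt (S.E i) (y⁻¹).1 := cmt_mul_inv hyc
        have hxE : EU (S.E i) D * x = x * EU (S.E i) D := EU_comm_of_cmt hxc D
        have hyE : EU (S.E i) D * y⁻¹ = y⁻¹ * EU (S.E i) D := EU_comm_of_cmt hyic D
        have h3 : x * y⁻¹ * x⁻¹ = (EU (S.E i) D * x) * y⁻¹ * (EU (S.E i) D * x)⁻¹ := by
          rw [hxE, _root_.mul_inv_rev]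
          calc x * y⁻¹ * x⁻¹ = x * (y⁻¹ * EU (S.E i) D) * (EU (S.E i) D)⁻¹ * x⁻¹ := by group
            _ = _ := by rw [← hyE]; group
        refine ⟨y * (x * y⁻¹ * x⁻¹), by rw [h3]; exact K'.mul_mem hy (K'.mul_mem (K'.mul_mem hD (K'.inv_mem hy)) (K'.inv_mem hD)), ?_⟩
        rw [Units.val_mul, Units.val_mul, Units.val_mul, hyw, hyi, hxi, hxv]
        have hPP : PE (S.E j) φ u' w' 1 1 * PE (S.E j) φ u' w' 1 1 = 0 := PE_sq huw' Cmt.one Cmt.one
        have hLPL : S.E j (φ.et v v) * A * PE (S.E j) φ u' w' 1 1 * (S.E j (φ.et v v) * A) = 0 := by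
          rw [et_mul_PE hA, hvu', zero_smul, zero_add, smul_mul_assoc, E_mul_A (hA.mul Cmt.one), φ.et_mul, φ.f_neg v u', hvu', neg_zero, zero_smul, map_zero,
            zero_mul, smul_zero]
        generalize PE (S.E j) φ u' w' 1 1 = P at *
        generalize S.E j (φ.et v v) * A = L at *
        have e3 : (1 + L) * (1 - P) * (1 - L) = 1 - P + P * L - L * P - L * L + L * P * L := by noncomm_ring
        have e4 : (1 + P) * (1 - P + P * L - L * P) = 1 + (P * L - L * P - P * L * P) - P * P + P * P * L := by noncomm_ring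
        rw [e3, hAA, hLPL, sub_zero, add_zero, e4, hPP, zero_mul, sub_zero, add_zero]
      exact mG_scalar (Θ := Θ) (by omega) hK' hI hR hjJ (hC j hjJ) (mem_mG_of_comm (Θ := Θ) (by omega) hI (hR j hjJ) hv0 hA hY)
    · exact haJ
    · exact hsa
    · intro j hj c v
      obtain ⟨hji, hjJ⟩ := Finset.mem_erase.1 hj
      have hc : Cmt (S.E i) (a.1 * S.E j (c • φ.et v v) * (a⁻¹).1) := conj_cmt ha (cmt_E (Ne.symm hji) _)
      obtain ⟨x, hx, hxv⟩ := hroot j hjJ c v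
      have h1 : h.1 * S.E j (c • φ.et v v) * (h⁻¹).1 = a.1 * S.E j (c • φ.et v v) * (a⁻¹).1 := by
        rw [hBa, _root_.mul_inv_rev, Units.val_mul, Units.val_mul]
        rw [← hEUc hc]
        simp only [mul_assoc]
      rw [h1] at hxv
      refine ⟨x, ⟨⟨?_, 1, ?_⟩, hI x hx⟩, hxv⟩
      · rw [hxv]; exact Cmt.one.add hc
      · have h1 : EU (S.E i) 1 = 1 := map_one (Units.map _)
        rw [h1, one_mul]; exact hx
  rw [hBa]
  apply Subgroup.mul_mem _ (EU_mem_mon i B)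
  obtain ⟨σ, hσ, hσ1, hσ2⟩ := perms_of_mon hamon haJ
  apply mon_of_perms hσ
  intro l
  by_cases hl : l ∈ J.erase i
  · have := (hσ2 l).2 hl
    exact ⟨fun _ => Finset.mem_of_mem_erase hl, fun _ => Finset.mem_of_mem_erase this⟩
  · rw [hσ1 l hl]

/-- the block step, symplectic version -/
theorem block_stepE [Fintype T] [Nonempty ι] (hk : 5 < k) (IH : ∀ i ∈ J, ClaimS Θ (J.erase i))
    (hK' : ∀ x ∈ K', S.On J x.1) (hI : ∀ x ∈ K', Θ.Iso x) (hR : ∀ i ∈ J, RootsS φ (S.E i) K') (hC : ∀ i ∈ J, CoefS φ (S.E i) K')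
    {h : GL ι F} (hh : S.On J h.1) (hs : Θ.Sim h)
    (hroot : ∀ i ∈ J, ∀ (c : F) (u : Fin k → F), Mem1 K' (h.1 * S.E i (c • φ.et u u) * (h⁻¹).1)) {i j : T} (hi : i ∈ J) (hj : j ∈ J)
    {u₀ u : Fin k → F} {γ : F} (hu₀ : u₀ ≠ 0) (hγ : γ ≠ 0) (hu : u ≠ 0) (hr : h.1 * S.E i (φ.et u₀ u₀) * (h⁻¹).1 = γ • S.E j (φ.et u u)) :
    h ∈ S.Mon J := by
  by_cases hij : i = j
  · subst hij
    exact block_step_sameE hk hi (IH i hi) hK' hI hR hC hh hs hroot hu₀ hγ hu hr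
  obtain ⟨π, hπ⟩ : ∃ π, π = S.flip hij := ⟨_, rfl⟩
  have hπon : S.On J π.1 := by rw [hπ]; exact flip_on hij hi hj
  have hπc : ∀ l a, π.1 * S.E l a * (π⁻¹).1 = S.E (Equiv.swap i j l) a := by rw [hπ]; exact flip_conj hij
  have hπs : Θ.Sim π := by rw [hπ]; exact flip_sim hij
  have hinv : π⁻¹ = π := by rw [hπ]; exact Units.ext rfl
  have hsw : ∀ l, Equiv.swap i j l ∈ J ↔ l ∈ J := swap_mem_iff hi hj
  have h2 : π * h ∈ S.Mon J := by
    refine block_step_sameE (K' := K'.comap (MulAut.conj π).toMonoidHom) (Θ := Θ) hk hi (IH i hi) ?_ ?_ ?_ ?_ (h := π * h) ?_ (hπs.mul hs) ?_ hu₀ hγ hu ?_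
    · intro x hx
      have h3 := hK' _ (show π * x * π⁻¹ ∈ K' from hx)
      have h4 : x = π⁻¹ * (π * x * π⁻¹) * π := by group
      rw [h4, Units.val_mul, Units.val_mul]
      exact ((On.inv hπon).mul h3).mul hπon
    · intro x hx
      have h3 := hI _ (show π * x * π⁻¹ ∈ K' from hx)
      have h4 : x.1 = (π⁻¹).1 * (π * x * π⁻¹).1 * ((π⁻¹)⁻¹).1 := by
        rw [inv_inv, ← Units.val_mul, ← Units.val_mul]; congr 1; group
      show Θ.st x.1 * x.1 = 1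
      rw [h4, hπs.inv.st_conj]
      calc (π⁻¹).1 * Θ.st (π * x * π⁻¹).1 * ((π⁻¹)⁻¹).1 * ((π⁻¹).1 * (π * x * π⁻¹).1 * ((π⁻¹)⁻¹).1) =
          (π⁻¹).1 * Θ.st (π * x * π⁻¹).1 * (((π⁻¹)⁻¹).1 * (π⁻¹).1) * (π * x * π⁻¹).1 * ((π⁻¹)⁻¹).1 := by simp only [mul_assoc]
        _ = (π⁻¹).1 * (Θ.st (π * x * π⁻¹).1 * (π * x * π⁻¹).1) * ((π⁻¹)⁻¹).1 := by rw [inv_mul_val, mul_one]; simp only [mul_assoc]
        _ = 1 := by rw [show Θ.st (π * x * π⁻¹).1 * (π * x * π⁻¹).1 = 1 from h3, mul_one, mul_inv_val]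
    · intro l hl c v
      apply mem1_comap
      rw [hπc]
      exact hR _ ((hsw l).2 hl) c v
    · intro l hl v hv0 A hA hmem
      have h3 := comap_mem1 hmem
      have h4 : π.1 * (S.E l (φ.et v v) * A) * (π⁻¹).1 = S.E (Equiv.swap i j l) (φ.et v v) * (π.1 * A * (π⁻¹).1) := by
        rw [← hπc]
        calc π.1 * (S.E l (φ.et v v) * A) * (π⁻¹).1 = π.1 * S.E l (φ.et v v) * ((π⁻¹).1 * π.1) * A * (π⁻¹).1 := by rw [inv_mul_val, mul_one]; simp only [mul_assoc]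
          _ = _ := by simp only [mul_assoc]
      rw [h4] at h3
      have h5 : Cmt (S.E (Equiv.swap i j l)) (π.1 * A * (π⁻¹).1) := by
        intro x
        rw [← hπc]
        calc π.1 * S.E l x * (π⁻¹).1 * (π.1 * A * (π⁻¹).1) = π.1 * S.E l x * ((π⁻¹).1 * π.1) * A * (π⁻¹).1 := by simp only [mul_assoc]
          _ = π.1 * (S.E l x * A) * (π⁻¹).1 := by rw [inv_mul_val, mul_one]; simp only [mul_assoc]
          _ = π.1 * (A * S.E l x) * (π⁻¹).1 := by rw [hA]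
          _ = π.1 * A * ((π⁻¹).1 * π.1) * S.E l x * (π⁻¹).1 := by rw [inv_mul_val, mul_one]; simp only [mul_assoc]
          _ = _ := by simp only [mul_assoc]
      obtain ⟨c, hc⟩ := hC _ ((hsw l).2 hl) v hv0 _ h5 h3
      refine ⟨c, ?_⟩
      have h6 : A = (π⁻¹).1 * (π.1 * A * (π⁻¹).1) * π.1 := by
        calc A = ((π⁻¹).1 * π.1) * A * ((π⁻¹).1 * π.1) := by rw [inv_mul_val, one_mul, mul_one]
          _ = _ := by simp only [mul_assoc]
      rw [h6, hc, mul_smul_comm, mul_one, smul_mul_assoc, inv_mul_val]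
    · rw [Units.val_mul]; exact hπon.mul hh
    · intro l hl c v
      apply mem1_comap
      have h3 := hroot l hl c v
      have : π.1 * ((π * h).1 * S.E l (c • φ.et v v) * ((π * h)⁻¹).1) * (π⁻¹).1 = h.1 * S.E l (c • φ.et v v) * (h⁻¹).1 := by
        have e1 : π.1 * (π * h).1 = h.1 := by rw [← Units.val_mul, ← mul_assoc]; nth_rewrite 1 [← hinv]; rw [inv_mul_cancel, one_mul]
        have e2 : ((π * h)⁻¹).1 * (π⁻¹).1 = (h⁻¹).1 := by
          rw [← Units.val_mul, _root_.mul_inv_rev]; nth_rewrite 2 [hinv]; rw [mul_assoc, inv_mul_cancel, mul_one]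
        calc π.1 * ((π * h).1 * S.E l (c • φ.et v v) * ((π * h)⁻¹).1) * (π⁻¹).1 = (π.1 * (π * h).1) * S.E l (c • φ.et v v) * (((π * h)⁻¹).1 * (π⁻¹).1) := by
              simp only [mul_assoc]
          _ = _ := by rw [e1, e2]
      rw [this]; exact h3
    · have : (π * h).1 * S.E i (φ.et u₀ u₀) * ((π * h)⁻¹).1 = π.1 * (h.1 * S.E i (φ.et u₀ u₀) * (h⁻¹).1) * (π⁻¹).1 := by
        rw [_root_.mul_inv_rev, Units.val_mul, Units.val_mul]; simp only [mul_assoc]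
      rw [this, hr, mul_smul_comm, smul_mul_assoc, hπc, Equiv.swap_apply_right]
  have h3 : h = π⁻¹ * (π * h) := by group
  rw [h3]
  exact Subgroup.mul_mem _ (Subgroup.inv_mem _ (by rw [hπ]; exact flip_mem_mon hij hi hj)) h2

section fus

variable [Fintype T]

theorem fusE [Fintype F] [Nonempty ι] (hk : 5 < k) {h : GL ι F} (hh : S.On J h.1) (hs : Θ.Sim h)
    {i : T} (hi : i ∈ J) {u : Fin k → F} (hu : u ≠ 0) {c : F} (hc : c ≠ 0) {y : GL ι F}
    (hy : y.1 = 1 + h.1 * S.E i (c • φ.et u u) * (h⁻¹).1) (hyM : y ∈ S.Mon J) :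
    ∃ j ∈ J, ∃ (γ : F) (u' : Fin k → F), γ ≠ 0 ∧ u' ≠ 0 ∧ h.1 * S.E i (φ.et u u) * (h⁻¹).1 = γ • S.E j (φ.et u' u') := by
  set z : Fin k := ⟨0, by omega⟩
  have hv : c • φ.et u u = vecMulVec (c • u) (φ.fr u) := by rw [← φ.et_smul_left]; rfl
  have hcu : c • u ≠ 0 := smul_ne_zero hc hu
  have hfr : φ.fr u ≠ 0 := φ.fr_ne_zero hu
  have hdot : φ.fr u ⬝ᵥ (c • u) = 0 := by rw [dotProduct_smul, fr_dot_self, smul_zero]
  rw [hv] at hy
  obtain ⟨j, hj, u', φ', hr⟩ := fus_of (by omega) (Or.inr (by omega)) hh hi hcu hfr hdot hy hyM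
  have hne2 : S.E j (vecMulVec u' φ') ≠ 0 := by
    rw [← hr]
    intro h0
    exact vmv_ne_zero hcu hfr (E_inj (S := S) (i := i) (by rw [conj_eq_zero h h0, map_zero]))
  obtain ⟨γ, w, hγ, hw, hsh⟩ := root_shape (Θ := Θ) hne2 (by
    rw [← hr, hs.st_conj, Θ.st_E, ← hv, φ.star_smul, φ.star_et, smul_neg, map_neg, mul_neg, neg_mul])
  refine ⟨j, hj, c⁻¹ * γ, w, mul_ne_zero (inv_ne_zero hc) hγ, hw, ?_⟩
  rw [hsh, ← hv, map_smul, map_smul, mul_smul_comm, smul_mul_assoc] at hr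
  rw [mul_smul, ← hr, smul_smul, inv_mul_cancel₀ hc, one_smul]

lemma hfree_ofE [Fintype F] [Nonempty ι] (hk : 5 < k) (IH : ∀ i ∈ J, ClaimS Θ (J.erase i)) (hG : GoodS Θ J K')
    {i : T} (hi : i ∈ J) {u : Fin k → F} (hu : u ≠ 0) {c : F} (hc : c ≠ 0) {x : GL ι F} (hx : x.1 = 1 + S.E i (c • φ.et u u))
    {g : GL ι F} (hg : g ∈ K') (hgx : g⁻¹ * x * g ∈ S.Mon J) : g ∈ S.Mon J := by
  have hg' : g⁻¹ ∈ K' := K'.inv_mem hg
  have hy : (g⁻¹ * x * g).1 = 1 + (g⁻¹).1 * S.E i (c • φ.et u u) * ((g⁻¹)⁻¹).1 := by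
    rw [Units.val_mul, Units.val_mul, hx, mul_add, mul_one, add_mul, inv_mul_val, inv_inv]
  obtain ⟨j, hj, γ, u', hγ, hu', hr⟩ := fusE (Θ := Θ) hk (hG.on _ hg') (hG.iso _ hg').sim hi hu hc hy hgx
  have := block_stepE hk IH hG.on hG.iso hG.root hG.coef (hG.on _ hg') (hG.iso _ hg').sim (fun i hi c u => (hG.root i hi c u).conj' hg') hi hj hu hγ hu' hr
  rw [← inv_inv g]
  exact Subgroup.inv_mem _ this

/-- **The inductive step** -/
theorem claim_of_monE [Fintype F] [Nonempty ι] (hk : 5 < k) (J : Finset T) (IH : ∀ i ∈ J, ClaimS Θ (J.erase i))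
    (hM : ∀ K' : Subgroup (GL ι F), GoodS Θ J K' → J.Nonempty → ∀ g ∈ K', g ∈ S.Mon J) : ClaimS Θ J := by
  intro K' hOn hI hR hC h hh hs hroot
  by_cases hJ : J.Nonempty
  swap
  · rw [Finset.not_nonempty_iff_eq_empty] at hJ
    subst hJ
    exact ⟨1, fun i => Iff.rfl, fun i hi => absurd hi (Finset.notMem_empty i)⟩
  have hG : GoodS Θ J K' := ⟨hOn, hI, hR, hC⟩
  have hK'M := hM K' hG hJ
  obtain ⟨i, hi⟩ := hJ
  have hu : (Pi.single (⟨0, by omega⟩ : Fin k) (1 : F) : Fin k → F) ≠ 0 := by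
    intro h0; have := congrFun h0 (⟨0, by omega⟩ : Fin k); rw [Pi.single_eq_same] at this; exact one_ne_zero this
  obtain ⟨y, hyK, hy⟩ := hroot i hi 1 (Pi.single (⟨0, by omega⟩ : Fin k) (1 : F))
  obtain ⟨j, hj, γ, u', hγ, hu', hr⟩ := fusE (Θ := Θ) hk hh hs hi hu one_ne_zero hy (hK'M y hyK)
  exact block_stepE hk IH hOn hI hR hC hh hs hroot hi hj hu hγ hu' hr

end fus

end Sys

end Cfsg.Agent.Asch.CW
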