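import Mathlib
import Cfsg.Prelude.Def_GeometricClasses
import Cfsg.Agent.Asch.EVInd
import Cfsg.Agent.Asch.CSStd
set_option autoImplicit false
set_option linter.unusedSectionVars false
set_option linter.unusedVariables false
set_option linter.unusedSimpArgs false
set_option linter.style.haveILetI false

/-!
The relative trace argument with bilinear forms: symplectic case, `5 < k`, all characteristics.
-/

namespace Cfsg.Agent.Asch.CW

open Matrix Module

open scoped Matrix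

namespace Sys

variable {k : ℕ} {T ι : Type} [DecidableEq T] [Fintype ι] [DecidableEq ι] {F : Type*} [Field F] {S : Sys k T ι F} {φ : SpF k F}
  {J : Finset T} {τ : Matrix ι ι F →ₗ[F] F} {K K' : Subgroup (GL ι F)} {Θ : SSt S φ}

theorem tau_nondeg (hk : 0 < k) (J : Finset T) : ∀ (τ : Matrix ι ι F →ₗ[F] F), (∀ Z Z', S.On J Z → S.On J Z' → τ (Z * Z') = τ (Z' * Z)) →
    ∀ Z₀, S.On J Z₀ → τ Z₀ ≠ 0 → ∀ D, S.On J D → (∀ Z', S.On J Z' → τ (D * Z') = 0) → D = 0 := by
  induction J using Finset.induction_on with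
  | empty =>
    intro τ hτ Z₀ hZ₀ hτ₀ D hD hz
    obtain ⟨c, hc⟩ := on_empty hD
    have h1 := hz Z₀ hZ₀
    rw [hc, smul_mul_assoc, one_mul, map_smul, smul_eq_mul] at h1
    rw [hc, (mul_eq_zero.1 h1).resolve_right hτ₀, zero_smul]
  | insert i J' hi ih =>
    intro τ hτ Z₀ hZ₀ hτ₀ D hD hz
    set z : Fin k := ⟨0, hk⟩ with hzd
    have hiJ : i ∈ insert i J' := Finset.mem_insert_self _ _
    have hsub : J' ⊆ insert i J' := Finset.subset_insert _ _
    have hc' : ∀ {X}, S.On J' X → Cmt (S.E i) X := fun hX => hX i hi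
    have hee : S.E i (single z z (1 : F)) * S.E i (single z z 1) = S.E i (single z z 1) := by
      rw [← map_mul, single_mul_single_same, one_mul]
    have hblk : ∀ Z, S.On (insert i J') Z → ∀ l m, S.On J' (blk (S.E i) Z l m) := by
      intro Z hZ l m
      have := hZ.blk i l m
      rwa [Finset.erase_insert hi] at this
    have hτ' : ∀ Z Z', S.On J' Z → S.On J' Z' → (τ.comp (LinearMap.mulLeft F (S.E i (single z z 1)))) (Z * Z') = (τ.comp (LinearMap.mulLeft F (S.E i (single z z 1)))) (Z' * Z) := by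
      intro Z Z' hZ hZ'
      show τ (S.E i (single z z 1) * (Z * Z')) = τ (S.E i (single z z 1) * (Z' * Z))
      have e : ∀ {Z Z'}, S.On J' Z → S.On J' Z' → S.E i (single z z 1) * (Z * Z') = (S.E i (single z z 1) * Z) * (S.E i (single z z 1) * Z') := by
        intro Z Z' hZ hZ'
        calc S.E i (single z z 1) * (Z * Z') = S.E i (single z z 1) * (S.E i (single z z 1) * Z) * Z' := by rw [← mul_assoc, ← mul_assoc, hee]
          _ = _ := by rw [hc' hZ (single z z 1), ← mul_assoc (S.E i (single z z 1)) Z, hc' hZ (single z z 1)]; simp only [mul_assoc]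
      rw [e hZ hZ', e hZ' hZ]
      exact hτ _ _ ((on_E hiJ _).mul (hZ.mono hsub)) ((on_E hiJ _).mul (hZ'.mono hsub))
    have hτ₀' : (τ.comp (LinearMap.mulLeft F (S.E i (single z z 1)))) (∑ l, blk (S.E i) Z₀ l l) ≠ 0 := by
      show τ (S.E i (single z z 1) * _) ≠ 0
      have h1 : τ Z₀ = τ (S.E i (single z z 1) * ∑ l, blk (S.E i) Z₀ l l) := by
        conv_lhs => rw [← sum_blk (S.E i) Z₀]
        rw [Finset.mul_sum, map_sum, map_sum]
        refine Finset.sum_congr rfl fun l _ => ?_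
        rw [map_sum, Finset.sum_eq_single l]
        · rw [tau_E_mul hτ hiJ (blk_cmt _ _ _ _) ((hblk _ hZ₀ l l).mono hsub) z, trace_single_eq_same, one_mul]
        · intro m _ hm
          rw [tau_E_mul hτ hiJ (blk_cmt _ _ _ _) ((hblk _ hZ₀ l m).mono hsub) z, trace_single_eq_of_ne _ _ _ (Ne.symm hm), zero_mul]
        · intro h; exact absurd (Finset.mem_univ _) h
      rwa [← h1]
    have hD0 : ∀ l m, blk (S.E i) D l m = 0 := by
      intro l m
      refine ih _ hτ' _ (On.sum fun l _ => hblk Z₀ hZ₀ l l) hτ₀' _ (hblk D hD l m) fun Z'' hZ'' => ?_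
      show τ (S.E i (single z z 1) * (blk (S.E i) D l m * Z'')) = 0
      have h1 := hz (S.E i (single m l 1) * Z'') ((on_E hiJ _).mul (hZ''.mono hsub))
      rw [← h1]
      conv_rhs => rw [← sum_blk (S.E i) D]
      rw [Finset.sum_mul, map_sum]
      symm
      have h2 : ∀ l' m' : Fin k, τ (S.E i (single l' m' 1) * blk (S.E i) D l' m' * (S.E i (single m l 1) * Z'')) =
          (single l' m' (1 : F) * single m l 1).trace * τ (S.E i (single z z 1) * (blk (S.E i) D l' m' * Z'')) := by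
        intro l' m'
        have h3 : S.E i (single l' m' 1) * blk (S.E i) D l' m' * (S.E i (single m l 1) * Z'') = S.E i (single l' m' (1 : F) * single m l 1) * (blk (S.E i) D l' m' * Z'') := by
          have hb : Cmt (S.E i) (blk (S.E i) D l' m') := blk_cmt _ _ _ _
          calc S.E i (single l' m' 1) * blk (S.E i) D l' m' * (S.E i (single m l 1) * Z'') = S.E i (single l' m' 1) * (blk (S.E i) D l' m' * S.E i (single m l 1)) * Z'' := by
                simp only [mul_assoc]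
            _ = _ := by rw [← hb, map_mul]; simp only [mul_assoc]
        rw [h3]
        exact tau_E_mul hτ hiJ ((blk_cmt _ _ _ _).mul (hc' hZ'')) (((hblk D hD l' m').mul hZ'').mono hsub) z _
      rw [Finset.sum_eq_single l]
      · rw [Finset.sum_mul, map_sum, Finset.sum_eq_single m]
        · rw [h2, single_mul_single_same, one_mul, trace_single_eq_same, one_mul]
        · intro m' _ hm'
          rw [h2, single_mul_single_of_ne _ _ _ _ hm', trace_zero, zero_mul]
        · intro h; exact absurd (Finset.mem_univ _) h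
      · intro l' _ hl'
        rw [Finset.sum_mul, map_sum]
        apply Finset.sum_eq_zero
        intro m' _
        rw [h2]
        by_cases hm' : m' = m
        · subst hm'
          rw [single_mul_single_same, trace_single_eq_of_ne _ _ _ hl', zero_mul]
        · rw [single_mul_single_of_ne _ _ _ _ hm', trace_zero, zero_mul]
      · intro h; exact absurd (Finset.mem_univ _) h
    rw [← sum_blk (S.E i) D]
    apply Finset.sum_eq_zero
    intro l _
    apply Finset.sum_eq_zero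
    intro m _
    rw [hD0, mul_zero]

lemma pr_on (Z : Matrix ι ι F) : S.On J (S.pr τ J Z) := On.sum fun j hj => on_E hj _

section fk

variable [Finite F]

lemma FK_on (hK : ∀ g ∈ K, S.On J g.1) (Z : Matrix ι ι F) : S.On J (S.FK τ J K Z) := by
  refine finsum_induction (S.On J) ?_ (fun x y hx hy => hx.add hy) fun c => ?_
  · intro l hl; exact Cmt.zero
  · have h : S.On J (c.out : K).1.1 := hK _ (c.out : K).2
    exact (h.mul (pr_on _)).mul (On.inv h)

open scoped Classical in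
theorem FK_pair (hτ : ∀ Z Z', S.On J Z → S.On J Z' → τ (Z * Z') = τ (Z' * Z)) (hK : ∀ g ∈ K, S.On J g.1)
    {X : Subgroup (GL ι F)} (hXK : X ≤ K) (hXM : X ≤ S.Mon J)
    (hfree : ∀ x ∈ X, x ≠ 1 → ∀ g ∈ K, g⁻¹ * x * g ∈ S.Mon J → g ∈ S.Mon J)
    (hkill : ∀ a : F, ∑ᶠ x : X.subgroupOf K, a = 0)
    {Z Z' : Matrix ι ι F} (hZ : S.On J Z) (hZX : ∀ x ∈ X, cj x Z = Z) (hZ' : S.On J Z') (hZX' : ∀ x ∈ X, cj x Z' = Z') :
    τ (S.FK τ J K Z * Z') = τ (S.pr τ J Z * Z') := by
  haveI : Finite K := inferInstance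
  haveI : Finite (K ⧸ (S.Mon J).subgroupOf K) := inferInstance
  have hon : ∀ c : K ⧸ (S.Mon J).subgroupOf K, S.On J (S.hfun τ J K Z c) := fun c => by
    have h : S.On J (c.out : K).1.1 := hK _ (c.out : K).2
    exact (h.mul (pr_on _)).mul (On.inv h)
  have h := sum_quotient_eq (G := K) (N := (S.Mon J).subgroupOf K) (X := X.subgroupOf K) (h := fun c => τ (S.hfun τ J K Z c * Z'))
    (act := fun x a => a) (by
      intro x hx c
      have h1 := hfun_smul hτ hK hZ x c
      rw [hZX _ (Subgroup.mem_subgroupOf.1 hx)] at h1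
      show τ (S.hfun τ J K Z (x • c) * Z') = τ (S.hfun τ J K Z c * Z')
      rw [h1]
      nth_rewrite 1 [← hZX' _ (Subgroup.mem_subgroupOf.1 hx)]
      have hxJ := hK _ x.2
      have h2 : cj x.1 (S.hfun τ J K Z c) * cj x.1 Z' = x.1.1 * (S.hfun τ J K Z c * Z') * (x.1⁻¹).1 := by
        rw [cj, cj]
        calc x.1.1 * S.hfun τ J K Z c * (x.1⁻¹).1 * (x.1.1 * Z' * (x.1⁻¹).1) = x.1.1 * S.hfun τ J K Z c * ((x.1⁻¹).1 * x.1.1) * Z' * (x.1⁻¹).1 := by simp only [mul_assoc]
          _ = _ := by rw [inv_mul_val, mul_one]; simp only [mul_assoc]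
      rw [h2, hτ _ _ (hxJ.mul ((hon c).mul hZ')) (On.inv hxJ), ← mul_assoc, inv_mul_val, one_mul])
    (by
      intro x hx hx1 g hg
      exact Subgroup.mem_subgroupOf.2 (hfree x.1 (Subgroup.mem_subgroupOf.1 hx) (fun h => hx1 (Subtype.ext h)) g.1 g.2 (Subgroup.mem_subgroupOf.1 hg)))
    (fun x hx => Subgroup.mem_subgroupOf.2 (hXM (Subgroup.mem_subgroupOf.1 hx)))
    hkill
  have h3 : τ (S.FK τ J K Z * Z') = ∑ᶠ c : K ⧸ (S.Mon J).subgroupOf K, τ (S.hfun τ J K Z c * Z') := by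
    have := (τ.toAddMonoidHom.comp (AddMonoidHom.mulRight Z')).map_finsum (f := fun c : K ⧸ (S.Mon J).subgroupOf K => S.hfun τ J K Z c) (Set.toFinite _)
    exact this
  rw [h3, h]
  show τ (S.hfun τ J K Z ((1 : K) : K ⧸ (S.Mon J).subgroupOf K) * Z') = _
  rw [hfun_mk hτ hK hZ, Subgroup.coe_one, inv_one, cj_one, cj_one]

end fk

section fk2

variable [Fintype F] [Fintype T]

open scoped Classical in
theorem FK_pair_root [Nonempty ι] (hk : 5 < k) (IH : ∀ i ∈ J, ClaimS Θ (J.erase i)) (hG : GoodS Θ J K')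
    (hτ : ∀ Z Z', S.On J Z → S.On J Z' → τ (Z * Z') = τ (Z' * Z)) {i : T} (hi : i ∈ J) {u : Fin k → F} (hu : u ≠ 0)
    {Z Z' : Matrix ι ι F} (hZ : S.On J Z) (hZc : S.E i (φ.et u u) * Z = Z * S.E i (φ.et u u))
    (hZ' : S.On J Z') (hZc' : S.E i (φ.et u u) * Z' = Z' * S.E i (φ.et u u)) : τ (S.FK τ J K' Z * Z') = τ (S.pr τ J Z * Z') := by
  obtain ⟨x, hxK, hx⟩ := hG.root i hi 1 u
  rw [one_smul] at hx
  have hpow : ∀ n : ℕ, (x ^ n).1 = 1 + S.E i ((n : F) • φ.et u u) := by
    intro n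
    induction n with
    | zero => rw [pow_zero, Units.val_one, Nat.cast_zero, zero_smul, map_zero, add_zero]
    | succ n ih =>
      have h0 : S.E i ((n : F) • φ.et u u) * S.E i (φ.et u u) = 0 := by rw [← map_mul, smul_mul_assoc, φ.et_sq, smul_zero, map_zero]
      rw [pow_succ, Units.val_mul, ih, hx, Nat.cast_succ, add_smul, one_smul, map_add, mul_add, mul_one, add_mul, one_mul, h0, add_zero, add_assoc]
  have hne : φ.et u u ≠ 0 := φ.et_ne_zero hu hu
  have hn0 : ∀ n : ℕ, x ^ n = 1 → (n : F) = 0 := by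
    intro n hn
    have h1 := hpow n
    rw [hn, Units.val_one] at h1
    have h2 : S.E i ((n : F) • φ.et u u) = 0 := by
      have := h1.symm
      rwa [add_eq_left] at this
    have h3 := E_inj (S := S) (i := i) (h2.trans (map_zero _).symm)
    exact (smul_eq_zero.1 h3).resolve_right hne
  have hfin : Finite (GL ι F) := inferInstance
  have hXp : ∀ y ∈ Subgroup.zpowers x, ∃ n : ℕ, x ^ n = y := by
    intro y hy
    exact (mem_powers_iff_mem_zpowers.2 hy)
  refine FK_pair (X := Subgroup.zpowers x) hτ hG.on ?_ ?_ ?_ ?_ hZ ?_ hZ' ?_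
  · exact (Subgroup.zpowers_le).2 hxK
  · rw [Subgroup.zpowers_le]
    obtain ⟨B, hB⟩ := exists_of_sq_zero (φ.et_sq u)
    have : x = EU (S.E i) B := by
      apply Units.ext
      rw [EU_val, hx, hB, map_add, map_one]
    rw [this]; exact EU_mem_mon i B
  · intro y hy hy1 g hg hgy
    obtain ⟨n, rfl⟩ := hXp y hy
    have hn : (n : F) ≠ 0 := by
      intro h0
      apply hy1
      apply Units.ext
      rw [hpow, h0, zero_smul, map_zero, add_zero, Units.val_one]
    exact hfree_ofE (Θ := Θ) hk IH hG hi hu hn (hpow n) hg hgy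
  · intro a
    rw [finsum_eq_sum_of_fintype, Finset.sum_const, Finset.card_univ, ← Nat.card_eq_fintype_card]
    have h1 : Nat.card ((Subgroup.zpowers x).subgroupOf K') = orderOf x := by
      rw [← Nat.card_zpowers]
      exact Nat.card_congr (Subgroup.subgroupOfEquivOfLe ((Subgroup.zpowers_le).2 hxK)).toEquiv
    rw [h1, nsmul_eq_mul, hn0 _ (pow_orderOf_eq_one x), zero_mul]
  · intro y hy
    obtain ⟨n, rfl⟩ := hXp y hy
    apply cj_eq_self
    rw [hpow, map_smul, add_mul, mul_add, one_mul, mul_one, smul_mul_assoc, hZc, mul_smul_comm]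
  · intro y hy
    obtain ⟨n, rfl⟩ := hXp y hy
    apply cj_eq_self
    rw [hpow, map_smul, add_mul, mul_add, one_mul, mul_one, smul_mul_assoc, hZc', mul_smul_comm]

/-- the difference of the relative trace and the projection -/
noncomputable def dFK (S : Sys k T ι F) (τ : Matrix ι ι F →ₗ[F] F) (J : Finset T) (K : Subgroup (GL ι F)) : Matrix ι ι F →+ Matrix ι ι F :=
  AddMonoidHom.mk' (fun Z => S.FK τ J K Z - S.pr τ J Z) fun Z Z' => by rw [FK_add, pr_add]; abel

lemma dFK_apply (Z : Matrix ι ι F) : S.dFK τ J K Z = S.FK τ J K Z - S.pr τ J Z := rfl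

theorem dFK_pair [Nonempty ι] (hk : 5 < k) (IH : ∀ i ∈ J, ClaimS Θ (J.erase i)) (hG : GoodS Θ J K')
    (hτ : ∀ Z Z', S.On J Z → S.On J Z' → τ (Z * Z') = τ (Z' * Z)) {i : T} (hi : i ∈ J)
    {b b' : Matrix ι ι F} (hb : Cmt (S.E i) b) (hbJ : S.On J b) (hb' : Cmt (S.E i) b') (hbJ' : S.On J b') (a a' : Matrix (Fin k) (Fin k) F) :
    τ (S.dFK τ J K' (S.E i a * b) * (S.E i a' * b')) = 0 := by
  refine φ.et_induction (P := fun a => τ (S.dFK τ J K' (S.E i a * b) * (S.E i a' * b')) = 0) ?_ ?_ ?_ a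
  · rw [map_zero, zero_mul, map_zero, zero_mul, map_zero]
  · intro a c ha hc
    rw [map_add, add_mul, map_add, add_mul, map_add, ha, hc, add_zero]
  · intro v w
    refine φ.et_induction (P := fun a' => τ (S.dFK τ J K' (S.E i (φ.et v w) * b) * (S.E i a' * b')) = 0) ?_ ?_ ?_ a'
    · rw [map_zero, zero_mul, mul_zero, map_zero]
    · intro a c ha hc
      rw [map_add, add_mul, mul_add, map_add, ha, hc, add_zero]
    · intro v' w'
      obtain ⟨u, hu1, hu2⟩ := φ.exists_perp [v, w, v', w'] [] (by simp; omega)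
      have hu : u ≠ 0 := by rintro rfl; exact hu1 (Submodule.zero_mem _)
      have h1 := hu2 v (by simp)
      have h2 := hu2 w (by simp)
      have h3 := hu2 v' (by simp)
      have h4 := hu2 w' (by simp)
      have key : ∀ {v w : Fin k → F} {b : Matrix ι ι F}, Cmt (S.E i) b → φ.f u v = 0 → φ.f u w = 0 →
          S.E i (φ.et u u) * (S.E i (φ.et v w) * b) = S.E i (φ.et v w) * b * S.E i (φ.et u u) := by
        intro v w b hb h1 h2
        rw [← mul_assoc, ← map_mul, φ.et_mul, h1, zero_smul, map_zero, zero_mul, mul_assoc, ← hb, ← mul_assoc, ← map_mul, φ.et_mul, φ.f_zero_symm h2, zero_smul,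
          map_zero, zero_mul]
      have := FK_pair_root (Θ := Θ) (τ := τ) hk IH hG hτ hi hu ((on_E hi (φ.et v w)).mul hbJ) (key hb h1 h2) ((on_E hi (φ.et v' w')).mul hbJ') (key hb' h3 h4)
      rw [dFK_apply, sub_mul, map_sub, this, sub_self]

theorem FK_eq_prE [Nonempty ι] (hk : 5 < k) (IH : ∀ i ∈ J, ClaimS Θ (J.erase i)) (hG : GoodS Θ J K') (hJ : J.Nonempty)
    (hτ : ∀ Z Z', S.On J Z → S.On J Z' → τ (Z * Z') = τ (Z' * Z)) {Z₀ : Matrix ι ι F} (hZ₀ : S.On J Z₀) (hτ₀ : τ Z₀ ≠ 0)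
    {Z : Matrix ι ι F} (hZ : S.On J Z) : S.FK τ J K' Z = S.pr τ J Z := by
  obtain ⟨i, hi⟩ := hJ
  rw [← sub_eq_zero]
  refine tau_nondeg (by omega) J τ hτ Z₀ hZ₀ hτ₀ _ ((FK_on hG.on Z).sub (pr_on Z)) fun Z' hZ' => ?_
  have hbl : ∀ {Z : Matrix ι ι F}, S.On J Z → ∀ l m, S.On J (blk (S.E i) Z l m) := fun hZ l m => (hZ.blk i l m).mono (Finset.erase_subset _ _)
  show τ (S.dFK τ J K' Z * Z') = 0
  conv_lhs => rw [← sum_blk (S.E i) Z, ← sum_blk (S.E i) Z']
  rw [map_sum, Finset.sum_mul, map_sum]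
  apply Finset.sum_eq_zero
  intro l _
  rw [map_sum, Finset.sum_mul, map_sum]
  apply Finset.sum_eq_zero
  intro m _
  rw [Finset.mul_sum, map_sum]
  apply Finset.sum_eq_zero
  intro l' _
  rw [Finset.mul_sum, map_sum]
  apply Finset.sum_eq_zero
  intro m' _
  exact dFK_pair (Θ := Θ) hk IH hG hτ hi (blk_cmt _ _ _ _) (hbl hZ l m) (blk_cmt _ _ _ _) (hbl hZ' l' m') _ _

/-- `K'` permutes the factors -/
theorem mon_of_E [Nonempty ι] (hk : 5 < k) (IH : ∀ i ∈ J, ClaimS Θ (J.erase i)) (hG : GoodS Θ J K') (hJ : J.Nonempty)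
    (hτ : ∀ Z Z', S.On J Z → S.On J Z' → τ (Z * Z') = τ (Z' * Z)) {Z₀ : Matrix ι ι F} (hZ₀ : S.On J Z₀) (hτ₀ : τ Z₀ ≠ 0) :
    ∀ g ∈ K', g ∈ S.Mon J := by
  intro g hg
  have hall := fun {Z : Matrix ι ι F} (hZ : S.On J Z) => FK_eq_prE (Θ := Θ) hk IH hG hJ hτ hZ₀ hτ₀ hZ
  obtain ⟨i, hi⟩ := hJ
  set z : Fin k := ⟨0, by omega⟩ with hz
  obtain ⟨u, hu⟩ : ∃ u : Fin k → F, u ≠ 0 := ⟨Pi.single z 1, by
    intro h0; have := congrFun h0 z; rw [Pi.single_eq_same] at this; exact one_ne_zero this⟩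
  obtain ⟨Z, hZJ, hZτ, hZpr⟩ := exists_ev (by omega : 0 < k) hτ hZ₀ hτ₀ hi (u := u) (φ := φ.fr u) (fr_dot_self φ u)
  have h1 := FK_conj hτ hG.on hZJ hg
  rw [hall hZJ, hall (On.cj (hG.on _ hg) hZJ), hZpr] at h1
  have hw : g.1 * S.E i (φ.et u u) * (g⁻¹).1 = ∑ j ∈ J, S.E j (S.ceM τ j (cj g Z)) := h1.symm
  have hsq : (g.1 * S.E i (φ.et u u) * (g⁻¹).1) * (g.1 * S.E i (φ.et u u) * (g⁻¹).1) = 0 := sq_conj (E_sq (φ.et_sq u))
  have hne0 : g.1 * S.E i (φ.et u u) * (g⁻¹).1 ≠ 0 := by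
    intro h0
    exact φ.et_ne_zero hu hu (E_inj (S := S) (i := i) (by rw [conj_eq_zero g h0, map_zero]))
  obtain ⟨j, hj, a, ha⟩ := factor_of_sum (by omega) hw hsq hne0 i z (by rw [rank_conj]; exact rank_vmv_le i z _ _)
  have haa : a * a = 0 := E_inj (S := S) (i := j) (by rw [map_mul, ← ha, hsq, map_zero])
  obtain ⟨B, hB⟩ := exists_of_sq_zero haa
  have hyM : EU (S.E j) B ∈ S.Mon J := EU_mem_mon j B
  obtain ⟨j', hj', γ, u', hγ, hu', hr⟩ := fusE (Θ := Θ) hk (hG.on _ hg) (hG.iso _ hg).sim hi hu one_ne_zero (y := EU (S.E j) B)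
    (by rw [EU_val, hB, map_add, map_one, one_smul, ha]) hyM
  exact block_stepE hk IH hG.on hG.iso hG.root hG.coef (hG.on _ hg) (hG.iso _ hg).sim (fun i hi c u => (hG.root i hi c u).conj' hg) hi hj' hu hγ hu' hr

end fk2

end Sys

/-- **The claim for the standard system**, symplectic case, `5 < k` -/
theorem claimE_std {k t : ℕ} {F : Type*} [Field F] (φ : SpF k F) [Fintype F] (hk : 5 < k) (J : Finset (Fin t)) : Sys.ClaimS (stStd t φ) J := by
  haveI : Nonempty (Fin k) := ⟨⟨0, by omega⟩⟩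
  induction hn : J.card using Nat.strong_induction_on generalizing J with
  | _ n ih =>
    have IH : ∀ i ∈ J, Sys.ClaimS (stStd t φ) (J.erase i) := by
      intro i hi
      apply ih _ _ _ rfl
      rw [← hn]; exact Finset.card_erase_lt_of_mem hi
    refine Sys.claim_of_monE hk J IH fun K' hG hJ => ?_
    have hτ := tauJ_tracial (F := F) (by omega : 0 < k) J
    obtain ⟨Z₀, hZ₀, hτ₀⟩ := exists_tauJ_ne (F := F) (by omega : 0 < k) J
    exact Sys.mon_of_E (Θ := stStd t φ) hk IH hG hJ hτ hZ₀ hτ₀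

end Cfsg.Agent.Asch.CW
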