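import Mathlib
import Cfsg.Prelude.Def_GeometricClasses
import Cfsg.Agent.Asch.CSMain
import Cfsg.Agent.Asch.EVTr
import Cfsg.Agent.Asch.TMaxSpOmega
set_option autoImplicit false
set_option linter.unusedSectionVars false
set_option linter.unusedVariables false
set_option linter.unusedSimpArgs false
set_option linter.style.haveILetI false

/-!
Quadratic forms on tensor powers of a symplectic space: Siegel elements at pure vectors.
-/

namespace Cfsg.Agent.Asch.CW

open Matrix Module Cfsg.Geo Cfsg.Agent.GeoMax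

open Cfsg.Agent.GeoMax.Ort (HasE FullR emGL emGL_mulVec)

open Cfsg.Agent.Orth (OGrp eich eich_apply OGrp_ext)

open QuadraticMap (polar polarBilin)

open scoped Matrix

section pvlem

variable {k t : ℕ} {F : Type*} [Field F]

lemma pv_ext {M : Type*} [AddCommGroup M] [Module F M] {f g : ((Fin t → Fin k) → F) →ₗ[F] M} (h : ∀ x, f (pv x) = g (pv x)) : f = g := by
  apply LinearMap.pi_ext'
  intro a
  ext
  show f (Pi.single a 1) = g (Pi.single a 1)
  rw [← pv_single]; exact h _

lemma pv_dot (x y : Fin t → Fin k → F) : pv x ⬝ᵥ pv y = ∏ i, (x i ⬝ᵥ y i) := by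
  show ∑ a, pv x a * pv y a = ∏ i, ∑ l, x i l * y i l
  rw [Finset.prod_univ_sum, Fintype.piFinset_univ]
  refine Finset.sum_congr rfl fun a _ => ?_
  rw [pv, pv, ← Finset.prod_mul_distrib]

lemma pv_update_apply (x : Fin t → Fin k → F) (l : Fin t) (u : Fin k → F) (a : Fin t → Fin k) :
    pv (Function.update x l u) a = u (a l) * ∏ i ∈ Finset.univ.erase l, x i (a i) := by
  rw [pv, ← Finset.mul_prod_erase Finset.univ _ (Finset.mem_univ l), Function.update_self]
  congr 1
  refine Finset.prod_congr rfl fun i hi => ?_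
  rw [Function.update_of_ne (Finset.ne_of_mem_erase hi)]

lemma pv_add (x : Fin t → Fin k → F) (l : Fin t) (u v : Fin k → F) :
    pv (Function.update x l (u + v)) = pv (Function.update x l u) + pv (Function.update x l v) := by
  funext a
  rw [Pi.add_apply, pv_update_apply, pv_update_apply, pv_update_apply, Pi.add_apply, add_mul]

lemma pv_sub (x : Fin t → Fin k → F) (l : Fin t) (u v : Fin k → F) :
    pv (Function.update x l (u - v)) = pv (Function.update x l u) - pv (Function.update x l v) := by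
  funext a
  rw [Pi.sub_apply, pv_update_apply, pv_update_apply, pv_update_apply, Pi.sub_apply, sub_mul]

lemma pv_smul (x : Fin t → Fin k → F) (l : Fin t) (c : F) (u : Fin k → F) :
    pv (Function.update x l (c • u)) = c • pv (Function.update x l u) := by
  funext a
  rw [Pi.smul_apply, pv_update_apply, pv_update_apply, Pi.smul_apply, smul_eq_mul, smul_eq_mul, mul_assoc]

lemma pv_zero {x : Fin t → Fin k → F} {l : Fin t} (h : x l = 0) : pv x = 0 := by
  funext a
  exact Finset.prod_eq_zero (Finset.mem_univ l) (by rw [h]; rfl)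

lemma pv_induction (ht : 0 < t) {P : ((Fin t → Fin k) → F) → Prop} (h0 : P 0) (hpv : ∀ x, P (pv x)) (hadd : ∀ x y, P x → P y → P (x + y)) : ∀ v, P v := by
  intro v
  have key : ∀ s : Finset (Fin t → Fin k), P (∑ a ∈ s, v a • (Pi.single a 1 : (Fin t → Fin k) → F)) := by
    intro s
    induction s using Finset.induction_on with
    | empty => rw [Finset.sum_empty]; exact h0
    | insert a s ha ih =>
      rw [Finset.sum_insert ha]
      refine hadd _ _ ?_ ih
      rw [← pv_single]
      have := pv_smul (fun j => (Pi.single (a j) 1 : Fin k → F)) ⟨0, ht⟩ (v a) (Pi.single (a ⟨0, ht⟩) 1)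
      rw [Function.update_eq_self_iff.2 rfl] at this
      rw [← this]
      exact hpv _
  have h1 := key Finset.univ
  have e : v = ∑ a, v a • (Pi.single a 1 : (Fin t → Fin k) → F) := by
    funext b
    rw [Finset.sum_apply, Finset.sum_eq_single b]
    · rw [Pi.smul_apply, Pi.single_eq_same, smul_eq_mul, mul_one]
    · intro a _ ha; rw [Pi.smul_apply, Pi.single_eq_of_ne (Ne.symm ha), smul_zero]
    · intro h; exact absurd (Finset.mem_univ _) h
  rwa [← e] at h1

end pvlem

/-- the quadratic form is the tensor power of a symplectic form -/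
structure QPow {k t : ℕ} {F : Type*} [Field F] (φ : SpF k F) (Q : QuadraticForm F ((Fin t → Fin k) → F)) : Prop where
  pure : ∀ x, Q (pv x) = 0
  pol : ∀ x y, polar Q (pv x) (pv y) = ∏ i, φ.f (x i) (y i)
  sgn : (-1 : F) ^ t = 1

section qpow

variable {k t : ℕ} {F : Type*} [Field F] {φ : SpF k F} {Q : QuadraticForm F ((Fin t → Fin k) → F)}

/-- the matrices of Siegel elements -/
def WW (φ : SpF k F) (x y : Fin t → Fin k → F) : Matrix (Fin t → Fin k) (Fin t → Fin k) F :=
  piMat (fun j => φ.et (x j) (y j)) - piMat (fun j => φ.et (y j) (x j))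

lemma piMat_et_mulVec (x y : Fin t → Fin k → F) (v : (Fin t → Fin k) → F) :
    piMat (fun j => φ.et (x j) (y j)) *ᵥ v = (pv (fun j => φ.fr (y j)) ⬝ᵥ v) • pv x := by
  have h : piMat (fun j => φ.et (x j) (y j)) = vecMulVec (pv x) (pv fun j => φ.fr (y j)) := piMat_vmv _ _
  rw [h, vecMulVec_mulVec]
  funext a
  simp only [Pi.smul_apply, smul_eq_mul, MulOpposite.smul_eq_mul_unop, MulOpposite.unop_op]
  ring

variable (hQ : QPow φ Q)

include hQ

lemma QPow.polar_pv (v : (Fin t → Fin k) → F) (y : Fin t → Fin k → F) : polar Q v (pv y) = pv (fun j => φ.fr (y j)) ⬝ᵥ v := by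
  let g : ((Fin t → Fin k) → F) →ₗ[F] F :=
    { toFun := fun v => pv (fun j => φ.fr (y j)) ⬝ᵥ v
      map_add' := fun x y => dotProduct_add _ _ _
      map_smul' := fun c x => dotProduct_smul _ _ _ }
  have h : (polarBilin Q).flip (pv y) = g := by
    apply pv_ext
    intro x
    show polar Q (pv x) (pv y) = pv (fun j => φ.fr (y j)) ⬝ᵥ pv x
    rw [hQ.pol, pv_dot]
    have : ∀ i, φ.f (x i) (y i) = - (φ.fr (y i) ⬝ᵥ x i) := fun i => by rw [φ.fr_dot, ← φ.f_neg]
    simp only [this]
    rw [Finset.prod_neg, Finset.card_univ, Fintype.card_fin, hQ.sgn, one_mul]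
  exact LinearMap.congr_fun h v

lemma QPow.polar_pv' (v : (Fin t → Fin k) → F) (x y : Fin t → Fin k → F) : polar Q v (pv y) • pv x = piMat (fun j => φ.et (x j) (y j)) *ᵥ v := by
  rw [piMat_et_mulVec, hQ.polar_pv]

lemma QPow.pol_zero {x y : Fin t → Fin k → F} {i : Fin t} (h : φ.f (x i) (y i) = 0) : polar Q (pv x) (pv y) = 0 := by
  rw [hQ.pol]; exact Finset.prod_eq_zero (Finset.mem_univ i) h

lemma QPow.eich_val {x y : Fin t → Fin k → F} (hxy : polar Q (pv x) (pv y) = 0) : (emGL Q (eich Q (pv x) (pv y) (hQ.pure x) hxy)).1 = 1 + WW φ x y := by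
  have key : ∀ v, (emGL Q (eich Q (pv x) (pv y) (hQ.pure x) hxy)).1 *ᵥ v = (1 + WW φ x y) *ᵥ v := by
    intro v
    rw [emGL_mulVec, eich_apply, hQ.pure, zero_mul, zero_smul, sub_zero, add_mulVec, one_mulVec, WW, sub_mulVec, ← hQ.polar_pv', ← hQ.polar_pv', add_sub_assoc]
  ext a b
  have := congrFun (key (Pi.single b 1)) a
  rwa [mulVec_single_one, mulVec_single_one] at this

lemma QPow.hasE_of_mem {K : Subgroup (GL (Fin t → Fin k) F)} {x y : Fin t → Fin k → F} {i : Fin t} (h : φ.f (x i) (y i) = 0) (hm : Mem1 K (WW φ x y)) :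
    HasE (K.comap (emGL Q)) (pv x) (pv y) := by
  refine ⟨hQ.pure x, hQ.pol_zero h, ?_⟩
  rw [Subgroup.mem_comap]
  exact hm.mem (hQ.eich_val _)

lemma QPow.mem_of_hasE {M : Subgroup (OGrp Q)} {x y : Fin t → Fin k → F} (h : HasE M (pv x) (pv y)) : Mem1 (M.map (emGL Q)) (WW φ x y) := by
  obtain ⟨h1, h2, h3⟩ := h
  exact ⟨_, ⟨_, h3, rfl⟩, hQ.eich_val _⟩

variable {M : Subgroup (OGrp Q)}

/-- moving by a conjugation -/
lemma QPow.move {p q' p₂ q₂ : (Fin t → Fin k) → F} (hp₂ : Q q₂ = 0) (h1 : HasE M p q') (h2 : HasE M p₂ q₂) (h3 : polar Q p q₂ = 0) (h4 : polar Q p p₂ = 0)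
    (h5 : polar Q q' p₂ = 0) (h6 : polar Q q' q₂ = 1) : HasE M p p₂ := by
  obtain ⟨a, b, hm⟩ := h2
  have h7 := h1.conj hm
  rw [eich_apply, eich_apply, h3, h4, h5, h6, hp₂, zero_smul, zero_smul, mul_zero, zero_smul, one_smul, sub_zero, sub_zero, sub_zero, add_zero, sub_zero] at h7
  have := h7.sub h1
  rwa [add_sub_cancel_left] at this

lemma QPow.fullR {x : Fin t → Fin k → F} (ht : 0 < t) (hx : ∀ j, x j ≠ 0) (hH : ∀ y i, φ.f (x i) (y i) = 0 → HasE M (pv x) (pv y)) : FullR M (pv x) := by
  choose x₁ hx₁ using fun j => φ.exists_hyp (hx j)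
  have key : ∀ v, ∃ c : F, HasE M (pv x) (v - c • pv x₁) := by
    apply pv_induction ht (P := fun v => ∃ c : F, HasE M (pv x) (v - c • pv x₁))
    · refine ⟨0, ?_⟩
      rw [zero_smul, sub_zero]
      exact HasE.zero (hQ.pure x)
    · intro z
      have hD : ∀ D : Finset (Fin t), ∃ c : F, HasE M (pv x) (pv z - c • pv (fun j => if j ∈ D then x₁ j else z j)) := by
        intro D
        induction D using Finset.induction_on with
        | empty =>
          refine ⟨1, ?_⟩
          have : (fun j => if j ∈ (∅ : Finset (Fin t)) then x₁ j else z j) = z := by funext j; simp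
          rw [this, one_smul, sub_self]
          exact HasE.zero (hQ.pure x)
        | insert l D hl ih =>
          obtain ⟨c, hc⟩ := ih
          obtain ⟨y, hy⟩ : ∃ y, y = fun j => if j ∈ D then x₁ j else z j := ⟨_, rfl⟩
          obtain ⟨α, hα⟩ : ∃ α, α = φ.f (x l) (z l) := ⟨_, rfl⟩
          rw [← hy] at hc
          have e1 : (fun j => if j ∈ insert l D then x₁ j else z j) = Function.update y l (x₁ l) := by
            funext j
            by_cases hj : j = l
            · subst hj; rw [Function.update_self, if_pos (Finset.mem_insert_self _ _)]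
            · rw [Function.update_of_ne hj, hy]; simp only [Finset.mem_insert, hj, false_or]
          have e2 : pv y = α • pv (Function.update y l (x₁ l)) + pv (Function.update y l (z l - α • x₁ l)) := by
            rw [← pv_smul, ← pv_add, add_sub_cancel]
            congr 1
            symm
            rw [Function.update_eq_self_iff, hy]
            exact (if_neg hl).symm
          refine ⟨c * α, ?_⟩
          have h1 : HasE M (pv x) (pv (Function.update y l (c • (z l - α • x₁ l)))) := by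
            refine hH _ l ?_
            rw [Function.update_self, φ.f_smul_right, φ.f_sub_right, φ.f_smul_right, hx₁, ← hα, mul_one, sub_self, mul_zero]
          rw [pv_smul] at h1
          have h2 := hc.add h1
          rw [e1]
          convert h2 using 1
          rw [e2, smul_add, mul_smul]; abel
      obtain ⟨c, hc⟩ := hD Finset.univ
      simp only [Finset.mem_univ, if_true] at hc
      exact ⟨c, hc⟩
    · rintro v w ⟨c, hc⟩ ⟨d, hd⟩
      refine ⟨c + d, ?_⟩
      have := hc.add hd
      convert this using 1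
      module
  intro v hv
  obtain ⟨c, hc⟩ := key v
  have h3 := hc.ortho
  rw [Orth.pdr, Orth.psr, hv, hQ.pol, zero_sub, neg_eq_zero] at h3
  have h4 : ∏ i, φ.f (x i) (x₁ i) = 1 := Finset.prod_eq_one fun i _ => hx₁ i
  rw [h4, mul_one] at h3
  rw [h3, zero_smul, sub_zero] at hc
  exact hc

theorem QPow.omega_le [Finite F] (hnd : (polarBilin Q).Nondegenerate) (ht : 0 < t) (hk : 0 < k) (hN : 7 ≤ k ^ t)
    (hH : ∀ x y i, (∀ j, x j ≠ 0) → φ.f (x i) (y i) = 0 → HasE M (pv x) (pv y)) : commutator (OGrp Q) ≤ M := by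
  have hN' : 7 ≤ finrank F ((Fin t → Fin k) → F) := by
    rw [finrank_fintype_fun_eq_card, Fintype.card_fun, Fintype.card_fin, Fintype.card_fin]; exact hN
  refine GeoMax.Ort.commutator_le hnd hN' _ fun p q hp hpq => ?_
  by_cases hp0 : p = 0
  · subst hp0
    refine ⟨hp, hpq, ?_⟩
    have : eich Q 0 q hp hpq = 1 := by
      refine OGrp_ext fun x => ?_
      rw [eich_apply, QuadraticMap.polar_zero_right]
      simp
    rw [this]; exact Subgroup.one_mem _
  · obtain ⟨u, hu⟩ : ∃ u : Fin k → F, u ≠ 0 := ⟨Pi.single ⟨0, hk⟩ 1, by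
      intro h; have := congrFun h ⟨0, hk⟩; rw [Pi.single_eq_same] at this; exact one_ne_zero this⟩
    obtain ⟨v, hv⟩ := φ.exists_hyp hu
    have hv0 : v ≠ 0 := by rintro rfl; rw [φ.f_zero_right] at hv; exact zero_ne_one hv
    refine GeoMax.Ort.FullR_all hnd hN' (hQ.fullR ht (x := fun _ => v) (fun _ => hv0) fun y i h => hH _ y i (fun _ => hv0) h)
      (hQ.fullR ht (x := fun _ => u) (fun _ => hu) fun y i h => hH _ y i (fun _ => hu) h) ?_ p hp hp0 q hpq
    rw [hQ.pol]
    exact Finset.prod_ne_zero_iff.2 fun i _ => by rw [hv]; exact one_ne_zero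

/-- filling in coordinates -/
lemma QPow.fill {x : Fin t → Fin k → F} (hx : ∀ j, x j ≠ 0) {I : Finset (Fin t)}
    (h : ∀ y, (∀ j ∉ I, φ.f (x j) (y j) ≠ 0) → (∀ j ∈ I, φ.f (x j) (y j) = 0) → HasE M (pv x) (pv y)) :
    ∀ (D : Finset (Fin t)) (y : Fin t → Fin k → F), (∀ j ∉ I, j ∉ D → φ.f (x j) (y j) ≠ 0) → (∀ j ∈ I, φ.f (x j) (y j) = 0) → HasE M (pv x) (pv y) := by
  intro D
  induction D using Finset.induction_on with
  | empty => exact fun y h1 h2 => h y (fun j hj => h1 j hj (Finset.notMem_empty j)) h2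
  | insert l D hl ih =>
    intro y h1 h2
    by_cases hlI : l ∈ I
    · exact ih y (fun j hj hjD => h1 j hj fun h3 => by
        rcases Finset.mem_insert.1 h3 with rfl | h3
        · exact hj hlI
        · exact hjD h3) h2
    by_cases h0 : φ.f (x l) (y l) ≠ 0
    · refine ih y (fun j hj hjD => ?_) h2
      by_cases hjl : j = l
      · subst hjl; exact h0
      · exact h1 j hj fun h3 => by
          rcases Finset.mem_insert.1 h3 with h3 | h3
          · exact hjl h3
          · exact hjD h3
    · push Not at h0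
      obtain ⟨s, hs⟩ := φ.exists_hyp (hx l)
      have hgen : ∀ w, φ.f (x l) w ≠ 0 → HasE M (pv x) (pv (Function.update y l w)) := by
        intro w hw
        apply ih
        · intro j hj hjD
          by_cases hjl : j = l
          · subst hjl; rw [Function.update_self]; exact hw
          · rw [Function.update_of_ne hjl]
            exact h1 j hj fun h3 => by
              rcases Finset.mem_insert.1 h3 with h3 | h3
              · exact hjl h3
              · exact hjD h3
        · intro j hj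
          have : j ≠ l := by rintro rfl; exact hlI hj
          rw [Function.update_of_ne this]; exact h2 j hj
      have e : pv y = pv (Function.update y l (y l + s)) - pv (Function.update y l s) := by
        rw [← pv_sub, add_sub_cancel_right, Function.update_eq_self]
      rw [e]
      refine (hgen _ ?_).sub (hgen _ ?_)
      · rw [φ.f_add_right, h0, hs, zero_add]; exact one_ne_zero
      · rw [hs]; exact one_ne_zero

lemma QPow.fill_one {x : Fin t → Fin k → F} (hx : ∀ j, x j ≠ 0) {i : Fin t}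
    (h : ∀ y, (∀ j, j ≠ i → φ.f (x j) (y j) ≠ 0) → φ.f (x i) (y i) = 0 → HasE M (pv x) (pv y)) {y : Fin t → Fin k → F} (hy : φ.f (x i) (y i) = 0) :
    HasE M (pv x) (pv y) := by
  refine hQ.fill (M := M) hx (I := {i}) (fun y h1 h2 => h y (fun j hj => h1 j (by rwa [Finset.mem_singleton])) (h2 i (Finset.mem_singleton_self i))) Finset.univ y
    (fun j _ hj => absurd (Finset.mem_univ j) hj) (fun j hj => ?_)
  rw [Finset.mem_singleton] at hj; rw [hj]; exact hy

/-- the case `4 ≤ k` -/
theorem QPow.spread_four (hk : 4 ≤ k) (hAdj : ∀ (x : Fin t → Fin k → F) l z, HasE M (pv x) (pv (Function.update x l z)))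
    {x : Fin t → Fin k → F} (hx : ∀ j, x j ≠ 0) {y : Fin t → Fin k → F} {i : Fin t} (h : φ.f (x i) (y i) = 0) : HasE M (pv x) (pv y) := by
  refine hQ.fill_one hx (fun y h1 h2 => ?_) h
  by_cases hy0 : y i = 0
  · rw [pv_zero hy0]; exact HasE.zero (hQ.pure x)
  obtain ⟨b, hb1, hb2⟩ := φ.exists_perp [x i] [y i] (by simp; omega)
  have hb1' : b ∉ Submodule.span F {y i} := by simpa using hb1
  have hb2' : φ.f b (x i) = 0 := hb2 _ (by simp)
  obtain ⟨z, hz1, hz2⟩ := φ.exists_sep hb1'
  obtain ⟨κ, hκ⟩ : ∃ κ, κ = polar Q (pv (Function.update x i z)) (pv (Function.update y i b)) := ⟨_, rfl⟩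
  have hκ0 : κ ≠ 0 := by
    rw [hκ, hQ.pol]
    apply Finset.prod_ne_zero_iff.2
    intro j _
    by_cases hj : j = i
    · subst hj
      rw [Function.update_self, Function.update_self, φ.f_neg b z, hz2]
      exact neg_ne_zero.2 one_ne_zero
    · rw [Function.update_of_ne hj, Function.update_of_ne hj]; exact h1 j hj
  refine hQ.move (hQ.pure _) (hAdj x i (κ⁻¹ • z)) (hAdj y i b) (hQ.pol_zero (i := i) ?_) (hQ.pol_zero h2) (hQ.pol_zero (i := i) ?_) ?_
  · rw [Function.update_self]; exact φ.f_zero_symm hb2'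
  · rw [Function.update_self, φ.f_smul_left, φ.f_zero_symm hz1, mul_zero]
  · rw [pv_smul, QuadraticMap.polar_smul_left, ← hκ, smul_eq_mul, inv_mul_cancel₀ hκ0]

/-- two orthogonal coordinates -/
theorem QPow.spread_two_aux (hAdj : ∀ (x : Fin t → Fin k → F) l z, HasE M (pv x) (pv (Function.update x l z)))
    {x : Fin t → Fin k → F} (hx : ∀ j, x j ≠ 0) {y : Fin t → Fin k → F} {m l : Fin t} (hml : m ≠ l) (hm : φ.f (x m) (y m) = 0) (hl : φ.f (x l) (y l) = 0) :
    HasE M (pv x) (pv y) := by
  refine hQ.fill hx (I := {m, l}) (fun y h1 h2 => ?_) Finset.univ y (fun j _ hj => absurd (Finset.mem_univ j) hj) (fun j hj => ?_)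
  · have hym := h2 m (by simp)
    have hyl := h2 l (by simp)
    by_cases hy0 : y m = 0
    · rw [pv_zero hy0]; exact HasE.zero (hQ.pure x)
    obtain ⟨z, hz⟩ := φ.exists_hyp hy0
    obtain ⟨v, hv⟩ := φ.exists_hyp (hx l)
    obtain ⟨κ, hκ⟩ : ∃ κ, κ = polar Q (pv (Function.update x m z)) (pv (Function.update y l v)) := ⟨_, rfl⟩
    have hκ0 : κ ≠ 0 := by
      rw [hκ, hQ.pol]
      apply Finset.prod_ne_zero_iff.2
      intro j _
      by_cases hjm : j = m
      · subst hjm
        rw [Function.update_self, Function.update_of_ne hml, φ.f_neg (y j) z, hz]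
        exact neg_ne_zero.2 one_ne_zero
      · rw [Function.update_of_ne hjm]
        by_cases hjl : j = l
        · subst hjl
          rw [Function.update_self, hv]; exact one_ne_zero
        · rw [Function.update_of_ne hjl]
          exact h1 j (by rw [Finset.mem_insert, Finset.mem_singleton, not_or]; exact ⟨hjm, hjl⟩)
    refine hQ.move (hQ.pure _) (hAdj x m (κ⁻¹ • z)) (hAdj y l v) (hQ.pol_zero (i := m) ?_) (hQ.pol_zero hym) (hQ.pol_zero (i := l) ?_) ?_
    · rw [Function.update_of_ne hml]; exact hym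
    · rw [Function.update_of_ne (Ne.symm hml)]; exact hyl
    · rw [pv_smul, QuadraticMap.polar_smul_left, ← hκ, smul_eq_mul, inv_mul_cancel₀ hκ0]
  · rw [Finset.mem_insert, Finset.mem_singleton] at hj
    rcases hj with rfl | rfl
    · exact hm
    · exact hl

/-- the case `4 ≤ t` -/
theorem QPow.spread_two (ht : 4 ≤ t) (hAdj : ∀ (x : Fin t → Fin k → F) l z, HasE M (pv x) (pv (Function.update x l z)))
    {x : Fin t → Fin k → F} (hx : ∀ j, x j ≠ 0) {y : Fin t → Fin k → F} {m : Fin t} (h : φ.f (x m) (y m) = 0) : HasE M (pv x) (pv y) := by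
  refine hQ.fill_one hx (fun y h1 h2 => ?_) h
  by_cases hy0 : y m = 0
  · rw [pv_zero hy0]; exact HasE.zero (hQ.pure x)
  have hy : ∀ j, y j ≠ 0 := by
    intro j
    by_cases hj : j = m
    · subst hj; exact hy0
    · intro h0; apply h1 j hj; rw [h0, φ.f_zero_right]
  obtain ⟨l, hlm, α, β, hαm, hαl, hβm, hβl, hαβ⟩ : ∃ l : Fin t, l ≠ m ∧ ∃ α β : Fin t, α ≠ m ∧ α ≠ l ∧ β ≠ m ∧ β ≠ l ∧ α ≠ β := by
    have c1 : (Finset.univ.erase m).card = t - 1 := by rw [Finset.card_erase_of_mem (Finset.mem_univ m), Finset.card_univ, Fintype.card_fin]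
    obtain ⟨l, hl⟩ : (Finset.univ.erase m).Nonempty := Finset.card_pos.1 (by omega)
    have c2 : ((Finset.univ.erase m).erase l).card = t - 2 := by rw [Finset.card_erase_of_mem hl, c1]; omega
    obtain ⟨α, hα, β, hβ, hαβ⟩ := Finset.one_lt_card.1 (by omega : 1 < ((Finset.univ.erase m).erase l).card)
    rw [Finset.mem_erase, Finset.mem_erase] at hα hβ
    exact ⟨l, Finset.ne_of_mem_erase hl, α, β, hα.2.1, hα.1, hβ.2.1, hβ.1, hαβ⟩
  obtain ⟨w, hw⟩ := φ.exists_hyp (hx m)
  obtain ⟨b, hb⟩ : ∃ b, b = Function.update (Function.update y m w) l (x l) := ⟨_, rfl⟩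
  have hbl : b l = x l := by rw [hb, Function.update_self]
  have hbm : b m = w := by rw [hb, Function.update_of_ne (Ne.symm hlm), Function.update_self]
  have hbo : ∀ j, j ≠ m → j ≠ l → b j = y j := fun j h1 h2 => by rw [hb, Function.update_of_ne h2, Function.update_of_ne h1]
  obtain ⟨κ, hκ⟩ : ∃ κ, κ = polar Q (pv (Function.update x l (y l))) (pv b) := ⟨_, rfl⟩
  have hκ0 : κ ≠ 0 := by
    rw [hκ, hQ.pol]
    apply Finset.prod_ne_zero_iff.2
    intro j _
    by_cases hjl : j = l
    · subst hjl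
      rw [Function.update_self, hbl, φ.f_neg]
      exact neg_ne_zero.2 (h1 j hlm)
    · rw [Function.update_of_ne hjl]
      by_cases hjm : j = m
      · subst hjm
        rw [hbm, hw]; exact one_ne_zero
      · rw [hbo j hjm hjl]; exact h1 j hjm
  refine hQ.move (hQ.pure b) (hAdj x l (κ⁻¹ • y l)) (hQ.spread_two_aux hAdj hy hαβ ?_ ?_) (hQ.pol_zero (i := l) ?_) (hQ.pol_zero h2) (hQ.pol_zero (i := m) ?_) ?_
  · rw [hbo α hαm hαl]; exact φ.f_self _
  · rw [hbo β hβm hβl]; exact φ.f_self _
  · rw [hbl]; exact φ.f_self _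
  · rw [Function.update_of_ne (Ne.symm hlm)]; exact h2
  · rw [pv_smul, QuadraticMap.polar_smul_left, ← hκ, smul_eq_mul, inv_mul_cancel₀ hκ0]

end qpow

end Cfsg.Agent.Asch.CW
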