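import Mathlib
import Cfsg.Prelude.Def_GeometricClasses
import Cfsg.Agent.Asch.EVPure
set_option autoImplicit false
set_option linter.unusedSectionVars false
set_option linter.unusedVariables false
set_option linter.unusedSimpArgs false
set_option linter.style.haveILetI false

/-!
Nonscalar coefficients give all Siegel elements, `5 < k`.
-/

namespace Cfsg.Agent.Asch.CW

open Matrix Module Cfsg.Geo Cfsg.Agent.GeoMax

open Cfsg.Agent.GeoMax.Ort (HasE FullR emGL emGL_mulVec)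

open Cfsg.Agent.Orth (OGrp eich eich_apply OGrp_ext)

open QuadraticMap (polar polarBilin)

open scoped Matrix

namespace Sys

variable {k : ℕ} {T ι : Type} [DecidableEq T] [Fintype ι] [DecidableEq ι] {F : Type*} [Field F] {S : Sys k T ι F} {φ : SpF k F}

/-- three-cycles of factors -/
def cyc (S : Sys k T ι F) {a b c : T} (h1 : a ≠ b) (h2 : b ≠ c) : GL ι F := S.flip h1 * S.flip h2

lemma cyc_conj {a b c : T} (h1 : a ≠ b) (h2 : b ≠ c) (d : T) (x : Matrix (Fin k) (Fin k) F) :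
    (S.cyc h1 h2).1 * S.E d x * ((S.cyc h1 h2)⁻¹).1 = S.E (Equiv.swap a b (Equiv.swap b c d)) x := by
  rw [cyc, _root_.mul_inv_rev, Units.val_mul, Units.val_mul]
  calc (S.flip h1).1 * (S.flip h2).1 * S.E d x * (((S.flip h2)⁻¹).1 * ((S.flip h1)⁻¹).1) = (S.flip h1).1 * ((S.flip h2).1 * S.E d x * ((S.flip h2)⁻¹).1) * ((S.flip h1)⁻¹).1 := by
        simp only [mul_assoc]
    _ = _ := by rw [flip_conj, flip_conj]

lemma cyc_a {a b c : T} (h1 : a ≠ b) (h2 : b ≠ c) (h3 : a ≠ c) (x : Matrix (Fin k) (Fin k) F) :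
    (S.cyc h1 h2).1 * S.E a x * ((S.cyc h1 h2)⁻¹).1 = S.E b x := by
  rw [cyc_conj, Equiv.swap_apply_of_ne_of_ne h1 h3, Equiv.swap_apply_left]

lemma cyc_b {a b c : T} (h1 : a ≠ b) (h2 : b ≠ c) (h3 : a ≠ c) (x : Matrix (Fin k) (Fin k) F) :
    (S.cyc h1 h2).1 * S.E b x * ((S.cyc h1 h2)⁻¹).1 = S.E c x := by
  rw [cyc_conj, Equiv.swap_apply_left, Equiv.swap_apply_of_ne_of_ne (Ne.symm h3) (Ne.symm h2)]

lemma cyc_c {a b c : T} (h1 : a ≠ b) (h2 : b ≠ c) (h3 : a ≠ c) (x : Matrix (Fin k) (Fin k) F) :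
    (S.cyc h1 h2).1 * S.E c x * ((S.cyc h1 h2)⁻¹).1 = S.E a x := by
  rw [cyc_conj, Equiv.swap_apply_right, Equiv.swap_apply_right]

lemma cyc_o {a b c : T} (h1 : a ≠ b) (h2 : b ≠ c) {d : T} (ha : d ≠ a) (hb : d ≠ b) (hc : d ≠ c) (x : Matrix (Fin k) (Fin k) F) :
    (S.cyc h1 h2).1 * S.E d x * ((S.cyc h1 h2)⁻¹).1 = S.E d x := by
  rw [cyc_conj, Equiv.swap_apply_of_ne_of_ne hb hc, Equiv.swap_apply_of_ne_of_ne ha hb]

/-- all three-cycles are in the group -/
def HasCyc (S : Sys k T ι F) (K : Subgroup (GL ι F)) : Prop := ∀ (a b c : T) (h1 : a ≠ b) (h2 : b ≠ c), a ≠ c → S.cyc h1 h2 ∈ K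

section mgc

variable {Θ : SSt S φ} {i j : T} {K : Subgroup (GL ι F)}

lemma cj2 (g : GL ι F) (X Y : Matrix ι ι F) : g.1 * (X * Y) * (g⁻¹).1 = g.1 * X * (g⁻¹).1 * (g.1 * Y * (g⁻¹).1) := by
  calc g.1 * (X * Y) * (g⁻¹).1 = g.1 * X * ((g⁻¹).1 * g.1) * Y * (g⁻¹).1 := by rw [inv_mul_val, mul_one]; simp only [mul_assoc]
    _ = _ := by simp only [mul_assoc]

lemma mG_conj [Nonempty ι] {A : Matrix ι ι F} (hA : A ∈ mG Θ i K) {g : GL ι F} (hg : g ∈ K) (hI : Θ.Iso g) {i' : T} (hi : ∀ a, g.1 * S.E i a * (g⁻¹).1 = S.E i' a) :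
    g.1 * A * (g⁻¹).1 ∈ mG Θ i' K := by
  refine ⟨fun a => ?_, fun u v hu huv hli => ?_⟩
  · rw [← hi, ← cj2, hA.1, cj2]
  · have := (hA.2 u v hu huv hli).conj' hg
    rw [PE, mul_add, add_mul, cj2, cj2, hi, hi] at this
    rw [PE, hI.sim.st_conj]
    exact this

/-- the relation `S_j ⊆ coefficients of i` -/
def RelE (Θ : SSt S φ) (K : Subgroup (GL ι F)) (i j : T) : Prop := i ≠ j ∧ ∀ a, S.E j a ∈ mG Θ i K

lemma RelE.symm [Fintype T] [Nonempty ι] (hk : 4 < k) (hI : ∀ x ∈ K, Θ.Iso x) (hR : ∀ j, RootsS φ (S.E j) K) (h : RelE Θ K i j) : RelE Θ K j i := by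
  obtain ⟨hij, h⟩ := h
  obtain ⟨u, hu⟩ : ∃ u : Fin k → F, u ≠ 0 := ⟨Pi.single ⟨0, by omega⟩ 1, by
    intro h0; have := congrFun h0 ⟨0, by omega⟩; rw [Pi.single_eq_same] at this; exact one_ne_zero this⟩
  obtain ⟨v, hv1, hv2⟩ := φ.exists_perp [u] [u] (by simp; omega)
  have hli : v ∉ Submodule.span F {u} := by simpa using hv1
  have hvu : φ.f v u = 0 := hv2 u (by simp)
  have huv := φ.f_zero_symm hvu
  have hv0 : v ≠ 0 := by rintro rfl; exact hli (Submodule.zero_mem _)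
  have h1 := (h (φ.et u u)).2 u v hu huv hli
  have e1 : PE (S.E i) φ u v (S.E j (φ.et u u)) (Θ.st (S.E j (φ.et u u))) = S.E j (φ.et u u) * S.E i (φ.W u v) := by
    rw [PE, Θ.st_E, φ.star_et, SpF.W, map_neg, map_sub, mul_neg, mul_sub, S.comm i j hij, S.comm i j hij]; abel
  rw [e1] at h1
  have h2 := mem_mG_of_long (Θ := Θ) (i := j) hk hI (hR j) hu (cmt_E (Ne.symm hij) _) h1
  refine ⟨Ne.symm hij, fun a => ?_⟩
  refine mG_factor (J := Finset.univ) hk (fun x _ i hi => absurd (Finset.mem_univ i) hi) hI (fun j _ => hR j) (Finset.mem_univ j) h2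
    (Finset.mem_erase.2 ⟨hij, Finset.mem_univ i⟩) (fun hc => ?_) a
  obtain ⟨z, hz1, hz2⟩ := φ.exists_sep hli
  have h3 := hc (φ.et z z)
  rw [← map_mul, ← map_mul] at h3
  have h5 := E_inj (S := S) (i := i) h3
  rw [SpF.W, mul_sub, sub_mul, φ.et_mul, φ.et_mul, φ.et_mul, φ.et_mul, φ.f_zero_symm hz1, hz2, hz1, zero_smul, zero_smul, one_smul, zero_sub, sub_zero, φ.f_neg v z, hz2,
    neg_smul, one_smul, neg_neg] at h5
  -- `et z u = et u z`
  have h6 : φ.et z u * φ.et v v = φ.et u z * φ.et v v := by rw [h5]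
  rw [φ.et_mul, φ.et_mul, huv, zero_smul, φ.f_neg v z, hz2, neg_smul, one_smul] at h6
  exact φ.et_ne_zero hu hv0 (neg_eq_zero.1 h6.symm)

lemma RelE.all [Fintype T] [Nonempty ι] (hk : 4 < k) (hI : ∀ x ∈ K, Θ.Iso x) (hR : ∀ j, RootsS φ (S.E j) K) (hcyc : S.HasCyc K) (h : RelE Θ K i j) :
    ∀ i' j', i' ≠ j' → RelE Θ K i' j' := by
  have step : ∀ {i j l : T}, RelE Θ K i j → l ≠ i → RelE Θ K i l := by
    intro i j l h hl
    by_cases hlj : l = j
    · subst hlj; exact h
    · apply RelE.symm hk hI hR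
      have hg := hcyc i l j (Ne.symm hl) hlj h.1
      refine ⟨hl, fun a => ?_⟩
      have := mG_conj (h.2 a) hg (hI _ hg) (cyc_a (Ne.symm hl) hlj h.1)
      rwa [cyc_c (Ne.symm hl) hlj h.1] at this
  intro i' j' hij
  by_cases hi : i' = i
  · subst hi; exact step h (Ne.symm hij)
  · exact step (RelE.symm hk hI hR (step h hi)) (Ne.symm hij)

end mgc

end Sys

section six

variable {k t : ℕ} {F : Type*} [Field F] {φ : SpF k F} {Q : QuadraticForm F ((Fin t → Fin k) → F)} {K : Subgroup (GL (Fin t → Fin k) F)}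

lemma piMat_neg (g : Fin t → Matrix (Fin k) (Fin k) F) : piMat (fun j => -g j) = (-1 : F) ^ t • piMat g := by
  ext x y
  rw [Matrix.smul_apply, piMat_apply, piMat_apply]
  simp only [Matrix.neg_apply]
  rw [Finset.prod_neg, Finset.card_univ, Fintype.card_fin, smul_eq_mul]

lemma prod_mem_mG [Nonempty (Fin t → Fin k)] (hk : 4 < k) (hI : ∀ x ∈ K, (stStd t φ).Iso x) (hR : ∀ i, RootsS φ ((std k t F).E i) K) {i : Fin t}
    (h : ∀ j, i ≠ j → ∀ a, (std k t F).E j a ∈ Sys.mG (stStd t φ) i K) (g : Fin t → Matrix (Fin k) (Fin k) F) :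
    ∀ D : Finset (Fin t), i ∉ D → piMat (fun j => if j ∈ D then g j else 1) ∈ Sys.mG (stStd t φ) i K := by
  intro D
  induction D using Finset.induction_on with
  | empty =>
    intro _
    have : piMat (fun j => if j ∈ (∅ : Finset (Fin t)) then g j else 1) = 1 := by rw [← piMat_one]; congr 1
    rw [this]; exact Sys.one_mem_mG (hR i)
  | insert l D hl ih =>
    intro hi
    rw [Finset.mem_insert, not_or] at hi
    have e : piMat (fun j => if j ∈ insert l D then g j else 1) = (std k t F).E l (g l) * piMat (fun j => if j ∈ D then g j else 1) := by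
      show _ = fac l _ * _
      rw [fac_mul_piMat]; congr 1; funext j
      by_cases h : j = l
      · subst h; rw [Function.update_self, if_pos (Finset.mem_insert_self _ _), if_neg hl, mul_one]
      · rw [Function.update_of_ne h]; simp only [Finset.mem_insert, h, false_or]
    rw [e]
    exact Sys.mG_mul hk hI (hR i) (h l hi.1 _) (ih hi.2)

/-- Siegel elements for independent coordinates -/
lemma WW_mem (hsgn : (-1 : F) ^ t = 1) {x y : Fin t → Fin k → F} {i : Fin t} (hx : x i ≠ 0) (hxy : φ.f (x i) (y i) = 0) (hli : y i ∉ Submodule.span F {x i})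
    (h : piMat (fun j => if j ∈ Finset.univ.erase i then φ.et (x j) (y j) else 1) ∈ Sys.mG (stStd t φ) i K) : Mem1 K (WW φ x y) := by
  have h1 := h.2 (x i) (y i) hx hxy hli
  obtain ⟨A, hA⟩ : ∃ A, A = piMat (fun j => if j ∈ Finset.univ.erase i then φ.et (x j) (y j) else 1) := ⟨_, rfl⟩
  have hAc : Cmt ((std k t F).E i) A := by rw [hA]; exact h.1
  rw [← hA] at h1
  have e1 : (std k t F).E i (φ.et (x i) (y i)) * A = piMat (fun j => φ.et (x j) (y j)) := by
    rw [hA]
    show fac i _ * _ = _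
    rw [fac_mul_piMat]; congr 1; funext j
    by_cases hj : j = i
    · subst hj; rw [Function.update_self, if_neg (Finset.notMem_erase _ _), mul_one]
    · rw [Function.update_of_ne hj, if_pos (Finset.mem_erase.2 ⟨hj, Finset.mem_univ _⟩)]
  have e2 : (std k t F).E i (φ.et (y i) (x i)) * (stStd t φ).st A = - piMat (fun j => φ.et (y j) (x j)) := by
    have h3 := congrArg (stStd t φ).st e1
    rw [(stStd t φ).st_mul, (stStd t φ).st_et, mul_neg, ← (stStd t φ).st_cmt hAc, stStd_piMat] at h3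
    have h4 : piMat (fun j => φ.star (φ.et (x j) (y j))) = piMat (fun j : Fin t => φ.et (y j) (x j)) := by
      have : (fun j : Fin t => φ.star (φ.et (x j) (y j))) = fun j => -φ.et (y j) (x j) := by funext j; rw [φ.star_et]
      rw [this, piMat_neg, hsgn, one_smul]
    rw [h4] at h3
    rw [← h3, neg_neg]
  rw [PE, e1, e2, ← sub_eq_add_neg] at h1
  exact h1

/-- **nonscalar coefficients give all Siegel elements**, `5 < k` -/
theorem full_six (hk : 5 < k) (hQ : QPow φ Q) (hI : ∀ x ∈ K, (stStd t φ).Iso x) (hR : ∀ i, RootsS φ ((std k t F).E i) K) (hcyc : (std k t F).HasCyc K)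
    {i : Fin t} (hC : ¬ CoefS φ ((std k t F).E i) K) (x y : Fin t → Fin k → F) (l : Fin t) (hx : ∀ j, x j ≠ 0) (hxy : φ.f (x l) (y l) = 0) :
    HasE (K.comap (emGL Q)) (pv x) (pv y) := by
  haveI : Nonempty (Fin k) := ⟨⟨0, by omega⟩⟩
  rw [CoefS] at hC
  push Not at hC
  obtain ⟨v, hv, A, hA, hmem, hns⟩ := hC
  have hAm := Sys.mem_mG_of_long (Θ := stStd t φ) (by omega : 4 < k) hI (hR i) hv hA hmem
  obtain ⟨j, -, hj⟩ := Sys.not_cmt_of_not_scalar (S := std k t F) (J := Finset.univ) (b := A) (fun i hi => absurd (Finset.mem_univ i) hi) (by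
    rintro ⟨c, hc⟩; exact hns c hc)
  have hij : i ≠ j := by rintro rfl; exact hj hA
  have hrel : Sys.RelE (stStd t φ) K i j := ⟨hij, fun a => Sys.mG_factor (J := Finset.univ) (by omega) (fun x _ i hi => absurd (Finset.mem_univ i) hi) hI
    (fun j _ => hR j) (Finset.mem_univ i) hAm (Finset.mem_erase.2 ⟨Ne.symm hij, Finset.mem_univ j⟩) hj a⟩
  have hall := Sys.RelE.all (by omega) hI hR hcyc hrel
  have hgen : ∀ y : Fin t → Fin k → F, φ.f (x l) (y l) = 0 → y l ∉ Submodule.span F {x l} → HasE (K.comap (emGL Q)) (pv x) (pv y) := by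
    intro y hxy hli
    exact hQ.hasE_of_mem hxy (WW_mem hQ.sgn (hx l) hxy hli (prod_mem_mG (by omega) hI hR (fun j hj a => (hall l j hj).2 a) _ _ (Finset.notMem_erase _ _)))
  by_cases hli : y l ∈ Submodule.span F {x l}
  · obtain ⟨s, hs1, hs2⟩ := φ.exists_perp [x l] [x l] (by simp; omega)
    have hs : s ∉ Submodule.span F {x l} := by simpa using hs1
    have hs0 : φ.f (x l) s = 0 := φ.f_zero_symm (hs2 _ (by simp))
    have e : pv y = pv (Function.update y l (y l + s)) - pv (Function.update y l s) := by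
      rw [← pv_sub, add_sub_cancel_right, Function.update_eq_self]
    rw [e]
    refine (hgen _ ?_ ?_).sub (hgen _ ?_ ?_)
    · rw [Function.update_self, φ.f_add_right, hxy, hs0, add_zero]
    · rw [Function.update_self]
      intro h
      apply hs
      have := Submodule.sub_mem _ h hli
      rwa [add_sub_cancel_left] at this
    · rw [Function.update_self]; exact hs0
    · rw [Function.update_self]; exact hs
  · exact hgen y hxy hli

end six

end Cfsg.Agent.Asch.CW
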