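import Mathlib
import Cfsg.Prelude.Def_GeometricClasses
import Cfsg.Agent.Asch.EVFull
set_option autoImplicit false
set_option linter.unusedSectionVars false
set_option linter.unusedVariables false
set_option linter.unusedSimpArgs false
set_option linter.style.haveILetI false

/-!
Nonscalar coefficients give all Siegel elements: odd characteristic, even powers.
-/

namespace Cfsg.Agent.Asch.CW

open Matrix Module Cfsg.Geo Cfsg.Agent.GeoMax

open Cfsg.Agent.GeoMax.Ort (HasE FullR emGL emGL_mulVec)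

open Cfsg.Agent.Orth (OGrp eich eich_apply OGrp_ext)

open QuadraticMap (polar polarBilin)

open scoped Matrix

section odd

variable {k t : ℕ} {F : Type*} [Field F] {φ : SpF k F} {K : Subgroup (GL (Fin t → Fin k) F)}

theorem triple_two' (h2 : (2 : F) ≠ 0) (hk0 : 0 < k) {σ : Matrix (Fin k) (Fin k) F} (hσ : φ.star σ = -σ) (hσ2 : σ * σ = 1)
    (hR : ∀ i, RootsS φ ((std k t F).E i) K) (hcyc : (std k t F).HasCyc K)
    {i : Fin t} {D : Finset (Fin t)} (hi : i ∉ D) (hD : ∀ x, pD φ D x ∈ coS φ ((std k t F).E i) K) {b c c' : Fin t} (hb : b ∈ D) (hc : c ∉ D) (hci : c ≠ i) (hc' : c' ∉ D) (hci' : c' ≠ i) (hcc : c ≠ c') :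
    T3 φ K b i c := by
  haveI : Nonempty (Fin k) := ⟨⟨0, hk0⟩⟩
  have hbi : b ≠ i := fun h => hi (h ▸ hb)
  have hbc : b ≠ c := fun h => hc (h ▸ hb)
  obtain ⟨x, hx⟩ : ∃ x : Fin k → F, x ≠ 0 := ⟨Pi.single ⟨0, hk0⟩ 1, by
    intro h0; have := congrFun h0 ⟨0, hk0⟩; rw [Pi.single_eq_same] at this; exact one_ne_zero this⟩
  intro w y
  obtain ⟨v, hxv⟩ := φ.exists_hyp hx
  obtain ⟨Sg, hSg⟩ : ∃ Sg : Matrix (Fin t → Fin k) (Fin t → Fin k) F, Sg = piMat (fun j => if j ∈ D.erase b then σ else 1) := ⟨_, rfl⟩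
  have cS : ∀ l, l ∉ D.erase b → Cmt ((std k t F).E l) Sg := fun l hl => by rw [hSg]; exact piMat_comm_fac (by rw [if_neg hl])
  have cSi : Cmt ((std k t F).E i) Sg := cS i fun h => hi (Finset.mem_of_mem_erase h)
  have cSb : Cmt ((std k t F).E b) Sg := cS b (Finset.notMem_erase _ _)
  have cSc : Cmt ((std k t F).E c) Sg := cS c fun h => hc (Finset.mem_of_mem_erase h)
  have hSS : Sg * Sg = 1 := by
    rw [hSg, ← piMat_mul, ← piMat_one]
    congr 1
    funext l
    rw [Pi.mul_apply]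
    split_ifs
    · exact hσ2
    · exact mul_one 1
  have hX : ∀ z, Sg * (std k t F).E b (φ.et z z) ∈ coS φ ((std k t F).E i) K := by
    intro z
    have h1 := sigma_mem h2 hσ hD (D.erase b) (Finset.erase_subset _ _) (fun _ => z)
    convert h1 using 1
    rw [← cSb, hSg]
    show fac b _ * _ = _
    rw [fac_mul_piMat]
    congr 1
    funext l
    by_cases hl : l = b
    · subst hl; rw [Function.update_self, if_neg (Finset.notMem_erase _ _), if_neg (Finset.notMem_erase _ _), if_pos hb, mul_one]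
    · rw [Function.update_of_ne hl]
      by_cases h3 : l ∈ D
      · rw [if_pos (Finset.mem_erase.2 ⟨hl, h3⟩), if_pos (Finset.mem_erase.2 ⟨hl, h3⟩)]
      · rw [if_neg fun h => h3 (Finset.mem_of_mem_erase h), if_neg fun h => h3 (Finset.mem_of_mem_erase h), if_neg h3]
  have hY : Sg * (std k t F).E c (φ.et y y) ∈ coS φ ((std k t F).E i) K := by
    have hbc' : b ≠ c' := fun h => hc' (h ▸ hb)
    have hg := hcyc b c c' hbc hcc hbc'
    have hgo : ∀ l, l ≠ b → l ≠ c → l ≠ c' → Cmt ((std k t F).E l) ((std k t F).cyc hbc hcc).1 := by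
      intro l h1 h2 h3 a
      have := Sys.cyc_o (S := std k t F) hbc hcc h1 h2 h3 a
      rw [conj_eq_iff] at this
      exact this.symm
    have h1 := coS_conj (hX y) hg (hgo i (Ne.symm hbi) (Ne.symm hci) (Ne.symm hci'))
    have h3 : ((std k t F).cyc hbc hcc).1 * Sg = Sg * ((std k t F).cyc hbc hcc).1 := by
      rw [hSg]
      symm
      apply piMat_comm_of'
      intro l
      split_ifs with hl
      · exact hgo l (Finset.ne_of_mem_erase hl) (fun h => hc (h ▸ Finset.mem_of_mem_erase hl)) (fun h => hc' (h ▸ Finset.mem_of_mem_erase hl)) σ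
      · rw [map_one, one_mul, mul_one]
    have h4 : ((std k t F).cyc hbc hcc).1 * (Sg * (std k t F).E b (φ.et y y)) * (((std k t F).cyc hbc hcc)⁻¹).1 = Sg * (std k t F).E c (φ.et y y) := by
      rw [← mul_assoc, h3, mul_assoc, mul_assoc, ← mul_assoc ((std k t F).cyc hbc hcc).1, Sys.cyc_a hbc hcc hbc']
    rwa [h4] at h1
  -- the commutator
  obtain ⟨sb, hsb⟩ : ∃ sb, sb = (std k t F).E b (φ.et x x) := ⟨_, rfl⟩
  obtain ⟨sc, hsc⟩ : ∃ sc, sc = (std k t F).E c (φ.et y y) := ⟨_, rfl⟩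
  have hsbb : sb * sb = 0 := by rw [hsb]; exact E_sq (φ.et_sq x)
  have hscc : sc * sc = 0 := by rw [hsc]; exact E_sq (φ.et_sq y)
  have hsbc : sb * sc = sc * sb := by rw [hsb, hsc]; exact Sys.cmt_E hbc _ _
  have hSb : Sg * sb = sb * Sg := by rw [hsb]; exact (cSb _).symm
  have hSc : Sg * sc = sc * Sg := by rw [hsc]; exact (cSc _).symm
  have mX := (hX x).2 1 x
  have mY := hY.2 1 v
  rw [one_smul, ← hsb] at mX
  rw [one_smul, ← hsc] at mY
  have hcX : Cmt ((std k t F).E i) (Sg * sb) := by rw [hsb]; exact (hX x).1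
  have hcY : Cmt ((std k t F).E i) (Sg * sc) := by rw [hsc]; exact hY.1
  have a1 : Sg * sb * (Sg * sc) = sb * sc := by
    rw [hSb, mul_assoc, ← mul_assoc Sg, hSS, one_mul]
  have a2 : Sg * sc * (Sg * sb) = sb * sc := by
    rw [hSc, mul_assoc, ← mul_assoc Sg, hSS, one_mul, hsbc]
  have hcbc : Cmt ((std k t F).E i) (sb * sc) := by
    rw [hsb, hsc]; exact (Sys.cmt_E (Ne.symm hbi) _).mul (Sys.cmt_E (Ne.symm hci) _)
  have a3 : sb * sc * (Sg * sb) = 0 := by
    rw [hsbc, hSb, mul_assoc, ← mul_assoc sb, hsbb, zero_mul, mul_zero]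
  have a4 : sb * sc * (Sg * sc) = 0 := by
    rw [hSc, mul_assoc, ← mul_assoc sc, hscc, zero_mul, mul_zero]
  have XY : (std k t F).E i (φ.et x x) * (Sg * sb) * ((std k t F).E i (φ.et v v) * (Sg * sc)) = (std k t F).E i (φ.et x v) * (sb * sc) := by
    rw [E_mul_A hcX, a1, φ.et_mul, hxv, one_smul]
  have YX : (std k t F).E i (φ.et v v) * (Sg * sc) * ((std k t F).E i (φ.et x x) * (Sg * sb)) = -((std k t F).E i (φ.et v x) * (sb * sc)) := by
    rw [E_mul_A hcY, a2, φ.et_mul, φ.f_neg x v, hxv, neg_one_smul, map_neg, neg_mul]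
  have h5 := mX.comm2 mY (E_A_sq hcX (φ.et_sq x)) (E_A_sq hcY (φ.et_sq v)) (by rw [XY, E_mul_A hcbc, a3, mul_zero])
    (by rw [YX, neg_mul, E_mul_A hcbc, a4, mul_zero, neg_zero])
  rw [XY, YX, sub_neg_eq_add, ← add_mul, ← map_add] at h5
  -- base change
  have h6 : (std k t F).E i (φ.et x v + φ.et v x) * sc ∈ coS φ ((std k t F).E b) K := by
    have hcm : Cmt ((std k t F).E b) ((std k t F).E i (φ.et x v + φ.et v x) * sc) := by
      rw [hsc]; exact (Sys.cmt_E hbi _).mul (Sys.cmt_E hbc _)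
    apply coS_of h2 (hR b) hx hcm
    convert h5 using 1
    rw [hsb, ← mul_assoc, ← mul_assoc, (std k t F).comm b i hbi]
  have hInv := Sys.invU (S := std k t F) h2 hk0 hR b
  have hib : i ∈ Finset.univ.erase b := Finset.mem_erase.2 ⟨Ne.symm hbi, Finset.mem_univ _⟩
  have h7 := hInv.sq i hib (x + v) _ h6
  have hsci : Cmt ((std k t F).E i) sc := by rw [hsc]; exact Sys.cmt_E (Ne.symm hci) _
  have hx0 : φ.f (x + v) x = -1 := by rw [φ.f_add_left, φ.f_self, φ.f_neg x v, hxv, zero_add]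
  have hv0 : φ.f (x + v) v = 1 := by rw [φ.f_add_left, φ.f_self, hxv, add_zero]
  have hx1 : φ.f x (x + v) = 1 := by rw [φ.f_add_right, φ.f_self, hxv, zero_add]
  have hv1 : φ.f v (x + v) = -1 := by rw [φ.f_add_right, φ.f_self, φ.f_neg x v, hxv, add_zero]
  have h8 : (std k t F).E i (φ.et (x + v) (x + v)) * ((std k t F).E i (φ.et x v + φ.et v x) * sc) * (std k t F).E i (φ.et (x + v) (x + v)) =
      (std k t F).E i (φ.et (x + v) (x + v)) * ((2 : F) • sc) := by
    rw [E_mul_A', E_A_mul hsci]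
    have : φ.et (x + v) (x + v) * (φ.et x v + φ.et v x) * φ.et (x + v) (x + v) = (2 : F) • φ.et (x + v) (x + v) := by
      rw [mul_add, φ.et_mul, φ.et_mul, hx0, hv0, add_mul, smul_mul_assoc, smul_mul_assoc, φ.et_mul, φ.et_mul, hx1, hv1]
      module
    rw [this, map_smul, smul_mul_assoc, mul_smul_comm]
  rw [h8] at h7
  have hxv0 : x + v ≠ 0 := by
    intro h0; rw [h0, φ.f_zero_left] at hv0; exact zero_ne_one hv0
  have h9 := hInv.mem_mS hib hxv0 (hsci.smul 2) h7
  have h10 := (Submodule.smul_mem _ (2 : F)⁻¹ h9 : (2 : F)⁻¹ • (2 : F) • sc ∈ _)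
  rw [smul_smul, inv_mul_cancel₀ h2, one_smul] at h10
  rw [← hsc]
  exact h10.2 w

/-- the adjacent Siegel elements -/
lemma WW_adj (x : Fin t → Fin k → F) (l : Fin t) (z : Fin k → F) :
    WW φ x (Function.update x l z) = (std k t F).E l (φ.W (x l) z) * pD φ (Finset.univ.erase l) x := by
  have key : ∀ a : Matrix (Fin k) (Fin k) F, (std k t F).E l a * pD φ (Finset.univ.erase l) x = piMat (Function.update (fun j => φ.et (x j) (x j)) l a) := by
    intro a
    rw [pD]
    show fac l _ * _ = _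
    rw [fac_mul_piMat]; congr 1; funext j
    by_cases hj : j = l
    · subst hj; rw [Function.update_self, Function.update_self, if_neg (Finset.notMem_erase _ _), mul_one]
    · rw [Function.update_of_ne hj, Function.update_of_ne hj, if_pos (Finset.mem_erase.2 ⟨hj, Finset.mem_univ _⟩)]
  rw [SpF.W, map_sub, sub_mul, key, key, WW]
  congr 2
  · funext j
    by_cases hj : j = l
    · subst hj; rw [Function.update_self, Function.update_self]
    · rw [Function.update_of_ne hj, Function.update_of_ne hj]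
  · funext j
    by_cases hj : j = l
    · subst hj; rw [Function.update_self, Function.update_self]
    · rw [Function.update_of_ne hj, Function.update_of_ne hj]

lemma hasE_adj {Q : QuadraticForm F ((Fin t → Fin k) → F)} (hQ : QPow φ Q) (ht : 2 ≤ t)
    (h : ∀ (x : Fin t → Fin k → F) (l : Fin t) (z : Fin k → F), Mem1 K ((std k t F).E l (φ.W (x l) z) * pD φ (Finset.univ.erase l) x))
    (x : Fin t → Fin k → F) (l : Fin t) (z : Fin k → F) : HasE (K.comap (emGL Q)) (pv x) (pv (Function.update x l z)) := by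
  obtain ⟨i, hi⟩ : (Finset.univ.erase l).Nonempty := Finset.card_pos.1 (by
    rw [Finset.card_erase_of_mem (Finset.mem_univ l), Finset.card_univ, Fintype.card_fin]; omega)
  refine hQ.hasE_of_mem (i := i) ?_ ?_
  · rw [Function.update_of_ne (Finset.ne_of_mem_erase hi)]; exact φ.f_self _
  · rw [WW_adj]; exact h x l z

/-- all symmetric rank two coefficients -/
lemma relW_full (h2 : (2 : F) ≠ 0) (hk : 4 ≤ k) (hR : ∀ i, RootsS φ ((std k t F).E i) K) {i j : Fin t} (h : (std k t F).RelW φ K i j) (u v : Fin k → F) :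
    (std k t F).E j (φ.W u v) ∈ coS φ ((std k t F).E i) K := by
  have main : ∀ u v : Fin k → F, φ.f u v = 1 → (std k t F).E j (φ.W u v) ∈ coS φ ((std k t F).E i) K := by
    intro u v huv
    obtain ⟨x, hx1, hx2⟩ := φ.exists_perp [u, v] [] (by simp; omega)
    have hx0 : x ≠ 0 := by rintro rfl; exact hx1 (Submodule.zero_mem _)
    have hxu : φ.f x u = 0 := hx2 u (by simp)
    have hxv : φ.f x v = 0 := hx2 v (by simp)
    obtain ⟨z, hz⟩ := φ.exists_hyp hx0
    obtain ⟨y, hy⟩ : ∃ y, y = z - φ.f u z • v + φ.f v z • u := ⟨_, rfl⟩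
    have hvu : φ.f v u = -1 := by rw [φ.f_neg u v, huv]
    have huy : φ.f u y = 0 := by rw [hy, φ.f_add_right, φ.f_sub_right, φ.f_smul_right, φ.f_smul_right, huv, φ.f_self]; ring
    have hvy : φ.f v y = 0 := by rw [hy, φ.f_add_right, φ.f_sub_right, φ.f_smul_right, φ.f_smul_right, hvu, φ.f_self]; ring
    have hxy : φ.f x y = 1 := by rw [hy, φ.f_add_right, φ.f_sub_right, φ.f_smul_right, φ.f_smul_right, hxu, hxv, hz]; ring
    have hyu := φ.f_zero_symm huy
    have hyv := φ.f_zero_symm hvy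
    have hux := φ.f_zero_symm hxu
    have hvx := φ.f_zero_symm hxv
    have hyx : φ.f y x = -1 := by rw [φ.f_neg x y, hxy]
    have e1 : φ.W u x * φ.W v y + φ.W v y * φ.W u x = -(φ.W u v + φ.W x y) := by
      simp only [SpF.W, mul_sub, sub_mul, φ.et_mul, huv, hvu, hxy, hyx, huy, hyu, hvy, hyv, hxu, hux, hxv, hvx, zero_smul, one_smul, neg_smul]
      abel
    have e2 : φ.W (u + x) (v - y) = φ.W u v - φ.W u y + φ.W x v - φ.W x y := by
      simp only [SpF.W, φ.et_add_left, φ.et_add_right, φ.et_sub_left, φ.et_sub_right]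
      abel
    have m1 := coS_jordan h2 hk (hR i) (h.2 u x hux) (h.2 v y hvy)
    rw [← map_mul, ← map_mul, ← map_add, e1] at m1
    have m2 := h.2 (u + x) (v - y) (by rw [φ.f_add_left, φ.f_sub_right, φ.f_sub_right, huv, huy, hxv, hxy]; ring)
    have m3 := Submodule.sub_mem _ (Submodule.add_mem _ (Submodule.sub_mem _ m2 m1) (h.2 u y huy)) (h.2 x v hxv)
    rw [← map_sub, ← map_add, ← map_sub] at m3
    have e3 : φ.W (u + x) (v - y) - -(φ.W u v + φ.W x y) + φ.W u y - φ.W x v = (2 : F) • φ.W u v := by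
      rw [e2, two_smul]; abel
    rw [e3, map_smul] at m3
    have := Submodule.smul_mem _ (2 : F)⁻¹ m3
    rwa [smul_smul, inv_mul_cancel₀ h2, one_smul] at this
  by_cases huv : φ.f u v = 0
  · exact h.2 u v huv
  · have h3 := main u ((φ.f u v)⁻¹ • v) (by rw [φ.f_smul_right, inv_mul_cancel₀ huv])
    have e : φ.W u v = φ.f u v • φ.W u ((φ.f u v)⁻¹ • v) := by
      rw [SpF.W, SpF.W, φ.et_smul_right, φ.et_smul_left, ← smul_sub, smul_smul, mul_inv_cancel₀ huv, one_smul]
    rw [e, map_smul]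
    exact Submodule.smul_mem _ _ h3

/-- adjacent Siegel elements, `4 ≤ k` -/
theorem adj_four (h2 : (2 : F) ≠ 0) (hk : 4 ≤ k) {σ : Matrix (Fin k) (Fin k) F} (hσ : φ.star σ = -σ) (hσ2 : σ * σ = 1) (ht : Even t) (ht2 : 2 ≤ t)
    (hR : ∀ i, RootsS φ ((std k t F).E i) K) (hcyc : (std k t F).HasCyc K)
    {i : Fin t} {A : Matrix (Fin t → Fin k) (Fin t → Fin k) F} (hA : A ∈ coS φ ((std k t F).E i) K)
    (hns : ¬ ∃ c : F, A = c • (1 : Matrix (Fin t → Fin k) (Fin t → Fin k) F)) (x : Fin t → Fin k → F) (l : Fin t) (z : Fin k → F) :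
    Mem1 K ((std k t F).E l (φ.W (x l) z) * pD φ (Finset.univ.erase l) x) := by
  haveI : Nonempty (Fin k) := ⟨⟨0, by omega⟩⟩
  obtain ⟨i₀, j₀, h0⟩ := Sys.exists_rel h2 hk hσ hσ2 hR hA hns
  have step : ∀ {i j j' : Fin t}, (std k t F).RelW φ K i j → j' ≠ i → (std k t F).RelW φ K i j' := by
    intro i j j' h hj'
    by_cases hj : j' = j
    · subst hj; exact h
    · apply Sys.rel_symm' h2 hk hR
      have hg := hcyc i j' j (Ne.symm hj') hj h.1
      exact Sys.relW_conj h hg (Sys.cyc_a (Ne.symm hj') hj h.1) (Sys.cyc_c (Ne.symm hj') hj h.1) hj'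
  have all : ∀ i j : Fin t, i ≠ j → (std k t F).RelW φ K i j := by
    intro i j hij
    by_cases hi : i = i₀
    · subst hi; exact step h0 (Ne.symm hij)
    · exact step (Sys.rel_symm' h2 hk hR (step h0 hi)) (Ne.symm hij)
  obtain ⟨i, hi⟩ : (Finset.univ.erase l).Nonempty := Finset.card_pos.1 (by
    rw [Finset.card_erase_of_mem (Finset.mem_univ l), Finset.card_univ, Fintype.card_fin]; omega)
  have hil := Finset.ne_of_mem_erase hi
  obtain ⟨D, hD⟩ : ∃ D, D = (Finset.univ.erase l).erase i := ⟨_, rfl⟩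
  have hDc : D.card = t - 2 := by
    rw [hD, Finset.card_erase_of_mem hi, Finset.card_erase_of_mem (Finset.mem_univ l), Finset.card_univ, Fintype.card_fin]; omega
  have hiD : i ∉ D := by rw [hD]; exact Finset.notMem_erase _ _
  have hlD : l ∉ D := by rw [hD]; exact fun h => Finset.notMem_erase l _ (Finset.mem_of_mem_erase h)
  have m1 : pD φ D x ∈ coS φ ((std k t F).E i) K := by
    by_cases ht' : t = 2
    · have : D = ∅ := by rw [← Finset.card_eq_zero, hDc, ht']
      rw [this, pD_empty]; exact one_mem_coS (hR i)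
    · obtain ⟨n, hn⟩ := ht
      refine pD_mem_of_triple h2 (by omega) hR (i := i) (fun j l hj hl hjl v x => ?_) (n - 2) D (by rw [hDc]; omega) hiD x
      exact Sys.triple_of_rel h2 hk hR (Ne.symm hj) (all i l (Ne.symm hl)) (all j l hjl) x v
  have m2 := relW_full h2 hk hR (all i l hil) (x l) z
  have hcomm : pD φ D x * (std k t F).E l (φ.W (x l) z) = (std k t F).E l (φ.W (x l) z) * pD φ D x := (pD_cmt φ hlD x _).symm
  have m3 := coS_jordan h2 hk (hR i) m1 m2
  rw [hcomm, ← two_smul F] at m3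
  have m4 := Submodule.smul_mem _ (2 : F)⁻¹ m3
  rw [smul_smul, inv_mul_cancel₀ h2, one_smul] at m4
  have m5 := m4.2 1 (x i)
  rw [one_smul] at m5
  convert m5 using 1
  rw [← Finset.insert_erase hi, ← hD, pD_insert φ hiD, ← mul_assoc, ← mul_assoc, (std k t F).comm l i (Ne.symm hil)]

end odd

end Cfsg.Agent.Asch.CW
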