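import Mathlib
import Cfsg.Prelude.Def_GeometricClasses
import Cfsg.Agent.Asch.EVOdd
set_option autoImplicit false
set_option linter.unusedSectionVars false
set_option linter.unusedVariables false
set_option linter.unusedSimpArgs false
set_option linter.style.haveILetI false

/-!
Nonscalar coefficients give all Siegel elements: odd characteristic, even powers, two-dimensional factors.
-/

namespace Cfsg.Agent.Asch.CW

open Matrix Module Cfsg.Geo Cfsg.Agent.GeoMax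

open scoped Matrix

section t3

variable {k t : ℕ} {F : Type*} [Field F] {φ : SpF k F} {K : Subgroup (GL (Fin t → Fin k) F)}

lemma T3.s12 (h2 : (2 : F) ≠ 0) (hk0 : 0 < k) (hR : ∀ i, RootsS φ ((std k t F).E i) K) {b i c : Fin t} (hbi : b ≠ i) (hic : i ≠ c) (h : T3 φ K b i c) : T3 φ K i b c := by
  intro w y
  obtain ⟨x, hx⟩ : ∃ x : Fin k → F, x ≠ 0 := ⟨Pi.single ⟨0, hk0⟩ 1, by
    intro h0; have := congrFun h0 ⟨0, hk0⟩; rw [Pi.single_eq_same] at this; exact one_ne_zero this⟩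
  apply coS_of h2 (hR i) hx ((Sys.cmt_E (Ne.symm hbi) _).mul (Sys.cmt_E hic _))
  have h1 := (h x y).2 1 w
  rw [one_smul] at h1
  convert h1 using 1
  rw [← mul_assoc, ← mul_assoc, (std k t F).comm i b (Ne.symm hbi)]

lemma T3.s23 {b i c : Fin t} (hic : i ≠ c) (h : T3 φ K b i c) : T3 φ K b c i := by
  intro w y
  rw [(std k t F).comm c i (Ne.symm hic)]
  exact h y w

lemma T3.repl (h2 : (2 : F) ≠ 0) (hk0 : 0 < k) (hR : ∀ i, RootsS φ ((std k t F).E i) K) (hcyc : (std k t F).HasCyc K) {b i c d : Fin t} (hbi : b ≠ i) (hbc : b ≠ c)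
    (hic : i ≠ c) (hdb : d ≠ b) (hdi : d ≠ i) (hdc : d ≠ c) (h : T3 φ K b i c) : T3 φ K b i d := by
  have hg := hcyc b d c (Ne.symm hdb) hdc hbc
  have h1 : T3 φ K d i b := by
    intro w y
    have h3 := coS_conj_idx (S := std k t F) (h w y) hg (i' := d) (Sys.cyc_a (Ne.symm hdb) hdc hbc)
    rwa [Sys.cj2, Sys.cyc_o (Ne.symm hdb) hdc (Ne.symm hbi) (Ne.symm hdi) hic, Sys.cyc_c (Ne.symm hdb) hdc hbc] at h3
  exact T3.s23 hdi (T3.s12 h2 hk0 hR hdb hbi (T3.s23 (Ne.symm hbi) h1))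

lemma T3.all' (h2 : (2 : F) ≠ 0) (hk0 : 0 < k) (hR : ∀ i, RootsS φ ((std k t F).E i) K) (hcyc : (std k t F).HasCyc K) {b i c : Fin t} (hbi : b ≠ i) (hbc : b ≠ c)
    (hic : i ≠ c) (h : T3 φ K b i c) {b' i' c' : Fin t} (hbi' : b' ≠ i') (hbc' : b' ≠ c') (hic' : i' ≠ c') : T3 φ K b' i' c' := by
  have s1 : ∃ i₁ c₁, b' ≠ i₁ ∧ b' ≠ c₁ ∧ i₁ ≠ c₁ ∧ T3 φ K b' i₁ c₁ := by
    by_cases hb : b' = b
    · subst hb; exact ⟨i, c, hbi, hbc, hic, h⟩
    by_cases hi : b' = i
    · subst hi; exact ⟨b, c, Ne.symm hbi, hic, hbc, T3.s12 h2 hk0 hR hbi hic h⟩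
    by_cases hc : b' = c
    · subst hc; exact ⟨b, i, Ne.symm hbc, Ne.symm hic, hbi, T3.s12 h2 hk0 hR hbc (Ne.symm hic) (T3.s23 hic h)⟩
    · have h1 := T3.repl h2 hk0 hR hcyc hbi hbc hic hb hi hc h
      exact ⟨b, i, hb, hi, hbi, T3.s12 h2 hk0 hR (Ne.symm hb) hi (T3.s23 (Ne.symm hi) h1)⟩
  obtain ⟨i₁, c₁, k1, k2, k3, h1⟩ := s1
  have s2 : ∃ c₂, b' ≠ c₂ ∧ i' ≠ c₂ ∧ T3 φ K b' i' c₂ := by
    by_cases hi : i' = i₁
    · subst hi; exact ⟨c₁, k2, k3, h1⟩
    by_cases hc : i' = c₁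
    · subst hc; exact ⟨i₁, k1, hi, T3.s23 k3 h1⟩
    · exact ⟨i₁, k1, hi, T3.s23 (Ne.symm hi) (T3.repl h2 hk0 hR hcyc k1 k2 k3 (Ne.symm hbi') hi hc h1)⟩
  obtain ⟨c₂, l1, l2, h3⟩ := s2
  by_cases hc : c' = c₂
  · subst hc; exact h3
  · exact T3.repl h2 hk0 hR hcyc hbi' l1 l2 (Ne.symm hbc') (Ne.symm hic') hc h3

lemma pD_ne_zero [Nonempty (Fin t → Fin k)] {x : Fin t → Fin k → F} (hx : ∀ j, x j ≠ 0) (D : Finset (Fin t)) : pD φ D x ≠ 0 := by
  induction D using Finset.induction_on with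
  | empty => rw [pD_empty]; exact one_ne_zero
  | insert j D hj ih =>
    rw [pD_insert φ hj]
    intro h0
    exact ih (eq_zero_of_E_mul _ (pD_cmt φ hj x) (φ.et_ne_zero (hx j) (hx j)) h0)

lemma st_pD (x : Fin t → Fin k → F) (D : Finset (Fin t)) : (stStd t φ).st (pD φ D x) = (-1 : F) ^ D.card • pD φ D x := by
  induction D using Finset.induction_on with
  | empty => rw [pD_empty, (stStd t φ).st_one, Finset.card_empty, pow_zero, one_smul]
  | insert j D hj ih =>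
    rw [pD_insert φ hj, (stStd t φ).st_mul, (stStd t φ).st_et, ih, Finset.card_insert_of_notMem hj, pow_succ, mul_neg, smul_mul_assoc, ← pD_cmt φ hj x, mul_neg_one,
      neg_smul]

lemma even_of_coS (h2 : (2 : F) ≠ 0) (hk0 : 0 < k) (hI : ∀ g ∈ K, (stStd t φ).Iso g) {i : Fin t} {D : Finset (Fin t)} (hi : i ∉ D)
    (hD : ∀ x, pD φ D x ∈ coS φ ((std k t F).E i) K) : Even D.card := by
  haveI : Nonempty (Fin k) := ⟨⟨0, hk0⟩⟩
  obtain ⟨u, hu⟩ : ∃ x : Fin k → F, x ≠ 0 := ⟨Pi.single ⟨0, hk0⟩ 1, by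
    intro h0; have := congrFun h0 ⟨0, hk0⟩; rw [Pi.single_eq_same] at this; exact one_ne_zero this⟩
  obtain ⟨g, hg, hgv⟩ := (hD fun _ => u).2 1 u
  rw [one_smul] at hgv
  obtain ⟨X, hX⟩ : ∃ X, X = (std k t F).E i (φ.et u u) * pD φ D (fun _ => u) := ⟨_, rfl⟩
  have hX0 : X ≠ 0 := by
    rw [hX]; intro h0
    exact pD_ne_zero (φ := φ) (fun _ => hu) D (eq_zero_of_E_mul _ (pD_cmt φ hi _) (φ.et_ne_zero hu hu) h0)
  have hXX : X * X = 0 := by rw [hX]; exact E_A_sq (pD_cmt φ hi _) (φ.et_sq u)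
  have hst : (stStd t φ).st X = -((-1 : F) ^ D.card • X) := by
    rw [hX, (stStd t φ).st_mul, (stStd t φ).st_et, st_pD, mul_neg, smul_mul_assoc, ← pD_cmt φ hi]
  have h1 : (stStd t φ).st g.1 * g.1 = 1 := hI g hg
  rw [hgv, ← hX, (stStd t φ).st_add, (stStd t φ).st_one, hst, add_mul, mul_add, mul_one, one_mul, neg_mul, smul_mul_assoc, mul_add, mul_one, hXX, add_zero] at h1
  have h3 : (1 - (-1 : F) ^ D.card) • X = 0 := by
    rw [sub_smul, one_smul]
    have : X - (-1 : F) ^ D.card • X = (1 + X + -((-1 : F) ^ D.card • X)) - 1 := by abel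
    rw [this, h1, sub_self]
  have h4 := (smul_eq_zero.1 h3).resolve_right hX0
  rcases Nat.even_or_odd D.card with h | h
  · exact h
  · exfalso
    rw [h.neg_one_pow] at h4
    apply h2
    linear_combination h4

lemma pD_conj {g : GL (Fin t → Fin k) F} {σ : Equiv.Perm (Fin t)} (hg : ∀ j a, g.1 * (std k t F).E j a * (g⁻¹).1 = (std k t F).E (σ j) a) (x : Fin t → Fin k → F)
    (D : Finset (Fin t)) : g.1 * pD φ D x * (g⁻¹).1 = pD φ (D.map σ.toEmbedding) (fun j => x (σ.symm j)) := by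
  induction D using Finset.induction_on with
  | empty => rw [Finset.map_empty, pD_empty, pD_empty, mul_one, mul_inv_val]
  | insert j D hj ih =>
    have h1 : σ j ∉ D.map σ.toEmbedding := by
      intro h
      obtain ⟨j', hj', he⟩ := Finset.mem_map.1 h
      have : j' = j := σ.injective he
      exact hj (this ▸ hj')
    have h3 : (insert j D).map σ.toEmbedding = insert (σ j) (D.map σ.toEmbedding) := Finset.map_insert _ _ _
    rw [h3, pD_insert φ hj, pD_insert φ h1, Sys.cj2, hg, ih, Equiv.symm_apply_apply]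

lemma Q_all (ht : 3 ≤ t) (hcyc : (std k t F).HasCyc K) {l : Fin t} (hl : ∀ (c : F) (x : Fin t → Fin k → F), Mem1 K (c • pD φ (Finset.univ.erase l) x)) (l' : Fin t)
    (c : F) (x : Fin t → Fin k → F) : Mem1 K (c • pD φ (Finset.univ.erase l') x) := by
  by_cases hll : l = l'
  · subst hll; exact hl c x
  obtain ⟨m, hm⟩ : ((Finset.univ.erase l).erase l').Nonempty := Finset.card_pos.1 (by
    rw [Finset.card_erase_of_mem (Finset.mem_erase.2 ⟨Ne.symm hll, Finset.mem_univ _⟩), Finset.card_erase_of_mem (Finset.mem_univ l), Finset.card_univ, Fintype.card_fin]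
    omega)
  rw [Finset.mem_erase, Finset.mem_erase] at hm
  have hg := hcyc l l' m hll (Ne.symm hm.1) (Ne.symm hm.2.1)
  obtain ⟨σ, hσ⟩ : ∃ σ : Equiv.Perm (Fin t), σ = (Equiv.swap l' m).trans (Equiv.swap l l') := ⟨_, rfl⟩
  have hσ' : ∀ j a, ((std k t F).cyc hll (Ne.symm hm.1)).1 * (std k t F).E j a * (((std k t F).cyc hll (Ne.symm hm.1))⁻¹).1 = (std k t F).E (σ j) a := by
    intro j a; rw [Sys.cyc_conj, hσ]; rfl
  have hσl : σ l = l' := by
    rw [hσ]
    show Equiv.swap l l' (Equiv.swap l' m l) = l'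
    rw [Equiv.swap_apply_of_ne_of_ne hll (Ne.symm hm.2.1), Equiv.swap_apply_left]
  have h1 := (hl c fun j => x (σ j)).conj' hg
  rw [mul_smul_comm, smul_mul_assoc, pD_conj hσ'] at h1
  have h3 : (Finset.univ.erase l).map σ.toEmbedding = Finset.univ.erase l' := by
    rw [Finset.map_erase, Finset.map_univ_equiv]
    show Finset.univ.erase (σ l) = _
    rw [hσl]
  rw [h3] at h1
  simpa only [Equiv.apply_symm_apply] using h1

end t3

section two

variable {t : ℕ} {F : Type*} [Field F] {φ : SpF 2 F} {K : Subgroup (GL (Fin t → Fin 2) F)}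

lemma W_two (u v : Fin 2 → F) : ∃ c : F, φ.W u v = c • (1 : Matrix (Fin 2) (Fin 2) F) := by
  have h00 : φ.A 0 0 = 0 := by
    have h := φ.f_self (Pi.single 0 1)
    rw [SpF.f, mulVec_single_one, single_one_dotProduct] at h
    exact h
  have h11 : φ.A 1 1 = 0 := by
    have h := φ.f_self (Pi.single 1 1)
    rw [SpF.f, mulVec_single_one, single_one_dotProduct] at h
    exact h
  have h10 : φ.A 1 0 = -φ.A 0 1 := by
    have h := congrFun (congrFun φ.A_transpose 0) 1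
    rw [transpose_apply, Matrix.neg_apply] at h
    exact h
  have hfr : ∀ w : Fin 2 → F, φ.fr w 0 = -(φ.A 0 1 * w 1) ∧ φ.fr w 1 = φ.A 0 1 * w 0 := by
    intro w
    constructor
    · show ∑ l, w l * φ.A l 0 = _
      rw [Fin.sum_univ_two, h00, h10]; ring
    · show ∑ l, w l * φ.A l 1 = _
      rw [Fin.sum_univ_two, h11]; ring
  have hW : ∀ i j, φ.W u v i j = u i * φ.fr v j - v i * φ.fr u j := fun i j => rfl
  refine ⟨φ.A 0 1 * (u 1 * v 0 - u 0 * v 1), ?_⟩
  ext i j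
  rw [hW, Matrix.smul_apply, smul_eq_mul]
  fin_cases i <;> fin_cases j
  · show u 0 * φ.fr v 0 - v 0 * φ.fr u 0 = _ * (1 : Matrix (Fin 2) (Fin 2) F) 0 0
    rw [(hfr v).1, (hfr u).1, one_apply_eq]; ring
  · show u 0 * φ.fr v 1 - v 0 * φ.fr u 1 = _ * (1 : Matrix (Fin 2) (Fin 2) F) 0 1
    rw [(hfr v).2, (hfr u).2, one_apply_ne (by decide)]; ring
  · show u 1 * φ.fr v 0 - v 1 * φ.fr u 0 = _ * (1 : Matrix (Fin 2) (Fin 2) F) 1 0
    rw [(hfr v).1, (hfr u).1, one_apply_ne (by decide)]; ring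
  · show u 1 * φ.fr v 1 - v 1 * φ.fr u 1 = _ * (1 : Matrix (Fin 2) (Fin 2) F) 1 1
    rw [(hfr v).2, (hfr u).2, one_apply_eq]; ring

/-- adjacent Siegel elements, `k = 2` -/
theorem adj_two (h2 : (2 : F) ≠ 0) {σ : Matrix (Fin 2) (Fin 2) F} (hσ : φ.star σ = -σ) (hσ2 : σ * σ = 1) (ht : Even t) (ht4 : 4 ≤ t)
    (hI : ∀ g ∈ K, (stStd t φ).Iso g) (hR : ∀ i, RootsS φ ((std 2 t F).E i) K) (hcyc : (std 2 t F).HasCyc K)
    {i : Fin t} {A : Matrix (Fin t → Fin 2) (Fin t → Fin 2) F} (hA : A ∈ coS φ ((std 2 t F).E i) K)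
    (hns : ¬ ∃ c : F, A = c • (1 : Matrix (Fin t → Fin 2) (Fin t → Fin 2) F)) (x : Fin t → Fin 2 → F) (l : Fin t) (z : Fin 2 → F) :
    Mem1 K ((std 2 t F).E l (φ.W (x l) z) * pD φ (Finset.univ.erase l) x) := by
  suffices hQ : ∀ (c : F) (x : Fin t → Fin 2 → F), Mem1 K (c • pD φ (Finset.univ.erase l) x) by
    obtain ⟨c, hc⟩ := W_two (φ := φ) (x l) z
    rw [hc, map_smul, map_one, smul_mul_assoc, one_mul]
    exact hQ c x
  have hA0 : A ≠ 0 := fun h => hns ⟨0, by rw [h, zero_smul]⟩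
  obtain ⟨D, hD, hx, hne⟩ := exists_prod (φ := φ) (by omega) (by omega) _ _ _ rfl (Sys.invU (S := std 2 t F) h2 (by omega) hR i) A hA hA0
  have hiD : i ∉ D := fun h => Finset.notMem_erase i _ (hD h)
  have heven := even_of_coS h2 (by omega) hI hiD hx
  have hcard : ((Finset.univ.erase i) \ D).card = t - 1 - D.card := by
    rw [Finset.card_sdiff_of_subset hD, Finset.card_erase_of_mem (Finset.mem_univ i), Finset.card_univ, Fintype.card_fin]
  have hle : D.card ≤ t - 1 := by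
    have := Finset.card_le_card hD
    rwa [Finset.card_erase_of_mem (Finset.mem_univ i), Finset.card_univ, Fintype.card_fin] at this
  by_cases h1 : 1 < ((Finset.univ.erase i) \ D).card
  · obtain ⟨c, hc, c', hc', hcc⟩ := Finset.one_lt_card.1 h1
    rw [Finset.mem_sdiff, Finset.mem_erase] at hc hc'
    obtain ⟨b, hb⟩ := hne hns
    have hT := triple_two' h2 (by omega) hσ hσ2 hR hcyc hiD hx hb hc.2 hc.1.1 hc'.2 hc'.1.1 hcc
    have q1 : b ≠ i := fun h => hiD (h ▸ hb)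
    have q2 : b ≠ c := fun h => hc.2 (h ▸ hb)
    have hTall := fun {b' i' c' : Fin t} (h1 : b' ≠ i') (h3 : b' ≠ c') (h4 : i' ≠ c') => T3.all' h2 (by omega : 0 < 2) hR hcyc q1 q2 (Ne.symm hc.1.1) hT h1 h3 h4
    intro c₀ x₀
    obtain ⟨m, hm⟩ : (Finset.univ.erase l).Nonempty := Finset.card_pos.1 (by
      rw [Finset.card_erase_of_mem (Finset.mem_univ l), Finset.card_univ, Fintype.card_fin]; omega)
    obtain ⟨D', hD'⟩ : ∃ D', D' = (Finset.univ.erase l).erase m := ⟨_, rfl⟩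
    have hDc : D'.card = t - 2 := by
      rw [hD', Finset.card_erase_of_mem hm, Finset.card_erase_of_mem (Finset.mem_univ l), Finset.card_univ, Fintype.card_fin]; omega
    have hmD : m ∉ D' := by rw [hD']; exact Finset.notMem_erase _ _
    have m1 : pD φ D' x₀ ∈ coS φ ((std 2 t F).E m) K := by
      obtain ⟨n, hn⟩ := ht
      exact pD_mem_of_triple h2 (by omega) hR (i := m) (fun j l hj hl hjl v x => hTall (Ne.symm hj) (Ne.symm hl) hjl v x) (n - 2) D' (by rw [hDc]; omega) hmD x₀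
    have m2 := m1.2 c₀ (x₀ m)
    convert m2 using 1
    rw [map_smul, smul_mul_assoc, ← pD_insert φ hmD, hD', Finset.insert_erase hm]
  · have h3 : ((Finset.univ.erase i) \ D).card = 1 := by
      obtain ⟨n, hn⟩ := ht
      obtain ⟨m, hm⟩ := heven
      omega
    obtain ⟨l₀, hl₀⟩ := Finset.card_eq_one.1 h3
    have hins : Finset.univ.erase l₀ = insert i D := by
      have hl₀m : l₀ ∈ (Finset.univ.erase i) \ D := by rw [hl₀]; exact Finset.mem_singleton_self _
      rw [Finset.mem_sdiff, Finset.mem_erase] at hl₀m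
      ext j
      rw [Finset.mem_erase, Finset.mem_insert]
      constructor
      · rintro ⟨hj, -⟩
        by_contra hcon
        rw [not_or] at hcon
        have : j ∈ (Finset.univ.erase i) \ D := Finset.mem_sdiff.2 ⟨Finset.mem_erase.2 ⟨hcon.1, Finset.mem_univ _⟩, hcon.2⟩
        rw [hl₀, Finset.mem_singleton] at this
        exact hj this
      · rintro (rfl | hj)
        · exact ⟨Ne.symm hl₀m.1.1, Finset.mem_univ _⟩
        · exact ⟨fun h => hl₀m.2 (h ▸ hj), Finset.mem_univ _⟩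
    intro c₀ x₀
    refine Q_all (by omega) hcyc (l := l₀) (fun c x => ?_) l c₀ x₀
    have m2 := (hx x).2 c (x i)
    rw [hins, pD_insert φ hiD, ← smul_mul_assoc, ← map_smul]
    exact m2

end two

end Cfsg.Agent.Asch.CW
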