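import Mathlib
import Cfsg.Prelude.Def_GeometricClasses
import Cfsg.Agent.Asch.EVTwo
import Cfsg.Agent.Asch.Linear
import Cfsg.Agent.AschCases.OrthNot.Four
set_option autoImplicit false
set_option linter.unusedSectionVars false
set_option linter.unusedVariables false
set_option linter.unusedSimpArgs false
set_option linter.style.haveILetI false

/-!
Overgroups of the stabiliser of a symplectic tensor power in an orthogonal group.
-/

namespace Cfsg.Agent.Asch.CW

open Matrix Module Cfsg.Geo Cfsg.Agent.GeoMax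

open Cfsg.Agent.GeoMax.Ort (HasE FullR emGL emGL_mulVec emGL_injective omegaGL_eq)

open Cfsg.Agent.Orth (OGrp eich eich_apply OGrp_ext OGrp_polar)

open QuadraticMap (polar polarBilin)

open scoped Matrix commutatorElement

section half

variable {k : ℕ} {F : Type*} [Field F] (φ : SpF k F)

lemma exists_half (c : F) : ∃ b : Matrix (Fin k) (Fin k) F, b + φ.star b = c • (1 : Matrix (Fin k) (Fin k) F) := by
  let g : Matrix (Fin k) (Fin k) F →+ Matrix (Fin k) (Fin k) F :=
    { toFun := fun b => b + φ.star b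
      map_zero' := by rw [φ.star_zero, add_zero]
      map_add' := fun a b => by rw [φ.star_add]; abel }
  have h := TMax.smul_one_mem_of_rk φ.symp g.range (fun u v => by
    refine ⟨-φ.et u v, ?_⟩
    show -φ.et u v + φ.star (-φ.et u v) = _
    apply TMax.mat_ext
    intro x
    rw [φ.star_neg, φ.star_et, neg_neg, add_mulVec, neg_mulVec, et_mulVec, et_mulVec, sub_mulVec, TMax.rk_mulVec φ.symp, TMax.rk_mulVec φ.symp, φ.f_neg v x, φ.f_neg u x,
      neg_smul, neg_smul]
    abel) c
  exact h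

end half

section om

variable {k t : ℕ} {F : Type*} [Field F] {φ : SpF k F} {Q : QuadraticForm F ((Fin t → Fin k) → F)}

/-- `Ω` as a linear group -/
noncomputable def Om (Q : QuadraticForm F ((Fin t → Fin k) → F)) : Subgroup (GL (Fin t → Fin k) F) := (commutator (OGrp Q)).map (emGL Q)

variable (hQ : QPow φ Q)

include hQ

lemma QPow.polar_eq (ht : 0 < t) (v w : (Fin t → Fin k) → F) : polar Q v w = v ⬝ᵥ (piMat (fun _ => φ.A) *ᵥ w) := by
  have h1 : ∀ x : Fin t → Fin k → F, ∀ w, polar Q (pv x) w = pv x ⬝ᵥ (piMat (fun _ => φ.A) *ᵥ w) := by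
    intro x
    apply pv_induction ht (P := fun w => polar Q (pv x) w = pv x ⬝ᵥ (piMat (fun _ => φ.A) *ᵥ w))
    · rw [QuadraticMap.polar_zero_right, mulVec_zero, dotProduct_zero]
    · intro y
      rw [hQ.pol, dotProduct_mulVec, pv_vecMul, pv_dot]
      exact Finset.prod_congr rfl fun i _ => (φ.fr_dot _ _).symm
    · intro w w' hw hw'
      rw [QuadraticMap.polar_add_right, mulVec_add, dotProduct_add, hw, hw']
  revert v
  apply pv_induction ht (P := fun v => polar Q v w = v ⬝ᵥ (piMat (fun _ => φ.A) *ᵥ w))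
  · rw [QuadraticMap.polar_zero_left, zero_dotProduct]
  · intro x; exact h1 x w
  · intro v v' hv hv'
    rw [QuadraticMap.polar_add_left, add_dotProduct, hv, hv']

lemma QPow.iso_iff (ht : 0 < t) {g : GL (Fin t → Fin k) F} : g ∈ isoGL (polar Q) ↔ (stStd t φ).Iso g := mem_iso_iff (φ := φ) (hQ.polar_eq ht)

lemma QPow.iso_of_O (ht : 0 < t) (h : OGrp Q) : (stStd t φ).Iso (emGL Q h) := by
  rw [← hQ.iso_iff ht, mem_isoGL]
  intro u v
  rw [emGL_mulVec, emGL_mulVec, OGrp_polar]

/-- isometries of the polar form permuting pure tensors -/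
lemma QPow.exists_O (ht : 0 < t) {g : GL (Fin t → Fin k) F} (hg : (stStd t φ).Iso g) (hw : g ∈ tensorWreathStandard k t F) : ∃ h : OGrp Q, emGL Q h = g := by
  have hpol : ∀ u v, polar Q (g.1 *ᵥ u) (g.1 *ᵥ v) = polar Q u v := by
    have := (hQ.iso_iff ht).2 hg
    rw [mem_isoGL] at this
    exact this
  have hq : ∀ v, Q (g.1 *ᵥ v) = Q v := by
    apply pv_induction ht (P := fun v => Q (g.1 *ᵥ v) = Q v)
    · rw [mulVec_zero]
    · intro x
      obtain ⟨y, hy⟩ := AschCases.OrthNot.pureT_action g hw (pv x) ⟨x, rfl⟩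
      rw [hy]
      exact (hQ.pure y).trans (hQ.pure x).symm
    · intro x y hx hy
      rw [mulVec_add, QuadraticMap.map_add Q (g.1 *ᵥ x), hx, hy, hpol, QuadraticMap.map_add Q x]
  refine ⟨⟨Asch.glEquiv g, fun v => hq v⟩, ?_⟩
  apply gl_ext
  intro x
  rw [emGL_mulVec]
  rfl

lemma QPow.WW_mem_Om [Finite F] (hnd : (polarBilin Q).Nondegenerate) (hN : 7 ≤ k ^ t) {x y : Fin t → Fin k → F} {i : Fin t} (h : φ.f (x i) (y i) = 0) :
    Mem1 (Om Q) (WW φ x y) := by
  have hN' : 7 ≤ finrank F ((Fin t → Fin k) → F) := by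
    rw [finrank_fintype_fun_eq_card, Fintype.card_fun, Fintype.card_fin, Fintype.card_fin]; exact hN
  exact ⟨_, ⟨_, GeoMax.Ort.eich_mem_commutator hnd hN' (hQ.pure x) (hQ.pol_zero h), rfl⟩, hQ.eich_val _⟩

lemma QPow.half_mem [Finite F] (hnd : (polarBilin Q).Nondegenerate) (hN : 7 ≤ k ^ t) (i : Fin t) (u : Fin k → F) :
    ∀ D : Finset (Fin t), ∀ g : Fin t → Matrix (Fin k) (Fin k) F, (∀ j, j ≠ i → j ∉ D → ∃ p q, g j = φ.et p q) →
      Mem1 (Om Q) ((std k t F).E i (φ.et u u) * (piMat (Function.update g i 1) + (stStd t φ).st (piMat (Function.update g i 1)))) := by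
  have hcm : ∀ g : Fin t → Matrix (Fin k) (Fin k) F, Cmt ((std k t F).E i) (piMat (Function.update g i 1)) := fun g => piMat_comm_fac (Function.update_self _ _ _)
  intro D
  induction D using Finset.induction_on with
  | empty =>
    intro g hg
    have hex : ∀ j, ∃ p q, j ≠ i → g j = φ.et p q := by
      intro j
      by_cases hj : j = i
      · exact ⟨0, 0, fun h => absurd hj h⟩
      · obtain ⟨p, q, h⟩ := hg j hj (Finset.notMem_empty j)
        exact ⟨p, q, fun _ => h⟩
    choose p q hpq using hex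
    obtain ⟨x, hx⟩ : ∃ x, x = Function.update p i u := ⟨_, rfl⟩
    obtain ⟨y, hy⟩ : ∃ y, y = Function.update q i u := ⟨_, rfl⟩
    have hxi : x i = u := by rw [hx, Function.update_self]
    have hyi : y i = u := by rw [hy, Function.update_self]
    have h1 := hQ.WW_mem_Om hnd hN (x := x) (y := y) (i := i) (by rw [hxi, hyi]; exact φ.f_self u)
    obtain ⟨A, hA⟩ : ∃ A, A = piMat (Function.update g i 1) := ⟨_, rfl⟩
    have hAc : Cmt ((std k t F).E i) A := by rw [hA]; exact hcm g
    rw [← hA]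
    have e1 : (std k t F).E i (φ.et u u) * A = piMat (fun j => φ.et (x j) (y j)) := by
      rw [hA]
      show fac i _ * _ = _
      rw [fac_mul_piMat]; congr 1; funext j
      by_cases hj : j = i
      · subst hj; rw [Function.update_self, Function.update_self, mul_one, hxi, hyi]
      · rw [Function.update_of_ne hj, Function.update_of_ne hj, hpq j hj, hx, hy, Function.update_of_ne hj, Function.update_of_ne hj]
    have e2 : (std k t F).E i (φ.et u u) * (stStd t φ).st A = - piMat (fun j => φ.et (y j) (x j)) := by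
      have h3 := congrArg (stStd t φ).st e1
      rw [(stStd t φ).st_mul, (stStd t φ).st_et, mul_neg, ← (stStd t φ).st_cmt hAc, stStd_piMat] at h3
      have h4 : piMat (fun j => φ.star (φ.et (x j) (y j))) = piMat (fun j : Fin t => φ.et (y j) (x j)) := by
        have : (fun j : Fin t => φ.star (φ.et (x j) (y j))) = fun j => -φ.et (y j) (x j) := by funext j; rw [φ.star_et]
        rw [this, piMat_neg, hQ.sgn, one_smul]
      rw [h4] at h3
      rw [← h3, neg_neg]
    rw [mul_add, e1, e2, ← sub_eq_add_neg]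
    exact h1
  | insert l D hl ih =>
    intro g hg
    by_cases hli : l = i
    · apply ih
      intro j hj hjD
      exact hg j hj fun h => by
        rcases Finset.mem_insert.1 h with h | h
        · exact hj (h.trans hli)
        · exact hjD h
    -- split off the coordinate `l`
    have e : ∀ a : Matrix (Fin k) (Fin k) F, piMat (Function.update (Function.update g l a) i 1) =
        (std k t F).E l a * piMat (Function.update (Function.update g l 1) i 1) := by
      intro a
      show _ = fac l a * _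
      rw [fac_mul_piMat]; congr 1; funext j
      by_cases hji : j = i
      · subst hji
        rw [Function.update_self, Function.update_of_ne (Ne.symm hli), Function.update_self]
      · rw [Function.update_of_ne hji]
        by_cases hjl : j = l
        · subst hjl
          rw [Function.update_self, Function.update_self, Function.update_of_ne hji, Function.update_self, mul_one]
        · rw [Function.update_of_ne hjl, Function.update_of_ne hjl, Function.update_of_ne hji, Function.update_of_ne hjl]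
    have key : ∀ a : Matrix (Fin k) (Fin k) F, Mem1 (Om Q) ((std k t F).E i (φ.et u u) * (piMat (Function.update (Function.update g l a) i 1) +
        (stStd t φ).st (piMat (Function.update (Function.update g l a) i 1)))) := by
      intro a
      refine φ.et_induction (P := fun a => Mem1 (Om Q) ((std k t F).E i (φ.et u u) * (piMat (Function.update (Function.update g l a) i 1) +
        (stStd t φ).st (piMat (Function.update (Function.update g l a) i 1))))) ?_ ?_ ?_ a
      · rw [e, map_zero, zero_mul, map_zero, add_zero, mul_zero]; exact mem1_zero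
      · intro a b ha hb
        have e3 : piMat (Function.update (Function.update g l (a + b)) i 1) = piMat (Function.update (Function.update g l a) i 1) +
            piMat (Function.update (Function.update g l b) i 1) := by
          rw [e (a + b), e a, e b, map_add, add_mul]
        rw [e3, (stStd t φ).st_add]
        have h3 := ha.add hb (by rw [E_mul_A ((hcm _).add ((stStd t φ).st_cmt (hcm _))), φ.et_sq, map_zero, zero_mul])
        convert h3 using 1
        rw [← mul_add]; congr 1; abel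
      · intro p q
        apply ih
        intro j hj hjD
        by_cases hjl : j = l
        · subst hjl; exact ⟨p, q, Function.update_self _ _ _⟩
        · rw [Function.update_of_ne hjl]
          exact hg j hj fun h => by
            rcases Finset.mem_insert.1 h with h | h
            · exact hjl h
            · exact hjD h
    have := key (g l)
    rwa [Function.update_eq_self] at this

/-- long root elements are in `Ω` -/
theorem QPow.root_mem [Finite F] (hnd : (polarBilin Q).Nondegenerate) (ht : 2 ≤ t) (hN : 7 ≤ k ^ t) (i : Fin t) : RootsS φ ((std k t F).E i) (Om Q) := by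
  intro c u
  obtain ⟨b, hb⟩ := exists_half φ c
  obtain ⟨j, hj⟩ : (Finset.univ.erase i).Nonempty := Finset.card_pos.1 (by
    rw [Finset.card_erase_of_mem (Finset.mem_univ i), Finset.card_univ, Fintype.card_fin]; omega)
  have hji := Finset.ne_of_mem_erase hj
  have h1 := hQ.half_mem hnd hN i u Finset.univ (Pi.mulSingle j b) (fun j _ h => absurd (Finset.mem_univ j) h)
  have e1 : piMat (Function.update (Pi.mulSingle j b : Fin t → Matrix (Fin k) (Fin k) F) i 1) = (std k t F).E j b := by
    show _ = fac j b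
    rw [fac_apply]; congr 1; funext l
    by_cases hl : l = i
    · subst hl; rw [Function.update_self, Pi.mulSingle_eq_of_ne (Ne.symm hji)]
    · rw [Function.update_of_ne hl]
  rw [e1, (stStd t φ).st_E, ← map_add, hb, map_smul, map_one, mul_smul_comm, mul_one, ← map_smul] at h1
  exact h1

omit hQ in
lemma flip_conj_flip {T ι : Type} [DecidableEq T] [Fintype ι] [DecidableEq ι] {S : Sys k T ι F} {a b c : T} (hab : a ≠ b) (hac : a ≠ c) (hbc : b ≠ c) :
    S.flip hac * S.flip hab * (S.flip hac)⁻¹ = S.flip hbc := by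
  apply Units.ext
  rw [Units.val_mul, Units.val_mul, Sys.flip_val hab, Sys.flip_val hbc, Sys.flipM_symm hbc, Sys.flipM, Sys.flipM, Finset.mul_sum, Finset.sum_mul]
  refine Finset.sum_congr rfl fun l _ => ?_
  rw [Finset.mul_sum, Finset.sum_mul]
  refine Finset.sum_congr rfl fun m _ => ?_
  rw [Sys.cj2, Sys.flip_conj, Sys.flip_conj, Equiv.swap_apply_left, Equiv.swap_apply_of_ne_of_ne (Ne.symm hab) hbc]

/-- three-cycles are in `Ω` -/
theorem QPow.cyc_mem (ht : 0 < t) (hk : 0 < k) : (std k t F).HasCyc (Om Q) := by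
  intro a b c hab hbc hac
  haveI : Nonempty (Fin k) := ⟨⟨0, hk⟩⟩
  have hflip : ∀ {i j : Fin t} (hij : i ≠ j), ∃ h : OGrp Q, emGL Q h = (std k t F).flip hij := fun hij =>
    hQ.exists_O ht (flip_iso _ hk hij) (mem_tws_of_mon hk ht (Sys.flip_mem_mon hij (Finset.mem_univ _) (Finset.mem_univ _)))
  obtain ⟨h₁, e₁⟩ := hflip hab
  obtain ⟨h₂, e₂⟩ := hflip hac
  refine ⟨⁅h₁, h₂⁆, Subgroup.commutator_mem_commutator (Subgroup.mem_top _) (Subgroup.mem_top _), ?_⟩
  have hinv : ((std k t F).flip hab)⁻¹ = (std k t F).flip hab := Units.ext rfl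
  rw [map_commutatorElement, e₁, e₂, commutatorElement_def, hinv, mul_assoc, mul_assoc, ← mul_assoc ((std k t F).flip hac), flip_conj_flip hab hac hbc]
  rfl

end om

section nd

variable {k t : ℕ} {F : Type*} [Field F] {φ : SpF k F} {Q : QuadraticForm F ((Fin t → Fin k) → F)}

theorem QPow.nondeg (hQ : QPow φ Q) (ht : 0 < t) : (polarBilin Q).Nondegenerate := by
  have hA : piMat (fun _ : Fin t => φ.A) * piMat (fun _ => φ.A') = 1 := by rw [piMat_const_mul, φ.AA', piMat_const_one]
  have key : ∀ u, (∀ v, polar Q u v = 0) → u = 0 := by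
    intro u hu
    have h1 : u ᵥ* piMat (fun _ => φ.A) = 0 := by
      funext a
      have := hu (Pi.single a 1)
      rw [hQ.polar_eq ht, dotProduct_mulVec, dotProduct_single_one] at this
      exact this
    have h2 : (u ᵥ* piMat (fun _ => φ.A)) ᵥ* piMat (fun _ => φ.A') = u := by rw [vecMul_vecMul, hA, vecMul_one]
    rw [← h2, h1, zero_vecMul]
  refine ⟨fun u hu => key u hu, fun u hu => key u fun v => ?_⟩
  rw [QuadraticMap.polar_comm]; exact hu v

end nd

section overg

variable {k t : ℕ} {F : Type*} [Field F] [Fintype F] {φ : SpF k F} {Q : QuadraticForm F ((Fin t → Fin k) → F)}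

/-- **the overgroups in the orthogonal group of a tensor power** -/
theorem o_overgroup (hQ : QPow φ Q) (hk : 2 ≤ k) (ht : 2 ≤ t) (hN : 7 ≤ k ^ t)
    (hcase : 5 < k ∨ (Odd (Fintype.card F) ∧ Even t ∧ ¬ (Fintype.card F = 3 ∧ k = 2) ∧ (k = 2 → 4 ≤ t)))
    {K : Subgroup (GL (Fin t → Fin k) F)} (hK : tensorWreathStandard k t F ⊓ Om Q ≤ K) (hKQ : K ≤ Om Q) : Om Q ≤ K ∨ K ≤ tensorWreathStandard k t F := by
  haveI : Nonempty (Fin k) := ⟨⟨0, by omega⟩⟩
  have hnd := hQ.nondeg (by omega)
  have hR : ∀ i, RootsS φ ((std k t F).E i) K := by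
    intro i c u
    obtain ⟨g, hg, hgv⟩ := hQ.root_mem hnd ht hN i c u
    refine ⟨g, hK ⟨mem_tws_of_mon (by omega) (by omega) ?_, hg⟩, hgv⟩
    obtain ⟨B, hB⟩ := exists_of_sq_zero (cet_sq φ c u)
    have : g = EU ((std k t F).E i) B := by
      apply Units.ext
      rw [EU_val, hgv, hB, map_add, map_one]
    rw [this]; exact Sys.EU_mem_mon i B
  have hcyc : (std k t F).HasCyc K := by
    intro a b c h1 h2 h3
    refine hK ⟨mem_tws_of_mon (by omega) (by omega) ?_, hQ.cyc_mem (by omega) (by omega) a b c h1 h2 h3⟩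
    exact Subgroup.mul_mem _ (Sys.flip_mem_mon h1 (Finset.mem_univ _) (Finset.mem_univ _)) (Sys.flip_mem_mon h2 (Finset.mem_univ _) (Finset.mem_univ _))
  have hI : ∀ g ∈ K, (stStd t φ).Iso g := by
    intro g hg
    obtain ⟨h, -, rfl⟩ := hKQ hg
    exact hQ.iso_of_O (by omega) h
  by_cases hC : ∀ i, CoefS φ ((std k t F).E i) K
  · right
    intro g hg
    apply mem_tws_of_mon (by omega) (by omega)
    have hClaim : Sys.ClaimS (stStd t φ) Finset.univ := by
      rcases hcase with h | ⟨hq, -, hex, -⟩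
      · exact claimE_std φ h Finset.univ
      · exact claimS_std φ hk hq hex Finset.univ
    exact hClaim K (fun x _ i hi => absurd (Finset.mem_univ i) hi) hI (fun i _ => hR i) (fun i _ => hC i) g
      (fun i hi => absurd (Finset.mem_univ i) hi) (hI g hg).sim (fun i _ c u => (hR i c u).conj' hg)
  · left
    push Not at hC
    obtain ⟨i, hi⟩ := hC
    suffices hH : ∀ (x y : Fin t → Fin k → F) (i : Fin t), (∀ j, x j ≠ 0) → φ.f (x i) (y i) = 0 → HasE (K.comap (emGL Q)) (pv x) (pv y) by
      have h1 := hQ.omega_le hnd (by omega) (by omega) hN hH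
      rintro _ ⟨h, hh, rfl⟩
      exact h1 hh
    rcases hcase with hk6 | ⟨hq, hev, hex, hk2⟩
    · exact fun x y l hx hxy => full_six hk6 hQ hI hR hcyc hi x y l hx hxy
    have h2 := GeoMax.Ort.two_ne_zero_of_odd hq
    rw [coefS_iff h2 (hR i)] at hi
    push Not at hi
    obtain ⟨A, hA, hns⟩ := hi
    obtain ⟨σ, hσ, hσ2⟩ := exists_sigma φ
    have hns' : ¬ ∃ c : F, A = c • (1 : Matrix (Fin t → Fin k) (Fin t → Fin k) F) := by rintro ⟨c, hc⟩; exact hns c hc
    by_cases hk2' : k = 2
    · subst hk2'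
      have hAdj := hasE_adj hQ ht (adj_two h2 hσ hσ2 hev (hk2 rfl) hI hR hcyc hA hns')
      exact fun x y l hx hxy => hQ.spread_two (hk2 rfl) hAdj hx hxy
    · have hk4 : 4 ≤ k := by
        obtain ⟨u, hu⟩ : ∃ u : Fin k → F, u ≠ 0 := ⟨Pi.single ⟨0, by omega⟩ 1, by
          intro h0; have := congrFun h0 ⟨0, by omega⟩; rw [Pi.single_eq_same] at this; exact one_ne_zero this⟩
        obtain ⟨v, huv⟩ := φ.exists_hyp hu
        obtain ⟨z, hz0, hzu, hzv⟩ := exists_row_zero (F := F) (by rw [Fintype.card_fin]; omega : 3 ≤ Fintype.card (Fin k)) (φ.fr u) (φ.fr v)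
        have huz : φ.f u z = 0 := by rw [← φ.fr_dot, dotProduct_comm]; exact hzu
        have hvz : φ.f v z = 0 := by rw [← φ.fr_dot, dotProduct_comm]; exact hzv
        exact Sys.four_le φ hu huz (Sys.not_mem_span_of_hyp huv hvz hz0)
      have hAdj := hasE_adj hQ ht (adj_four h2 hk4 hσ hσ2 hev ht hR hcyc hA hns')
      exact fun x y l hx hxy => hQ.spread_four hk4 hAdj hx hxy

end overg

section transport

variable {ι κ : Type} [Fintype ι] [DecidableEq ι] [Fintype κ] [DecidableEq κ] {F : Type*} [Field F]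

/-- transport of `Ω` -/
lemma mem_omega_transport {Q : QuadraticForm F (ι → F)} {Q' : QuadraticForm F (κ → F)} (L : (κ → F) ≃ₗ[F] (ι → F)) (hQ' : ∀ x, Q' x = Q (L x))
    (ρ : GL ι F ≃* GL κ F) (hρ : ∀ g x, L ((ρ g).1 *ᵥ x) = g.1 *ᵥ L x) (g : GL ι F) :
    g ∈ (commutator (OGrp Q)).map (emGL Q) ↔ ρ g ∈ (commutator (OGrp Q')).map (emGL Q') := by
  obtain ⟨ψ, hψ⟩ : ∃ ψ : OGrp Q' ≃* OGrp Q, ψ = TMax.oCongr L (fun v => (hQ' v).symm) := ⟨_, rfl⟩
  have key : ∀ h : OGrp Q', ρ (emGL Q (ψ h)) = emGL Q' h := by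
    intro h
    apply gl_ext
    intro x
    apply L.injective
    rw [hρ, emGL_mulVec, emGL_mulVec, hψ]
    change L ((h : (κ → F) ≃ₗ[F] (κ → F)) (L.symm (L x))) = _
    rw [LinearEquiv.symm_apply_apply]
  constructor
  · rintro ⟨h, hh, rfl⟩
    refine ⟨ψ.symm h, ?_, ?_⟩
    · have := (Orth.mem_commutator_equiv ψ (ψ.symm h)).2
      apply this
      rwa [MulEquiv.apply_symm_apply]
    · rw [← key, MulEquiv.apply_symm_apply]
  · rintro ⟨h, hh, hhe⟩
    refine ⟨ψ h, (Orth.mem_commutator_equiv ψ h).1 hh, ?_⟩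
    apply ρ.injective
    rw [key, hhe]

theorem omegaGL_smul' (Q : (ι → F) → F) {ζ : F} (hζ : ζ ≠ 0) : omegaGL (fun v => ζ * Q v) = omegaGL Q := by
  have h : Cfsg.isometryGroup F (fun v => ζ * Q v) = Cfsg.isometryGroup F Q := by
    ext g
    constructor
    · intro hg u v
      exact mul_left_cancel₀ hζ (hg u v)
    · intro hg u v
      exact congrArg (fun t => ζ * t) (hg u v)
  exact congrArg (fun H : Subgroup (GL ι F) => (commutator ↥H).map H.subtype) h

end transport

section final

variable {F : Type*} [Field F] [Fintype F]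

/-- **maximality in the orthogonal group** -/
theorem o_wreath_maximal {n : ℕ} (hn : 13 ≤ n) (Q₀ : (Fin n → F) → F) (hQ₀ : IsNondegenerateQuadraticForm Q₀) (k t : ℕ) (ht : 2 ≤ t)
    (hqt : Odd (Fintype.card F) → Even t) (hex2 : ¬ (Fintype.card F = 3 ∧ k = 2)) (hex3 : ¬ Odd (Fintype.card F) → 6 ≤ k)
    (e : (Fin n) ≃ (Fin t → Fin k)) (P : GL (Fin n) F) (f₁ : (Fin k → F) → (Fin k → F) → F) (hf₁ : IsSymplecticForm f₁)
    (hT : IsTensorPowerFormStructure id (QuadraticMap.polar Q₀) f₁ e P)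
    (hpure : ∀ xs : Fin t → (Fin k → F), Q₀ (Matrix.mulVec (P : Matrix (Fin n) (Fin n) F) ((fun a : Fin t → Fin k => ∏ i, xs i (a i)) ∘ e)) = 0) :
    IsMaximalIn (omegaGL Q₀) (tensorWreathSubgroup k t e P ⊓ omegaGL Q₀) := by
  classical
  have hcard : n = k ^ t := by
    have := Fintype.card_congr e
    rwa [Fintype.card_fun, Fintype.card_fin, Fintype.card_fin, Fintype.card_fin] at this
  have hnd := GeoMax.Ort.toQF_nondeg hQ₀
  have hk : 2 ≤ k := by
    rcases Nat.lt_or_ge k 2 with h | h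
    · exfalso
      have : k = 0 ∨ k = 1 := by omega
      rcases this with rfl | rfl
      · rw [zero_pow (by omega)] at hcard; omega
      · rw [one_pow] at hcard; omega
    · exact h
  obtain ⟨φ, hφ⟩ : ∃ φ : SpF k F, φ = SpF.ofSymp hf₁ := ⟨_, rfl⟩
  refine ⟨lt_of_le_of_ne inf_le_right fun h => ?_, fun M hM1 hM2 => ?_⟩
  · exact AschCases.OrthNot.not_le_wreath_sympl hnd (by rw [Fintype.card_fin]; omega) ht e P hf₁ hT hpure (inf_eq_right.1 h)
  obtain ⟨c, hc0, hT⟩ := hT
  let L : ((Fin t → Fin k) → F) ≃ₗ[F] (Fin n → F) :=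
    (LinearEquiv.funCongrLeft F F e).trans (Asch.glEquiv P)
  have hL : ∀ x : (Fin t → Fin k) → F, L x = P.1 *ᵥ (x ∘ e) := fun x => rfl
  obtain ⟨Q₁, hQ₁⟩ : ∃ Q₁ : QuadraticForm F ((Fin t → Fin k) → F), Q₁ = (GeoMax.Ort.toQF hQ₀).comp L.toLinearMap := ⟨_, rfl⟩
  have hQ₁x : ∀ x, Q₁ x = GeoMax.Ort.toQF hQ₀ (L x) := fun x => by rw [hQ₁]; rfl
  obtain ⟨Q, hQd⟩ : ∃ Q : QuadraticForm F ((Fin t → Fin k) → F), Q = c⁻¹ • Q₁ := ⟨_, rfl⟩
  have hQx : ∀ x, Q x = c⁻¹ * Q₁ x := fun x => by rw [hQd]; rfl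
  have hOm : Om Q = (commutator (OGrp Q₁)).map (emGL Q₁) := by
    rw [Om, ← omegaGL_eq, ← omegaGL_eq, ← omegaGL_smul' (Q₁ : ((Fin t → Fin k) → F) → F) (inv_ne_zero hc0)]
    congr 1
    funext x
    exact hQx x
  have hrho : ∀ (g : GL (Fin n) F) x, L ((rhoW e P g).1 *ᵥ x) = g.1 *ᵥ L x := by
    intro g x
    rw [hL, hL]
    have h1 : ((rhoW e P g).1 *ᵥ x) ∘ e = ((P⁻¹).1 * g.1 * P.1) *ᵥ (x ∘ e) := by
      have h3 : (rhoW e P g).1 = Matrix.reindex e e ((P⁻¹).1 * g.1 * P.1) := by
        show Matrix.reindex e e ((P⁻¹ * g * (P⁻¹)⁻¹ : GL (Fin n) F)).1 = _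
        rw [inv_inv, Units.val_mul, Units.val_mul]
      rw [h3, Matrix.reindex_apply, Matrix.submatrix_mulVec_equiv]
      funext a
      simp only [Function.comp_apply, Equiv.symm_symm, Equiv.symm_apply_apply]
    rw [h1, mulVec_mulVec, mulVec_mulVec, ← mul_assoc, ← mul_assoc, mul_inv_val, one_mul]
  have hiff : ∀ g, g ∈ omegaGL Q₀ ↔ rhoW e P g ∈ Om Q := by
    intro g
    rw [hOm, ← mem_omega_transport L hQ₁x (rhoW e P) hrho, ← omegaGL_eq]
    rfl
  have hpol : ∀ x y, polar Q x y = x ⬝ᵥ (piMat (fun _ => φ.A) *ᵥ y) := by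
    intro x y
    have h1 : polar Q x y = c⁻¹ * polar Q₀ (L x) (L y) := by
      simp only [polar, hQx, hQ₁x, map_add, mul_sub]
      rfl
    rw [h1, hL, hL, hT, ← mul_assoc, inv_mul_cancel₀ hc0, one_mul, dotProduct]
    refine Finset.sum_congr rfl fun a _ => ?_
    rw [mulVec, dotProduct, Finset.mul_sum]
    refine Finset.sum_congr rfl fun b _ => ?_
    rw [mul_assoc, hφ]
    rfl
  have hQP : QPow φ Q := by
    refine ⟨fun x => ?_, fun x y => ?_, ?_⟩
    · rw [hQx, hQ₁x, hL]
      have : GeoMax.Ort.toQF hQ₀ (P.1 *ᵥ (pv x ∘ e)) = 0 := hpure x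
      rw [this, mul_zero]
    · rw [hpol, dotProduct_mulVec, pv_vecMul, pv_dot]
      exact Finset.prod_congr rfl fun i _ => φ.fr_dot _ _
    · by_cases hq : Odd (Fintype.card F)
      · exact (hqt hq).neg_one_pow
      · have h2 := GeoMax.Ort.two_eq_zero_of_not_odd (F := F) hq
        have : (-1 : F) = 1 := by linear_combination -h2
        rw [this, one_pow]
  have hcase : 5 < k ∨ (Odd (Fintype.card F) ∧ Even t ∧ ¬ (Fintype.card F = 3 ∧ k = 2) ∧ (k = 2 → 4 ≤ t)) := by
    by_cases hq : Odd (Fintype.card F)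
    · right
      refine ⟨hq, hqt hq, hex2, fun hk2 => ?_⟩
      by_contra hcon
      have h3 : k ^ t ≤ 2 ^ 3 := by
        rw [hk2]; exact Nat.pow_le_pow_right (by omega) (by omega)
      omega
    · exact Or.inl (hex3 hq)
  obtain ⟨K, hKdef⟩ : ∃ K, K = M.map (rhoW e P).toMonoidHom := ⟨_, rfl⟩
  have hKf : K ≤ Om Q := by
    rw [hKdef]
    rintro _ ⟨g, hg, rfl⟩
    exact (hiff g).1 (hM2 hg)
  have hK : tensorWreathStandard k t F ⊓ Om Q ≤ K := by
    rw [hKdef]
    rintro x ⟨hx, hi⟩
    refine ⟨(rhoW e P).symm x, hM1 ⟨rhoW_symm_mem e P x hx, ?_⟩, (rhoW e P).apply_symm_apply x⟩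
    refine (hiff _).2 ?_
    rw [MulEquiv.apply_symm_apply]
    exact hi
  rcases o_overgroup hQP hk ht (by omega) hcase hK hKf with h | h
  · right
    refine le_antisymm hM2 fun g hg => ?_
    have h3 := h ((hiff g).1 hg)
    rw [hKdef] at h3
    obtain ⟨g', hg'M, hg'e⟩ := h3
    have : g' = g := (rhoW e P).injective hg'e
    rwa [← this]
  · left
    refine le_antisymm (le_inf (fun g hg => ?_) hM2) hM1
    exact rhoW_mem e P g (h (by rw [hKdef]; exact ⟨g, hg, rfl⟩))

end final

end Cfsg.Agent.Asch.CW
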