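import Mathlib
import Cfsg.Prelude.Def_GeometricClasses
import Cfsg.Agent.Asch.EVMain
set_option autoImplicit false
set_option linter.unusedSectionVars false
set_option linter.unusedVariables false
set_option linter.unusedSimpArgs false
set_option linter.style.haveILetI false

/-!
Even characteristic, factors of dimension two or four: the stabiliser of the tensor power is contained in the
stabiliser of a Clifford space.
-/

namespace Cfsg.Agent.Asch.CW

open Matrix Module Cfsg.Geo Cfsg.Agent.GeoMax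

open Cfsg.Agent.GeoMax.Ort (HasE FullR emGL emGL_mulVec emGL_injective omegaGL_eq)

open Cfsg.Agent.Orth (OGrp eich eich_apply OGrp_ext OGrp_polar)

open QuadraticMap (polar polarBilin)

open scoped Matrix commutatorElement

/-- a space of matrices with a good element -/
structure Cliff {k : ℕ} {F : Type*} [Field F] (φ : SpF k F) where
  G0 : Submodule F (Matrix (Fin k) (Fin k) F)
  w : Matrix (Fin k) (Fin k) F
  hw : w ∈ G0
  hww : w * w = 0
  hcomm : ∀ a ∈ G0, ∃ s : F, w * a - a * w = s • (1 : Matrix (Fin k) (Fin k) F)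
  a0 : Matrix (Fin k) (Fin k) F
  ha0 : a0 ∈ G0
  s0 : F
  hs0 : s0 ≠ 0
  ha0w : w * a0 - a0 * w = s0 • (1 : Matrix (Fin k) (Fin k) F)
  inv : ∀ B : GL (Fin k) F, (∀ a, φ.star (B.1 * a * (B⁻¹).1) = B.1 * φ.star a * (B⁻¹).1) → ∀ a ∈ G0, B.1 * a * (B⁻¹).1 ∈ G0

section cliff

variable {k t : ℕ} {F : Type*} [Field F] {φ : SpF k F} {Q : QuadraticForm F ((Fin t → Fin k) → F)} (C : Cliff φ)

/-- the Clifford space of the tensor power -/
def Cliff.Γ (t : ℕ) : Submodule F (Matrix (Fin t → Fin k) (Fin t → Fin k) F) := Submodule.span F {γ | ∃ i : Fin t, ∃ a ∈ C.G0, γ = (std k t F).E i a}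

lemma Cliff.mem {i : Fin t} {a : Matrix (Fin k) (Fin k) F} (ha : a ∈ C.G0) : (std k t F).E i a ∈ C.Γ t := Submodule.subset_span ⟨i, a, ha, rfl⟩

lemma Cliff.conj_mem {g : GL (Fin t → Fin k) F} (h : ∀ i, ∀ a ∈ C.G0, g.1 * (std k t F).E i a * (g⁻¹).1 ∈ C.Γ t) : ∀ γ ∈ C.Γ t, g.1 * γ * (g⁻¹).1 ∈ C.Γ t := by
  intro γ hγ
  refine Submodule.span_induction (p := fun γ _ => g.1 * γ * (g⁻¹).1 ∈ C.Γ t) ?_ ?_ ?_ ?_ hγ
  · rintro _ ⟨i, a, ha, rfl⟩; exact h i a ha
  · rw [mul_zero, zero_mul]; exact Submodule.zero_mem _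
  · intro x y _ _ hx hy; rw [mul_add, add_mul]; exact Submodule.add_mem _ hx hy
  · intro c x _ hx; rw [mul_smul_comm, smul_mul_assoc]; exact Submodule.smul_mem _ c hx

/-- the stabiliser of the Clifford space -/
noncomputable def Cliff.K (Q : QuadraticForm F ((Fin t → Fin k) → F)) : Subgroup (GL (Fin t → Fin k) F) where
  carrier := {g | g ∈ Om Q ∧ (∀ γ ∈ C.Γ t, g.1 * γ * (g⁻¹).1 ∈ C.Γ t) ∧ ∀ γ ∈ C.Γ t, (g⁻¹).1 * γ * ((g⁻¹)⁻¹).1 ∈ C.Γ t}
  mul_mem' := by
    rintro g h ⟨h1, h2, h3⟩ ⟨h1', h2', h3'⟩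
    refine ⟨(Om Q).mul_mem h1 h1', fun γ hγ => ?_, fun γ hγ => ?_⟩
    · have := h2 _ (h2' γ hγ)
      rw [_root_.mul_inv_rev, Units.val_mul, Units.val_mul]
      simpa only [mul_assoc] using this
    · have := h3' _ (h3 γ hγ)
      rw [_root_.mul_inv_rev, Units.val_mul, _root_.mul_inv_rev, Units.val_mul]
      simpa only [mul_assoc] using this
  one_mem' := by
    refine ⟨(Om Q).one_mem, fun γ hγ => ?_, fun γ hγ => ?_⟩
    · rw [inv_one, Units.val_one, one_mul, mul_one]; exact hγ
    · rw [inv_one, inv_one, Units.val_one, one_mul, mul_one]; exact hγ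
  inv_mem' := by
    rintro g ⟨h1, h2, h3⟩
    refine ⟨(Om Q).inv_mem h1, h3, fun γ hγ => ?_⟩
    rw [inv_inv]; exact h2 γ hγ

lemma Cliff.conj_X {i j : Fin t} (hij : i ≠ j) {g : GL (Fin t → Fin k) F} (c : F) (hg : g.1 = 1 + c • ((std k t F).E i C.w * (std k t F).E j C.w))
    (hgi : (g⁻¹).1 = 1 - c • ((std k t F).E i C.w * (std k t F).E j C.w)) (l : Fin t) (a : Matrix (Fin k) (Fin k) F) (ha : a ∈ C.G0) :
    g.1 * (std k t F).E l a * (g⁻¹).1 ∈ C.Γ t := by
  obtain ⟨X, hX⟩ : ∃ X, X = (std k t F).E i C.w * (std k t F).E j C.w := ⟨_, rfl⟩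
  have hXji : X = (std k t F).E j C.w * (std k t F).E i C.w := by rw [hX, (std k t F).comm i j hij]
  rw [← hX] at hg hgi
  have e0 : ∀ Y : Matrix (Fin t → Fin k) (Fin t → Fin k) F, (1 + c • X) * Y * (1 - c • X) = Y + c • (X * Y - Y * X) - (c * c) • (X * Y * X) := by
    intro Y
    have h0 : ∀ Z : Matrix (Fin t → Fin k) (Fin t → Fin k) F, (1 + Z) * Y * (1 - Z) = Y + Z * Y - Y * Z - Z * Y * Z := by intro Z; noncomm_ring
    rw [h0, smul_mul_assoc, mul_smul_comm, smul_mul_assoc, mul_smul_comm, smul_smul, smul_sub]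
    abel
  obtain ⟨s, hs⟩ := C.hcomm a ha
  rw [hg, hgi, e0]
  have main : ∀ {i j : Fin t}, i ≠ j → X = (std k t F).E i C.w * (std k t F).E j C.w → X * (std k t F).E i a - (std k t F).E i a * X = s • (std k t F).E j C.w ∧
      X * (std k t F).E i a * X = 0 := by
    intro i j hij hX
    have h1 : X * (std k t F).E i a = (std k t F).E i (C.w * a) * (std k t F).E j C.w := by
      rw [hX, mul_assoc, (std k t F).comm j i (Ne.symm hij), ← mul_assoc, ← map_mul]
    constructor
    · rw [h1, hX, ← mul_assoc, ← map_mul, ← sub_mul, ← map_sub, hs, map_smul, map_one, smul_mul_assoc, one_mul]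
    · rw [h1, hX, E_mul_A (Sys.cmt_E hij _), ← map_mul ((std k t F).E j), C.hww, map_zero, mul_zero]
  by_cases hli : l = i
  · subst hli
    obtain ⟨h1, h2⟩ := main hij hX
    rw [h1, h2, smul_zero, sub_zero]
    exact Submodule.add_mem _ (C.mem ha) (Submodule.smul_mem _ _ (Submodule.smul_mem _ _ (C.mem C.hw)))
  by_cases hlj : l = j
  · subst hlj
    obtain ⟨h1, h2⟩ := main (Ne.symm hij) hXji
    rw [h1, h2, smul_zero, sub_zero]
    exact Submodule.add_mem _ (C.mem ha) (Submodule.smul_mem _ _ (Submodule.smul_mem _ _ (C.mem C.hw)))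
  · have hc : X * (std k t F).E l a = (std k t F).E l a * X := by
      rw [hX]; exact ((Sys.cmt_E hli _).mul (Sys.cmt_E hlj _) a).symm
    have hXX : X * X = 0 := by
      rw [hX, E_mul_A (Sys.cmt_E hij _), C.hww, map_zero, zero_mul]
    rw [hc, sub_self, smul_zero, add_zero, mul_assoc, hXX, mul_zero, smul_zero, sub_zero]
    exact C.mem ha

/-- **an intermediate subgroup** -/
theorem Cliff.not_max (hQ : QPow φ Q) (hk : 0 < k) (ht : 0 < t) {i j : Fin t} (hij : i ≠ j) (hg : Mem1 (Om Q) ((std k t F).E i C.w * (std k t F).E j C.w))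
    {h : GL (Fin t → Fin k) F} (hh : h ∈ Om Q) {γ : Matrix (Fin t → Fin k) (Fin t → Fin k) F} (hγ : γ ∈ C.Γ t) (hne : h.1 * γ * (h⁻¹).1 ∉ C.Γ t) :
    tensorWreathStandard k t F ⊓ Om Q < C.K Q ∧ C.K Q < Om Q := by
  haveI : Nonempty (Fin k) := ⟨⟨0, hk⟩⟩
  obtain ⟨g, hgO, hgX⟩ := hg
  have hXX : ((std k t F).E i C.w * (std k t F).E j C.w) * ((std k t F).E i C.w * (std k t F).E j C.w) = 0 := by
    rw [E_mul_A (Sys.cmt_E hij _), C.hww, map_zero, zero_mul]
  have hgi := Mem1.inv_eq hgX hXX
  constructor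
  · refine lt_of_le_of_ne ?_ ?_
    · -- the wreath product stabilises the Clifford space
      have key : ∀ g, g ∈ tensorWreathStandard k t F → g ∈ Om Q → ∀ γ ∈ C.Γ t, g.1 * γ * (g⁻¹).1 ∈ C.Γ t := by
        intro g hg hgO
        apply C.conj_mem
        intro i a ha
        have hI : (stStd t φ).Iso g := by
          obtain ⟨x, -, rfl⟩ := hgO
          exact hQ.iso_of_O ht x
        obtain ⟨σ, -, hσ⟩ := tws_le_mon hg
        obtain ⟨B, hB⟩ := hσ i (Finset.mem_univ i)
        rw [hB]
        refine C.mem (C.inv B (fun b => ?_) a ha)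
        apply Sys.E_inj (S := std k t F) (i := σ i)
        rw [← (stStd t φ).st_E, ← hB, ← hB, hI.sim.st_conj, (stStd t φ).st_E]
      rintro x ⟨hx, hxO⟩
      exact ⟨hxO, key x hx hxO, key x⁻¹ (Subgroup.inv_mem _ hx) (Subgroup.inv_mem _ hxO)⟩
    · intro heq
      have hgK : g ∈ C.K Q := by
        refine ⟨hgO, C.conj_mem fun l a ha => C.conj_X hij 1 (by rw [hgX, one_smul]) (by rw [hgi, one_smul]) l a ha,
          C.conj_mem fun l a ha => C.conj_X hij (-1) ?_ ?_ l a ha⟩
        · rw [hgi, neg_one_smul, sub_eq_add_neg]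
        · rw [inv_inv, hgX, neg_one_smul, sub_neg_eq_add]
      rw [← heq] at hgK
      obtain ⟨σ, -, hσ⟩ := tws_le_mon hgK.1
      obtain ⟨B, hB⟩ := hσ i (Finset.mem_univ i)
      have h1 := hB C.a0
      obtain ⟨c, hc⟩ : ∃ c, c = B.1 * C.a0 * (B⁻¹).1 := ⟨_, rfl⟩
      rw [← hc] at h1
      have h2 : g.1 * (std k t F).E i C.a0 * (g⁻¹).1 = (std k t F).E i C.a0 + C.s0 • (std k t F).E j C.w := by
        obtain ⟨X, hX⟩ : ∃ X, X = (std k t F).E i C.w * (std k t F).E j C.w := ⟨_, rfl⟩
        rw [hgX, hgi, ← hX]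
        have e0 : ∀ Y : Matrix (Fin t → Fin k) (Fin t → Fin k) F, (1 + X) * Y * (1 - X) = Y + (X * Y - Y * X) - X * Y * X := by
          intro Y; noncomm_ring
        have e1 : X * (std k t F).E i C.a0 = (std k t F).E i (C.w * C.a0) * (std k t F).E j C.w := by
          rw [hX, mul_assoc, (std k t F).comm j i (Ne.symm hij), ← mul_assoc, ← map_mul]
        have e2 : X * (std k t F).E i C.a0 - (std k t F).E i C.a0 * X = C.s0 • (std k t F).E j C.w := by
          rw [e1, hX, ← mul_assoc, ← map_mul, ← sub_mul, ← map_sub, C.ha0w, map_smul, map_one, smul_mul_assoc, one_mul]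
        have e3 : X * (std k t F).E i C.a0 * X = 0 := by
          rw [e1, hX, E_mul_A (Sys.cmt_E hij _), ← map_mul ((std k t F).E j), C.hww, map_zero, mul_zero]
        rw [e0, e2, e3, sub_zero]
      rw [h2] at h1
      have hone : (1 : Matrix (Fin t → Fin k) (Fin t → Fin k) F) ≠ 0 := one_ne_zero
      by_cases hl : σ i = i
      · rw [hl] at h1
        -- `s0 • E_j w` is in the factor `i`
        have h3 : C.s0 • (std k t F).E j C.w = (std k t F).E i (c - C.a0) := by rw [map_sub, ← h1, add_sub_cancel_left]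
        have h4 := Sys.cmt_E (S := std k t F) (Ne.symm hij) (c - C.a0) C.a0
        rw [← h3, mul_smul_comm, smul_mul_assoc, ← map_mul, ← map_mul] at h4
        have h5 : C.s0 • (std k t F).E j (C.w * C.a0 - C.a0 * C.w) = 0 := by rw [map_sub, smul_sub, h4, sub_self]
        rw [C.ha0w, map_smul, map_one, smul_smul] at h5
        exact (mul_ne_zero C.hs0 C.hs0) ((smul_eq_zero.1 h5).resolve_right hone)
      · have h3 : (std k t F).E i C.a0 = (std k t F).E (σ i) c - C.s0 • (std k t F).E j C.w := by rw [← h1, add_sub_cancel_right]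
        have h4 : Cmt ((std k t F).E i) ((std k t F).E (σ i) c - C.s0 • (std k t F).E j C.w) := (Sys.cmt_E (Ne.symm hl) _).sub ((Sys.cmt_E hij _).smul _)
        have h5 := h4 C.w
        rw [← h3, ← map_mul, ← map_mul] at h5
        have h6 : (std k t F).E i (C.w * C.a0 - C.a0 * C.w) = 0 := by rw [map_sub, h5, sub_self]
        rw [C.ha0w, map_smul, map_one] at h6
        exact C.hs0 ((smul_eq_zero.1 h6).resolve_right hone)
  · refine lt_of_le_of_ne (fun x hx => hx.1) fun heq => ?_
    rw [← heq] at hh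
    exact hne (hh.2.1 γ hγ)

/-- a test for the Clifford space -/
lemma Cliff.test {i : Fin t} {p p' : Fin k → F} (h : φ.f p p' = 0) {γ : Matrix (Fin t → Fin k) (Fin t → Fin k) F} (hγ : γ ∈ C.Γ t) :
    ∃ s : F, cb φ ((std k t F).E i) p p' γ = s • (1 : Matrix (Fin t → Fin k) (Fin t → Fin k) F) := by
  refine Submodule.span_induction (p := fun γ _ => ∃ s : F, cb φ ((std k t F).E i) p p' γ = s • (1 : Matrix (Fin t → Fin k) (Fin t → Fin k) F)) ?_ ?_ ?_ ?_ hγ
  · rintro _ ⟨l, a, ha, rfl⟩
    by_cases hl : l = i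
    · subst hl
      refine ⟨φ.fr p ⬝ᵥ (a *ᵥ p'), ?_⟩
      rw [← mul_one ((std k t F).E l a), cb_E_mul _ _ _ Cmt.one]
    · refine ⟨0, ?_⟩
      rw [cb_of_cmt _ _ (Sys.cmt_E (Ne.symm hl) a), h, zero_smul, zero_smul]
  · exact ⟨0, by rw [cb_zero, zero_smul]⟩
  · rintro x y _ _ ⟨s, hs⟩ ⟨s', hs'⟩
    exact ⟨s + s', by rw [cb_add, hs, hs', add_smul]⟩
  · rintro c x _ ⟨s, hs⟩
    exact ⟨c * s, by rw [cb_smul, hs, smul_smul]⟩

end cliff

section pem

variable {k t : ℕ} {F : Type*} [Field F] {φ : SpF k F} {Q : QuadraticForm F ((Fin t → Fin k) → F)} (hQ : QPow φ Q)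

include hQ

lemma QPow.PE_mem [Finite F] (hnd : (polarBilin Q).Nondegenerate) (hN : 7 ≤ k ^ t) (i : Fin t) {u v : Fin k → F} (huv : φ.f u v = 0) :
    ∀ D : Finset (Fin t), ∀ g : Fin t → Matrix (Fin k) (Fin k) F, (∀ j, j ≠ i → j ∉ D → ∃ p q, g j = φ.et p q) →
      Mem1 (Om Q) (PE ((std k t F).E i) φ u v (piMat (Function.update g i 1)) ((stStd t φ).st (piMat (Function.update g i 1)))) := by
  have hcm : ∀ g : Fin t → Matrix (Fin k) (Fin k) F, Cmt ((std k t F).E i) (piMat (Function.update g i 1)) := fun g => piMat_comm_fac (Function.update_self _ _ _)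
  intro D
  induction D using Finset.induction_on with
  | empty =>
    intro g hg
    have hex : ∀ j, ∃ p q, j ≠ i → g j = φ.et p q := by
      intro j
      by_cases hj : j = i
      · exact ⟨0, 0, fun h => absurd hj h⟩
      · obtain ⟨p, q, h⟩ := hg j hj (Finset.notMem_empty j)
        exact ⟨p, q, fun _ => h⟩
    choose p q hpq using hex
    obtain ⟨x, hx⟩ : ∃ x, x = Function.update p i u := ⟨_, rfl⟩
    obtain ⟨y, hy⟩ : ∃ y, y = Function.update q i v := ⟨_, rfl⟩
    have hxi : x i = u := by rw [hx, Function.update_self]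
    have hyi : y i = v := by rw [hy, Function.update_self]
    have h1 := hQ.WW_mem_Om hnd hN (x := x) (y := y) (i := i) (by rw [hxi, hyi]; exact huv)
    obtain ⟨A, hA⟩ : ∃ A, A = piMat (Function.update g i 1) := ⟨_, rfl⟩
    have hAc : Cmt ((std k t F).E i) A := by rw [hA]; exact hcm g
    rw [← hA]
    have e1 : (std k t F).E i (φ.et u v) * A = piMat (fun j => φ.et (x j) (y j)) := by
      rw [hA]
      show fac i _ * _ = _
      rw [fac_mul_piMat]; congr 1; funext j
      by_cases hj : j = i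
      · subst hj; rw [Function.update_self, Function.update_self, mul_one, hxi, hyi]
      · rw [Function.update_of_ne hj, Function.update_of_ne hj, hpq j hj, hx, hy, Function.update_of_ne hj, Function.update_of_ne hj]
    have e2 : (std k t F).E i (φ.et v u) * (stStd t φ).st A = - piMat (fun j => φ.et (y j) (x j)) := by
      have h3 := congrArg (stStd t φ).st e1
      rw [(stStd t φ).st_mul, (stStd t φ).st_E, φ.star_et, map_neg, mul_neg, ← (stStd t φ).st_cmt hAc, stStd_piMat] at h3
      have h4 : piMat (fun j => φ.star (φ.et (x j) (y j))) = piMat (fun j : Fin t => φ.et (y j) (x j)) := by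
        have : (fun j : Fin t => φ.star (φ.et (x j) (y j))) = fun j => -φ.et (y j) (x j) := by funext j; rw [φ.star_et]
        rw [this, piMat_neg, hQ.sgn, one_smul]
      rw [h4] at h3
      rw [← h3, neg_neg]
    rw [PE, e1, e2, ← sub_eq_add_neg]
    exact h1
  | insert l D hl ih =>
    intro g hg
    by_cases hli : l = i
    · apply ih
      intro j hj hjD
      exact hg j hj fun h => by
        rcases Finset.mem_insert.1 h with h | h
        · exact hj (h.trans hli)
        · exact hjD h
    -- split off the coordinate `l`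
    have e : ∀ a : Matrix (Fin k) (Fin k) F, piMat (Function.update (Function.update g l a) i 1) =
        (std k t F).E l a * piMat (Function.update (Function.update g l 1) i 1) := by
      intro a
      show _ = fac l a * _
      rw [fac_mul_piMat]; congr 1; funext j
      by_cases hji : j = i
      · subst hji
        rw [Function.update_self, Function.update_of_ne (Ne.symm hli), Function.update_self]
      · rw [Function.update_of_ne hji]
        by_cases hjl : j = l
        · subst hjl
          rw [Function.update_self, Function.update_self, Function.update_of_ne hji, Function.update_self, mul_one]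
        · rw [Function.update_of_ne hjl, Function.update_of_ne hjl, Function.update_of_ne hji, Function.update_of_ne hjl]
    have key : ∀ a : Matrix (Fin k) (Fin k) F, Mem1 (Om Q) (PE ((std k t F).E i) φ u v (piMat (Function.update (Function.update g l a) i 1))
        ((stStd t φ).st (piMat (Function.update (Function.update g l a) i 1)))) := by
      intro a
      refine φ.et_induction (P := fun a => Mem1 (Om Q) (PE ((std k t F).E i) φ u v (piMat (Function.update (Function.update g l a) i 1))
        ((stStd t φ).st (piMat (Function.update (Function.update g l a) i 1))))) ?_ ?_ ?_ a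
      · rw [e, map_zero, zero_mul, map_zero, PE, mul_zero, mul_zero, add_zero]; exact mem1_zero
      · intro a b ha hb
        have e3 : piMat (Function.update (Function.update g l (a + b)) i 1) = piMat (Function.update (Function.update g l a) i 1) +
            piMat (Function.update (Function.update g l b) i 1) := by
          rw [e (a + b), e a, e b, map_add, add_mul]
        rw [e3, (stStd t φ).st_add, PE_add]
        exact ha.add hb (PE_sq huv (hcm _) ((stStd t φ).st_cmt (hcm _)))
      · intro p q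
        apply ih
        intro j hj hjD
        by_cases hjl : j = l
        · subst hjl; exact ⟨p, q, Function.update_self _ _ _⟩
        · rw [Function.update_of_ne hjl]
          exact hg j hj fun h => by
            rcases Finset.mem_insert.1 h with h | h
            · exact hjl h
            · exact hjD h
    have := key (g l)
    rwa [Function.update_eq_self] at this

lemma QPow.PE_mem_one [Finite F] (hnd : (polarBilin Q).Nondegenerate) (hN : 7 ≤ k ^ t) {i j : Fin t} (hij : i ≠ j) {u v : Fin k → F} (huv : φ.f u v = 0)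
    (b : Matrix (Fin k) (Fin k) F) : Mem1 (Om Q) (PE ((std k t F).E i) φ u v ((std k t F).E j b) ((std k t F).E j (φ.star b))) := by
  have h1 := hQ.PE_mem hnd hN i huv Finset.univ (Pi.mulSingle j b) (fun j _ h => absurd (Finset.mem_univ j) h)
  have e1 : piMat (Function.update (Pi.mulSingle j b : Fin t → Matrix (Fin k) (Fin k) F) i 1) = (std k t F).E j b := by
    show _ = fac j b
    rw [fac_apply]; congr 1; funext l
    by_cases hl : l = i
    · subst hl; rw [Function.update_self, Pi.mulSingle_eq_of_ne hij]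
    · rw [Function.update_of_ne hl]
  rw [e1, (stStd t φ).st_E] at h1
  exact h1

lemma QPow.PE_mem_two [Finite F] (hnd : (polarBilin Q).Nondegenerate) (hN : 7 ≤ k ^ t) {i j l : Fin t} (hij : i ≠ j) (hil : i ≠ l) (hjl : j ≠ l) {u v : Fin k → F}
    (huv : φ.f u v = 0) (b c : Matrix (Fin k) (Fin k) F) :
    Mem1 (Om Q) (PE ((std k t F).E i) φ u v ((std k t F).E j b * (std k t F).E l c) ((std k t F).E j (φ.star b) * (std k t F).E l (φ.star c))) := by
  have h1 := hQ.PE_mem hnd hN i huv Finset.univ (Pi.mulSingle j b * Pi.mulSingle l c) (fun j _ h => absurd (Finset.mem_univ j) h)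
  have e1 : piMat (Function.update (Pi.mulSingle j b * Pi.mulSingle l c : Fin t → Matrix (Fin k) (Fin k) F) i 1) = (std k t F).E j b * (std k t F).E l c := by
    show _ = fac j b * fac l c
    rw [fac_apply, fac_apply, ← piMat_mul]; congr 1; funext m
    by_cases hm : m = i
    · subst hm; rw [Function.update_self, Pi.mul_apply, Pi.mulSingle_eq_of_ne hij, Pi.mulSingle_eq_of_ne hil, mul_one]
    · rw [Function.update_of_ne hm]
  rw [e1, (stStd t φ).st_mul, (stStd t φ).st_E, (stStd t φ).st_E, (std k t F).comm l j (Ne.symm hjl)] at h1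
  exact h1

end pem

end Cfsg.Agent.Asch.CW
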