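import Mathlib
import Cfsg.Prelude.Def_GeometricClasses
import Cfsg.Agent.Asch.EVNot
set_option autoImplicit false
set_option linter.unusedSectionVars false
set_option linter.unusedVariables false
set_option linter.unusedSimpArgs false
set_option linter.style.haveILetI false

/-!
Even characteristic, factors of dimension two or four: non-maximality.
-/

namespace Cfsg.Agent.Asch.CW

open Matrix Module Cfsg.Geo Cfsg.Agent.GeoMax

open Cfsg.Agent.GeoMax.Ort (HasE FullR emGL emGL_mulVec emGL_injective omegaGL_eq)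

open Cfsg.Agent.Orth (OGrp eich eich_apply OGrp_ext OGrp_polar)

open QuadraticMap (polar polarBilin)

open scoped Matrix commutatorElement

section two

variable {t : ℕ} {F : Type*} [Field F] {φ : SpF 2 F} {Q : QuadraticForm F ((Fin t → Fin 2) → F)}

lemma neg_eq_self2 {ι : Type} (hc : (2 : F) = 0) (X : Matrix ι ι F) : -X = X := by
  have h : X + X = 0 := by rw [← two_smul F, hc, zero_smul]
  exact neg_eq_of_add_eq_zero_left h

/-- the skew-adjoint matrices -/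
def skewS {k : ℕ} (φ : SpF k F) : Submodule F (Matrix (Fin k) (Fin k) F) where
  carrier := {a | φ.star a = -a}
  add_mem' := fun {a b} ha hb => by
    show φ.star (a + b) = -(a + b)
    rw [φ.star_add, show φ.star a = -a from ha, show φ.star b = -b from hb]; abel
  zero_mem' := by show φ.star 0 = -0; rw [φ.star_zero, neg_zero]
  smul_mem' := fun c a ha => by
    show φ.star (c • a) = -(c • a)
    rw [φ.star_smul, show φ.star a = -a from ha, smul_neg]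

theorem two_not_max [Finite F] (hQ : QPow φ Q) (hc : (2 : F) = 0) (ht : 4 ≤ t) : ∃ K, tensorWreathStandard 2 t F ⊓ Om Q < K ∧ K < Om Q := by
  haveI : Nonempty (Fin 2) := ⟨0⟩
  have hnd := hQ.nondeg (by omega)
  have hN : 7 ≤ 2 ^ t := by
    have : 2 ^ 4 ≤ 2 ^ t := Nat.pow_le_pow_right (by omega) ht
    omega
  obtain ⟨u, hu⟩ : ∃ u : Fin 2 → F, u ≠ 0 := ⟨Pi.single 0 1, by
    intro h0; have := congrFun h0 0; rw [Pi.single_eq_same] at this; exact one_ne_zero this⟩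
  obtain ⟨v, huv⟩ := φ.exists_hyp hu
  have hvu : φ.f v u = -1 := by rw [φ.f_neg u v, huv]
  obtain ⟨s, hs⟩ := W_two (φ := φ) u v
  have hs0 : s ≠ 0 := by
    rintro rfl
    rw [zero_smul] at hs
    have h1 : φ.W u v *ᵥ u = 0 := by rw [hs, zero_mulVec]
    rw [SpF.W, sub_mulVec, et_mulVec, et_mulVec, hvu, φ.f_self, zero_smul, sub_zero, neg_smul, one_smul, neg_eq_zero] at h1
    exact hu h1
  have hD : φ.et u v + φ.et v u = s • (1 : Matrix (Fin 2) (Fin 2) F) := by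
    rw [← hs, SpF.W, sub_eq_add_neg, neg_eq_self2 hc]
  let C : Cliff φ :=
    { G0 := skewS φ
      w := φ.et u u
      hw := φ.star_et u u
      hww := φ.et_sq u
      hcomm := by
        intro a ha
        obtain ⟨c, hc'⟩ := W_two (φ := φ) u (a *ᵥ u)
        refine ⟨c, ?_⟩
        rw [← hc', et_mul_mat, mat_mul_et, show φ.star a = -a from ha, neg_mulVec, φ.et_neg_right, neg_eq_self2 hc]
        rfl
      a0 := φ.et v v
      ha0 := φ.star_et v v
      s0 := s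
      hs0 := hs0
      ha0w := by rw [φ.et_mul, φ.et_mul, huv, hvu, one_smul, neg_one_smul, sub_neg_eq_add, hD]
      inv := by
        intro B hB a ha
        show φ.star _ = -_
        rw [hB, show φ.star a = -a from ha, mul_neg, neg_mul] }
  obtain ⟨i, j, l, hij, hil, hjl⟩ : ∃ i j l : Fin t, i ≠ j ∧ i ≠ l ∧ j ≠ l := by
    refine ⟨⟨0, by omega⟩, ⟨1, by omega⟩, ⟨2, by omega⟩, ?_, ?_, ?_⟩ <;> simp [Fin.ext_iff]
  -- the new element
  have hg : Mem1 (Om Q) ((std 2 t F).E i C.w * (std 2 t F).E j C.w) := by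
    obtain ⟨b, hb⟩ := exists_half φ 1
    have h1 := hQ.PE_mem_two hnd hN hij hil hjl (φ.f_self u) (φ.et u u) b
    have e : PE ((std 2 t F).E i) φ u u ((std 2 t F).E j (φ.et u u) * (std 2 t F).E l b) ((std 2 t F).E j (φ.star (φ.et u u)) * (std 2 t F).E l (φ.star b)) =
        (std 2 t F).E i (φ.et u u) * (std 2 t F).E j (φ.et u u) := by
      rw [PE, ← mul_add, φ.star_et, neg_eq_self2 hc, ← mul_add, ← map_add, hb, one_smul, map_one, mul_one]
    rw [e] at h1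
    exact h1
  -- the element moving the Clifford space
  obtain ⟨h, hh, hhv⟩ := hQ.PE_mem_two hnd hN hij hil hjl (φ.f_self u) (φ.et u v) (φ.et u v)
  obtain ⟨X, hX⟩ : ∃ X, X = (std 2 t F).E j (φ.et u v) * (std 2 t F).E l (φ.et u v) := ⟨_, rfl⟩
  obtain ⟨X', hX'⟩ : ∃ X', X' = (std 2 t F).E j (φ.star (φ.et u v)) * (std 2 t F).E l (φ.star (φ.et u v)) := ⟨_, rfl⟩
  have cX : Cmt ((std 2 t F).E i) X := by rw [hX]; exact (Sys.cmt_E hij _).mul (Sys.cmt_E hil _)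
  have cX' : Cmt ((std 2 t F).E i) X' := by rw [hX']; exact (Sys.cmt_E hij _).mul (Sys.cmt_E hil _)
  have hX'2 : X' = (std 2 t F).E j (φ.et v u) * (std 2 t F).E l (φ.et v u) := by rw [hX', φ.star_et, neg_eq_self2 hc]
  rw [← hX, ← hX', PE, ← mul_add] at hhv
  have cXX : Cmt ((std 2 t F).E i) (X + X') := cX.add cX'
  have hNN : (std 2 t F).E i (φ.et u u) * (X + X') * ((std 2 t F).E i (φ.et u u) * (X + X')) = 0 := E_A_sq cXX (φ.et_sq u)
  have hhi := Mem1.inv_eq hhv hNN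
  have hY : (X + X') * (std 2 t F).E j (φ.et u u) - (std 2 t F).E j (φ.et u u) * (X + X') = -(s • (std 2 t F).E j (φ.et u u)) := by
    have y1 : X * (std 2 t F).E j (φ.et u u) = -((std 2 t F).E j (φ.et u u) * (std 2 t F).E l (φ.et u v)) := by
      rw [hX, mul_assoc, (std 2 t F).comm l j (Ne.symm hjl), ← mul_assoc, ← map_mul, φ.et_mul, hvu, neg_one_smul, map_neg, neg_mul]
    have y2 : (std 2 t F).E j (φ.et u u) * X = 0 := by
      rw [hX, ← mul_assoc, ← map_mul, φ.et_mul, φ.f_self, zero_smul, map_zero, zero_mul]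
    have y3 : X' * (std 2 t F).E j (φ.et u u) = 0 := by
      rw [hX'2, mul_assoc, (std 2 t F).comm l j (Ne.symm hjl), ← mul_assoc, ← map_mul, φ.et_mul, φ.f_self, zero_smul, map_zero, zero_mul]
    have y4 : (std 2 t F).E j (φ.et u u) * X' = (std 2 t F).E j (φ.et u u) * (std 2 t F).E l (φ.et v u) := by
      rw [hX'2, ← mul_assoc, ← map_mul, φ.et_mul, huv, one_smul]
    rw [add_mul, mul_add, y1, y2, y3, y4, add_zero, zero_add]
    have : -((std 2 t F).E j (φ.et u u) * (std 2 t F).E l (φ.et u v)) - (std 2 t F).E j (φ.et u u) * (std 2 t F).E l (φ.et v u) =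
        -((std 2 t F).E j (φ.et u u) * ((std 2 t F).E l (φ.et u v) + (std 2 t F).E l (φ.et v u))) := by rw [mul_add]; abel
    rw [this, ← map_add ((std 2 t F).E l), hD, map_smul, map_one, mul_smul_comm, mul_one]
  refine ⟨C.K Q, C.not_max hQ (by omega) (by omega) hij hg hh (γ := (std 2 t F).E j (φ.et u u)) (C.mem C.hw) fun hmem => ?_⟩
  obtain ⟨r, hr⟩ := C.test (i := i) (φ.f_self v) hmem
  have e1 : h.1 * (std 2 t F).E j (φ.et u u) * (h⁻¹).1 = (std 2 t F).E j (φ.et u u) + (std 2 t F).E i (φ.et u u) * (-(s • (std 2 t F).E j (φ.et u u))) := by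
    rw [hhi, hhv, ← hY]
    have hγ : Cmt ((std 2 t F).E i) ((std 2 t F).E j (φ.et u u)) := Sys.cmt_E hij _
    obtain ⟨U, hU⟩ : ∃ U, U = (std 2 t F).E i (φ.et u u) := ⟨_, rfl⟩
    obtain ⟨g, hg'⟩ : ∃ g, g = (std 2 t F).E j (φ.et u u) := ⟨_, rfl⟩
    have hUg : U * g = g * U := by rw [hU, hg']; exact hγ _
    have hUX : U * (X + X') = (X + X') * U := by rw [hU]; exact cXX _
    have hUU : U * U = 0 := by rw [hU]; exact E_sq (φ.et_sq u)
    rw [← hU, ← hg']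
    have z1 : U * (X + X') * g * (U * (X + X')) = 0 := by
      have z3 : U * (X + X') * g * U = 0 := by
        rw [hUX, mul_assoc (X + X') U g, hUg, mul_assoc, mul_assoc, hUU, mul_zero, mul_zero]
      rw [← mul_assoc, z3, zero_mul]
    have z2 : g * (U * (X + X')) = U * (g * (X + X')) := by rw [← mul_assoc, ← hUg, mul_assoc]
    have z0 : (1 + U * (X + X')) * g * (1 - U * (X + X')) = g + (U * (X + X') * g - g * (U * (X + X'))) - U * (X + X') * g * (U * (X + X')) := by noncomm_ring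
    rw [z0, z1, z2, sub_zero, mul_assoc U, ← mul_sub]
  have hγ : Cmt ((std 2 t F).E i) ((std 2 t F).E j (φ.et u u)) := Sys.cmt_E hij _
  rw [e1, cb_add, cb_of_cmt _ _ hγ, φ.f_self, zero_smul, zero_add, cb_et _ _ _ _ (hγ.smul s).neg, hvu, huv, mul_one, neg_one_smul, neg_neg, ← map_smul] at hr
  have h5 : s • φ.et u u = r • (1 : Matrix (Fin 2) (Fin 2) F) := Sys.E_inj (S := std 2 t F) (i := j) (by rw [hr, map_smul, map_one])
  have h6 : s • φ.et u u * φ.et u u = r • φ.et u u := by rw [h5, smul_mul_assoc, one_mul]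
  rw [smul_mul_assoc, φ.et_sq, smul_zero] at h6
  have hr0 : r = 0 := (smul_eq_zero.1 h6.symm).resolve_right (φ.et_ne_zero hu hu)
  rw [hr0, zero_smul] at h5
  exact (φ.et_ne_zero hu hu) ((smul_eq_zero.1 h5).resolve_left hs0)

end two

section four

variable {F : Type*} [Field F]

/-- a hyperbolic basis -/
structure Hyp4 {k : ℕ} (φ : SpF k F) (e₁ f₁ e₂ f₂ : Fin k → F) : Prop where
  a1 : φ.f e₁ f₁ = 1
  a2 : φ.f e₂ f₂ = 1
  b1 : φ.f e₁ e₂ = 0
  b2 : φ.f e₁ f₂ = 0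
  b3 : φ.f f₁ e₂ = 0
  b4 : φ.f f₁ f₂ = 0

lemma exists_hyp4 (φ : SpF 4 F) : ∃ e₁ f₁ e₂ f₂, Hyp4 φ e₁ f₁ e₂ f₂ := by
  obtain ⟨u, hu⟩ : ∃ u : Fin 4 → F, u ≠ 0 := ⟨Pi.single 0 1, by
    intro h0; have := congrFun h0 0; rw [Pi.single_eq_same] at this; exact one_ne_zero this⟩
  obtain ⟨v, huv⟩ := φ.exists_hyp hu
  obtain ⟨x, hx1, hx2⟩ := φ.exists_perp [u, v] [] (by simp)
  have hx0 : x ≠ 0 := by rintro rfl; exact hx1 (Submodule.zero_mem _)
  have hxu : φ.f x u = 0 := hx2 u (by simp)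
  have hxv : φ.f x v = 0 := hx2 v (by simp)
  obtain ⟨z, hz⟩ := φ.exists_hyp hx0
  have hvu : φ.f v u = -1 := by rw [φ.f_neg u v, huv]
  refine ⟨u, v, x, z - φ.f u z • v + φ.f v z • u, huv, ?_, φ.f_zero_symm hxu, ?_, φ.f_zero_symm hxv, ?_⟩
  · rw [φ.f_add_right, φ.f_sub_right, φ.f_smul_right, φ.f_smul_right, hxu, hxv, hz]; ring
  · rw [φ.f_add_right, φ.f_sub_right, φ.f_smul_right, φ.f_smul_right, huv, φ.f_self]; ring
  · rw [φ.f_add_right, φ.f_sub_right, φ.f_smul_right, φ.f_smul_right, hvu, φ.f_self]; ring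

variable {φ : SpF 4 F} {e₁ f₁ e₂ f₂ : Fin 4 → F} (H : Hyp4 φ e₁ f₁ e₂ f₂)

include H

lemma Hyp4.c1 : φ.f f₁ e₁ = -1 := by rw [φ.f_neg e₁ f₁, H.a1]
lemma Hyp4.c2 : φ.f f₂ e₂ = -1 := by rw [φ.f_neg e₂ f₂, H.a2]
lemma Hyp4.d1 : φ.f e₂ e₁ = 0 := φ.f_zero_symm H.b1
lemma Hyp4.d2 : φ.f f₂ e₁ = 0 := φ.f_zero_symm H.b2
lemma Hyp4.d3 : φ.f e₂ f₁ = 0 := φ.f_zero_symm H.b3
lemma Hyp4.d4 : φ.f f₂ f₁ = 0 := φ.f_zero_symm H.b4

lemma Hyp4.expand (x : Fin 4 → F) : x = φ.f x f₁ • e₁ - φ.f x e₁ • f₁ + φ.f x f₂ • e₂ - φ.f x e₂ • f₂ := by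
  let L : (Fin 4 → F) →ₗ[F] (Fin 4 → F) :=
    { toFun := fun x => ![φ.f x f₁, φ.f x e₁, φ.f x f₂, φ.f x e₂]
      map_add' := fun x y => by
        funext i
        fin_cases i <;> simp [φ.f_add_left]
      map_smul' := fun c x => by
        funext i
        fin_cases i <;> simp [φ.f_smul_left] }
  have hLe : ∀ x, L x = ![φ.f x f₁, φ.f x e₁, φ.f x f₂, φ.f x e₂] := fun x => rfl
  have hsurj : Function.Surjective L := by
    intro y
    refine ⟨y 0 • e₁ - y 1 • f₁ + y 2 • e₂ - y 3 • f₂, ?_⟩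
    rw [hLe]
    funext i
    fin_cases i <;> simp [φ.f_add_left, φ.f_sub_left, φ.f_smul_left, φ.f_self, H.a1, H.a2, H.b1, H.b2, H.b3, H.b4, H.c1, H.c2, H.d1, H.d2, H.d3, H.d4]
  have hinj : Function.Injective L := LinearMap.injective_iff_surjective.2 hsurj
  apply hinj
  rw [hLe, hLe]
  funext i
  fin_cases i <;> simp [φ.f_add_left, φ.f_sub_left, φ.f_smul_left, φ.f_self, H.a1, H.a2, H.b1, H.b2, H.b3, H.b4, H.c1, H.c2, H.d1, H.d2, H.d3, H.d4]

lemma Hyp4.sumW : φ.W e₁ f₁ + φ.W e₂ f₂ = -1 := by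
  have key : ∀ x, (φ.W e₁ f₁ + φ.W e₂ f₂) *ᵥ x = (-1 : Matrix (Fin 4) (Fin 4) F) *ᵥ x := by
    intro x
    rw [SpF.W, SpF.W, add_mulVec, sub_mulVec, sub_mulVec, et_mulVec, et_mulVec, et_mulVec, et_mulVec, neg_mulVec, one_mulVec]
    conv_rhs => rw [H.expand x]
    rw [φ.f_neg x f₁, φ.f_neg x e₁, φ.f_neg x f₂, φ.f_neg x e₂]
    module
  ext i j
  have := congrFun (key (Pi.single j 1)) i
  rwa [mulVec_single_one, mulVec_single_one] at this

/-- the commutator with the good element -/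
lemma Hyp4.comm (hc : (2 : F) = 0) (x y : Fin 4 → F) :
    ∃ s : F, φ.W e₁ e₂ * φ.W x y - φ.W x y * φ.W e₁ e₂ = φ.f x y • φ.W e₁ e₂ + s • (1 : Matrix (Fin 4) (Fin 4) F) := by
  obtain ⟨R, hR⟩ : ∃ R : (Fin 4 → F) → (Fin 4 → F) → Prop, R = fun x y => ∃ s : F, φ.W e₁ e₂ * φ.W x y - φ.W x y * φ.W e₁ e₂ =
    φ.f x y • φ.W e₁ e₂ + s • (1 : Matrix (Fin 4) (Fin 4) F) := ⟨_, rfl⟩
  have h2 : ∀ X : Matrix (Fin 4) (Fin 4) F, X + X = 0 := fun X => by rw [← two_smul F, hc, zero_smul]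
  have hng : ∀ X : Matrix (Fin 4) (Fin 4) F, -X = X := neg_eq_self2 hc
  have Rswap : ∀ {x y}, R x y → R y x := by
    rw [hR]
    rintro x y ⟨s, hs⟩
    refine ⟨-s, ?_⟩
    have e : φ.W y x = -φ.W x y := by rw [SpF.W, SpF.W, neg_sub]
    rw [e, φ.f_neg x y, mul_neg, neg_mul, sub_neg_eq_add, neg_add_eq_sub, ← neg_sub, hs]
    module
  have Radd : ∀ {x y y'}, R x y → R x y' → R x (y + y') := by
    rw [hR]
    rintro x y y' ⟨s, hs⟩ ⟨s', hs'⟩
    refine ⟨s + s', ?_⟩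
    have e : φ.W x (y + y') = φ.W x y + φ.W x y' := by rw [SpF.W, SpF.W, SpF.W, φ.et_add_left, φ.et_add_right]; abel
    rw [e, φ.f_add_right, mul_add, add_mul, add_sub_add_comm, hs, hs']
    module
  have Rsmul : ∀ {x y} (c : F), R x y → R x (c • y) := by
    rw [hR]
    rintro x y c ⟨s, hs⟩
    refine ⟨c * s, ?_⟩
    have e : φ.W x (c • y) = c • φ.W x y := by rw [SpF.W, SpF.W, φ.et_smul_left, φ.et_smul_right, smul_sub]
    rw [e, φ.f_smul_right, mul_smul_comm, smul_mul_assoc, ← smul_sub, hs]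
    module
  have Rsub : ∀ {x y y'}, R x y → R x y' → R x (y - y') := by
    intro x y y' h h'
    rw [sub_eq_add_neg, ← neg_one_smul F]
    exact Radd h (Rsmul _ h')
  have Rself : ∀ x, R x x := by
    rw [hR]
    intro x
    exact ⟨0, by rw [SpF.W, SpF.W, sub_self, mul_zero, zero_mul, φ.f_self]; module⟩
  have r1 : R e₁ f₁ := by
    rw [hR]
    refine ⟨0, ?_⟩
    simp only [SpF.W, mul_sub, sub_mul, φ.et_mul, φ.f_self, H.a1, H.a2, H.b1, H.b2, H.b3, H.b4, H.c1, H.c2, H.d1, H.d2, H.d3, H.d4, zero_smul, one_smul, neg_smul]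
    have := h2 (φ.et e₂ e₁)
    rw [← sub_eq_zero]
    calc _ = φ.et e₂ e₁ + φ.et e₂ e₁ := by abel
      _ = 0 := this
  have r2 : R e₂ f₂ := by
    rw [hR]
    refine ⟨0, ?_⟩
    simp only [SpF.W, mul_sub, sub_mul, φ.et_mul, φ.f_self, H.a1, H.a2, H.b1, H.b2, H.b3, H.b4, H.c1, H.c2, H.d1, H.d2, H.d3, H.d4, zero_smul, one_smul, neg_smul]
    have := h2 (φ.et e₁ e₂)
    rw [← sub_eq_zero]
    calc _ = -(φ.et e₁ e₂ + φ.et e₁ e₂) := by abel
      _ = 0 := by rw [this, neg_zero]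
  have r3 : R e₁ e₂ := by
    rw [hR]
    exact ⟨0, by rw [sub_self, H.b1]; module⟩
  have r4 : R e₁ f₂ := by
    rw [hR]
    refine ⟨0, ?_⟩
    simp only [SpF.W, mul_sub, sub_mul, φ.et_mul, φ.f_self, H.a1, H.a2, H.b1, H.b2, H.b3, H.b4, H.c1, H.c2, H.d1, H.d2, H.d3, H.d4, zero_smul, one_smul, neg_smul]
    have := h2 (φ.et e₁ e₁)
    rw [← sub_eq_zero]
    calc _ = -(φ.et e₁ e₁ + φ.et e₁ e₁) := by abel
      _ = 0 := by rw [this, neg_zero]
  have r5 : R e₂ f₁ := by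
    rw [hR]
    refine ⟨0, ?_⟩
    simp only [SpF.W, mul_sub, sub_mul, φ.et_mul, φ.f_self, H.a1, H.a2, H.b1, H.b2, H.b3, H.b4, H.c1, H.c2, H.d1, H.d2, H.d3, H.d4, zero_smul, one_smul, neg_smul]
    have := h2 (φ.et e₂ e₂)
    rw [← sub_eq_zero]
    calc _ = φ.et e₂ e₂ + φ.et e₂ e₂ := by abel
      _ = 0 := this
  have r6 : R f₁ f₂ := by
    rw [hR]
    refine ⟨-1, ?_⟩
    have hW := H.sumW
    rw [← hng (φ.W e₁ f₁ + φ.W e₂ f₂)] at hW
    simp only [SpF.W, mul_sub, sub_mul, φ.et_mul, φ.f_self, H.a1, H.a2, H.b1, H.b2, H.b3, H.b4, H.c1, H.c2, H.d1, H.d2, H.d3, H.d4, zero_smul, one_smul, neg_smul]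
    rw [← hW]
    have h3 := h2 (φ.et f₁ e₁)
    have h4 := h2 (φ.et f₂ e₂)
    simp only [SpF.W]
    rw [← sub_eq_zero]
    calc _ = -(φ.et f₁ e₁ + φ.et f₁ e₁) - (φ.et f₂ e₂ + φ.et f₂ e₂) := by abel
      _ = 0 := by rw [h3, h4, neg_zero, sub_zero]
  have base : ∀ b, R b e₁ → R b f₁ → R b e₂ → R b f₂ → ∀ y, R b y := by
    intro b h1 h3 h4 h5 y
    rw [H.expand y]
    exact Rsub (Radd (Rsub (Rsmul _ h1) (Rsmul _ h3)) (Rsmul _ h4)) (Rsmul _ h5)
  have q1 := base e₁ (Rself _) r1 r3 r4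
  have q2 := base f₁ (Rswap r1) (Rself _) (Rswap r5) r6
  have q3 := base e₂ (Rswap r3) r5 (Rself _) r2
  have q4 := base f₂ (Rswap r4) (Rswap r6) (Rswap r2) (Rself _)
  have fin := base y (Rswap (q1 y)) (Rswap (q2 y)) (Rswap (q3 y)) (Rswap (q4 y)) x
  have := Rswap fin
  rw [hR] at this
  exact this

/-- the commutator with the good element, on symmetrised matrices -/
lemma Hyp4.comm_b (hc : (2 : F) = 0) (b : Matrix (Fin 4) (Fin 4) F) :
    ∃ s : F, φ.W e₁ e₂ * (b + φ.star b) - (b + φ.star b) * φ.W e₁ e₂ = b.trace • φ.W e₁ e₂ + s • (1 : Matrix (Fin 4) (Fin 4) F) := by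
  refine φ.et_induction (P := fun b => ∃ s : F, φ.W e₁ e₂ * (b + φ.star b) - (b + φ.star b) * φ.W e₁ e₂ =
    b.trace • φ.W e₁ e₂ + s • (1 : Matrix (Fin 4) (Fin 4) F)) ?_ ?_ ?_ b
  · exact ⟨0, by rw [φ.star_zero, add_zero, mul_zero, zero_mul, sub_self, trace_zero, zero_smul, zero_smul, add_zero]⟩
  · rintro a b ⟨s, hs⟩ ⟨s', hs'⟩
    refine ⟨s + s', ?_⟩
    have e : a + b + φ.star (a + b) = (a + φ.star a) + (b + φ.star b) := by rw [φ.star_add]; abel
    rw [e, mul_add, add_mul, add_sub_add_comm, hs, hs', trace_add]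
    module
  · intro u v
    obtain ⟨s, hs⟩ := H.comm hc u v
    refine ⟨s, ?_⟩
    have h1 : φ.et u v + φ.star (φ.et u v) = φ.W u v := by rw [φ.star_et, SpF.W, sub_eq_add_neg]
    have h2 : (φ.et u v).trace = φ.f u v := by
      rw [SpF.et, trace_vecMulVec, dotProduct_comm, φ.fr_dot, φ.f_neg u v]
      have : φ.f u v + φ.f u v = 0 := by rw [← two_mul, hc, zero_mul]
      exact neg_eq_of_add_eq_zero_left this
    rw [h1, h2, hs]

end four

section four2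

variable {t : ℕ} {F : Type*} [Field F] {φ : SpF 4 F} {Q : QuadraticForm F ((Fin t → Fin 4) → F)}

/-- the symmetrised matrices of trace zero -/
def symT {k : ℕ} (φ : SpF k F) : Submodule F (Matrix (Fin k) (Fin k) F) where
  carrier := {a | ∃ b : Matrix (Fin k) (Fin k) F, b.trace = 0 ∧ a = b + φ.star b}
  add_mem' := by
    rintro _ _ ⟨b, hb, rfl⟩ ⟨b', hb', rfl⟩
    exact ⟨b + b', by rw [trace_add, hb, hb', add_zero], by rw [φ.star_add]; abel⟩
  zero_mem' := ⟨0, trace_zero _ _, by rw [φ.star_zero, add_zero]⟩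
  smul_mem' := by
    rintro c _ ⟨b, hb, rfl⟩
    exact ⟨c • b, by rw [trace_smul, hb, smul_zero], by rw [φ.star_smul, smul_add]⟩

theorem four_not_max [Finite F] (hQ : QPow φ Q) (hc : (2 : F) = 0) (ht : 2 ≤ t) : ∃ K, tensorWreathStandard 4 t F ⊓ Om Q < K ∧ K < Om Q := by
  haveI : Nonempty (Fin 4) := ⟨0⟩
  have hnd := hQ.nondeg (by omega)
  have hN : 7 ≤ 4 ^ t := by
    have : 4 ^ 2 ≤ 4 ^ t := Nat.pow_le_pow_right (by omega) ht
    omega
  obtain ⟨e₁, f₁, e₂, f₂, H⟩ := exists_hyp4 φ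
  have hng : ∀ X : Matrix (Fin 4) (Fin 4) F, -X = X := neg_eq_self2 hc
  have he1 : e₁ ≠ 0 := by
    rintro rfl
    have := H.a1
    rw [φ.f_zero_left] at this
    exact zero_ne_one this
  have he2 : e₂ ≠ 0 := by
    rintro rfl
    have := H.a2
    rw [φ.f_zero_left] at this
    exact zero_ne_one this
  have hsW : ∀ u v, φ.star (φ.W u v) = φ.W u v := by
    intro u v
    rw [SpF.W, φ.star_sub, φ.star_et, φ.star_et, sub_neg_eq_add, neg_add_eq_sub]
  have htr : ∀ u v, (φ.et u v).trace = φ.f v u := by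
    intro u v
    rw [SpF.et, trace_vecMulVec, dotProduct_comm, φ.fr_dot]
  let C : Cliff φ :=
    { G0 := symT φ
      w := φ.W e₁ e₂
      hw := ⟨φ.et e₁ e₂, by rw [htr, H.d1], by rw [φ.star_et, SpF.W, sub_eq_add_neg]⟩
      hww := φ.W_sq H.b1
      hcomm := by
        rintro _ ⟨b, hb, rfl⟩
        obtain ⟨s, hs⟩ := H.comm_b hc b
        exact ⟨s, by rw [hs, hb, zero_smul, zero_add]⟩
      a0 := φ.W f₁ f₂
      ha0 := ⟨φ.et f₁ f₂, by rw [htr, H.d4], by rw [φ.star_et, SpF.W, sub_eq_add_neg]⟩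
      s0 := 1
      hs0 := one_ne_zero
      ha0w := by
        have hW := H.sumW
        rw [one_smul, ← neg_neg (1 : Matrix (Fin 4) (Fin 4) F), ← hW]
        simp only [SpF.W, mul_sub, sub_mul, φ.et_mul, φ.f_self, H.a1, H.a2, H.b1, H.b2, H.b3, H.b4, H.c1, H.c2, H.d1, H.d2, H.d3, H.d4, zero_smul, one_smul, neg_smul]
        have h3 : φ.et f₁ e₁ + φ.et f₁ e₁ = 0 := by rw [← two_smul F, hc, zero_smul]
        have h4 : φ.et f₂ e₂ + φ.et f₂ e₂ = 0 := by rw [← two_smul F, hc, zero_smul]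
        rw [← sub_eq_zero]
        calc _ = -(φ.et f₁ e₁ + φ.et f₁ e₁) - (φ.et f₂ e₂ + φ.et f₂ e₂) := by abel
          _ = 0 := by rw [h3, h4, neg_zero, sub_zero]
      inv := by
        rintro B hB _ ⟨b, hb, rfl⟩
        refine ⟨B.1 * b * (B⁻¹).1, ?_, ?_⟩
        · rw [trace_mul_comm, ← mul_assoc, ← Units.val_mul, inv_mul_cancel, Units.val_one, one_mul, hb]
        · rw [hB, mul_add, add_mul] }
  obtain ⟨i, j, hij⟩ : ∃ i j : Fin t, i ≠ j := ⟨⟨0, by omega⟩, ⟨1, by omega⟩, by simp [Fin.ext_iff]⟩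
  -- the new element
  have hg : Mem1 (Om Q) ((std 4 t F).E i C.w * (std 4 t F).E j C.w) := by
    have h1 := hQ.PE_mem_one hnd hN hij H.b1 (φ.W e₁ e₂)
    have e : PE ((std 4 t F).E i) φ e₁ e₂ ((std 4 t F).E j (φ.W e₁ e₂)) ((std 4 t F).E j (φ.star (φ.W e₁ e₂))) =
        (std 4 t F).E i (φ.W e₁ e₂) * (std 4 t F).E j (φ.W e₁ e₂) := by
      rw [PE, hsW, ← add_mul, ← map_add]
      congr 2
      rw [SpF.W, sub_eq_add_neg, hng (φ.et e₂ e₁)]
    rw [e] at h1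
    exact h1
  -- the element moving the Clifford space
  obtain ⟨b, hb⟩ : ∃ b, b = φ.et f₁ e₁ := ⟨_, rfl⟩
  obtain ⟨w, hw⟩ : ∃ w, w = φ.W e₁ e₂ := ⟨_, rfl⟩
  obtain ⟨h, hh, hhv⟩ := hQ.PE_mem_one hnd hN hij H.b1 b
  have cX : ∀ a, Cmt ((std 4 t F).E i) ((std 4 t F).E j a) := fun a => Sys.cmt_E hij a
  have hNN := PE_sq (E := (std 4 t F).E i) H.b1 (cX b) (cX (φ.star b)) (c := (std 4 t F).E j b) (d := (std 4 t F).E j (φ.star b))
  have hhi := Mem1.inv_eq hhv hNN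
  refine ⟨C.K Q, C.not_max hQ (by omega) (by omega) hij hg hh (γ := (std 4 t F).E j w) (C.mem (by rw [hw]; exact C.hw)) fun hmem => ?_⟩
  obtain ⟨r, hr⟩ := C.test (i := i) H.b4 hmem
  have e1 : h.1 * (std 4 t F).E j w * (h⁻¹).1 = (std 4 t F).E j w + PE ((std 4 t F).E i) φ e₁ e₂ ((std 4 t F).E j (b * w - w * b))
      ((std 4 t F).E j (φ.star b * w - w * φ.star b)) := by
    have y1 : PE ((std 4 t F).E i) φ e₁ e₂ ((std 4 t F).E j b) ((std 4 t F).E j (φ.star b)) * (std 4 t F).E j w =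
        PE ((std 4 t F).E i) φ e₁ e₂ ((std 4 t F).E j (b * w)) ((std 4 t F).E j (φ.star b * w)) := by
      rw [PE, PE, add_mul, mul_assoc, mul_assoc, ← map_mul, ← map_mul]
    have y2 : (std 4 t F).E j w * PE ((std 4 t F).E i) φ e₁ e₂ ((std 4 t F).E j b) ((std 4 t F).E j (φ.star b)) =
        PE ((std 4 t F).E i) φ e₁ e₂ ((std 4 t F).E j (w * b)) ((std 4 t F).E j (w * φ.star b)) := by
      rw [PE, PE, mul_add, ← mul_assoc, ← mul_assoc, ← cX w, ← cX w, mul_assoc, mul_assoc, ← map_mul, ← map_mul]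
    have y3 : PE ((std 4 t F).E i) φ e₁ e₂ ((std 4 t F).E j b) ((std 4 t F).E j (φ.star b)) * (std 4 t F).E j w *
        PE ((std 4 t F).E i) φ e₁ e₂ ((std 4 t F).E j b) ((std 4 t F).E j (φ.star b)) = 0 := by
      rw [y1]; exact PE_sq H.b1 (cX _) (cX _)
    have y4 : PE ((std 4 t F).E i) φ e₁ e₂ ((std 4 t F).E j (b * w)) ((std 4 t F).E j (φ.star b * w)) -
        PE ((std 4 t F).E i) φ e₁ e₂ ((std 4 t F).E j (w * b)) ((std 4 t F).E j (w * φ.star b)) =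
        PE ((std 4 t F).E i) φ e₁ e₂ ((std 4 t F).E j (b * w - w * b)) ((std 4 t F).E j (φ.star b * w - w * φ.star b)) := by
      rw [PE, PE, PE, map_sub, map_sub, mul_sub, mul_sub]; abel
    obtain ⟨N, hN⟩ : ∃ N, N = PE ((std 4 t F).E i) φ e₁ e₂ ((std 4 t F).E j b) ((std 4 t F).E j (φ.star b)) := ⟨_, rfl⟩
    rw [hhi, hhv, ← y4, ← y1, ← y2]
    rw [← hN] at y3 ⊢
    have z0 : (1 + N) * (std 4 t F).E j w * (1 - N) = (std 4 t F).E j w + (N * (std 4 t F).E j w - (std 4 t F).E j w * N) - N * (std 4 t F).E j w * N := by noncomm_ring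
    rw [z0, y3, sub_zero]
  have ebw : b * w - w * b = φ.et e₂ e₁ := by
    rw [hb, hw]
    simp only [SpF.W, mul_sub, sub_mul, φ.et_mul, φ.f_self, H.a1, H.a2, H.b1, H.b2, H.b3, H.b4, H.c1, H.c2, H.d1, H.d2, H.d3, H.d4, zero_smul, one_smul, neg_smul]
    abel
  rw [e1, cb_add, cb_of_cmt _ _ (cX w), H.b4, zero_smul, zero_add, cb_PE _ _ _ _ (cX _) (cX _), H.c1, H.a2, H.b3, mul_one, zero_mul, zero_smul, add_zero, neg_one_smul, ebw,
    ← map_neg] at hr
  have h5 : -φ.et e₂ e₁ = r • (1 : Matrix (Fin 4) (Fin 4) F) := Sys.E_inj (S := std 4 t F) (i := j) (by rw [hr, map_smul, map_one])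
  have h6 : φ.et e₂ e₁ * φ.et e₂ e₁ = 0 := by rw [φ.et_mul, H.b1, zero_smul]
  have h7 : -φ.et e₂ e₁ * φ.et e₂ e₁ = r • φ.et e₂ e₁ := by rw [h5, smul_mul_assoc, one_mul]
  rw [neg_mul, h6, neg_zero] at h7
  have hr0 : r = 0 := (smul_eq_zero.1 h7.symm).resolve_right (φ.et_ne_zero he2 he1)
  rw [hr0, zero_smul, neg_eq_zero] at h5
  exact (φ.et_ne_zero he2 he1) h5

end four2

end Cfsg.Agent.Asch.CW
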