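import Mathlib
import Cfsg.Prelude.Def_GeometricClasses
import Cfsg.Agent.Asch.EVNot2
set_option autoImplicit false
set_option linter.unusedSectionVars false
set_option linter.unusedVariables false
set_option linter.unusedSimpArgs false
set_option linter.style.haveILetI false

/-!
Even characteristic, factors of dimension two or four: transfer to the given coordinates.
-/

namespace Cfsg.Agent.Asch.CW

open Matrix Module Cfsg.Geo Cfsg.Agent.GeoMax

open Cfsg.Agent.GeoMax.Ort (HasE FullR emGL emGL_mulVec emGL_injective omegaGL_eq)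

open Cfsg.Agent.Orth (OGrp eich eich_apply OGrp_ext OGrp_polar)

open QuadraticMap (polar polarBilin)

open scoped Matrix commutatorElement

lemma rhoW_mem' {ι : Type} [Fintype ι] [DecidableEq ι] {F : Type*} [Field F] {m t : ℕ} (e : ι ≃ (Fin t → Fin m)) (P : GL ι F)
    (g : GL ι F) (hg : g ∈ tensorWreathSubgroup m t e P) : rhoW e P g ∈ tensorWreathStandard m t F := by
  obtain ⟨-, ⟨s, hs, rfl⟩, rfl⟩ := hg
  have h2 : (rhoW e P).symm s = (MulAut.conj P⁻¹).symm ((glReindex e).symm s) := rfl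
  have h3 : (MulAut.conj P).toMonoidHom ((glReindex e.symm).toMonoidHom s) = (rhoW e P).symm s := by
    rw [h2, MulAut.conj_symm_apply, inv_inv]
    rfl
  rw [h3, MulEquiv.apply_symm_apply]
  exact hs

section final

variable {F : Type*} [Field F] [Fintype F]

/-- **non-maximality in the orthogonal group** -/
theorem o_wreath_not_maximal {n : ℕ} (hn : 13 ≤ n) (Q₀ : (Fin n → F) → F) (hQ₀ : IsNondegenerateQuadraticForm Q₀) (hchar : ¬ Odd (Fintype.card F))
    (k t : ℕ) (ht : 2 ≤ t) (hk : k ≤ 4)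
    (e : (Fin n) ≃ (Fin t → Fin k)) (P : GL (Fin n) F) (f₁ : (Fin k → F) → (Fin k → F) → F) (hf₁ : IsSymplecticForm f₁)
    (hT : IsTensorPowerFormStructure id (QuadraticMap.polar Q₀) f₁ e P)
    (hpure : ∀ xs : Fin t → (Fin k → F), Q₀ (Matrix.mulVec (P : Matrix (Fin n) (Fin n) F) ((fun a : Fin t → Fin k => ∏ i, xs i (a i)) ∘ e)) = 0) :
    ∃ K : Subgroup (GL (Fin n) F), tensorWreathSubgroup k t e P ⊓ omegaGL Q₀ < K ∧ K < omegaGL Q₀ := by
  classical
  have hcard : n = k ^ t := by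
    have := Fintype.card_congr e
    rwa [Fintype.card_fun, Fintype.card_fin, Fintype.card_fin, Fintype.card_fin] at this
  have h2 := GeoMax.Ort.two_eq_zero_of_not_odd (F := F) hchar
  obtain ⟨φ, hφ⟩ : ∃ φ : SpF k F, φ = SpF.ofSymp hf₁ := ⟨_, rfl⟩
  obtain ⟨c, hc0, hT⟩ := hT
  let L : ((Fin t → Fin k) → F) ≃ₗ[F] (Fin n → F) :=
    (LinearEquiv.funCongrLeft F F e).trans (Asch.glEquiv P)
  have hL : ∀ x : (Fin t → Fin k) → F, L x = P.1 *ᵥ (x ∘ e) := fun x => rfl
  obtain ⟨Q₁, hQ₁⟩ : ∃ Q₁ : QuadraticForm F ((Fin t → Fin k) → F), Q₁ = (GeoMax.Ort.toQF hQ₀).comp L.toLinearMap := ⟨_, rfl⟩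
  have hQ₁x : ∀ x, Q₁ x = GeoMax.Ort.toQF hQ₀ (L x) := fun x => by rw [hQ₁]; rfl
  obtain ⟨Q, hQd⟩ : ∃ Q : QuadraticForm F ((Fin t → Fin k) → F), Q = c⁻¹ • Q₁ := ⟨_, rfl⟩
  have hQx : ∀ x, Q x = c⁻¹ * Q₁ x := fun x => by rw [hQd]; rfl
  have hOm : Om Q = (commutator (OGrp Q₁)).map (emGL Q₁) := by
    rw [Om, ← omegaGL_eq, ← omegaGL_eq, ← omegaGL_smul' (Q₁ : ((Fin t → Fin k) → F) → F) (inv_ne_zero hc0)]
    congr 1
    funext x
    exact hQx x
  have hrho : ∀ (g : GL (Fin n) F) x, L ((rhoW e P g).1 *ᵥ x) = g.1 *ᵥ L x := by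
    intro g x
    rw [hL, hL]
    have h1 : ((rhoW e P g).1 *ᵥ x) ∘ e = ((P⁻¹).1 * g.1 * P.1) *ᵥ (x ∘ e) := by
      have h3 : (rhoW e P g).1 = Matrix.reindex e e ((P⁻¹).1 * g.1 * P.1) := by
        show Matrix.reindex e e ((P⁻¹ * g * (P⁻¹)⁻¹ : GL (Fin n) F)).1 = _
        rw [inv_inv, Units.val_mul, Units.val_mul]
      rw [h3, Matrix.reindex_apply, Matrix.submatrix_mulVec_equiv]
      funext a
      simp only [Function.comp_apply, Equiv.symm_symm, Equiv.symm_apply_apply]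
    rw [h1, mulVec_mulVec, mulVec_mulVec, ← mul_assoc, ← mul_assoc, mul_inv_val, one_mul]
  have hiff : ∀ g, g ∈ omegaGL Q₀ ↔ rhoW e P g ∈ Om Q := by
    intro g
    rw [hOm, ← mem_omega_transport L hQ₁x (rhoW e P) hrho, ← omegaGL_eq]
    rfl
  have hpol : ∀ x y, polar Q x y = x ⬝ᵥ (piMat (fun _ => φ.A) *ᵥ y) := by
    intro x y
    have h1 : polar Q x y = c⁻¹ * polar Q₀ (L x) (L y) := by
      simp only [polar, hQx, hQ₁x, map_add, mul_sub]
      rfl
    rw [h1, hL, hL, hT, ← mul_assoc, inv_mul_cancel₀ hc0, one_mul, dotProduct]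
    refine Finset.sum_congr rfl fun a _ => ?_
    rw [mulVec, dotProduct, Finset.mul_sum]
    refine Finset.sum_congr rfl fun b _ => ?_
    rw [mul_assoc, hφ]
    rfl
  have hQP : QPow φ Q := by
    refine ⟨fun x => ?_, fun x y => ?_, ?_⟩
    · rw [hQx, hQ₁x, hL]
      have : GeoMax.Ort.toQF hQ₀ (P.1 *ᵥ (pv x ∘ e)) = 0 := hpure x
      rw [this, mul_zero]
    · rw [hpol, dotProduct_mulVec, pv_vecMul, pv_dot]
      exact Finset.prod_congr rfl fun i _ => φ.fr_dot _ _
    · have : (-1 : F) = 1 := by linear_combination -h2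
      rw [this, one_pow]
  have hev : Even k := by
    have := Asch.even_card_of_isSymplecticForm hf₁
    rwa [Fintype.card_fin] at this
  have hK : ∃ K, tensorWreathStandard k t F ⊓ Om Q < K ∧ K < Om Q := by
    clear hiff hrho hOm hpol hcard
    have hcard : n = k ^ t := by
      have := Fintype.card_congr e
      rwa [Fintype.card_fun, Fintype.card_fin, Fintype.card_fin, Fintype.card_fin] at this
    have hk4 : k = 0 ∨ k = 2 ∨ k = 4 := by
      obtain ⟨r, hr⟩ := hev
      omega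
    rcases hk4 with h | h | h
    · exfalso
      subst h
      rw [zero_pow (by omega)] at hcard
      omega
    · clear hpure hT hφ hf₁ hQd hQ₁
      clear hQx hQ₁x hL
      subst h
      refine two_not_max hQP h2 ?_
      by_contra hcon
      have h3 : 2 ^ t ≤ 2 ^ 3 := Nat.pow_le_pow_right (by omega) (by omega)
      omega
    · subst h
      exact four_not_max hQP h2 ht
  obtain ⟨K, hK1, hK2⟩ := hK
  have hmono : ∀ {A B : Subgroup (GL (Fin t → Fin k) F)}, A < B → A.comap (rhoW e P).toMonoidHom < B.comap (rhoW e P).toMonoidHom := by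
    intro A B hAB
    refine lt_of_le_of_ne (Subgroup.comap_mono hAB.le) fun h => hAB.ne ?_
    exact Subgroup.comap_injective (f := (rhoW e P).toMonoidHom) (rhoW e P).surjective h
  have hO : omegaGL Q₀ = (Om Q).comap (rhoW e P).toMonoidHom := by
    ext g
    exact hiff g
  have hW : tensorWreathSubgroup k t e P ⊓ omegaGL Q₀ = (tensorWreathStandard k t F ⊓ Om Q).comap (rhoW e P).toMonoidHom := by
    ext g
    constructor
    · rintro ⟨h1, h2⟩
      exact ⟨rhoW_mem' e P g h1, (hiff g).1 h2⟩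
    · rintro ⟨h1, h2⟩
      exact ⟨rhoW_mem e P g h1, (hiff g).2 h2⟩
  refine ⟨K.comap (rhoW e P).toMonoidHom, ?_, ?_⟩
  · rw [hW]; exact hmono hK1
  · rw [hO]; exact hmono hK2

end final

end Cfsg.Agent.Asch.CW
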