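import Mathlib
import Cfsg.Prelude.Def_GeometricClasses
import Cfsg.Agent.Asch.FormSubfield
set_option autoImplicit false
set_option linter.unusedSectionVars false

/-!
Class 5 for quadratic forms in odd dimension and odd characteristic: the multiple of the form can be taken to be one.
-/

namespace Cfsg.Agent.Asch

open Module Cfsg.Geo

open scoped Matrix Kronecker MatrixGroups

variable {ι : Type} [Fintype ι] [DecidableEq ι] {F : Type*} [Field F]

lemma isSquare_of_index_two [Fintype F] (hodd : Odd (Fintype.card F)) {F₁ : Subfield F}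
    (hcard : Nat.card F = Nat.card F₁ ^ 2) {a : F} (ha : a ∈ F₁) : IsSquare a := by
  classical
  by_cases ha0 : a = 0
  · rw [ha0]; exact ⟨0, by simp⟩
  have hF : ringChar F ≠ 2 := by
    intro h
    have := FiniteField.even_card_of_char_two h
    rw [Nat.odd_iff] at hodd
    omega
  have : Fintype F₁ := Fintype.ofFinite F₁
  rw [FiniteField.isSquare_iff hF ha0]
  rw [Nat.card_eq_fintype_card, Nat.card_eq_fintype_card] at hcard
  have h1 : a ^ (Fintype.card F₁ - 1) = 1 := by
    have h2 := FiniteField.pow_card_sub_one_eq_one (⟨a, ha⟩ : F₁) (by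
      intro h; exact ha0 (congrArg Subtype.val h))
    have h3 := congrArg Subtype.val h2
    simpa using h3
  set q := Fintype.card F₁ with hq
  have hqodd : Odd q := by
    rw [hcard] at hodd
    exact Nat.Odd.of_mul_left (by rwa [pow_two] at hodd)
  obtain ⟨k, hk⟩ := hqodd
  have h3 : Fintype.card F / 2 = (q - 1) * (k + 1) := by
    rw [hcard, hk]
    have : (2 * k + 1) ^ 2 = 2 * ((2 * k + 1 - 1) * (k + 1)) + 1 := by
      rw [Nat.add_sub_cancel]; ring
    omega
  rw [h3, pow_mul, h1, one_pow]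

lemma exists_nonsquare_odd_index [Fintype F] (hodd : Odd (Fintype.card F)) {F₁ : Subfield F} {r : ℕ} (hr : Odd r)
    (hcard : Nat.card F = Nat.card F₁ ^ r) : ∃ s ∈ F₁, ¬ IsSquare (s : F) := by
  classical
  have hF : ringChar F ≠ 2 := by
    intro h
    have := FiniteField.even_card_of_char_two h
    rw [Nat.odd_iff] at hodd
    omega
  have : Fintype F₁ := Fintype.ofFinite F₁
  rw [Nat.card_eq_fintype_card, Nat.card_eq_fintype_card] at hcard
  set q := Fintype.card F₁ with hq
  have hr0 : r ≠ 0 := by rintro rfl; simp at hr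
  have hqodd : Odd q := by
    rw [hcard] at hodd
    exact (Nat.odd_pow_iff hr0).1 hodd
  have hF₁ : ringChar F₁ ≠ 2 := by
    intro h
    have := FiniteField.even_card_of_char_two h
    rw [Nat.odd_iff] at hqodd
    omega
  obtain ⟨a, ha⟩ := FiniteField.exists_nonsquare hF₁
  have ha0 : a ≠ 0 := by rintro rfl; exact ha ⟨0, by simp⟩
  refine ⟨a, a.2, fun h => ?_⟩
  have ha0' : (a : F) ≠ 0 := fun h => ha0 (Subtype.ext h)
  rw [FiniteField.isSquare_iff hF ha0'] at h
  have h1 : a ^ (q / 2) = -1 := by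
    rcases FiniteField.pow_dichotomy hF₁ ha0 with h2 | h2
    · exact absurd ((FiniteField.isSquare_iff hF₁ ha0).2 h2) ha
    · exact h2
  obtain ⟨k, hk⟩ := hqodd
  have hk2 : q / 2 = k := by omega
  rw [hk2] at h1
  -- card F / 2 = k * (odd number)
  have h3 : ∃ t, Odd t ∧ Fintype.card F / 2 = k * t := by
    refine ⟨∑ i ∈ Finset.range r, q ^ i, ?_, ?_⟩
    · rw [Finset.odd_sum_iff_odd_card_odd]
      have : (Finset.range r).filter (fun i => Odd (q ^ i)) = Finset.range r := by
        apply Finset.filter_true_of_mem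
        intro i _
        exact Odd.pow (by rw [hk]; exact ⟨k, rfl⟩)
      rw [this, Finset.card_range]
      exact hr
    · have h4 : (q - 1) * ∑ i ∈ Finset.range r, q ^ i = q ^ r - 1 := by
        have := Nat.geomSum_eq (m := q) (by
          have : 1 < q := by rw [hq]; exact Fintype.one_lt_card
          omega) r
        rw [this, Nat.mul_div_cancel' (Nat.sub_one_dvd_pow_sub_one q r)]
      have h5 : q - 1 = 2 * k := by omega
      rw [h5, ← hcard] at h4
      have h6 : 1 ≤ Fintype.card F := Fintype.card_pos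
      have h7 : Fintype.card F = 2 * (k * ∑ i ∈ Finset.range r, q ^ i) + 1 := by
        have : 2 * (k * ∑ i ∈ Finset.range r, q ^ i) = 2 * k * ∑ i ∈ Finset.range r, q ^ i := by ring
        omega
      omega
  obtain ⟨t, ht, h4⟩ := h3
  rw [h4, pow_mul] at h
  have h5 : (a : F) ^ k = -1 := by exact_mod_cast congrArg Subtype.val h1
  rw [h5, ht.neg_one_pow] at h
  have : (2 : F) = 0 := by linear_combination -h
  exact (Ring.two_ne_zero hF) this

lemma rational_rescale {F₁ : Subfield F} {P : GL ι F} {Q : (ι → F) → F} (hQ : IsNondegenerateQuadraticForm Q) {ζ s : F}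
    {μ : Fˣ} (hs : s ∈ F₁) (hs0 : s ≠ 0) (hζ : ζ = s * (μ : F) ^ 2)
    (h : IsQuadFormRationalStructure (fun v => ζ * Q v) F₁ P) : IsQuadFormRationalStructure Q F₁ (scGL ι F μ * P) := by
  intro u hu
  rw [scGL_mul_mulVec, hQ.smul]
  have h1 : ζ * Q ((P : Matrix ι ι F) *ᵥ u) ∈ F₁ := h u hu
  have h2 : (μ : F) ^ 2 * Q ((P : Matrix ι ι F) *ᵥ u) = s⁻¹ * (ζ * Q ((P : Matrix ι ι F) *ᵥ u)) := by
    rw [hζ]; field_simp
  rw [h2]
  exact F₁.mul_mem (F₁.inv_mem hs) h1

lemma det_mem_subfield {F₁ : Subfield F} {G : Matrix ι ι F} (h : ∀ i j, G i j ∈ F₁) : G.det ∈ F₁ := by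
  rw [Matrix.det_apply]
  refine F₁.sum_mem fun σ _ => ?_
  rw [Units.smul_def, zsmul_eq_mul]
  exact F₁.mul_mem (by exact_mod_cast intCast_mem F₁ _) (F₁.prod_mem fun i _ => h _ _)

/-- the Gram matrix of the multiple of the pulled back form -/
lemma gram_pull {f : (ι → F) → (ι → F) → F} (hf : IsBilinearForm f) (P : GL ι F) (ζ : F) :
    gramMatrix (fun u v => ζ * f ((P : Matrix ι ι F) *ᵥ u) ((P : Matrix ι ι F) *ᵥ v)) =
      ζ • ((P : Matrix ι ι F)ᵀ * gramMatrix f * (P : Matrix ι ι F)) := by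
  ext i j
  have hs := isSesq_of_bilinear hf
  show ζ * f ((P : Matrix ι ι F) *ᵥ (Pi.single i 1)) ((P : Matrix ι ι F) *ᵥ (Pi.single j 1)) = _
  rw [hs.eq_gram, Matrix.smul_apply, smul_eq_mul]
  congr 1
  have hc : ∀ i, (P : Matrix ι ι F) *ᵥ (Pi.single i 1) = fun b => (P : Matrix ι ι F) b i := by
    intro i; ext b; simp
  rw [hc, hc]
  simp only [RingEquiv.refl_apply, Matrix.mul_apply, dotProduct, Matrix.mulVec, Matrix.transpose_apply,
    Finset.mul_sum, Finset.sum_mul]
  rw [Finset.sum_comm]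
  apply Finset.sum_congr rfl; intro a _
  apply Finset.sum_congr rfl; intro b _
  ring

/-- **Class 5**, quadratic forms in odd dimension and odd characteristic which are rational over all subfields -/
theorem quadratic_subfield_odd [Fintype F] (hodd : Odd (Fintype.card F)) (hι : Odd (Fintype.card ι))
    {H N : Subgroup (GL ι F)} (hN : spanAlg N = ⊤) (hHN : NormBy H N)
    {Q : (ι → F) → F} (hQ : IsNondegenerateQuadraticForm Q) (hfix : FixesQuadForm (matrixSet N) Q)
    (hrat : ∀ (F₁ : Subfield F) (u : ι → F), RatVec F₁ u → Q u ∈ F₁)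
    {F₀ : Subfield F} (hF₀ : F₀ ≠ ⊤) (hreal : RealisableOver F₀ (matrixSet N)) :
    ∃ (F₁ : Subfield F) (r : ℕ) (P : GL ι F), r.Prime ∧ Nat.card F = Nat.card F₁ ^ r ∧
      IsQuadFormRationalStructure Q F₁ P ∧ H ≤ subfieldSubgroup F₁ P := by
  classical
  have : Nonempty ι := by
    by_contra h
    rw [not_nonempty_iff] at h
    rw [Fintype.card_eq_zero] at hι
    simp at hι
  have hF : ringChar F ≠ 2 := by
    intro h
    have := FiniteField.even_card_of_char_two h
    rw [Nat.odd_iff] at hodd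
    omega
  obtain ⟨F₁, r, P, ζ, hr, hcard, h0, h1, hH⟩ := quadratic_subfield hN hHN hQ hfix hF₀ hreal
  suffices h : ∃ (s : F) (μ : Fˣ), s ∈ F₁ ∧ s ≠ 0 ∧ ζ = s * (μ : F) ^ 2 by
    obtain ⟨s, μ, hs, hs0, hζ⟩ := h
    exact ⟨F₁, r, scGL ι F μ * P, hr, hcard, rational_rescale hQ hs hs0 hζ h1, by rw [subfieldSubgroup_scGL]; exact hH⟩
  by_cases hsq : IsSquare ζ
  · obtain ⟨b, hb⟩ := hsq
    have hb0 : b ≠ 0 := by rintro rfl; rw [mul_zero] at hb; exact h0 hb
    exact ⟨1, Units.mk0 b hb0, F₁.one_mem, one_ne_zero, by rw [one_mul, Units.val_mk0, pow_two, hb]⟩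
  · rcases hr.eq_two_or_odd' with h2 | h2
    · exfalso
      subst h2
      apply hsq
      have hf := hQ.polar_bilinear
      -- the discriminants
      have hd1 : (gramMatrix (fun u v => ζ * QuadraticMap.polar Q ((P : Matrix ι ι F) *ᵥ u) ((P : Matrix ι ι F) *ᵥ v))).det ∈ F₁ := by
        apply det_mem_subfield
        intro i j
        show ζ * QuadraticMap.polar Q ((P : Matrix ι ι F) *ᵥ (Pi.single i 1)) ((P : Matrix ι ι F) *ᵥ (Pi.single j 1)) ∈ F₁
        rw [QuadraticMap.polar, ← Matrix.mulVec_add, mul_sub, mul_sub]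
        exact F₁.sub_mem (F₁.sub_mem (h1 _ (RatVec.add (ratVec_single F₁ i) (ratVec_single F₁ j))) (h1 _ (ratVec_single F₁ i)))
          (h1 _ (ratVec_single F₁ j))
      have hd2 : (gramMatrix (QuadraticMap.polar Q)).det ∈ F₁ := by
        apply det_mem_subfield
        intro i j
        show QuadraticMap.polar Q (Pi.single i 1) (Pi.single j 1) ∈ F₁
        rw [QuadraticMap.polar]
        exact F₁.sub_mem (F₁.sub_mem (hrat _ _ (RatVec.add (ratVec_single F₁ i) (ratVec_single F₁ j))) (hrat _ _ (ratVec_single F₁ i)))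
          (hrat _ _ (ratVec_single F₁ j))
      have hd0 : (gramMatrix (QuadraticMap.polar Q)).det ≠ 0 :=
        (isSesq_of_bilinear hf).gram_det_ne_zero (fun v hv => (hQ.nondegenerate v hv).2)
      obtain ⟨a, ha⟩ := isSquare_of_index_two hodd hcard hd1
      obtain ⟨b, hb⟩ := isSquare_of_index_two hodd hcard hd2
      rw [gram_pull hf, Matrix.det_smul, Matrix.det_mul, Matrix.det_mul, Matrix.det_transpose, hb] at ha
      have hP : (P : Matrix ι ι F).det ≠ 0 := Matrix.GeneralLinearGroup.det_ne_zero P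
      have hb0 : b ≠ 0 := by rintro rfl; rw [mul_zero] at hb; exact hd0 hb
      obtain ⟨k, hk⟩ := hι
      rw [hk] at ha
      refine ⟨a / (ζ ^ k * (P : Matrix ι ι F).det * b), ?_⟩
      field_simp
      linear_combination ha
    · obtain ⟨s, hs, hs1⟩ := exists_nonsquare_odd_index hodd h2 hcard
      have hs0 : s ≠ 0 := by rintro rfl; exact hs1 ⟨0, by simp⟩
      have h3 : IsSquare (ζ / s) := by
        by_contra hcon
        have e1 := (FiniteField.isSquare_iff hF (div_ne_zero h0 hs0)).not.1 hcon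
        have e2 := (FiniteField.isSquare_iff hF h0).not.1 hsq
        have e3 := (FiniteField.isSquare_iff hF hs0).not.1 hs1
        have f2 := (FiniteField.pow_dichotomy hF h0).resolve_left e2
        have f3 := (FiniteField.pow_dichotomy hF hs0).resolve_left e3
        apply e1
        rw [div_pow, f2, f3]
        norm_num
      obtain ⟨b, hb⟩ := h3
      have hb0 : b ≠ 0 := by
        rintro rfl
        rw [mul_zero, div_eq_zero_iff] at hb
        rcases hb with hb | hb
        · exact h0 hb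
        · exact hs0 hb
      refine ⟨s, Units.mk0 b hb0, hs, hs0, ?_⟩
      rw [Units.val_mk0, pow_two, ← hb]
      field_simp

lemma quadFormOdd_mem (m : ℕ) (F₁ : Subfield F) (u : Unit ⊕ (Fin m ⊕ Fin m) → F) (hu : RatVec F₁ u) :
    quadFormOdd m F u ∈ F₁ := by
  unfold quadFormOdd
  exact F₁.add_mem (F₁.pow_mem (hu _) 2) (F₁.sum_mem fun i _ => F₁.mul_mem (hu _) (hu _))

/-- **Class 5**, the standard quadratic form in odd dimension -/
theorem quadFormOdd_subfield [Fintype F] (hodd : Odd (Fintype.card F)) {m : ℕ}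
    {H N : Subgroup (GL (Unit ⊕ (Fin m ⊕ Fin m)) F)} (hN : spanAlg N = ⊤) (hHN : NormBy H N)
    (hQ : IsNondegenerateQuadraticForm (quadFormOdd m F)) (hfix : FixesQuadForm (matrixSet N) (quadFormOdd m F))
    {F₀ : Subfield F} (hF₀ : F₀ ≠ ⊤) (hreal : RealisableOver F₀ (matrixSet N)) :
    ∃ (F₁ : Subfield F) (r : ℕ) (P : GL (Unit ⊕ (Fin m ⊕ Fin m)) F), r.Prime ∧ Fintype.card F = Nat.card F₁ ^ r ∧
      IsQuadFormRationalStructure (quadFormOdd m F) F₁ P ∧ H ≤ subfieldSubgroup F₁ P := by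
  obtain ⟨F₁, r, P, h1, h2, h3, h4⟩ := quadratic_subfield_odd hodd (by simp [parity_simps]) hN hHN hQ hfix
    (fun F₁ u hu => quadFormOdd_mem m F₁ u hu) hF₀ hreal
  exact ⟨F₁, r, P, h1, by rw [← h2, Nat.card_eq_fintype_card], h3, h4⟩

end Cfsg.Agent.Asch
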