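import Mathlib
import Cfsg.Prelude.Def_GeometricClasses
import Cfsg.Agent.Asch.FormDescent
set_option autoImplicit false
set_option linter.unusedSectionVars false

/-!
Class 5 for unitary forms; groups fixing a unitary and a bilinear form.
-/

namespace Cfsg.Agent.Asch

open Module Cfsg.Geo

open scoped Matrix Kronecker MatrixGroups

variable {ι : Type} [Fintype ι] [DecidableEq ι] {F : Type*} [Field F]

/-- the automorphism `x ↦ x ^ q` of the field with `q ^ 2` elements -/
def powEquiv [Fintype F] {q : ℕ} (hF : Fintype.card F = q ^ 2) : F ≃+* F where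
  toFun x := x ^ q
  invFun x := x ^ q
  left_inv x := Uni.pow_q_pow_q hF x
  right_inv x := Uni.pow_q_pow_q hF x
  map_mul' x y := mul_pow x y q
  map_add' x y := Uni.add_pow_q hF x y

lemma powEquiv_apply [Fintype F] {q : ℕ} (hF : Fintype.card F = q ^ 2) (x : F) : powEquiv hF x = x ^ q := rfl

lemma powEquiv_ne [Fintype F] {q : ℕ} (hF : Fintype.card F = q ^ 2) : ∃ a, powEquiv hF a ≠ a := Uni.exists_pow_q_ne hF

lemma powEquiv_invol [Fintype F] {q : ℕ} (hF : Fintype.card F = q ^ 2) (a : F) : powEquiv hF (powEquiv hF a) = a :=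
  Uni.pow_q_pow_q hF a

lemma isSesq_of_pow [Fintype F] {q : ℕ} (hF : Fintype.card F = q ^ 2) {f : (ι → F) → (ι → F) → F}
    (hf : IsUnitaryFormPow q f) : IsSesq (powEquiv hF) f where
  add_left := hf.add_left
  smul_left := hf.smul_left
  add_right v x y := by
    rw [hf.herm v (x + y), hf.add_left, Uni.add_pow_q hF, ← hf.herm, ← hf.herm]
  smul_right c v x := by
    rw [hf.herm v (c • x), hf.smul_left, mul_pow, ← hf.herm]; rfl

lemma pow_mem_subfield {F₁ : Subfield F} (q : ℕ) : ∀ x ∈ F₁, x ^ q ∈ F₁ := fun _ hx => F₁.pow_mem hx q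

/-- the class 5 alternatives for a unitary form -/
def UniSubfield [Fintype F] (q : ℕ) (f : (ι → F) → (ι → F) → F) (H : Subgroup (GL ι F)) : Prop :=
  (∃ (F₀ : Subfield F) (r : ℕ) (P : GL ι F), r.Prime ∧ Odd r ∧ Fintype.card F = Nat.card F₀ ^ r ∧
      IsFormRationalStructure f F₀ 1 P ∧ H ≤ subfieldSubgroup F₀ P) ∨
  (∃ (F₀ : Subfield F) (P : GL ι F), Odd q ∧ Fintype.card F = Nat.card F₀ ^ 2 ∧
      IsFormRationalStructure f F₀ 1 P ∧ H ≤ subfieldSubgroup F₀ P) ∨
  (∃ (F₀ : Subfield F) (P : GL ι F) (ζ : F), Even (Fintype.card ι) ∧ Fintype.card F = Nat.card F₀ ^ 2 ∧ ζ ≠ 0 ∧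
      ζ + ζ ^ q = 0 ∧ IsFormRationalStructure f F₀ ζ P ∧
      (∀ u : ι → F, (∀ i, u i ∈ F₀) → f ((P : Matrix ι ι F) *ᵥ u) ((P : Matrix ι ι F) *ᵥ u) = 0) ∧
      H ≤ subfieldSubgroup F₀ P)

theorem UniSubfield.member [Fintype F] {q : ℕ} {f : (ι → F) → (ι → F) → F} {H : Subgroup (GL ι F)} (h : UniSubfield q f H) :
    ∃ M, UniMember q f M ∧ H ≤ M := by
  rcases h with ⟨F₀, r, P, h1, h2, h3, h4, h5⟩ | ⟨F₀, P, h1, h2, h3, h4⟩ | ⟨F₀, P, ζ, h1, h2, h3, h4, h5, h6, h7⟩
  · exact ⟨_, Or.inr (Or.inr (Or.inr (Or.inr (Or.inr (Or.inr (Or.inl ⟨F₀, r, P, h1, h2, h3, h4, rfl⟩)))))), h5⟩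
  · exact ⟨_, Or.inr (Or.inr (Or.inr (Or.inr (Or.inr (Or.inr (Or.inr (Or.inl ⟨F₀, P, h1, h2, h3, rfl⟩))))))), h4⟩
  · exact ⟨_, Or.inr (Or.inr (Or.inr (Or.inr (Or.inr (Or.inr (Or.inr (Or.inr (Or.inl ⟨F₀, P, ζ, h1, h2, h3, h4, h5, h6, rfl⟩)))))))), h7⟩

/-- a form which is alternating on a rational structure lives in even dimension -/
theorem even_of_alternating {σ : F ≃+* F} {F₁ : Subfield F} {f : (ι → F) → (ι → F) → F} (hf : IsSesq σ f)
    (hnd : ∀ v : ι → F, v ≠ 0 → ∃ x, f v x ≠ 0) (P : GL ι F)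
    (halt : ∀ u, RatVec F₁ u → f ((P : Matrix ι ι F) *ᵥ u) ((P : Matrix ι ι F) *ᵥ u) = 0) : Even (Fintype.card ι) := by
  classical
  have hp := isSesq_pull hf P
  set G := gramMatrix (fun u v => f ((P : Matrix ι ι F) *ᵥ u) ((P : Matrix ι ι F) *ᵥ v)) with hG
  have hdet : G.det ≠ 0 := hp.gram_det_ne_zero (by
    intro v hv
    obtain ⟨x, hx⟩ := hnd _ (mulVec_ne_zero' P hv)
    refine ⟨((P⁻¹ : GL ι F) : Matrix ι ι F) *ᵥ x, ?_⟩
    rwa [mulVec_inv_mulVec])
  have hG0 : ∀ i, G i i = 0 := fun i => halt _ (ratVec_single F₁ i)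
  have hGs : ∀ i j, G j i = - G i j := by
    intro i j
    have h1 := halt _ (RatVec.add (ratVec_single F₁ i) (ratVec_single F₁ j))
    rw [Matrix.mulVec_add, hf.add_left, hf.add_right, hf.add_right] at h1
    have h2 : f ((P : Matrix ι ι F) *ᵥ (Pi.single i 1)) ((P : Matrix ι ι F) *ᵥ (Pi.single i 1)) = 0 := hG0 i
    have h3 : f ((P : Matrix ι ι F) *ᵥ (Pi.single j 1)) ((P : Matrix ι ι F) *ᵥ (Pi.single j 1)) = 0 := hG0 j
    show f ((P : Matrix ι ι F) *ᵥ (Pi.single j 1)) ((P : Matrix ι ι F) *ᵥ (Pi.single i 1)) =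
      - f ((P : Matrix ι ι F) *ᵥ (Pi.single i 1)) ((P : Matrix ι ι F) *ᵥ (Pi.single j 1))
    rw [h2, h3] at h1
    linear_combination h1
  apply even_card_of_isSymplecticForm (f := formOfGram id G)
  refine isSymplecticForm_formOfGram hdet (by ext i j; exact hGs i j) fun v => ?_
  unfold formOfGram
  rw [← Finset.sum_product']
  apply Finset.sum_involution (fun (a : ι × ι) _ => (a.2, a.1))
  · rintro ⟨i, j⟩ _
    show v i * G i j * v j + v j * G j i * v i = 0
    rw [hGs i j]; ring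
  · rintro ⟨i, j⟩ _ h h'
    have h2 : i = j := (Prod.ext_iff.1 h').2
    subst h2
    apply h
    show v i * G i i * v i = 0
    rw [hG0, mul_zero, zero_mul]
  · rintro ⟨i, j⟩ _; simp
  · rintro ⟨i, j⟩ _; rfl

lemma two_of_not_odd [Fintype F] {q : ℕ} (hF : Fintype.card F = q ^ 2) (h : ¬ Odd q) : (2 : F) = 0 := by
  by_contra h2
  apply h
  have h1 : Odd (Fintype.card F) := by
    by_contra hcon
    apply h2
    rw [Nat.not_odd_iff_even] at hcon
    have h3 : ringChar F = 2 := by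
      by_contra h4
      have := FiniteField.odd_card_of_char_ne_two h4
      rw [Nat.even_iff] at hcon
      omega
    have : ((2 : ℕ) : F) = 0 := by rw [← h3]; exact ringChar.Nat.cast_ringChar
    exact_mod_cast this
  rw [hF] at h1
  exact (Nat.odd_pow_iff two_ne_zero).1 h1

lemma odd_ne_two [Fintype F] {q : ℕ} (hF : Fintype.card F = q ^ 2) (h : Odd q) : (2 : F) ≠ 0 := by
  intro h2
  have h3 : ringChar F = 2 := by
    have := CharTwo.of_one_ne_zero_of_two_eq_zero one_ne_zero h2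
    exact ringChar.eq F 2
  have := FiniteField.even_card_of_char_two h3
  rw [hF, Nat.pow_mod] at this
  rw [Nat.odd_iff] at h
  rw [h] at this
  norm_num at this

/-- **Class 5**, unitary forms -/
theorem unitary_subfield [Fintype F] {q : ℕ} (hF : Fintype.card F = q ^ 2) (hι : 2 ≤ Fintype.card ι)
    {H N : Subgroup (GL ι F)} (hN : spanAlg N = ⊤) (hHN : NormBy H N) {f : (ι → F) → (ι → F) → F}
    (hf : IsUnitaryFormPow q f) (hfix : FixesForm (matrixSet N) f)
    {F₀ : Subfield F} (hF₀ : F₀ ≠ ⊤) (hreal : RealisableOver F₀ (matrixSet N)) : UniSubfield q f H := by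
  classical
  have : Nonempty ι := by
    by_contra h
    rw [not_nonempty_iff] at h
    rw [Fintype.card_eq_zero] at hι
    omega
  have hS := isSesq_of_pow hF hf
  have hnd : ∀ v : ι → F, v ≠ 0 → ∃ x, f v x ≠ 0 := fun v hv => (hf.nondegenerate v hv).2
  obtain ⟨F₁, r, P, hr, hcard, hH, hrat⟩ := exists_le_subfieldSubgroup' hN hHN hF₀ hreal
  obtain ⟨ζ, h0, h1⟩ := exists_rational_form (σ := powEquiv hF) (F₁ := F₁) (pow_mem_subfield q) hN hrat hS hnd hfix
  have hcard' : Fintype.card F = Nat.card F₁ ^ r := by rw [← hcard, Nat.card_eq_fintype_card]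
  have hζq : ζ ^ q ≠ 0 := pow_ne_zero _ h0
  -- a rational pair on which the form is non-zero
  obtain ⟨u₀, v₀, hu₀, hv₀, h2⟩ : ∃ u v, RatVec F₁ u ∧ RatVec F₁ v ∧
      f ((P : Matrix ι ι F) *ᵥ u) ((P : Matrix ι ι F) *ᵥ v) ≠ 0 := by
    by_contra hcon
    push Not at hcon
    have hp := isSesq_pull hS P
    have hdet := hp.gram_det_ne_zero (by
      intro v hv
      obtain ⟨x, hx⟩ := hnd _ (mulVec_ne_zero' P hv)
      refine ⟨((P⁻¹ : GL ι F) : Matrix ι ι F) *ᵥ x, ?_⟩
      rwa [mulVec_inv_mulVec])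
    apply hdet
    have : gramMatrix (fun u v => f ((P : Matrix ι ι F) *ᵥ u) ((P : Matrix ι ι F) *ᵥ v)) = 0 := by
      ext i j
      exact hcon _ _ (ratVec_single F₁ i) (ratVec_single F₁ j)
    rw [this]
    exact Matrix.det_zero
  -- rescaling
  have hscale : ∀ (μ : F) (hμ : μ ≠ 0) (η : F), η ∈ F₁ → ζ * η = μ ^ (q + 1) →
      IsFormRationalStructure f F₁ 1 (scGL ι F (Units.mk0 μ hμ) * P) := by
    intro μ hμ η hη hμη u v hu hv
    rw [scGL_mul_mulVec, scGL_mul_mulVec, hS.smul_left, hS.smul_right, one_mul, Units.val_mk0, powEquiv_apply, ← mul_assoc]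
    have : μ * μ ^ q = ζ * η := by rw [hμη, pow_succ, mul_comm]
    rw [this, mul_assoc, mul_left_comm]
    exact F₁.mul_mem hη (h1 u v hu hv)
  rcases hr.eq_two_or_odd' with hr2 | hr2
  · -- index two
    subst hr2
    have hq1 : Nat.card F₁ = q := by
      have h3 : Nat.card F₁ ^ 2 = q ^ 2 := by rw [← hcard', hF]
      exact Nat.pow_left_injective (two_ne_zero) h3
    have : Fintype F₁ := Fintype.ofFinite F₁
    have hfixq : ∀ x ∈ F₁, x ^ q = x := by
      intro x hx
      have h3 := FiniteField.pow_card (⟨x, hx⟩ : F₁)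
      rw [← Nat.card_eq_fintype_card, hq1] at h3
      have h4 := congrArg Subtype.val h3
      simpa using h4
    -- the symmetry of the rational form
    have hsym : ∀ u v, RatVec F₁ u → RatVec F₁ v → ζ ^ q * f ((P : Matrix ι ι F) *ᵥ v) ((P : Matrix ι ι F) *ᵥ u) =
        ζ * f ((P : Matrix ι ι F) *ᵥ u) ((P : Matrix ι ι F) *ᵥ v) := by
      intro u v hu hv
      rw [hf.herm ((P : Matrix ι ι F) *ᵥ v), ← mul_pow, hfixq _ (h1 u v hu hv)]
    have hδ : (ζ ^ q) ^ 2 = ζ ^ 2 := by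
      have e1 := hsym u₀ v₀ hu₀ hv₀
      have e2 := hsym v₀ u₀ hv₀ hu₀
      have h3 : ((ζ ^ q) ^ 2 - ζ ^ 2) * f ((P : Matrix ι ι F) *ᵥ u₀) ((P : Matrix ι ι F) *ᵥ v₀) = 0 := by
        linear_combination (ζ ^ q) * e2 + ζ * e1
      rcases mul_eq_zero.1 h3 with h4 | h4
      · exact sub_eq_zero.1 h4
      · exact absurd h4 h2
    rcases sq_eq_sq_iff_eq_or_eq_neg.1 hδ with hδ | hδ
    · -- symmetric
      obtain ⟨μ, hμ⟩ := Uni.exists_norm_eq hF hδ
      have hμ0 : μ ≠ 0 := by
        rintro rfl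
        rw [zero_pow (by omega)] at hμ
        exact h0 hμ.symm
      have hR := hscale μ hμ0 1 F₁.one_mem (by rw [mul_one, hμ])
      have hsc : subfieldSubgroup F₁ (scGL ι F (Units.mk0 μ hμ0) * P) = subfieldSubgroup F₁ P := subfieldSubgroup_scGL _ _ _
      by_cases hodd : Odd q
      · exact Or.inr (Or.inl ⟨F₁, _, hodd, hcard', hR, by rw [hsc]; exact hH⟩)
      · have h2' := two_of_not_odd hF hodd
        have hsym2 : ∀ u v, RatVec F₁ u → RatVec F₁ v → f ((P : Matrix ι ι F) *ᵥ v) ((P : Matrix ι ι F) *ᵥ u) =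
            f ((P : Matrix ι ι F) *ᵥ u) ((P : Matrix ι ι F) *ᵥ v) := by
          intro u v hu hv
          have := hsym u v hu hv
          rw [hδ] at this
          exact mul_left_cancel₀ h0 this
        have halt : ∀ u, RatVec F₁ u → f ((P : Matrix ι ι F) *ᵥ u) ((P : Matrix ι ι F) *ᵥ u) = 0 := by
          refine semilinear_eq_zero h2' (absIrred_of_spanAlg_eq_top (spanAlg_conjGrp (P := P) hN)).1 hι hrat ?_ ?_ ?_
          · intro u v hu hv
            rw [Matrix.mulVec_add, hf.add_left, hS.add_right, hS.add_right, hsym2 u v hu hv]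
            linear_combination (f ((P : Matrix ι ι F) *ᵥ u) ((P : Matrix ι ι F) *ᵥ v)) * h2'
          · intro c hc u hu
            rw [Matrix.mulVec_smul, hf.smul_left, hS.smul_right, powEquiv_apply, hfixq c hc]
            ring
          · intro x hx u hu
            exact fixesForm_conjGrp (P := P) hfix _ ⟨x, hx, rfl⟩ u u
        refine Or.inr (Or.inr ⟨F₁, scGL ι F (Units.mk0 μ hμ0) * P, 1, even_of_alternating hS hnd P halt, hcard', one_ne_zero, ?_,
          hR, ?_, by rw [hsc]; exact hH⟩)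
        · rw [one_pow]
          have : (1 : F) + 1 = 2 := by norm_num
          rw [this, h2']
        · intro u hu
          rw [scGL_mul_mulVec, hf.smul_left, hS.smul_right, halt u hu, mul_zero, mul_zero]
    · -- skew
      by_cases h2' : (2 : F) = 0
      · -- impossible: then also symmetric
        have hδ' : ζ ^ q = ζ := by rw [hδ, neg_eq_iff_add_eq_zero, ← two_mul, h2', zero_mul]
        have hodd : ¬ Odd q := fun h => odd_ne_two hF h h2'
        obtain ⟨μ, hμ⟩ := Uni.exists_norm_eq hF hδ'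
        have hμ0 : μ ≠ 0 := by
          rintro rfl
          rw [zero_pow (by omega)] at hμ
          exact h0 hμ.symm
        have hR := hscale μ hμ0 1 F₁.one_mem (by rw [mul_one, hμ])
        have hsc : subfieldSubgroup F₁ (scGL ι F (Units.mk0 μ hμ0) * P) = subfieldSubgroup F₁ P := subfieldSubgroup_scGL _ _ _
        have hsym2 : ∀ u v, RatVec F₁ u → RatVec F₁ v → f ((P : Matrix ι ι F) *ᵥ v) ((P : Matrix ι ι F) *ᵥ u) =
            f ((P : Matrix ι ι F) *ᵥ u) ((P : Matrix ι ι F) *ᵥ v) := by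
          intro u v hu hv
          have := hsym u v hu hv
          rw [hδ'] at this
          exact mul_left_cancel₀ h0 this
        have halt : ∀ u, RatVec F₁ u → f ((P : Matrix ι ι F) *ᵥ u) ((P : Matrix ι ι F) *ᵥ u) = 0 := by
          refine semilinear_eq_zero h2' (absIrred_of_spanAlg_eq_top (spanAlg_conjGrp (P := P) hN)).1 hι hrat ?_ ?_ ?_
          · intro u v hu hv
            rw [Matrix.mulVec_add, hf.add_left, hS.add_right, hS.add_right, hsym2 u v hu hv]
            linear_combination (f ((P : Matrix ι ι F) *ᵥ u) ((P : Matrix ι ι F) *ᵥ v)) * h2'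
          · intro c hc u hu
            rw [Matrix.mulVec_smul, hf.smul_left, hS.smul_right, powEquiv_apply, hfixq c hc]
            ring
          · intro x hx u hu
            exact fixesForm_conjGrp (P := P) hfix _ ⟨x, hx, rfl⟩ u u
        refine Or.inr (Or.inr ⟨F₁, scGL ι F (Units.mk0 μ hμ0) * P, 1, even_of_alternating hS hnd P halt, hcard', one_ne_zero, ?_,
          hR, ?_, by rw [hsc]; exact hH⟩)
        · rw [one_pow]
          have : (1 : F) + 1 = 2 := by norm_num
          rw [this, h2']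
        · intro u hu
          rw [scGL_mul_mulVec, hf.smul_left, hS.smul_right, halt u hu, mul_zero, mul_zero]
      · have halt : ∀ u, RatVec F₁ u → f ((P : Matrix ι ι F) *ᵥ u) ((P : Matrix ι ι F) *ᵥ u) = 0 := by
          intro u hu
          have e1 := hsym u u hu hu
          rw [hδ] at e1
          have h3 : (2 * ζ) * f ((P : Matrix ι ι F) *ᵥ u) ((P : Matrix ι ι F) *ᵥ u) = 0 := by linear_combination -e1
          rcases mul_eq_zero.1 h3 with h4 | h4
          · exact absurd h4 (mul_ne_zero h2' h0)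
          · exact h4
        exact Or.inr (Or.inr ⟨F₁, P, ζ, even_of_alternating hS hnd P halt, hcard', h0, by rw [hδ]; ring, h1, halt, hH⟩)
  · -- odd index
    left
    -- the automorphism is non-trivial on the subfield
    have hne : ∃ a ∈ F₁, powEquiv hF a ≠ a := by
      by_contra hcon
      push Not at hcon
      have hle : F₁ ≤ fixSub (powEquiv hF) := fun x hx => hcon x hx
      have h3 := card_fixSub (powEquiv_ne hF) (powEquiv_invol hF)
      let _ : Algebra F₁ (fixSub (powEquiv hF)) := (Subfield.inclusion hle).toAlgebra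
      have hfd : FiniteDimensional F₁ (fixSub (powEquiv hF)) := Module.Finite.of_finite
      have h4 := Module.natCard_eq_pow_finrank (K := F₁) (V := fixSub (powEquiv hF))
      rw [h4, ← pow_mul, hcard] at h3
      have h5 : 1 < Nat.card F₁ := Finite.one_lt_card
      have h6 := Nat.pow_right_injective h5 h3
      rw [h6] at hr2
      exact absurd hr2 (by rw [Nat.not_odd_iff_even]; exact even_two.mul_left _)
    -- the cocycle
    have hδ1 : ζ ^ q * ζ⁻¹ ∈ F₁ := by
      have e1 := h1 u₀ v₀ hu₀ hv₀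
      have e2 := h1 v₀ u₀ hv₀ hu₀
      have e3 := F₁.pow_mem e1 q
      rw [mul_pow, ← hf.herm] at e3
      have h3 : f ((P : Matrix ι ι F) *ᵥ v₀) ((P : Matrix ι ι F) *ᵥ u₀) ≠ 0 := by
        rw [hf.herm]; exact pow_ne_zero _ h2
      have h4 : ζ ^ q * ζ⁻¹ = (ζ ^ q * f ((P : Matrix ι ι F) *ᵥ v₀) ((P : Matrix ι ι F) *ᵥ u₀)) *
          (ζ * f ((P : Matrix ι ι F) *ᵥ v₀) ((P : Matrix ι ι F) *ᵥ u₀))⁻¹ := by
        field_simp
      rw [h4]
      exact F₁.mul_mem e3 (F₁.inv_mem e2)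
    have hδ2 : (ζ ^ q * ζ⁻¹) * powEquiv hF (ζ ^ q * ζ⁻¹) = 1 := by
      rw [powEquiv_apply, mul_pow, Uni.pow_q_pow_q hF, inv_pow]
      field_simp
    obtain ⟨η, hη, hη0, hη1⟩ := hilbert90_sub (powEquiv_invol hF) (pow_mem_subfield q) hne hδ1 hδ2
    rw [powEquiv_apply] at hη1
    have hfixed : (ζ * η) ^ q = ζ * η := by
      have : ζ * η = ζ ^ q * η ^ q := by
        conv_lhs => rw [hη1]
        field_simp
      rw [mul_pow, this]
    obtain ⟨μ, hμ⟩ := Uni.exists_norm_eq hF hfixed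
    have hμ0 : μ ≠ 0 := by
      rintro rfl
      rw [zero_pow (by omega)] at hμ
      exact mul_ne_zero h0 hη0 hμ.symm
    exact ⟨F₁, r, _, hr, hr2, hcard', hscale μ hμ0 η hη hμ.symm, by rw [subfieldSubgroup_scGL]; exact hH⟩

end Cfsg.Agent.Asch
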