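import Mathlib
import Cfsg.Prelude.Def_GeometricClasses
import Cfsg.Agent.Asch.FormSubUni
set_option autoImplicit false
set_option linter.unusedSectionVars false

/-!
Groups fixing a unitary and a bilinear form: subfield groups of index two.
-/

namespace Cfsg.Agent.Asch

open Module Cfsg.Geo

open scoped Matrix Kronecker MatrixGroups

variable {ι : Type} [Fintype ι] [DecidableEq ι] {F : Type*} [Field F]

lemma ratVec_fixSub_iff {σ : F ≃+* F} {v : ι → F} : RatVec (fixSub σ) v ↔ (fun i => σ (v i)) = v := by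
  constructor
  · intro h; funext i; exact h i
  · intro h i; exact congrFun h i

/-- similarities of the bilinear form which are isometries of the unitary form are in the subfield group -/
theorem le_subfieldSubgroup_of_comparison [Fintype F] [Nonempty ι] {σ : F ≃+* F} (hne : ∃ a, σ a ≠ a)
    (hinv : ∀ a, σ (σ a) = a) {f f' : (ι → F) → (ι → F) → F}
    (hf : IsSesq σ f) (hnd : IsNondegenerateForm f) (hf' : IsBilinearForm f') (hnd' : IsNondegenerateForm f')
    {J : (ι → F) → (ι → F)} (hJ : ∀ u v, f u v = f' u (J v)) {l : F} (hl : ∀ v, J (J v) = l • v)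
    {H : Subgroup (GL ι F)} (hH : FixesForm (matrixSet H) f) (hH' : H ≤ similarityGroup f') :
    ∃ (μ : F) (P : GL ι F), μ ≠ 0 ∧ (∀ v : ι → F, J ((P : Matrix ι ι F) *ᵥ v) = μ • ((P : Matrix ι ι F) *ᵥ (fun i => σ (v i)))) ∧
      H ≤ subfieldSubgroup (fixSub σ) P := by
  have hS := semiMap_of_comparison hf hf' hnd' hJ
  obtain ⟨μ, hμ0, hμ⟩ := exists_involution hne hinv hf hnd hf' hnd' hJ hl
  obtain ⟨P, hP⟩ := (hS.scale μ⁻¹).exists_basis hne hinv hμ
  have hP' : ∀ v : ι → F, J ((P : Matrix ι ι F) *ᵥ v) = μ • ((P : Matrix ι ι F) *ᵥ (fun i => σ (v i))) := by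
    intro v
    rw [← hP v, smul_smul, mul_inv_cancel₀ hμ0, one_smul]
  refine ⟨μ, P, hμ0, hP', fun g hg => ?_⟩
  obtain ⟨c, hc⟩ := hH' hg
  have hgf : ∀ u v, f ((g : Matrix ι ι F) *ᵥ u) ((g : Matrix ι ι F) *ᵥ v) = f u v := hH _ ⟨g, hg, rfl⟩
  have hcomm := comparison_comm hf' hnd' hJ hgf hc
  -- the multiplier has norm one
  have hcσ : (c : F) * σ (c : F) = 1 := by
    obtain ⟨i⟩ := ‹Nonempty ι›
    have hne1 : (Pi.single i (1 : F) : ι → F) ≠ 0 := by
      intro h0
      have := congrFun h0 i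
      simp at this
    set e : ι → F := Pi.single i 1 with he
    obtain ⟨x, hx⟩ := (hnd e hne1).1
    have h1 : f' x (J e) ≠ 0 := by rw [← hJ]; exact hx
    -- apply `J` twice
    have h2 : (c : F) • J ((g : Matrix ι ι F) *ᵥ (J e)) = (g : Matrix ι ι F) *ᵥ (J (J e)) := hcomm _
    have h3 : J ((g : Matrix ι ι F) *ᵥ (J e)) = σ (c : F) • J (J ((g : Matrix ι ι F) *ᵥ e)) := by
      rw [← hcomm, hS.smul]
    rw [h3, hl, hl, Matrix.mulVec_smul, smul_smul, smul_smul] at h2
    have hge : (g : Matrix ι ι F) *ᵥ e ≠ 0 := mulVec_ne_zero' g hne1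
    have hl0 : l ≠ 0 := by
      rintro rfl
      have h4 := hl e
      rw [zero_smul] at h4
      exact hne1 (comparison_injective hf hnd hf' hnd' hJ (comparison_injective hf hnd hf' hnd' hJ h4))
    have h5 : ((c : F) * σ (c : F) * l - l) • ((g : Matrix ι ι F) *ᵥ e) = 0 := by rw [sub_smul, h2, sub_self]
    rcases smul_eq_zero.1 h5 with h6 | h6
    · have h7 : ((c : F) * σ (c : F) - 1) * l = 0 := by linear_combination h6
      exact sub_eq_zero.1 ((mul_eq_zero.1 h7).resolve_right hl0)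
    · exact absurd h6 hge
  obtain ⟨a, ha0, ha⟩ := hilbert90 hne hinv (δ := σ (c : F)) (by rw [hinv, mul_comm]; exact hcσ)
  -- `σ a = c a`
  have hσa : σ a = (c : F) * a := by
    have h1 := congrArg σ ha
    rw [map_mul, hinv, hinv] at h1
    exact h1
  refine mem_subfieldSubgroup_of_rational (Units.mk0 a ha0) fun v hv => ?_
  rw [Units.val_mk0]
  set w : ι → F := ((P⁻¹ : GL ι F) : Matrix ι ι F) *ᵥ (a • ((g : Matrix ι ι F) *ᵥ ((P : Matrix ι ι F) *ᵥ v))) with hw
  have hPw : (P : Matrix ι ι F) *ᵥ w = a • ((g : Matrix ι ι F) *ᵥ ((P : Matrix ι ι F) *ᵥ v)) := mulVec_inv_mulVec P _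
  rw [ratVec_fixSub_iff]
  have h1 : J ((P : Matrix ι ι F) *ᵥ w) = μ • ((P : Matrix ι ι F) *ᵥ w) := by
    rw [hPw, hS.smul, hσa]
    have h2 := hcomm ((P : Matrix ι ι F) *ᵥ v)
    have h3 : J ((P : Matrix ι ι F) *ᵥ v) = μ • ((P : Matrix ι ι F) *ᵥ v) := by
      rw [hP', ratVec_fixSub_iff.1 hv]
    rw [h3, Matrix.mulVec_smul] at h2
    rw [mul_comm, mul_smul, h2, smul_smul, smul_smul, mul_comm]
  rw [hP'] at h1
  have h4 : (P : Matrix ι ι F) *ᵥ (fun i => σ (w i)) = (P : Matrix ι ι F) *ᵥ w := by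
    have := congrArg (fun x => μ⁻¹ • x) h1
    simpa [smul_smul, inv_mul_cancel₀ hμ0] using this
  have h5 := congrArg (fun x => ((P⁻¹ : GL ι F) : Matrix ι ι F) *ᵥ x) h4
  simpa only [inv_mulVec_mulVec] using h5

/-- **UJ** -/
theorem unitary_comparison_subfield [Fintype F] [Nonempty ι] {q : ℕ} (hF : Fintype.card F = q ^ 2)
    {f f' : (ι → F) → (ι → F) → F} (hf : IsUnitaryFormPow q f)
    (hf' : IsSymplecticForm f' ∨ (Odd q ∧ IsSymmetricForm f'))
    {J : (ι → F) → (ι → F)} (hJ : ∀ u v, f u v = f' u (J v)) {l : F} (hl : ∀ v, J (J v) = l • v)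
    {H : Subgroup (GL ι F)} (hH : FixesForm (matrixSet H) f) (hH' : H ≤ similarityGroup f') : UniSubfield q f H := by
  have hS := isSesq_of_pow hF hf
  have hb : IsBilinearForm f' := by
    rcases hf' with h | ⟨_, h⟩
    · exact h.bilinear
    · exact h.bilinear
  have hnd' : IsNondegenerateForm f' := by
    rcases hf' with h | ⟨_, h⟩
    · exact h.nondegenerate
    · exact h.nondegenerate
  obtain ⟨μ, P, hμ0, hP, hHP⟩ := le_subfieldSubgroup_of_comparison (powEquiv_ne hF) (powEquiv_invol hF) hS hf.nondegenerate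
    hb hnd' hJ hl hH hH'
  have hcard : Fintype.card F = Nat.card (fixSub (powEquiv hF)) ^ 2 := by
    rw [← card_fixSub (powEquiv_ne hF) (powEquiv_invol hF), Nat.card_eq_fintype_card]
  have hval : ∀ u v : ι → F, RatVec (fixSub (powEquiv hF)) v → f ((P : Matrix ι ι F) *ᵥ u) ((P : Matrix ι ι F) *ᵥ v) =
      μ * f' ((P : Matrix ι ι F) *ᵥ u) ((P : Matrix ι ι F) *ᵥ v) := by
    intro u v hv
    rw [hJ, hP, ratVec_fixSub_iff.1 hv, hb.smul_right]
  rcases hf' with h | ⟨hodd, h⟩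
  · -- symplectic
    obtain ⟨ζ, hζ0, hζ⟩ := Uni.exists_skew hF
    refine Or.inr (Or.inr ⟨fixSub (powEquiv hF), P, ζ, even_card_of_isSymplecticForm h, hcard, hζ0, by rw [hζ]; ring, ?_, ?_, hHP⟩)
    · intro u v hu hv
      rw [mem_fixSub, powEquiv_apply, mul_pow, hζ, ← hf.herm, hval v u hu, hval u v hv, h.skew]
      ring
    · intro u hu
      rw [hval u u hu, h.alternating, mul_zero]
  · -- symmetric
    refine Or.inr (Or.inl ⟨fixSub (powEquiv hF), P, hodd, hcard, ?_, hHP⟩)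
    intro u v hu hv
    rw [mem_fixSub, one_mul, powEquiv_apply, ← hf.herm, hval v u hu, hval u v hv, h.symm]

/-- the comparison map commutes with a common isometry group -/
lemma comparison_commute {f f' : (ι → F) → (ι → F) → F} (hf' : IsBilinearForm f') (hnd' : IsNondegenerateForm f')
    {J : (ι → F) → (ι → F)} (hJ : ∀ u v, f u v = f' u (J v)) {g : GL ι F}
    (hg : ∀ u v, f ((g : Matrix ι ι F) *ᵥ u) ((g : Matrix ι ι F) *ᵥ v) = f u v)
    (hg' : ∀ u v, f' ((g : Matrix ι ι F) *ᵥ u) ((g : Matrix ι ι F) *ᵥ v) = f' u v) (v : ι → F) :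
    J ((g : Matrix ι ι F) *ᵥ v) = (g : Matrix ι ι F) *ᵥ (J v) := by
  have := comparison_comm hf' hnd' hJ (c := 1) hg (fun u v => by rw [hg', one_mul]) v
  rwa [one_smul] at this

/-- the square of the comparison map is a scalar -/
theorem comparison_sq {σ : F ≃+* F} (hinv : ∀ a, σ (σ a) = a) {N : Subgroup (GL ι F)} (hN : spanAlg N = ⊤)
    {f f' : (ι → F) → (ι → F) → F} (hf : IsSesq σ f) (hf' : IsBilinearForm f') (hnd' : IsNondegenerateForm f')
    {J : (ι → F) → (ι → F)} (hJ : ∀ u v, f u v = f' u (J v)) (hfix : FixesForm (matrixSet N) f)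
    (hfix' : FixesForm (matrixSet N) f') : ∃ l : F, ∀ v, J (J v) = l • v := by
  have hS := semiMap_of_comparison hf hf' hnd' hJ
  let T : Module.End F (ι → F) :=
    { toFun := fun v => J (J v)
      map_add' := fun u v => by rw [hS.add, hS.add]
      map_smul' := fun c v => by rw [hS.smul, hS.smul, hinv]; rfl }
  obtain ⟨c, hc⟩ := exists_scalar_of_commute hN (M := LinearMap.toMatrix' T) (by
    intro g hg
    have h1 : ∀ v, J ((g : Matrix ι ι F) *ᵥ v) = (g : Matrix ι ι F) *ᵥ (J v) :=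
      comparison_commute hf' hnd' hJ (hfix _ ⟨g, hg, rfl⟩) (hfix' _ ⟨g, hg, rfl⟩)
    have h2 : T.comp (Matrix.toLin' (g : Matrix ι ι F)) = (Matrix.toLin' (g : Matrix ι ι F)).comp T := by
      refine LinearMap.ext fun v => ?_
      show J (J ((g : Matrix ι ι F) *ᵥ v)) = (g : Matrix ι ι F) *ᵥ (J (J v))
      rw [h1, h1]
    have h3 := congrArg LinearMap.toMatrix' h2
    rwa [LinearMap.toMatrix'_comp, LinearMap.toMatrix'_comp, LinearMap.toMatrix'_toLin'] at h3)
  refine ⟨c, fun v => ?_⟩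
  show T v = c • v
  rw [← Matrix.toLin'_toMatrix' T, hc, map_smul, Matrix.toLin'_one]; rfl

/-- **U8**: the normal subgroup also fixes a bilinear form -/
theorem unitary_of_bilinear [Fintype F] [Nonempty ι] {q : ℕ} (hF : Fintype.card F = q ^ 2)
    {H N : Subgroup (GL ι F)} (hN : spanAlg N = ⊤) (hHN : NormBy H N) {f f' : (ι → F) → (ι → F) → F}
    (hf : IsUnitaryFormPow q f) (hf' : IsSymplecticForm f' ∨ (Odd q ∧ IsSymmetricForm f'))
    (hfix : FixesForm (matrixSet N) f) (hfix' : FixesForm (matrixSet N) f') (hH : FixesForm (matrixSet H) f) :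
    UniSubfield q f H := by
  have hS := isSesq_of_pow hF hf
  have hb : IsBilinearForm f' := by
    rcases hf' with h | ⟨_, h⟩
    · exact h.bilinear
    · exact h.bilinear
  have hnd' : IsNondegenerateForm f' := by
    rcases hf' with h | ⟨_, h⟩
    · exact h.nondegenerate
    · exact h.nondegenerate
  obtain ⟨J, hJ⟩ := exists_comparison hS hb (fun v hv => (hnd' v hv).2)
  obtain ⟨l, hl⟩ := comparison_sq (powEquiv_invol hF) hN hS hb hnd' hJ hfix hfix'
  exact unitary_comparison_subfield hF hf hf' hJ hl hH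
    (le_similarityGroup inferInstance hN hHN (isSesq_of_bilinear hb) (fun v hv => (hnd' v hv).2) hfix')

/-- **U8**, symplectic form -/
theorem unitary_of_symplectic [Fintype F] [Nonempty ι] {q : ℕ} (hF : Fintype.card F = q ^ 2)
    {H N : Subgroup (GL ι F)} (hN : spanAlg N = ⊤) (hHN : NormBy H N) {f f' : (ι → F) → (ι → F) → F}
    (hf : IsUnitaryFormPow q f) (hf' : IsSymplecticForm f')
    (hfix : FixesForm (matrixSet N) f) (hfix' : FixesForm (matrixSet N) f') (hH : FixesForm (matrixSet H) f) :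
    UniSubfield q f H := unitary_of_bilinear hF hN hHN hf (Or.inl hf') hfix hfix' hH

/-- **U8**, quadratic form -/
theorem unitary_of_quadratic [Fintype F] [Nonempty ι] {q : ℕ} (hF : Fintype.card F = q ^ 2)
    {H N : Subgroup (GL ι F)} (hN : spanAlg N = ⊤) (hHN : NormBy H N) {f : (ι → F) → (ι → F) → F} {Q : (ι → F) → F}
    (hf : IsUnitaryFormPow q f) (hQ : IsNondegenerateQuadraticForm Q)
    (hfix : FixesForm (matrixSet N) f) (hfix' : FixesQuadForm (matrixSet N) Q) (hH : FixesForm (matrixSet H) f) :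
    UniSubfield q f H := by
  refine unitary_of_bilinear hF hN hHN hf (f' := QuadraticMap.polar Q) ?_ hfix (fixesForm_polar hfix') hH
  by_cases h : Odd q
  · exact Or.inr ⟨h, ⟨hQ.polar_bilinear, fun u v => QuadraticMap.polar_comm Q u v, hQ.nondegenerate⟩⟩
  · exact Or.inl (isSymplecticForm_polar hQ (two_of_not_odd hF h))

/-- a group fixing a bilinear and a unitary form is realisable over a proper subfield -/
theorem realisable_of_unitary [Fintype F] [Nonempty ι] {N : Subgroup (GL ι F)} (hN : spanAlg N = ⊤) {σ : F ≃+* F}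
    {f' g : (ι → F) → (ι → F) → F} (hb : IsBilinearForm f') (hnd' : IsNondegenerateForm f') (hg : IsUnitaryForm σ g)
    (hfix' : FixesForm (matrixSet N) f') (hfix : FixesForm (matrixSet N) g) :
    ∃ F₀ : Subfield F, F₀ ≠ ⊤ ∧ RealisableOver F₀ (matrixSet N) := by
  have hne : ∃ a, σ a ≠ a := by
    by_contra hcon
    push Not at hcon
    exact hg.ne_refl (RingEquiv.ext hcon)
  have hS := isSesq_of_unitary hg
  obtain ⟨J, hJ⟩ := exists_comparison hS hb (fun v hv => (hnd' v hv).2)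
  obtain ⟨l, hl⟩ := comparison_sq hg.involutive hN hS hb hnd' hJ hfix hfix'
  have hSM := semiMap_of_comparison hS hb hnd' hJ
  obtain ⟨μ, hμ0, hμ⟩ := exists_involution hne hg.involutive hS hg.nondegenerate hb hnd' hJ hl
  obtain ⟨P, hP⟩ := (hSM.scale μ⁻¹).exists_basis hne hg.involutive hμ
  refine ⟨fixSub σ, fixSub_ne_top hne, P⁻¹, ?_⟩
  rintro _ ⟨x, hx, rfl⟩ i j
  have h1 : ∀ v, J ((x : Matrix ι ι F) *ᵥ v) = (x : Matrix ι ι F) *ᵥ (J v) :=
    comparison_commute hb hnd' hJ (hfix _ ⟨x, hx, rfl⟩) (hfix' _ ⟨x, hx, rfl⟩)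
  set w : ι → F := ((P⁻¹ * x * P : GL ι F) : Matrix ι ι F) *ᵥ (Pi.single j 1) with hw
  have hPw : (P : Matrix ι ι F) *ᵥ w = (x : Matrix ι ι F) *ᵥ ((P : Matrix ι ι F) *ᵥ (Pi.single j 1)) := conj_mulVec P x _
  have hrat : RatVec (fixSub σ) w := by
    rw [ratVec_fixSub_iff]
    have h2 : (P : Matrix ι ι F) *ᵥ (fun i => σ (w i)) = (P : Matrix ι ι F) *ᵥ w := by
      rw [← hP, hPw, h1, ← Matrix.mulVec_smul, hP, ratVec_fixSub_iff.1 (ratVec_single (fixSub σ) j)]
    have h5 := congrArg (fun x => ((P⁻¹ : GL ι F) : Matrix ι ι F) *ᵥ x) h2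
    simpa only [inv_mulVec_mulVec] using h5
  have h3 := hrat i
  rw [hw, Matrix.mulVec_single_one] at h3
  rw [inv_inv, ← Units.val_mul, ← Units.val_mul]
  exact h3

/-- **Sp8** -/
theorem symplectic_of_unitary [Fintype F] [Nonempty ι] {H N : Subgroup (GL ι F)} (hN : spanAlg N = ⊤) (hHN : NormBy H N)
    {σ : F ≃+* F} {f g : (ι → F) → (ι → F) → F} (hf : IsSymplecticForm f) (hg : IsUnitaryForm σ g)
    (hfix : FixesForm (matrixSet N) f) (hfix' : FixesForm (matrixSet N) g) : ∃ M, SpMember f M ∧ H ≤ M := by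
  obtain ⟨F₀, h0, h1⟩ := realisable_of_unitary hN hf.bilinear hf.nondegenerate hg hfix hfix'
  exact symplectic_subfield hN hHN hf hfix h0 h1

/-- **O8** -/
theorem orthogonal_of_unitary [Fintype F] [Nonempty ι] {H N : Subgroup (GL ι F)} (hN : spanAlg N = ⊤) (hHN : NormBy H N)
    {σ : F ≃+* F} {Q : (ι → F) → F} {g : (ι → F) → (ι → F) → F} (hQ : IsNondegenerateQuadraticForm Q) (hg : IsUnitaryForm σ g)
    (hfix : FixesQuadForm (matrixSet N) Q) (hfix' : FixesForm (matrixSet N) g) : ∃ M, OrthMember Q M ∧ H ≤ M := by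
  obtain ⟨F₀, h0, h1⟩ := realisable_of_unitary hN hQ.polar_bilinear hQ.nondegenerate hg (fixesForm_polar hfix) hfix'
  exact orthogonal_subfield hN hHN hQ hfix h0 h1

end Cfsg.Agent.Asch
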