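import Mathlib
import Cfsg.Prelude.Def_GeometricClasses
import Cfsg.Agent.Asch.Core
import Cfsg.Agent.Asch.SymplMain
set_option autoImplicit false
set_option linter.unusedSectionVars false

/-!
The abelian-modulo-scalars piece in the linear case.
-/

namespace Cfsg.Agent.Asch

open Module Cfsg.Geo

open scoped Matrix Kronecker MatrixGroups commutatorElement

variable {ι : Type} [Fintype ι] [DecidableEq ι] {F : Type*} [Field F]

theorem AbelianPiece.cls6Hyp {H N : Subgroup (GL ι F)} {r : ℕ} (h : AbelianPiece H N r) (h2 : 2 ≤ Fintype.card ι) :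
    Sympl.Cls6Hyp H N r where
  prime := h.prime
  norm := h.norm
  scal_le := h.scal_le
  pow := h.pow_mem
  comm := fun x hx y hy => h.comm (Subgroup.commutator_mem_commutator hx hy)
  span := h.span
  min := fun K hK hZ hKN => h.min K hKN hK hZ
  card := h2

theorem AbelianPiece.linear_cases [Fintype F] {H N : Subgroup (GL ι F)} {r : ℕ} (h : AbelianPiece H N r)
    (h3 : 3 ≤ Fintype.card ι) :
    (∃ (F₁ : Subfield F) (s : ℕ) (P : GL ι F), s.Prime ∧ Nat.card F = Nat.card F₁ ^ s ∧ H ≤ subfieldSubgroup F₁ P) ∨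
    (∃ (r : ℕ) (R : Subgroup (GL ι F)) (k : ℕ), IsLinearSymplecticTypeData r R ∧ Fintype.card ι = r ^ k ∧
      H ≤ subgroupNormalizer R) ∨
    (∃ f : (ι → F) → (ι → F) → F, IsSymplecticForm f ∧ H ≤ similarityGroup f) ∨
    (∃ (σ : F ≃+* F) (f : (ι → F) → (ι → F) → F), IsUnitaryForm σ f ∧ H ≤ similarityGroup f) ∨
    (∃ Q : (ι → F) → F, IsNondegenerateQuadraticForm Q ∧ Odd (Fintype.card F) ∧ H ≤ quadSimilarityGroup Q) := by
  rcases (h.cls6Hyp (by omega)).linear_main h3 with h1 | h1 | h1 | h1 | h1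
  · exact Or.inl h1
  · exact Or.inr (Or.inl ⟨r, h1⟩)
  · exact Or.inr (Or.inr (Or.inr (Or.inl h1)))
  · exact Or.inr (Or.inr (Or.inl h1))
  · exact Or.inr (Or.inr (Or.inr (Or.inr h1)))

end Cfsg.Agent.Asch
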