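import Mathlib
import Cfsg.Prelude.Def_GeometricClasses
import Cfsg.Agent.Asch.Linear
import Cfsg.Agent.Asch.PieceB
set_option autoImplicit false

/-!
The structure theorem for subgroups of `GL_n(F)`, `n ≥ 3`, without hypotheses.
-/

namespace Cfsg.Agent.Asch

open Module Cfsg.Geo

open scoped Matrix MatrixGroups

/-- **Aschbacher's theorem**, linear case -/
theorem linear_structure {F : Type*} [Field F] [Fintype F] (n : ℕ) (hn : 3 ≤ n) (H : Subgroup (GL (Fin n) F)) :
    (∃ M : Subgroup (GL (Fin n) F), LinMember n F M ∧ H ≤ M) ∨ InLinearResidualClass H :=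
  linear_structure_of n hn H (fun _ _ _ h => h.linear_cases (by simpa using hn))

end Cfsg.Agent.Asch
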