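import Mathlib
import Cfsg.Prelude.Def_GeometricClasses
import Cfsg.Agent.Asch.Congr
import Cfsg.Agent.Asch.Members
import Cfsg.Agent.Asch.FormOrth
set_option autoImplicit false
set_option linter.unusedSectionVars false

/-!
Groups of monomial isometries of a quadratic form over a prime field; three-dimensional orthogonal groups over the field
with three elements are monomial.
-/

namespace Cfsg.Agent.Asch

open Module Cfsg.Geo EForm

open scoped Matrix Kronecker MatrixGroups

variable {ι : Type} [Fintype ι] [DecidableEq ι] {F : Type*} [Field F]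

/-- **class 2**, decompositions into one-dimensional subspaces over prime fields -/
theorem orth_frame_member [Fintype F] {Q : (ι → F) → F} (hQ : IsNondegenerateQuadraticForm Q) (h2 : (2 : F) ≠ 0)
    (hp : (Fintype.card F).Prime) {κ : Type} [Fintype κ] [DecidableEq κ] (b : Basis κ F (ι → F)) {c : F} (hc : c ≠ 0)
    (hgram : gramB (QuadraticMap.polar Q) b = c • (1 : Matrix κ κ F)) (hκ : 2 ≤ Fintype.card κ) {H : Subgroup (GL ι F)}
    (hH : ∀ g ∈ H, ∃ (π : κ → κ) (s : κ → F), ∀ i, (g : Matrix ι ι F) *ᵥ b i = s i • b (π i)) :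
    ∃ M, OrthMember Q M ∧ H ≤ M := by
  classical
  set t := Fintype.card κ with ht
  let e : Fin t ≃ κ := (Fintype.equivFin κ).symm
  let D : Fin t → Submodule F (ι → F) := fun i => Submodule.span F {b (e i)}
  have hb0 : ∀ i, b i ≠ 0 := fun i => b.ne_zero i
  have hbil := hQ.polar_bilinear
  have hff : ∀ i j, QuadraticMap.polar Q (b i) (b j) = if i = j then c else 0 := by
    intro i j
    have := congrFun (congrFun hgram i) j
    rw [Matrix.smul_apply, Matrix.one_apply] at this
    simp only [gramB] at this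
    rw [this]
    split_ifs <;> simp
  have hmem : ∀ i w, w ∈ D i ↔ ∃ a : F, a • b (e i) = w := fun i w => Submodule.mem_span_singleton
  have hQb : ∀ i, Q (b i) = c / 2 := by
    intro i
    have h1 := polar_self hQ (b i)
    rw [hff, if_pos rfl] at h1
    rw [h1]
    field_simp
  have hD : IsOrthogonalMDecomposition Q 1 D := by
    refine ⟨⟨⟨hκ, one_pos, fun i => finrank_span_singleton (hb0 _), ?_, ?_⟩, ?_, ?_⟩, ?_⟩
    · exact (b.linearIndependent.comp e e.injective).iSupIndep_span_singleton
    · rw [← Submodule.span_iUnion, eq_top_iff, ← b.span_eq]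
      apply Submodule.span_mono
      rintro _ ⟨i, rfl⟩
      exact Set.mem_iUnion.2 ⟨e.symm i, by simp⟩
    · intro i w hw hw0
      obtain ⟨a, rfl⟩ := (hmem i w).1 hw
      have ha : a ≠ 0 := by rintro rfl; exact hw0 (zero_smul _ _)
      refine ⟨⟨b (e i), (hmem i _).2 ⟨1, one_smul _ _⟩, ?_⟩, ⟨b (e i), (hmem i _).2 ⟨1, one_smul _ _⟩, ?_⟩⟩
      · rw [hbil.smul_right, hff, if_pos rfl]; exact mul_ne_zero ha hc
      · rw [hbil.smul_left, hff, if_pos rfl]; exact mul_ne_zero ha hc
    · intro i j hij u hu v hv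
      obtain ⟨a, rfl⟩ := (hmem i u).1 hu
      obtain ⟨a', rfl⟩ := (hmem j v).1 hv
      rw [hbil.smul_left, hbil.smul_right, hff, if_neg (fun h => hij (e.injective h)), mul_zero, mul_zero]
    · intro i j
      refine ⟨(LinearEquiv.toSpanNonzeroSingleton F _ _ (hb0 (e i))).symm.trans (LinearEquiv.toSpanNonzeroSingleton F _ _ (hb0 (e j))), ?_⟩
      intro w
      obtain ⟨a, ha⟩ := (LinearEquiv.toSpanNonzeroSingleton F _ _ (hb0 (e i))).surjective w
      rw [← ha, LinearEquiv.trans_apply, LinearEquiv.symm_apply_apply, LinearEquiv.toSpanNonzeroSingleton_apply,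
        LinearEquiv.toSpanNonzeroSingleton_apply]
      rw [hQ.smul, hQ.smul, hQb, hQb]
  refine ⟨_, Or.inr (Or.inr (Or.inr (Or.inl ⟨t, 1, D, Or.inr hp, hD, rfl⟩))), ?_⟩
  intro g hg
  obtain ⟨π, s, hπ⟩ := hH g hg
  have hinj : Function.Injective fun v : ι → F => (g : Matrix ι ι F) *ᵥ v := by
    intro u v huv
    have := congrArg (fun w => ((g⁻¹ : GL ι F) : Matrix ι ι F) *ᵥ w) huv
    simpa [Matrix.mulVec_mulVec, ← Units.val_mul] using this
  have hs : ∀ i, s i ≠ 0 := by
    intro i h0
    apply hb0 i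
    apply hinj
    show (g : Matrix ι ι F) *ᵥ b i = (g : Matrix ι ι F) *ᵥ 0
    rw [hπ, h0, zero_smul, Matrix.mulVec_zero]
  have hπinj : Function.Injective π := by
    intro i j hij
    by_contra hne
    have h1 : s j • b i = s i • b j := by
      apply hinj
      show (g : Matrix ι ι F) *ᵥ (s j • b i) = (g : Matrix ι ι F) *ᵥ (s i • b j)
      rw [Matrix.mulVec_smul, Matrix.mulVec_smul, hπ, hπ, hij, smul_comm]
    have h2 := congrArg (fun v => b.repr v i) h1
    simp [Ne.symm hne] at h2
    exact hs j h2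
  let τ : Equiv.Perm κ := Equiv.ofBijective π (Finite.injective_iff_bijective.1 hπinj)
  refine ⟨(e.trans τ).trans e.symm, fun i => ?_⟩
  show (Submodule.span F {b (e i)}).map (Matrix.toLin' (g : Matrix ι ι F)) = Submodule.span F {b (e (e.symm (τ (e i))))}
  rw [Submodule.map_span, Set.image_singleton, Matrix.toLin'_apply, hπ, Equiv.apply_symm_apply]
  exact Submodule.span_singleton_smul_eq (isUnit_iff_ne_zero.2 (hs _)) _

/-- monomial columns -/
lemma frame_act {κ : Type} [Fintype κ] [DecidableEq κ] (b : Basis κ F (ι → F)) {g : GL ι F}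
    (h : ∀ j, ∃ i, ∀ i', i' ≠ i → LinearMap.toMatrix b b (Matrix.toLin' (g : Matrix ι ι F)) i' j = 0) :
    ∃ (π : κ → κ) (s : κ → F), ∀ i, (g : Matrix ι ι F) *ᵥ b i = s i • b (π i) := by
  choose π hπ using h
  refine ⟨π, fun j => LinearMap.toMatrix b b (Matrix.toLin' (g : Matrix ι ι F)) (π j) j, fun j => ?_⟩
  have h1 := b.sum_repr ((g : Matrix ι ι F) *ᵥ b j)
  rw [← h1, Finset.sum_eq_single (π j)]
  · show _ = (LinearMap.toMatrix b b (Matrix.toLin' (g : Matrix ι ι F)) (π j) j) • b (π j)
    rw [LinearMap.toMatrix_apply]; rfl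
  · intro i _ hi
    have := hπ j i hi
    rw [LinearMap.toMatrix_apply] at this
    have h2 : b.repr ((g : Matrix ι ι F) *ᵥ b j) i = 0 := this
    rw [h2, zero_smul]
  · intro h; exact absurd (Finset.mem_univ _) h

/-- isometries of a three-dimensional form over the field with three elements -/
lemma monomial_three [Fintype F] (hF : Fintype.card F = 3) {Y : Matrix (Fin 3) (Fin 3) F} {μ : F} (hμ : μ ≠ 0)
    (hY : Yᵀ * Y = μ • (1 : Matrix (Fin 3) (Fin 3) F)) (j : Fin 3) : ∃ i, ∀ i', i' ≠ i → Y i' j = 0 := by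
  have hsq : ∀ x : F, x ≠ 0 → x * x = 1 := by
    intro x hx
    have := FiniteField.pow_card_sub_one_eq_one x hx
    rw [hF] at this
    rw [← pow_two]; exact this
  have h3 : (3 : F) = 0 := by
    have := Nat.cast_card_eq_zero F
    rw [hF] at this
    exact_mod_cast this
  have h1 : μ = 1 := by
    have h4 := congrArg Matrix.det hY
    rw [Matrix.det_mul, Matrix.det_transpose, Matrix.det_smul, Matrix.det_one, mul_one, Fintype.card_fin] at h4
    have h5 : Y.det ≠ 0 := by
      intro h0
      rw [h0, mul_zero] at h4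
      exact (pow_ne_zero 3 hμ) h4.symm
    rw [hsq _ h5] at h4
    have h6 := hsq μ hμ
    calc μ = (μ * μ) * μ := by rw [h6, one_mul]
      _ = μ ^ 3 := by ring
      _ = 1 := h4.symm
  have h4 := congrFun (congrFun hY j) j
  rw [h1, one_smul, Matrix.one_apply_eq, Matrix.mul_apply, Fin.sum_univ_three] at h4
  simp only [Matrix.transpose_apply] at h4
  have h01 : (0 : F) ≠ 1 := zero_ne_one
  have h21 : (1 : F) + 1 ≠ 1 := by
    intro h
    have : (1 : F) = 0 := by linear_combination h
    exact one_ne_zero this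
  have h31 : (1 : F) + 1 + 1 ≠ 1 := by
    intro h
    have h7 : (1 : F) + 1 + 1 = 3 := by norm_num
    rw [h7, h3] at h
    exact zero_ne_one h
  by_cases e0 : Y 0 j = 0 <;> by_cases e1 : Y 1 j = 0 <;> by_cases e2 : Y 2 j = 0
  · exact ⟨0, fun i' _ => by fin_cases i' <;> assumption⟩
  · exact ⟨2, fun i' hi' => by fin_cases i' <;> first | assumption | exact absurd rfl hi'⟩
  · exact ⟨1, fun i' hi' => by fin_cases i' <;> first | assumption | exact absurd rfl hi'⟩
  · exfalso; rw [e0, hsq _ e1, hsq _ e2, zero_mul, zero_add] at h4; exact h21 h4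
  · exact ⟨0, fun i' hi' => by fin_cases i' <;> first | assumption | exact absurd rfl hi'⟩
  · exfalso; rw [hsq _ e0, e1, hsq _ e2, zero_mul, add_zero] at h4; exact h21 h4
  · exfalso; rw [hsq _ e0, hsq _ e1, e2, zero_mul, add_zero] at h4; exact h21 h4
  · exfalso; rw [hsq _ e0, hsq _ e1, hsq _ e2] at h4; exact h31 h4

end Cfsg.Agent.Asch
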