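import Mathlib
import Cfsg.Prelude.Def_GeometricClasses
import Cfsg.Agent.Asch.Rebase
import Cfsg.Agent.Asch.SymplMain
set_option autoImplicit false
set_option linter.unusedSectionVars false

/-!
Tensor decompositions of unitary forms: members of the geometric classes.
-/

namespace Cfsg.Agent.Asch

open Module Cfsg.Geo EForm

open scoped Matrix Kronecker MatrixGroups

variable {ι : Type} [Fintype ι] [DecidableEq ι] {F : Type*} [Field F]

/-- the involution `x ↦ x ^ q` of the field with `q ^ 2` elements -/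
lemma exists_pow_sigma [Fintype F] {q : ℕ} (hF : Fintype.card F = q ^ 2) :
    ∃ σ : F ≃+* F, (∀ x, σ x = x ^ q) ∧ σ ≠ RingEquiv.refl F ∧ ∀ a, σ (σ a) = a := by
  obtain ⟨p, hchar⟩ := CharP.exists F
  obtain ⟨n, hp, hn⟩ := FiniteField.card F p
  have hfact : Fact p.Prime := ⟨hp⟩
  have hq1 : q ∣ p ^ (n : ℕ) := by rw [← hn, hF]; exact dvd_pow_self q two_ne_zero
  obtain ⟨d, hd, hqd⟩ := (Nat.dvd_prime_pow hp).1 hq1
  have hne1 : q ≠ 1 := by
    rintro rfl
    have := Fintype.one_lt_card (α := F)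
    omega
  have hd0 : 0 < d := by
    rcases Nat.eq_zero_or_pos d with h | h
    · subst h; rw [pow_zero] at hqd; exact absurd hqd hne1
    · exact h
  have hn2 : (n : ℕ) = d + d := by
    have h1 : p ^ (n : ℕ) = p ^ (d + d) := by rw [← hn, hF, hqd, pow_two, pow_add]
    exact Nat.pow_right_injective hp.two_le h1
  have hσ : ∀ x : F, iterateFrobeniusEquiv F p d x = x ^ q := by
    intro x
    rw [iterateFrobeniusEquiv_def, hqd]
  refine ⟨iterateFrobeniusEquiv F p d, hσ, ?_, ?_⟩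
  · intro h
    obtain ⟨x, hx⟩ := Sympl.exists_frob_ne (F := F) hp hn hd0 (by omega : d < (n : ℕ))
    apply hx
    rw [← hqd, ← hσ, h]
    rfl
  · intro a
    rw [hσ, hσ, ← pow_mul, ← pow_two, ← hF, FiniteField.pow_card]

lemma IsUnitaryFormPow.isUnitaryForm {q : ℕ} {f : (ι → F) → (ι → F) → F} (hf : IsUnitaryFormPow q f) {σ : F ≃+* F}
    (hσ : ∀ x, σ x = x ^ q) (hne : σ ≠ RingEquiv.refl F) (hσ2 : ∀ a, σ (σ a) = a) : IsUnitaryForm σ f where
  ne_refl := hne
  involutive := hσ2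
  add_left := hf.add_left
  smul_left := hf.smul_left
  herm := fun v w => by rw [hσ]; exact hf.herm v w
  nondegenerate := hf.nondegenerate

/-- a tensor decomposition with equal factors as a tensor power -/
theorem TensorForm.toPower {σ : F ≃+* F} {f : (ι → F) → (ι → F) → F} {H : Subgroup (GL ι F)} {a : ℕ}
    {b : Basis (Fin a × Fin a) F (ι → F)} {G : GL (Fin a) F} {c l₁ l₂ : F} (h : TensorForm σ f H a a b G G c l₁ l₂) :
    ∃ b' : Basis (Fin 2 → Fin a) F (ι → F), gramB f b' = c • piMat (fun _ : Fin 2 => (G : Matrix (Fin a) (Fin a) F)) ∧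
      (∀ g ∈ H, ∃ P : Fin 2 → GL (Fin a) F, LinearMap.toMatrix b' b' (Matrix.toLin' (g : Matrix ι ι F)) =
        permMat F a 1 * piMat (fun i => (P i : Matrix (Fin a) (Fin a) F))) ∧
      (∀ x : Fin 2 → Fin a → F, pureT b' x = pure2 b (x 0) (x 1)) := by
  let E := (finTwoArrowEquiv (Fin a))
  refine ⟨b.reindex E.symm, ?_, ?_, ?_⟩
  · ext α β
    have h1 := congrFun (congrFun h.gram (α 0, α 1)) (β 0, β 1)
    have h2 : ∀ γ : Fin 2 → Fin a, b.reindex E.symm γ = b (γ 0, γ 1) := by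
      intro γ
      rw [Basis.reindex_apply]; rfl
    simp only [gramB] at h1 ⊢
    rw [h2, h2, h1]
    simp [piMat, Fin.prod_univ_two, Matrix.kroneckerMap_apply]
  · intro g hg
    obtain ⟨P, Q, μ, hμ, h1, h2, h3⟩ := h.act g hg
    refine ⟨![P, Q], ?_⟩
    rw [permMat_one, one_mul]
    ext α β
    have h4 := congrFun (congrFun h1 (α 0, α 1)) (β 0, β 1)
    rw [LinearMap.toMatrix_apply] at h4 ⊢
    rw [Basis.repr_reindex_apply, Basis.reindex_apply]
    have e1 : E.symm.symm α = (α 0, α 1) := rfl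
    have e2 : E.symm.symm β = (β 0, β 1) := rfl
    rw [e1, e2, h4]
    simp [piMat, Fin.prod_univ_two, Matrix.kroneckerMap_apply]
  · intro x
    unfold pureT pure2
    rw [← E.sum_comp]
    apply Finset.sum_congr rfl
    intro α _
    rw [Basis.reindex_apply, Fin.prod_univ_two]
    rfl

section

variable [Fintype F] [Nonempty ι] {q : ℕ} {σ : F ≃+* F} {f : (ι → F) → (ι → F) → F}

/-- **Tensor decompositions of unitary forms.** -/
theorem TensorForm.uni_cases (hq : ∀ x, σ x = x ^ q) (hf : IsUnitaryForm σ f) {H : Subgroup (GL ι F)} {a k : ℕ}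
    {b : Basis (Fin a × Fin k) F (ι → F)} {G₁ : GL (Fin a) F} {G₂ : GL (Fin k) F} {c l₁ l₂ : F}
    (h : TensorForm σ f H a k b G₁ G₂ c l₁ l₂) :
    (∃ M, UniMember q f M ∧ H ≤ M) ∨
    (∃ (b' : Basis (Fin 2 × Fin 2) F (ι → F)) (c' : F), TensorForm σ f H 2 2 b' 1 1 c' 1 1) ∨
    (q = 2 ∧ ∃ (b' : Basis (Fin 3 × Fin 3) F (ι → F)) (c' : F), TensorForm σ f H 3 3 b' 1 1 c' 1 1) := by
  have hE := EForm.of_unitary hf
  have hfun : (σ : F → F) = fun x : F => x ^ q := funext hq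
  obtain ⟨b', c', h'⟩ := h.exists_one hE hf.ne_refl
  have key : ∀ {n : ℕ}, IsUnitaryFormPow q (formOfGram σ ((1 : GL (Fin n) F) : Matrix (Fin n) (Fin n) F)) := by
    intro n
    apply isUnitaryFormPow_formOfGram σ hq hf.involutive (Matrix.GeneralLinearGroup.det_ne_zero 1)
    ext i j
    by_cases hij : i = j
    · subst hij; simp
    · simp [hij, Ne.symm hij]
  have hne : ∀ {a k : ℕ} {b : Basis (Fin a × Fin k) F (ι → F)} {c : F}, a < k → TensorForm σ f H a k b 1 1 c 1 1 →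
      ∃ M, UniMember q f M ∧ H ≤ M := by
    intro a k b c hak h
    obtain ⟨e⟩ := h.equiv
    have hst := isTensorFormStructure_of_gram hE b e h.c_ne h.gram
    rw [hfun] at hst
    exact ⟨_, Or.inr (Or.inr (Or.inr (Or.inr (Or.inr (Or.inl ⟨a, k, e, basisGL b e, _, _, h.two_le₁, hak, by rw [← hfun]; exact key, by rw [← hfun]; exact key, hst, rfl⟩))))),
      h.le_tensor e⟩
  rcases lt_trichotomy a k with hak | hak | hak
  · exact Or.inl (hne hak h')
  · subst hak
    by_cases ha2 : a = 2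
    · subst ha2
      exact Or.inr (Or.inl ⟨b', c', h'⟩)
    by_cases hex : q = 2 ∧ a = 3
    · obtain ⟨h1, rfl⟩ := hex
      exact Or.inr (Or.inr ⟨h1, b', c', h'⟩)
    left
    have ha3 : 3 ≤ a := by have := h'.two_le₁; omega
    obtain ⟨b'', hgram, hact, -⟩ := h'.toPower
    obtain ⟨e⟩ : Nonempty (ι ≃ (Fin 2 → Fin a)) := ⟨Fintype.equivOfCardEq (by simp [h'.card_eq, pow_two])⟩
    have hst := isTensorPowerFormStructure_of_gram hE b'' e h'.c_ne hgram
    rw [hfun] at hst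
    refine ⟨_, Or.inr (Or.inr (Or.inr (Or.inr (Or.inr (Or.inr (Or.inr (Or.inr (Or.inr (Or.inr ⟨a, 2, e, basisGL b'' e, _, ha3, le_rfl, hex,
      by rw [← hfun]; exact key, hst, rfl⟩))))))))), ?_⟩
    intro g hg
    obtain ⟨P, hP⟩ := hact g hg
    exact mem_tensorWreathSubgroup b'' e g 1 P hP
  · exact Or.inl (hne hak h'.swap)

/-- **Tensor powers of unitary forms.** -/
theorem PowerForm.uni_member (hq : ∀ x, σ x = x ^ q) (hf : IsUnitaryForm σ f)
    {H : Subgroup (GL ι F)} {k : ℕ} {L : Fin k → Subgroup (GL ι F)} {a : ℕ}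
    {φ : Fin k → (Matrix (Fin a) (Fin a) F →ₐ[F] Module.End F (ι → F))} {b : Basis (Fin k → Fin a) F (ι → F)}
    {G : GL (Fin a) F} {c l : F} (hP : PowerForm σ f L a φ b G c l) (hk : 2 ≤ k) (ha : 3 ≤ a)
    (hperm : ∀ g ∈ H, ∃ σ : Equiv.Perm (Fin k), ∀ i, ∀ x ∈ L i, g * x * g⁻¹ ∈ L (σ i))
    (hex : ¬ (q = 2 ∧ a = 3)) : ∃ M, UniMember q f M ∧ H ≤ M := by
  have hE := EForm.of_unitary hf
  have hfun : (σ : F → F) = fun x : F => x ^ q := funext hq
  obtain ⟨d, hd, hd'⟩ := exists_herm_scalar hf.ne_refl hf.involutive hP.l_mul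
  have hG' : ((d • (G : Matrix (Fin a) (Fin a) F)).map σ)ᵀ = d • (G : Matrix (Fin a) (Fin a) F) := by
    rw [map_smulMat, Matrix.transpose_smul, hP.G_star, smul_smul, hd']
  have hdet : (d • (G : Matrix (Fin a) (Fin a) F)).det ≠ 0 := by
    rw [Matrix.det_smul]
    exact mul_ne_zero (pow_ne_zero _ hd) (Matrix.GeneralLinearGroup.det_ne_zero G)
  have hgram : gramB f b = (c * (d ^ k)⁻¹) • piMat (fun _ : Fin k => d • (G : Matrix (Fin a) (Fin a) F)) := by
    rw [hP.gram]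
    ext α β
    have hdk := pow_ne_zero k hd
    simp only [Matrix.smul_apply, piMat, smul_eq_mul, Finset.prod_mul_distrib, Finset.prod_const, Finset.card_univ, Fintype.card_fin]
    field_simp
  obtain ⟨e⟩ : Nonempty (ι ≃ (Fin k → Fin a)) := ⟨Fintype.equivOfCardEq (by simp [hP.card_eq])⟩
  have hst := isTensorPowerFormStructure_of_gram hE b e (mul_ne_zero hP.c_ne (inv_ne_zero (pow_ne_zero _ hd))) hgram
  rw [hfun] at hst
  exact ⟨_, Or.inr (Or.inr (Or.inr (Or.inr (Or.inr (Or.inr (Or.inr (Or.inr (Or.inr (Or.inr ⟨a, k, e, basisGL b e, _, ha, hk, hex,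
    by rw [← hfun]; exact isUnitaryFormPow_formOfGram σ hq hf.involutive hdet hG', hst, rfl⟩))))))))), hP.le_wreath (by omega) e hperm⟩

end

end Cfsg.Agent.Asch
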