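import Mathlib
import Cfsg.Prelude.Def_GeometricClasses
import Cfsg.Agent.Asch.UniTensor
import Cfsg.Agent.Asch.PaQb
import Cfsg.Agent.Uni.Basis
set_option autoImplicit false
set_option linter.unusedSectionVars false

/-!
Perfect components exclude the soluble factor groups.
-/

namespace Cfsg.Agent.Asch

open Module Cfsg.Geo EForm

open scoped Matrix Kronecker MatrixGroups

variable {ι : Type} [Fintype ι] [DecidableEq ι] {F : Type*} [Field F]

namespace PowerForm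

variable {σ : F ≃+* F} {ε : F} {f : (ι → F) → (ι → F) → F} {k : ℕ} {L : Fin k → Subgroup (GL ι F)} {a : ℕ}
    {φ : Fin k → (Matrix (Fin a) (Fin a) F →ₐ[F] Module.End F (ι → F))} {b : Basis (Fin k → Fin a) F (ι → F)}
    {G : GL (Fin a) F} {c l : F}

/-- the representation of a component on its tensor factor -/
theorem exists_hom [Nonempty ι] (hP : PowerForm σ f L a φ b G c l) (i : Fin k) :
    ∃ ψ : L i →* GL (Fin a) F, Function.Injective ψ ∧
      ∀ x : L i, φ i (ψ x : Matrix (Fin a) (Fin a) F) = Matrix.toLin' ((x : GL ι F) : Matrix ι ι F) := by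
  have hmem : ∀ x : L i, (Matrix.toLin' ((x : GL ι F) : Matrix ι ι F) : Module.End F (ι → F)) ∈ (φ i).range := by
    intro x
    rw [hP.range_eq]
    exact toLin'_mem_spanAlg x.2
  let E := AlgEquiv.ofInjective (φ i) (hP.φ_injective i)
  have hE : ∀ y : (φ i).range, φ i (E.symm y) = y := by
    intro y
    have := E.apply_symm_apply y
    exact congrArg Subtype.val this
  let m : L i →* Matrix (Fin a) (Fin a) F :=
    { toFun := fun x => E.symm ⟨_, hmem x⟩
      map_one' := by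
        apply hP.φ_injective i
        rw [hE, map_one]
        show (Matrix.toLin' ((1 : GL ι F) : Matrix ι ι F) : Module.End F (ι → F)) = 1
        rw [Units.val_one, Matrix.toLin'_one]; rfl
      map_mul' := by
        intro x y
        apply hP.φ_injective i
        rw [hE, map_mul, hE, hE]
        show (Matrix.toLin' (((x : GL ι F) * (y : GL ι F) : GL ι F) : Matrix ι ι F) : Module.End F (ι → F)) = _
        rw [Units.val_mul, Matrix.toLin'_mul]; rfl }
  have hm : ∀ x : L i, φ i (m.toHomUnits x : Matrix (Fin a) (Fin a) F) = Matrix.toLin' ((x : GL ι F) : Matrix ι ι F) := by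
    intro x
    show φ i (E.symm ⟨_, hmem x⟩) = _
    rw [hE]
  refine ⟨m.toHomUnits, ?_, hm⟩
  intro x y hxy
  have h1 := hm x
  rw [hxy, hm y] at h1
  apply Subtype.ext
  apply Units.ext
  exact (Matrix.toLin'.injective h1).symm

/-- a component with image in a soluble group is not perfect -/
theorem false_of_solvable [Nonempty ι] {M : Type*} [Group M] [Group.IsSolvable M] (i : Fin k) (ρ : L i →* M) (hρ : Function.Injective ρ)
    (hperf : ⁅L i, L i⁆ = L i) (hnt : ¬ L i ≤ scalars ι F) : False := by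
  have h1 : ⁅(⊤ : Subgroup (L i)), (⊤ : Subgroup (L i))⁆ = ⊤ := by
    have h2 := Subgroup.map_commutator (⊤ : Subgroup (L i)) (⊤ : Subgroup (L i)) (L i).subtype
    rw [← MonoidHom.range_eq_map, Subgroup.range_subtype, hperf] at h2
    have h3 : (⁅(⊤ : Subgroup (L i)), (⊤ : Subgroup (L i))⁆).map (L i).subtype = (⊤ : Subgroup (L i)).map (L i).subtype := by
      rw [h2, ← MonoidHom.range_eq_map, Subgroup.range_subtype]
    exact Subgroup.map_injective (L i).subtype_injective h3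
  have h2 : ⁅ρ.range, ρ.range⁆ = ρ.range := by
    rw [MonoidHom.range_eq_map, ← Subgroup.map_commutator, h1]
  have h3 : ρ.range = ⊥ := by
    by_contra hne
    exact (Group.IsSolvable.commutator_lt_of_ne_bot hne).ne h2
  apply hnt
  intro x hx
  have h4 : ρ ⟨x, hx⟩ = 1 := by
    have : ρ ⟨x, hx⟩ ∈ ρ.range := ⟨_, rfl⟩
    rw [h3] at this
    exact this
  have h5 : (⟨x, hx⟩ : L i) = 1 := hρ (by rw [h4, map_one])
  have h6 : x = 1 := congrArg Subtype.val h5
  rw [h6]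
  exact (scalars ι F).one_mem

/-- `GL₂(3)` is soluble -/
theorem false_of_two_three [Fintype F] [Nonempty ι] (hP : PowerForm σ f L a φ b G c l) (hk : 0 < k)
    (hperf : ∀ i, ⁅L i, L i⁆ = L i) (hnt : ∀ i, ¬ L i ≤ scalars ι F) (hF : Fintype.card F = 3) (ha : a = 2) : False := by
  subst ha
  obtain ⟨ψ, hψ, -⟩ := hP.exists_hom ⟨0, hk⟩
  have hcard : Nat.card (GL (Fin 2) F) = 2 ^ 4 * 3 ^ 1 := by
    rw [Matrix.card_GL_field, hF]
    simp [Fin.prod_univ_two]
  have hsolv : Group.IsSolvable (GL (Fin 2) F) := PaQb.isSolvable 2 3 4 1 Nat.prime_two Nat.prime_three hcard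
  exact false_of_solvable ⟨0, hk⟩ ψ hψ (hperf _) (hnt _)

/-- `GU₃(2)` is soluble -/
theorem false_of_three_two [Fintype F] [Nonempty ι] (hP : PowerForm σ f L a φ b G c l) (hf : EForm σ ε f) (hk : 0 < k)
    (hq : ∀ x, σ x = x ^ 2) (hσ : σ ≠ RingEquiv.refl F)
    (hL : ∀ i, ∀ x ∈ L i, IsIsom f x)
    (hperf : ∀ i, ⁅L i, L i⁆ = L i) (hnt : ∀ i, ¬ L i ≤ scalars ι F) (hF : Fintype.card F = 2 ^ 2) (ha : a = 3) : False := by
  subst ha
  obtain ⟨ψ, hψ, hψ'⟩ := hP.exists_hom ⟨0, hk⟩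
  have hG : ∀ x : L ⟨0, hk⟩, (ψ x : Matrix (Fin 3) (Fin 3) F)ᵀ * (G : Matrix (Fin 3) (Fin 3) F) * (ψ x : Matrix (Fin 3) (Fin 3) F).map σ =
      (G : Matrix (Fin 3) (Fin 3) F) := fun x => hP.comp_isom (hL ⟨0, hk⟩) ⟨x, x.2, hψ' x⟩
  obtain ⟨d, hd, hd'⟩ := exists_herm_scalar hσ hf.invol hP.l_mul
  have hG' : ((smulGL d hd G : Matrix (Fin 3) (Fin 3) F).map σ)ᵀ = (smulGL d hd G : Matrix (Fin 3) (Fin 3) F) := by
    rw [coe_smulGL, map_smulMat, Matrix.transpose_smul, hP.G_star, smul_smul, hd']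
  obtain ⟨X, hX⟩ := exists_herm_one hσ hf.invol hG'
  have hmm : ∀ A B : Matrix (Fin 3) (Fin 3) F, (A * B).map σ = A.map σ * B.map σ := fun A B => Matrix.map_mul (f := (σ : F →+* F))
  have hone : (1 : Matrix (Fin 3) (Fin 3) F).map σ = 1 := by
    ext i j
    by_cases hij : i = j
    · subst hij; simp
    · simp [hij]
  have hXi : (X : Matrix (Fin 3) (Fin 3) F) * ((X⁻¹ : GL (Fin 3) F) : Matrix (Fin 3) (Fin 3) F) = 1 := by
    rw [← Units.val_mul, mul_inv_cancel, Units.val_one]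
  have hXm : (X : Matrix (Fin 3) (Fin 3) F).map σ * ((X⁻¹ : GL (Fin 3) F) : Matrix (Fin 3) (Fin 3) F).map σ = 1 := by
    rw [← hmm, hXi, hone]
  have hXt : ((X⁻¹ : GL (Fin 3) F) : Matrix (Fin 3) (Fin 3) F)ᵀ * (X : Matrix (Fin 3) (Fin 3) F)ᵀ = 1 := by
    rw [← Matrix.transpose_mul, hXi, Matrix.transpose_one]
  have hY : ∀ x : L ⟨0, hk⟩, ((X⁻¹ * ψ x * X : GL (Fin 3) F) : Matrix (Fin 3) (Fin 3) F)ᵀ *
      ((X⁻¹ * ψ x * X : GL (Fin 3) F) : Matrix (Fin 3) (Fin 3) F).map σ = 1 := by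
    intro x
    rw [Units.val_mul, Units.val_mul, hmm, hmm, Matrix.transpose_mul, Matrix.transpose_mul]
    calc (X : Matrix (Fin 3) (Fin 3) F)ᵀ * ((ψ x : Matrix (Fin 3) (Fin 3) F)ᵀ * ((X⁻¹ : GL (Fin 3) F) : Matrix (Fin 3) (Fin 3) F)ᵀ) *
          (((X⁻¹ : GL (Fin 3) F) : Matrix (Fin 3) (Fin 3) F).map σ * (ψ x : Matrix (Fin 3) (Fin 3) F).map σ * (X : Matrix (Fin 3) (Fin 3) F).map σ)
        = (X : Matrix (Fin 3) (Fin 3) F)ᵀ * ((ψ x : Matrix (Fin 3) (Fin 3) F)ᵀ * (((X⁻¹ : GL (Fin 3) F) : Matrix (Fin 3) (Fin 3) F)ᵀ * 1 *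
          ((X⁻¹ : GL (Fin 3) F) : Matrix (Fin 3) (Fin 3) F).map σ) * (ψ x : Matrix (Fin 3) (Fin 3) F).map σ) * (X : Matrix (Fin 3) (Fin 3) F).map σ := by
          simp only [mul_assoc, one_mul]
      _ = (X : Matrix (Fin 3) (Fin 3) F)ᵀ * ((ψ x : Matrix (Fin 3) (Fin 3) F)ᵀ * (smulGL d hd G : Matrix (Fin 3) (Fin 3) F) *
          (ψ x : Matrix (Fin 3) (Fin 3) F).map σ) * (X : Matrix (Fin 3) (Fin 3) F).map σ := by
          have h1 : ((X⁻¹ : GL (Fin 3) F) : Matrix (Fin 3) (Fin 3) F)ᵀ * 1 * ((X⁻¹ : GL (Fin 3) F) : Matrix (Fin 3) (Fin 3) F).map σ =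
              (smulGL d hd G : Matrix (Fin 3) (Fin 3) F) := by
            rw [← hX]
            calc _ = (((X⁻¹ : GL (Fin 3) F) : Matrix (Fin 3) (Fin 3) F)ᵀ * (X : Matrix (Fin 3) (Fin 3) F)ᵀ) * (smulGL d hd G : Matrix (Fin 3) (Fin 3) F) *
                ((X : Matrix (Fin 3) (Fin 3) F).map σ * ((X⁻¹ : GL (Fin 3) F) : Matrix (Fin 3) (Fin 3) F).map σ) := by simp only [mul_assoc]
              _ = _ := by rw [hXt, hXm, one_mul, mul_one]
          rw [h1]
      _ = 1 := by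
          rw [coe_smulGL, Matrix.mul_smul, Matrix.smul_mul, hG x, ← coe_smulGL d hd G, hX]
  have hGU : ∀ x : L ⟨0, hk⟩, X⁻¹ * ψ x * X ∈ GU 3 F 2 := by
    intro x
    rw [Uni.mem_GU]
    intro u v
    have h1 := hY x
    set Y := ((X⁻¹ * ψ x * X : GL (Fin 3) F) : Matrix (Fin 3) (Fin 3) F)
    have h2 : ∀ u v : Fin 3 → F, hermForm 3 F 2 u v = u ⬝ᵥ (fun i => σ (v i)) := by
      intro u v
      unfold hermForm dotProduct
      simp only [hq]
    have h3 : (fun i => σ ((Y *ᵥ v) i)) = Y.map σ *ᵥ (fun i => σ (v i)) := by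
      funext i
      simp [Matrix.mulVec, dotProduct, map_sum]
    rw [h2, h2, h3, ← Matrix.vecMul_transpose, ← Matrix.dotProduct_mulVec, Matrix.mulVec_mulVec, h1, Matrix.one_mulVec]
  let ρ : L ⟨0, hk⟩ →* GU 3 F 2 :=
    { toFun := fun x => ⟨X⁻¹ * ψ x * X, hGU x⟩
      map_one' := by
        apply Subtype.ext
        show X⁻¹ * ψ 1 * X = 1
        rw [map_one]; group
      map_mul' := by
        intro x y
        apply Subtype.ext
        show X⁻¹ * ψ (x * y) * X = (X⁻¹ * ψ x * X) * (X⁻¹ * ψ y * X)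
        rw [map_mul]; group }
  have hρ : Function.Injective ρ := by
    intro x y hxy
    apply hψ
    have h1 : X⁻¹ * ψ x * X = X⁻¹ * ψ y * X := congrArg Subtype.val hxy
    exact mul_left_cancel (mul_right_cancel h1)
  have hcard : Nat.card (GU 3 F 2) = 2 ^ 3 * 3 ^ 4 := by
    rw [Uni.card_GU hF]
    simp [Finset.prod_range_succ]
  have hsolv : Group.IsSolvable (GU 3 F 2) := PaQb.isSolvable 2 3 3 4 Nat.prime_two Nat.prime_three hcard
  exact false_of_solvable ⟨0, hk⟩ ρ hρ (hperf _) (hnt _)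

end PowerForm

end Cfsg.Agent.Asch
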