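import Mathlib
import Cfsg.Prelude.Def_GeometricClasses
import Cfsg.Agent.Asch.SymplMain
import Cfsg.Agent.Asch.ExtraCount
set_option autoImplicit false
set_option linter.unusedSectionVars false

/-!
A spanning group of isometries all of whose commutators and squares are `±1`: the number of involutions is determined by
the symmetry of the form.
-/

namespace Cfsg.Agent.Asch.Sympl

open Module Cfsg.Geo

open scoped Matrix MatrixGroups Classical

open Cfsg.Agent.Asch.ExtraCount

/-- summing a function of the coset -/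
theorem sum_mk {G : Type*} [Group G] [Fintype G] (S : Subgroup G) (g : G ⧸ S → ℤ) :
    ∑ x : G, g (QuotientGroup.mk x) = Nat.card S * ∑ q : G ⧸ S, g q := by
  have h1 : ∑ x : G, g (QuotientGroup.mk x) = ∑ x : G, (fun p : (G ⧸ S) × S => g p.1) (Subgroup.groupEquivQuotientProdSubgroup x) := rfl
  rw [h1, Equiv.sum_comp Subgroup.groupEquivQuotientProdSubgroup (fun p : (G ⧸ S) × S => g p.1), Fintype.sum_prod_type]
  simp only [Finset.sum_const, Finset.card_univ, nsmul_eq_mul]
  rw [← Finset.mul_sum, Nat.card_eq_fintype_card]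

variable {ι : Type} [Fintype ι] [DecidableEq ι] {F : Type*} [Field F]

/-- symmetric matrices are functions on `Sym2 ι` -/
def symEquiv (ι : Type) (F : Type*) : {A : Matrix ι ι F // Aᵀ = A} ≃ (Sym2 ι → F) where
  toFun A := Sym2.lift ⟨fun i j => A.1 i j, fun i j => by
    have := congrFun (congrFun A.2 i) j
    rw [Matrix.transpose_apply] at this
    exact this.symm⟩
  invFun g := ⟨Matrix.of fun i j => g s(i, j), by
    ext i j
    rw [Matrix.transpose_apply, Matrix.of_apply, Matrix.of_apply, Sym2.eq_swap]⟩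
  left_inv A := by
    apply Subtype.ext
    ext i j
    rfl
  right_inv g := by
    ext p
    induction p using Sym2.ind with
    | _ i j => rfl

/-- data: `N` spans, its scalars, commutators and squares are `±1`, and `N` preserves the (skew-)symmetric Gram matrix `J` -/
structure IsoData (N : Subgroup (GL ι F)) (J : Matrix ι ι F) (ε : ℤ) : Prop where
  sd : SymplData N
  two : (2 : F) ≠ 0
  scal : ∀ g ∈ N, ∀ c : F, (g : Matrix ι ι F) = c • (1 : Matrix ι ι F) → c = 1 ∨ c = -1
  sqs : ∀ g ∈ N, ∃ c : F, (g : Matrix ι ι F) * (g : Matrix ι ι F) = c • (1 : Matrix ι ι F)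
  eps : ε = 1 ∨ ε = -1
  det : J.det ≠ 0
  symm : Jᵀ = (ε : F) • J
  iso : ∀ g ∈ N, (g : Matrix ι ι F)ᵀ * J * (g : Matrix ι ι F) = J
  neg : sc ι F (-1) ∈ N

namespace IsoData

variable {N : Subgroup (GL ι F)} {J : Matrix ι ι F} {ε : ℤ}

/-- the central involution -/
def zz (h : IsoData N J ε) : N := ⟨sc ι F (-1), h.neg⟩

theorem sc_neg_ne [Nonempty ι] (h : IsoData N J ε) : sc ι F (-1) ≠ (1 : GL ι F) := by
  intro h1
  rw [← map_one (sc ι F)] at h1
  have h2 := congrArg (fun u : Fˣ => (u : F)) (sc_injective h1)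
  simp only [Units.val_neg, Units.val_one] at h2
  apply h.two
  linear_combination -h2

theorem mem_scal [Nonempty ι] (h : IsoData N J ε) {g : GL ι F} (hg : g ∈ N) (hs : g ∈ scalars ι F) :
    g = 1 ∨ g = sc ι F (-1) := by
  obtain ⟨c, hc⟩ := mem_scalars.1 hs
  have h1 := h.scal g hg c (by rw [← hc, sc_val])
  rcases h1 with h1 | h1
  · left
    rw [← hc, show c = 1 from Units.ext h1, map_one]
  · right
    rw [← hc, show c = -1 from Units.ext (by rw [h1]; simp)]

theorem exSp [Nonempty ι] (h : IsoData N J ε) : ExSp N h.zz where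
  central x := by
    apply Subtype.ext
    exact (sc_commute (-1) (x : GL ι F)).eq
  ne_one := by
    intro h1
    exact h.sc_neg_ne (congrArg (fun x : N => (x : GL ι F)) h1)
  sq := by
    apply Subtype.ext
    show sc ι F (-1) * sc ι F (-1) = 1
    rw [← map_mul, neg_mul_neg, one_mul, map_one]
  com x y := by
    have h1 := h.sd.comm x x.2 y y.2
    have h2 : (x : GL ι F) * y * (x : GL ι F)⁻¹ * (y : GL ι F)⁻¹ ∈ N :=
      N.mul_mem (N.mul_mem (N.mul_mem x.2 y.2) (N.inv_mem x.2)) (N.inv_mem y.2)
    have e : (x : GL ι F) * y = ((x : GL ι F) * y * (x : GL ι F)⁻¹ * (y : GL ι F)⁻¹) * (y * x) := by group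
    rcases h.mem_scal h2 h1 with h3 | h3
    · left
      apply Subtype.ext
      show (x : GL ι F) * y = y * x
      rw [e, h3, one_mul]
    · right
      apply Subtype.ext
      show (x : GL ι F) * y = sc ι F (-1) * (y * x)
      rw [e, h3]
  sqs x := by
    obtain ⟨c, hc⟩ := h.sqs x x.2
    have h1 : (x : GL ι F) * x ∈ N := N.mul_mem x.2 x.2
    have h2 : (x : GL ι F) * x ∈ scalars ι F := by
      rw [mem_scalars_iff]
      have hc0 : c ≠ 0 := by
        rintro rfl
        rw [zero_smul, ← Units.val_mul] at hc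
        exact val_ne_zero _ hc
      exact ⟨Units.mk0 c hc0, by rw [Units.val_mul, hc]; rfl⟩
    rcases h.mem_scal h1 h2 with h3 | h3
    · left; exact Subtype.ext h3
    · right; exact Subtype.ext h3
  cen x hx := by
    have h1 := mem_scalars_of_commute h.sd.span (x := (x : GL ι F)) (fun g hg => congrArg (fun y : N => (y : GL ι F)) (hx ⟨g, hg⟩))
    rcases h.mem_scal x.2 h1 with h3 | h3
    · left; exact Subtype.ext h3
    · right; exact Subtype.ext h3

theorem mul_self [Nonempty ι] (h : IsoData N J ε) (x : N) :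
    ((x : GL ι F) : Matrix ι ι F) * ((x : GL ι F) : Matrix ι ι F) = (sg x : F) • (1 : Matrix ι ι F) := by
  rw [← Units.val_mul]
  rcases h.exSp.sg_cases x with ⟨h1, h2⟩ | ⟨h1, h2⟩
  · have h3 : (x : GL ι F) * x = 1 := congrArg (fun y : N => (y : GL ι F)) h2
    rw [h1, h3]; simp
  · have h3 : (x : GL ι F) * x = sc ι F (-1) := congrArg (fun y : N => (y : GL ι F)) h2
    rw [h1, h3, sc_val]; simp

/-- `xᵀ J = η J x` -/
theorem transpose_mul [Nonempty ι] (h : IsoData N J ε) (x : N) :
    ((x : GL ι F) : Matrix ι ι F)ᵀ * J = (sg x : F) • (J * ((x : GL ι F) : Matrix ι ι F)) := by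
  have h1 := h.iso x x.2
  have h2 := h.mul_self x
  have h3 : ((x : GL ι F) : Matrix ι ι F)ᵀ * J * (((x : GL ι F) : Matrix ι ι F) * ((x : GL ι F) : Matrix ι ι F)) = J * ((x : GL ι F) : Matrix ι ι F) := by
    rw [← mul_assoc, h1]
  rw [h2, Matrix.mul_smul, Matrix.mul_one] at h3
  rw [← h3, smul_smul]
  have h4 : (sg x : F) * (sg x : F) = 1 := by
    rcases h.exSp.sg_cases x with ⟨h5, _⟩ | ⟨h5, _⟩ <;> rw [h5] <;> simp
  rw [h4, one_smul]

theorem sg_out [Nonempty ι] (h : IsoData N J ε) (x : N) : sg x = sg ((QuotientGroup.mk x : Kq N).out) := by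
  have h1 : (QuotientGroup.mk x : Kq N) = QuotientGroup.mk ((QuotientGroup.mk x : Kq N).out) := (QuotientGroup.out_eq' _).symm
  rw [QuotientGroup.eq] at h1
  set y := (QuotientGroup.mk x : Kq N).out with hy
  have h2 : ((x⁻¹ * y : N) : GL ι F) ∈ scalars ι F := h1
  have h3 : y = x * (x⁻¹ * y) := by group
  rw [h3, h.exSp.sg_mul]
  have h4 : x⁻¹ * y = 1 ∨ x⁻¹ * y = h.zz := by
    rcases h.mem_scal (x⁻¹ * y).2 h2 with h5 | h5
    · left; exact Subtype.ext h5
    · right; exact Subtype.ext h5
  rcases h4 with h4 | h4 <;> rw [h4]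
  · simp [sg, chi]
  · rw [show sg h.zz = 1 from if_pos h.exSp.sq, show chi x h.zz = 1 from if_pos (h.exSp.central x).symm]
    ring

theorem coeff_zero [Nonempty ι] (h : IsoData N J ε) {M : Matrix ι ι F} (hsym : (Mᵀ * J)ᵀ = Mᵀ * J) (q : Kq N)
    (hq : sg (q.out : N) ≠ ε) : h.sd.bas.repr M q = 0 := by
  have := h.sd.finite_Kq
  have := Fintype.ofFinite (Kq N)
  have hJunit : IsUnit J.det := isUnit_iff_ne_zero.2 h.det
  have hbT : ∀ q : Kq N, (rep q : Matrix ι ι F)ᵀ * J = (sg (q.out : N) : F) • (J * (rep q : Matrix ι ι F)) := fun q => h.transpose_mul q.out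
  have hJM : (ε : F) • (J * M) = Mᵀ * J := by
    rw [Matrix.transpose_mul, Matrix.transpose_transpose, h.symm, Matrix.smul_mul] at hsym
    exact hsym
  have hsumM : ∑ q, h.sd.bas.repr M q • (rep q : Matrix ι ι F) = M := by
    have h1 := h.sd.bas.sum_repr M
    simp only [h.sd.bas_apply] at h1
    exact h1
  generalize hcdef : (fun q => h.sd.bas.repr M q) = c at *
  have hcq : ∀ q, h.sd.bas.repr M q = c q := fun q => congrFun hcdef q
  simp only [hcq] at *
  have hc : ∀ q, ((sg (q.out : N) : F) * c q - (ε : F) * c q) = 0 := by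
    have h2 := h.sd.li
    rw [Fintype.linearIndependent_iff] at h2
    apply h2
    have h3 : J * (∑ q, ((sg (q.out : N) : F) * c q - (ε : F) * c q) • (rep q : Matrix ι ι F)) = 0 := by
      rw [Finset.mul_sum]
      have h4 : ∀ q : Kq N, J * (((sg (q.out : N) : F) * c q - (ε : F) * c q) • (rep q : Matrix ι ι F)) =
          (c q • (rep q : Matrix ι ι F))ᵀ * J - (ε : F) • (J * (c q • (rep q : Matrix ι ι F))) := by
        intro q
        rw [Matrix.transpose_smul, Matrix.smul_mul, hbT, Matrix.mul_smul, Matrix.mul_smul, sub_smul, smul_smul, smul_smul]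
        congr 2
        rw [mul_comm]
      rw [Finset.sum_congr rfl (fun q _ => h4 q), Finset.sum_sub_distrib, ← Finset.sum_mul, ← Finset.smul_sum, ← Finset.mul_sum,
        ← Matrix.transpose_sum, hsumM, hJM, sub_self]
    have h5 := congrArg (fun X => J⁻¹ * X) h3
    simp only [Matrix.nonsing_inv_mul_cancel_left _ _ hJunit, mul_zero] at h5
    exact h5
  have h6 := hc q
  rw [← sub_mul] at h6
  rcases mul_eq_zero.1 h6 with h7 | h7
  · exfalso
    have h8 : (sg (q.out : N) : F) = (ε : F) := sub_eq_zero.1 h7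
    rcases h.exSp.sg_cases (q.out : N) with ⟨h9, _⟩ | ⟨h9, _⟩ <;> rcases h.eps with h10 | h10
    · exact hq (h9.trans h10.symm)
    · rw [h9, h10] at h8
      apply h.two
      push_cast at h8
      linear_combination h8
    · rw [h9, h10] at h8
      apply h.two
      push_cast at h8
      linear_combination -h8
    · exact hq (h9.trans h10.symm)
  · exact h7

/-- extension by zero -/
noncomputable def extT (N : Subgroup (GL ι F)) (ε : ℤ) (g : {q : Kq N // sg (q.out : N) = ε} → F) (q : Kq N) : F :=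
  if hq : sg (q.out : N) = ε then g ⟨q, hq⟩ else 0

/-- number of cosets with `x² = ε` -/
theorem card_T [Nonempty ι] [Fintype F] (h : IsoData N J ε) :
    Nat.card {q : Kq N // sg (q.out : N) = ε} = (Fintype.card ι + 1).choose 2 := by
  have := h.sd.finite_Kq
  have := Fintype.ofFinite (Kq N)
  have hJunit : IsUnit J.det := isUnit_iff_ne_zero.2 h.det
  have hbT : ∀ q : Kq N, (rep q : Matrix ι ι F)ᵀ * J = (sg (q.out : N) : F) • (J * (rep q : Matrix ι ι F)) := fun q => h.transpose_mul q.out
  have hsym : ∀ g : {q : Kq N // sg (q.out : N) = ε} → F,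
      ((∑ q : Kq N, extT N ε g q • (rep q : Matrix ι ι F))ᵀ * J)ᵀ = (∑ q : Kq N, extT N ε g q • (rep q : Matrix ι ι F))ᵀ * J := by
    intro g
    rw [Matrix.transpose_mul, Matrix.transpose_transpose, h.symm, Matrix.transpose_sum, Finset.sum_mul, Finset.mul_sum]
    apply Finset.sum_congr rfl
    intro q _
    rw [Matrix.transpose_smul, Matrix.smul_mul, Matrix.mul_smul, Matrix.smul_mul, smul_smul, hbT q, smul_smul]
    unfold extT
    split_ifs with hq
    · rw [hq, mul_comm]
    · simp
  have hinj : Function.Injective (fun g : {q : Kq N // sg (q.out : N) = ε} → F =>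
      (⟨_, hsym g⟩ : {A : Matrix ι ι F // Aᵀ = A})) := by
    intro g g' hgg
    have h1 := congrArg (fun A : {A : Matrix ι ι F // Aᵀ = A} => (A.1 * J⁻¹)ᵀ) hgg
    simp only [Matrix.mul_nonsing_inv_cancel_right _ _ hJunit, Matrix.transpose_transpose] at h1
    have h2 := h.sd.li
    rw [Fintype.linearIndependent_iff] at h2
    have h3 : ∀ q, extT N ε g q - extT N ε g' q = 0 := by
      apply h2
      simp only [sub_smul, Finset.sum_sub_distrib]
      rw [h1, sub_self]
    funext ⟨q, hq⟩
    have h4 := h3 q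
    simp only [extT, dif_pos hq] at h4
    exact sub_eq_zero.1 h4
  have hsurj : Function.Surjective (fun g : {q : Kq N // sg (q.out : N) = ε} → F =>
      (⟨_, hsym g⟩ : {A : Matrix ι ι F // Aᵀ = A})) := by
    rintro ⟨A, hA⟩
    obtain ⟨M, hMJ⟩ : ∃ M : Matrix ι ι F, Mᵀ * J = A :=
      ⟨(A * J⁻¹)ᵀ, by rw [Matrix.transpose_transpose, Matrix.nonsing_inv_mul_cancel_right _ _ hJunit]⟩
    have hsumM : ∑ q, h.sd.bas.repr M q • (rep q : Matrix ι ι F) = M := by
      have h1 := h.sd.bas.sum_repr M
      simp only [h.sd.bas_apply] at h1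
      exact h1
    have hco : ∀ q, extT N ε (fun q => h.sd.bas.repr M q.1) q = h.sd.bas.repr M q := by
      intro q
      unfold extT
      split_ifs with hq
      · rfl
      · exact (h.coeff_zero (by rw [hMJ, hA]) q hq).symm
    refine ⟨fun q => h.sd.bas.repr M q.1, Subtype.ext ?_⟩
    simp only [hco, hsumM]
    exact hMJ
  have h1 : Nat.card ({q : Kq N // sg (q.out : N) = ε} → F) = Nat.card (Sym2 ι → F) := by
    rw [Nat.card_eq_of_bijective _ ⟨hinj, hsurj⟩, Nat.card_congr (symEquiv ι F)]
  rw [Nat.card_fun, Nat.card_fun] at h1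
  have h2 := Nat.pow_right_injective (show 2 ≤ Nat.card F by rw [Nat.card_eq_fintype_card]; exact Fintype.one_lt_card) h1
  rw [h2, Nat.card_eq_fintype_card, Sym2.card]

/-- **the sum of the signs of squares** -/
theorem sum_sg_eq [Nonempty ι] [Fintype F] [Fintype N] (h : IsoData N J ε) : ∑ x : N, sg x = 2 * (ε * Fintype.card ι) := by
  have h1 : ∑ x : N, sg x = ∑ x : N, (fun q : Kq N => sg (q.out : N)) (QuotientGroup.mk x) :=
    Finset.sum_congr rfl (fun x _ => h.sg_out x)
  have hS : Nat.card ((scalars ι F).subgroupOf N) = 2 := by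
    have h2 : (((scalars ι F).subgroupOf N : Subgroup N) : Set N) = {1, h.zz} := by
      ext x
      constructor
      · intro hx
        rcases h.mem_scal x.2 hx with h3 | h3
        · left; exact Subtype.ext h3
        · right; exact Subtype.ext h3
      · rintro (rfl | h3)
        · exact Subgroup.one_mem _
        · rw [Set.mem_singleton_iff] at h3
          rw [h3]
          exact sc_mem (-1)
    show Nat.card (((scalars ι F).subgroupOf N : Subgroup N) : Set N) = 2
    rw [h2, Nat.card_coe_set_eq, Set.ncard_pair h.exSp.ne_one.symm]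
  rw [h1, sum_mk _ (fun q : Kq N => sg (q.out : N)), hS]
  congr 1
  have h3 : ∀ q : Kq N, sg (q.out : N) = 2 * (ε * if sg (q.out : N) = ε then 1 else 0) - ε := by
    intro q
    rcases h.exSp.sg_cases (q.out : N) with ⟨h9, _⟩ | ⟨h9, _⟩ <;> rcases h.eps with h10 | h10 <;> rw [h9, h10] <;> norm_num
  rw [Finset.sum_congr rfl (fun q _ => h3 q), Finset.sum_sub_distrib, ← Finset.mul_sum, ← Finset.mul_sum, Finset.sum_boole,
    Finset.sum_const, Finset.card_univ, ← Fintype.card_subtype, ← Nat.card_eq_fintype_card, h.card_T,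
    ← Nat.card_eq_fintype_card (α := Kq N), h.sd.card_Kq, Nat.choose_two_right]
  have h4 : 2 ∣ (Fintype.card ι + 1) * (Fintype.card ι + 1 - 1) := by
    rw [Nat.add_sub_cancel, mul_comm]
    exact (Nat.even_mul_succ_self _).two_dvd
  have h5 : (((Fintype.card ι + 1) * (Fintype.card ι + 1 - 1) / 2 : ℕ) : ℤ) * 2 = (Fintype.card ι + 1) * Fintype.card ι := by
    have := Nat.div_mul_cancel h4
    rw [Nat.add_sub_cancel] at this ⊢
    exact_mod_cast this
  rw [nsmul_eq_mul]
  push_cast
  push_cast at h5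
  linear_combination ε * h5

theorem card_N [Nonempty ι] [Finite N] (h : IsoData N J ε) : Nat.card N = 2 * Fintype.card ι ^ 2 := by
  have hS : Nat.card ((scalars ι F).subgroupOf N) = 2 := by
    have h2 : (((scalars ι F).subgroupOf N : Subgroup N) : Set N) = {1, h.zz} := by
      ext x
      constructor
      · intro hx
        rcases h.mem_scal x.2 hx with h3 | h3
        · left; exact Subtype.ext h3
        · right; exact Subtype.ext h3
      · rintro (rfl | h3)
        · exact Subgroup.one_mem _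
        · rw [Set.mem_singleton_iff] at h3
          rw [h3]
          exact sc_mem (-1)
    show Nat.card (((scalars ι F).subgroupOf N : Subgroup N) : Set N) = 2
    rw [h2, Nat.card_coe_set_eq, Set.ncard_pair h.exSp.ne_one.symm]
  rw [h.sd.card_R, hS]

end IsoData

end Cfsg.Agent.Asch.Sympl
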