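import Mathlib
import Cfsg.Prelude.Def_GeometricClasses
import Cfsg.Agent.Asch.SymplCount
set_option autoImplicit false
set_option linter.unusedSectionVars false

/-!
Class 6 for isometry groups of bilinear forms.
-/

namespace Cfsg.Agent.Asch.Sympl

open Module Cfsg.Geo

open scoped Matrix MatrixGroups

open Cfsg.Agent.Asch.ExtraCount

variable {ι : Type} [Fintype ι] [DecidableEq ι] {F : Type*} [Field F]

theorem dot_mulVec_single (A : Matrix ι ι F) (i j : ι) :
    (Pi.single i (1 : F)) ⬝ᵥ (A *ᵥ (Pi.single j (1 : F))) = A i j := by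
  simp

theorem gram_iso {f : (ι → F) → (ι → F) → F} (hf : IsSesq (RingEquiv.refl F) f) {g : Matrix ι ι F}
    (hg : ∀ u v, f (g *ᵥ u) (g *ᵥ v) = f u v) : gᵀ * gramMatrix f * g = gramMatrix f := by
  ext i j
  rw [← dot_mulVec_single (gᵀ * gramMatrix f * g) i j, ← dot_mulVec_single (gramMatrix f) i j]
  have h1 := hg (Pi.single i 1) (Pi.single j 1)
  rw [hf.eq_gram, hf.eq_gram] at h1
  simp only [RingEquiv.refl_apply] at h1
  rw [← Matrix.mulVec_mulVec, ← Matrix.mulVec_mulVec, Matrix.mulVec_transpose, dotProduct_comm, ← Matrix.dotProduct_mulVec,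
    dotProduct_comm]
  exact h1

namespace Cls6Hyp

variable {H N : Subgroup (GL ι F)} {r : ℕ}

/-- a scalar commutator different from 1 -/
theorem exists_root_mem (h : Cls6Hyp H N r) : ∃ c : Fˣ, c ^ r = 1 ∧ c ≠ 1 ∧ sc ι F c ∈ N := by
  by_contra hcon
  push Not at hcon
  apply not_comm_of_span h.span h.card
  intro x hx y hy
  obtain ⟨c, hc, hc'⟩ := h.comm_pow (le_sup_left (b := scalars ι F) hy) (le_sup_left (b := scalars ι F) hx)
  by_cases h1 : c = 1
  · rw [hc', h1, map_one, one_mul]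
  · exfalso
    apply hcon c hc h1
    have h2 : sc ι F c = x * y * x⁻¹ * y⁻¹ := by rw [hc']; group
    rw [h2]
    exact N.mul_mem (N.mul_mem (N.mul_mem hx hy) (N.inv_mem hx)) (N.inv_mem hy)

/-- a non-degenerate bilinear form fixed by `N`: `r = 2`, odd characteristic, and `N` has `IsoData` -/
theorem bilinear_data (h : Cls6Hyp H N r) {f : (ι → F) → (ι → F) → F} {ε : ℤ} (hε : ε = 1 ∨ ε = -1) (hf : IsBilinearForm f)
    (hnd : IsNondegenerateForm f) (hsym : ∀ v w, f v w = (ε : F) * f w v) (hfix : FixesForm (matrixSet N) f) :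
    r = 2 ∧ IsoData N (gramMatrix f) ε := by
  have hne := h.nonempty
  have hscal : ∀ g ∈ N, ∀ c : F, (g : Matrix ι ι F) = c • (1 : Matrix ι ι F) → c = 1 ∨ c = -1 := by
    intro g hg c hc
    obtain ⟨i⟩ := hne
    obtain ⟨-, x, hx⟩ := hnd (Pi.single i 1) (by
      intro h0
      have := congrFun h0 i
      simp at this)
    have h1 := hfix _ ⟨g, hg, rfl⟩ (Pi.single i 1) x
    simp only [hc, Matrix.smul_mulVec, Matrix.one_mulVec] at h1
    rw [hf.smul_left, hf.smul_right] at h1
    have h2 : (c * c - 1) * f (Pi.single i 1) x = 0 := by linear_combination h1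
    rcases mul_eq_zero.1 h2 with h3 | h3
    · exact mul_self_eq_one_iff.1 (sub_eq_zero.1 h3)
    · exact absurd h3 hx
  obtain ⟨c, hc, hc1, hcN⟩ := h.exists_root_mem
  have hcm : c = -1 := by
    rcases hscal _ hcN c (sc_val c) with h1 | h1
    · exact absurd (Units.ext h1) hc1
    · exact Units.ext (by rw [h1]; simp)
  have h2ne : (2 : F) ≠ 0 := by
    intro h0
    apply hc1
    rw [hcm]
    apply Units.ext
    simp only [Units.val_neg, Units.val_one]
    linear_combination -h0
  have hr : r = 2 := by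
    rcases h.prime.eq_two_or_odd' with h1 | h1
    · exact h1
    · exfalso
      rw [hcm, h1.neg_one_pow] at hc
      rw [hcm] at hc1
      exact hc1 hc
  refine ⟨hr, ⟨⟨h.span, h.comm⟩, h2ne, hscal, ?_, hε, ?_, ?_, ?_, ?_⟩⟩
  · intro g hg
    obtain ⟨c, hc⟩ := (mem_scalars_iff _).1 (h.pow g hg)
    refine ⟨c, ?_⟩
    rw [hr, sq, Units.val_mul] at hc
    exact hc
  · exact (isSesq_of_bilinear hf).gram_det_ne_zero (fun v hv => (hnd v hv).2)
  · ext i j
    rw [Matrix.transpose_apply, Matrix.smul_apply, smul_eq_mul]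
    exact hsym _ _
  · intro g hg
    exact gram_iso (isSesq_of_bilinear hf) (hfix _ ⟨g, hg, rfl⟩)
  · rw [← hcm]; exact hcN

theorem isPGroup_two {ε : ℤ} {J : Matrix ι ι F} [Nonempty ι] (h : IsoData N J ε) : IsPGroup 2 N := by
  intro x
  refine ⟨2, ?_⟩
  rcases h.exSp.sqs x with h1 | h1
  · rw [show 2 ^ 2 = 2 * 2 from rfl, pow_mul, sq x, h1, one_pow]
  · rw [show 2 ^ 2 = 2 * 2 from rfl, pow_mul, sq x, h1, sq, h.exSp.sq]

/-- `N` itself is of symplectic type -/
theorem symplType_self (h : Cls6Hyp H N r) [Finite F] {ε : ℤ} {J : Matrix ι ι F} (hd : IsoData N J ε) :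
    IsSymplecticTypeGroup 2 N := by
  have hne := h.nonempty
  have hex := hd.exSp
  have hnc := not_comm_of_span h.span h.card
  refine ⟨Nat.prime_two, isPGroup_two hd, h.cyclic_of_characteristic_of le_sup_left h.norm, ?_⟩
  show Monoid.exponent N = 2 * 2
  have hdvd : Monoid.exponent N ∣ 4 := by
    rw [Monoid.exponent_dvd_iff_forall_pow_eq_one]
    intro x
    rcases hex.sqs x with h1 | h1
    · rw [show 4 = 2 * 2 from rfl, pow_mul, sq x, h1, one_pow]
    · rw [show 4 = 2 * 2 from rfl, pow_mul, sq x, h1, sq, hex.sq]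
  have hne1 : Monoid.exponent N ≠ 1 := by
    intro h1
    rw [Monoid.exp_eq_one_iff] at h1
    exact hex.ne_one (h1.elim _ _)
  have hne2 : Monoid.exponent N ≠ 2 := by
    intro he
    apply hnc
    intro x hx y hy
    exact congrArg (fun z : N => (z : GL ι F)) (mul_comm_of_exponent_two he ⟨x, hx⟩ ⟨y, hy⟩)
  have h5 : Monoid.exponent N ∈ Nat.divisors 4 := Nat.mem_divisors.2 ⟨hdvd, by norm_num⟩
  have h6 : Nat.divisors 4 = {1, 2, 4} := by decide
  rw [h6] at h5
  simp only [Finset.mem_insert, Finset.mem_singleton] at h5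
  rcases h5 with h5 | h5 | h5
  · exact absurd h5 hne1
  · exact absurd h5 hne2
  · exact h5

theorem card_eq_two_pow (h : Cls6Hyp H N r) [Finite F] {ε : ℤ} {J : Matrix ι ι F} (hd : IsoData N J ε) :
    ∃ k, Fintype.card ι = 2 ^ k := by
  have hne := h.nonempty
  have : Finite N := inferInstance
  have := Fact.mk Nat.prime_two
  obtain ⟨a, ha⟩ := (IsPGroup.iff_card).1 (isPGroup_two hd)
  have h1 : Fintype.card ι ∣ 2 ^ a := by
    rw [← ha, hd.card_N]
    exact Dvd.dvd.mul_left (dvd_pow_self _ (by norm_num)) _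
  obtain ⟨k, _, hk⟩ := (Nat.dvd_prime_pow Nat.prime_two).1 h1
  exact ⟨k, hk⟩

theorem card_center_self [Nonempty ι] {ε : ℤ} {J : Matrix ι ι F} (hd : IsoData N J ε) :
    Nat.card (Subgroup.center N) = 2 := by
  have hex := hd.exSp
  have h2 : ((Subgroup.center N : Subgroup N) : Set N) = {1, hd.zz} := by
    ext x
    rw [SetLike.mem_coe, Subgroup.mem_center_iff]
    constructor
    · intro hx
      rcases hex.cen x (fun y => (hx y).symm) with h3 | h3
      · left; exact h3
      · right; exact h3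
    · rintro (rfl | h3)
      · simp
      · rw [Set.mem_singleton_iff] at h3
        rw [h3]
        intro g
        exact (hex.central g).symm
  show Nat.card ((Subgroup.center N : Subgroup N) : Set N) = 2
  rw [h2, Nat.card_coe_set_eq, Set.ncard_pair hex.ne_one.symm]

/-- minus type in the symplectic case -/
theorem minus_type [Nonempty ι] [Fintype F] {J : Matrix ι ι F} (hd : IsoData N J (-1)) {k : ℕ} (hk : Fintype.card ι = 2 ^ k) :
    IsOfMinusType k N := by
  classical
  have := Fintype.ofFinite N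
  intro A hA hA2
  have h1 := hd.exSp.card_lt_of_sum_neg (n := Fintype.card ι) Fintype.card_pos
    (by rw [hd.card_N]) (by rw [hd.sum_sg_eq]; ring) A hA2
    (fun x hx y hy => congrArg (fun z : A => (z : N)) (hA.is_comm.comm ⟨x, hx⟩ ⟨y, hy⟩))
  rw [pow_succ, mul_comm, ← hk]
  exact h1

/-- plus type in the orthogonal case -/
theorem plus_type [Nonempty ι] [Fintype F] {J : Matrix ι ι F} (hd : IsoData N J 1) {k : ℕ} (hk : Fintype.card ι = 2 ^ k) :
    IsOfPlusType k N := by
  classical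
  have := Fintype.ofFinite N
  obtain ⟨E, hE2, hEc, hcard⟩ := hd.exSp.card_of_sum_pos (n := Fintype.card ι) Fintype.card_pos
    (by rw [hd.card_N]) (by rw [hd.sum_sg_eq]; ring)
  refine ⟨E, ⟨⟨fun x y => Subtype.ext (hEc x x.2 y y.2)⟩⟩, hE2, ?_⟩
  rw [pow_succ, mul_comm, ← hk]
  exact hcard

/-- common part of the bilinear cases -/
theorem bilinear_common (h : Cls6Hyp H N r) [Fintype F] {ε : ℤ} {J : Matrix ι ι F} (hd : IsoData N J ε) :
    (∃ F₀ : Subfield F, F₀ ≠ ⊤ ∧ RealisableOver F₀ (matrixSet N)) ∨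
    (∃ p k : ℕ, p.Prime ∧ Odd p ∧ Fintype.card F = p ∧ Nat.card N = 2 ^ (1 + 2 * k) ∧ Fintype.card ι = 2 ^ k) := by
  have hne := h.nonempty
  obtain ⟨p, hchar⟩ := CharP.exists F
  obtain ⟨e, hp, hq⟩ := FiniteField.card F p
  have := Fact.mk hp
  by_cases he : (e : ℕ) = 1
  · right
    rw [he, pow_one] at hq
    obtain ⟨k, hk⟩ := h.card_eq_two_pow hd
    refine ⟨p, k, hp, ?_, hq, ?_, hk⟩
    · rcases hp.eq_two_or_odd' with h2 | h2
      · exfalso
        subst h2
        apply hd.two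
        exact CharP.cast_eq_zero F 2
      · exact h2
    · rw [hd.card_N, hk, pow_add, pow_one, ← pow_mul, mul_comm k 2]
  · left
    refine ⟨frobFix F p 1, frobFix_ne_top hq one_pos (by have := e.pos; omega), ?_⟩
    apply hd.sd.realisable
    intro g hg c hc
    rcases hd.scal g hg c hc with h1 | h1
    · rw [h1]; exact (frobFix F p 1).one_mem
    · rw [h1]; exact (frobFix F p 1).neg_mem (frobFix F p 1).one_mem

theorem le_normalizer_self (h : Cls6Hyp H N r) : H ≤ subgroupNormalizer N := by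
  intro g hg
  show g ∈ Subgroup.normalizer (N : Set (GL ι F))
  rw [Subgroup.mem_normalizer_iff]
  intro x
  constructor
  · intro hx; exact h.norm g hg x hx
  · intro hx
    have := h.norm g⁻¹ (H.inv_mem hg) _ hx
    have e : g⁻¹ * (g * x * g⁻¹) * g⁻¹⁻¹ = x := by group
    rwa [e] at this

/-- **class 6 analysis, symplectic case** -/
theorem symplectic_main (h : Cls6Hyp H N r) [Fintype F] {f : (ι → F) → (ι → F) → F} (hf : IsSymplecticForm f)
    (hfix : FixesForm (matrixSet N) f) :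
    (∃ F₀ : Subfield F, F₀ ≠ ⊤ ∧ RealisableOver F₀ (matrixSet N)) ∨
    (∃ (R : Subgroup (GL ι F)) (p k : ℕ), IsSymplecticTypeGroup 2 R ∧
      ActsAbsolutelyIrreducibly (matrixSet R) ∧ R ≤ similarityGroup f ∧ p.Prime ∧ Odd p ∧ Fintype.card F = p ∧
      Nat.card R = 2 ^ (1 + 2 * k) ∧ Nat.card (Subgroup.center R) = 2 ∧ IsOfMinusType k R ∧ Fintype.card ι = 2 ^ k ∧
      H ≤ subgroupNormalizer R) := by
  have hne := h.nonempty
  obtain ⟨-, hd⟩ := h.bilinear_data (ε := -1) (Or.inr rfl) hf.bilinear hf.nondegenerate (fun v w => by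
    rw [hf.skew v w]; push_cast; ring) hfix
  rcases h.bilinear_common hd with h1 | ⟨p, k, hp, hodd, hq, hN, hk⟩
  · exact Or.inl h1
  · right
    refine ⟨N, p, k, h.symplType_self hd, absIrred_of_spanAlg_eq_top h.span, ?_, hp, hodd, hq, hN, card_center_self hd,
      minus_type hd hk, hk, h.le_normalizer_self⟩
    intro g hg
    exact ⟨1, fun u v => by rw [hfix _ ⟨g, hg, rfl⟩, Units.val_one, one_mul]⟩

/-- **class 6 analysis, orthogonal case** -/
theorem orthogonal_main (h : Cls6Hyp H N r) [Fintype F] {Q : (ι → F) → F} (hQ : IsNondegenerateQuadraticForm Q)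
    (hfix : FixesQuadForm (matrixSet N) Q) :
    (∃ F₀ : Subfield F, F₀ ≠ ⊤ ∧ RealisableOver F₀ (matrixSet N)) ∨
    (∃ (R : Subgroup (GL ι F)) (p k : ℕ), IsSymplecticTypeGroup 2 R ∧
      ActsAbsolutelyIrreducibly (matrixSet R) ∧ R ≤ quadSimilarityGroup Q ∧ p.Prime ∧ Odd p ∧ Fintype.card F = p ∧
      Nat.card R = 2 ^ (1 + 2 * k) ∧ Nat.card (Subgroup.center R) = 2 ∧ IsOfPlusType k R ∧ Fintype.card ι = 2 ^ k ∧
      H ≤ subgroupNormalizer R) := by
  have hne := h.nonempty
  obtain ⟨-, hd⟩ := h.bilinear_data (ε := 1) (Or.inl rfl) hQ.polar_bilinear hQ.nondegenerate (fun v w => by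
    rw [QuadraticMap.polar_comm]; simp) (fixesForm_polar hfix)
  rcases h.bilinear_common hd with h1 | ⟨p, k, hp, hodd, hq, hN, hk⟩
  · exact Or.inl h1
  · right
    refine ⟨N, p, k, h.symplType_self hd, absIrred_of_spanAlg_eq_top h.span, ?_, hp, hodd, hq, hN, card_center_self hd,
      plus_type hd hk, hk, h.le_normalizer_self⟩
    intro g hg
    exact ⟨1, fun v => by rw [hfix _ ⟨g, hg, rfl⟩, Units.val_one, one_mul]⟩

end Cls6Hyp

end Cfsg.Agent.Asch.Sympl
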