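import Mathlib
import Cfsg.Prelude.Def_GeometricClasses
import Cfsg.Agent.Asch.PieceB
import Cfsg.Agent.Asch.SymplForms
import Cfsg.Agent.Asch.SymplUnitary
set_option autoImplicit false
set_option linter.unusedSectionVars false

/-!
The abelian-modulo-scalars piece for isometry groups of forms.
-/

namespace Cfsg.Agent.Asch

open Module Cfsg.Geo

open scoped Matrix Kronecker MatrixGroups commutatorElement

variable {ι : Type} [Fintype ι] [DecidableEq ι] {F : Type*} [Field F]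

lemma fixesForm_mono {R S : Subgroup (GL ι F)} (h : R ≤ S) {f : (ι → F) → (ι → F) → F} (hf : FixesForm (matrixSet S) f) :
    FixesForm (matrixSet R) f := by
  rintro _ ⟨g, hg, rfl⟩
  exact hf _ ⟨g, h hg, rfl⟩

lemma fixesQuadForm_mono {R S : Subgroup (GL ι F)} (h : R ≤ S) {Q : (ι → F) → F} (hf : FixesQuadForm (matrixSet S) Q) :
    FixesQuadForm (matrixSet R) Q := by
  rintro _ ⟨g, hg, rfl⟩
  exact hf _ ⟨g, h hg, rfl⟩

/-- class 6, symplectic case -/
theorem AbelianPiece.symplectic_cases [Fintype F] {H N : Subgroup (GL ι F)} {r : ℕ} (h : AbelianPiece H N r)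
    (h2 : 2 ≤ Fintype.card ι) {f : (ι → F) → (ι → F) → F} (hf : IsSymplecticForm f) (hfix : FixesForm (matrixSet H) f) :
    (∃ F₀ : Subfield F, F₀ ≠ ⊤ ∧ RealisableOver F₀ (matrixSet N)) ∨
    (∃ (R : Subgroup (GL ι F)) (p k : ℕ), IsSymplecticTypeGroup 2 R ∧
      ActsAbsolutelyIrreducibly (matrixSet R) ∧ R ≤ similarityGroup f ∧ p.Prime ∧ Odd p ∧ Fintype.card F = p ∧
      Nat.card R = 2 ^ (1 + 2 * k) ∧ Nat.card (Subgroup.center R) = 2 ∧ IsOfMinusType k R ∧ Fintype.card ι = 2 ^ k ∧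
      H ≤ subgroupNormalizer R) :=
  (h.cls6Hyp h2).symplectic_main hf (fixesForm_mono h.le hfix)

/-- class 6, orthogonal case -/
theorem AbelianPiece.orthogonal_cases [Fintype F] {H N : Subgroup (GL ι F)} {r : ℕ} (h : AbelianPiece H N r)
    (h2 : 2 ≤ Fintype.card ι) {Q : (ι → F) → F} (hQ : IsNondegenerateQuadraticForm Q) (hfix : FixesQuadForm (matrixSet H) Q) :
    (∃ F₀ : Subfield F, F₀ ≠ ⊤ ∧ RealisableOver F₀ (matrixSet N)) ∨
    (∃ (R : Subgroup (GL ι F)) (p k : ℕ), IsSymplecticTypeGroup 2 R ∧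
      ActsAbsolutelyIrreducibly (matrixSet R) ∧ R ≤ quadSimilarityGroup Q ∧ p.Prime ∧ Odd p ∧ Fintype.card F = p ∧
      Nat.card R = 2 ^ (1 + 2 * k) ∧ Nat.card (Subgroup.center R) = 2 ∧ IsOfPlusType k R ∧ Fintype.card ι = 2 ^ k ∧
      H ≤ subgroupNormalizer R) :=
  (h.cls6Hyp h2).orthogonal_main hQ (fixesQuadForm_mono h.le hfix)

/-- class 6, unitary case -/
theorem AbelianPiece.unitary_cases [Fintype F] {H N : Subgroup (GL ι F)} {r q : ℕ} (h : AbelianPiece H N r)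
    (h2 : 2 ≤ Fintype.card ι) {f : (ι → F) → (ι → F) → F} (hf : IsUnitaryFormPow q f) (hq : Fintype.card F = q ^ 2)
    (hfix : FixesForm (matrixSet H) f) :
    (∃ (N' : Subgroup (GL ι F)) (F₀ : Subfield F), F₀ ≠ ⊤ ∧ spanAlg N' = ⊤ ∧ NormBy H N' ∧ FixesForm (matrixSet N') f ∧
      RealisableOver F₀ (matrixSet N')) ∨
    (∃ (r : ℕ) (R : Subgroup (GL ι F)) (p e k : ℕ), IsSymplecticTypeGroup r R ∧
      ActsAbsolutelyIrreducibly (matrixSet R) ∧ R ≤ similarityGroup f ∧ r ≠ p ∧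
      IsMinimalFieldFor (Nat.card (Subgroup.center R)) p e F ∧
      ((Odd r ∧ Nat.card (Subgroup.center R) = r ∧ 1 ≤ k ∧ Nat.card R = r ^ (1 + 2 * k)) ∨
       (r = 2 ∧ e = 2 ∧ Nat.card (Subgroup.center R) = 4 ∧ Nat.card R = 2 ^ (2 + 2 * k))) ∧
      Fintype.card ι = r ^ k ∧ H ≤ subgroupNormalizer R) :=
  (h.cls6Hyp h2).unitary_main hf hq (Sympl.fixesForm_iff.1 hfix) (Sympl.fixesForm_iff.1 (fixesForm_mono h.le hfix))

end Cfsg.Agent.Asch
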