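import Mathlib
import Cfsg.Prelude.Def_GeometricClasses
import Cfsg.Agent.Asch.Core
import Cfsg.Agent.Asch.FormMembers
import Cfsg.Agent.Asch.PieceBForms
import Cfsg.Agent.Asch.SmallComp
import Cfsg.Agent.Asch.FormSubfield
import Cfsg.Agent.Asch.FormTwo
import Cfsg.Agent.GeoMax.SpStd
set_option autoImplicit false
set_option linter.unusedSectionVars false

/-!
The structure theorem for subgroups of the symplectic groups.
-/

namespace Cfsg.Agent.Asch

open Module Cfsg.Geo EForm

open scoped Matrix Kronecker MatrixGroups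

variable {ι : Type} [Fintype ι] [DecidableEq ι] {F : Type*} [Field F]

lemma fixesForm_le {R S : Subgroup (GL ι F)} (h : R ≤ S) {f : (ι → F) → (ι → F) → F} (hf : FixesForm (matrixSet S) f) :
    FixesForm (matrixSet R) f := by
  rintro _ ⟨g, hg, rfl⟩
  exact hf _ ⟨g, h hg, rfl⟩

/-- an absolutely irreducible normal subgroup fixing a quadratic form: class 8 in characteristic two, impossible in odd
characteristic -/
theorem sp_member_of_core_quad [Fintype F] (hn : 2 ≤ Fintype.card ι) {f : (ι → F) → (ι → F) → F} (hf : IsSymplecticForm f)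
    {H N : Subgroup (GL ι F)} (hH : FixesForm (matrixSet H) f) (hNH : N ≤ H) (hN : spanAlg N = ⊤) (hHN : NormBy H N)
    {Q : (ι → F) → F} (hQ : IsNondegenerateQuadraticForm Q) (hfix : FixesQuadForm (matrixSet N) Q) :
    ∃ M, SpMember f M ∧ H ≤ M := by
  have hι : Nonempty ι := Fintype.card_pos_iff.1 (by omega)
  have hnd : ∀ v : ι → F, v ≠ 0 → ∃ x, f v x ≠ 0 := fun v hv => (hf.nondegenerate v hv).2
  obtain ⟨c, hc⟩ := invariant_form_unique hN (isSesq_of_bilinear hf.bilinear) hnd (isSesq_of_bilinear hQ.polar_bilinear)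
    (fixesForm_le hNH hH) (fixesForm_polar hfix)
  obtain ⟨i⟩ := hι
  have hc0 : c ≠ 0 := by
    rintro rfl
    have hne1 : (Pi.single i (1 : F) : ι → F) ≠ 0 := by
      intro h0
      have := congrFun h0 i
      simp at this
    obtain ⟨-, x, hx⟩ := hQ.nondegenerate _ hne1
    rw [hc, zero_mul] at hx
    exact hx rfl
  by_cases h2 : (2 : F) = 0
  · -- the quadratic form with polar form `f`
    have hQ' : IsQuadFor f (fun v => c⁻¹ * Q v) := by
      refine ⟨fun t v => by rw [hQ.smul]; ring, fun u v => ?_⟩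
      have h3 := hc u v
      have h4 : Q (u + v) = Q u + Q v + c * f u v := by rw [← h3]; unfold QuadraticMap.polar; ring
      rw [h4, mul_add, mul_add, ← mul_assoc, inv_mul_cancel₀ hc0, one_mul]
    have hirr : Irred (natRep N) := (actsIrreducibly_iff N).1 (absIrred_of_spanAlg_eq_top hN).1
    refine sp_member_of_quad hf h2 hQ' (fun g hg v => ?_)
    have hQ'' : IsQuadFor f (fun v => c⁻¹ * Q ((g : Matrix ι ι F) *ᵥ v)) :=
      hQ'.comp (Matrix.toLin' (g : Matrix ι ι F)) (fun u v => hH _ ⟨g, hg, rfl⟩ u v)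
    have h5 := hQ''.eq_of_irred h2 hQ' hn hirr (by
      intro x hx v
      have h6 : (g : Matrix ι ι F) *ᵥ ((x : Matrix ι ι F) *ᵥ v) =
          ((g * x * g⁻¹ : GL ι F) : Matrix ι ι F) *ᵥ ((g : Matrix ι ι F) *ᵥ v) := by
        rw [Matrix.mulVec_mulVec, Matrix.mulVec_mulVec, ← Units.val_mul, ← Units.val_mul]
        congr 2
        group
      rw [h6, hfix _ ⟨_, hHN g hg x hx, rfl⟩]) (fun x hx v => by rw [hfix _ ⟨_, hx, rfl⟩])
    exact congrFun h5 v
  · exfalso
    have hne1 : (Pi.single i (1 : F) : ι → F) ≠ 0 := by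
      intro h0
      have := congrFun h0 i
      simp at this
    obtain ⟨x, hx⟩ := hnd _ hne1
    apply hx
    have h3 := hc (Pi.single i 1) x
    have h4 := hc x (Pi.single i 1)
    rw [QuadraticMap.polar_comm, h4, hf.skew] at h3
    have h5 : (2 * c) * f (Pi.single i 1) x = 0 := by linear_combination -h3
    exact (mul_eq_zero.1 h5).resolve_left (mul_ne_zero h2 hc0)

/-- **Aschbacher's theorem**, symplectic case -/
theorem symplectic_structure [Fintype F] (hn : 2 ≤ Fintype.card ι) {f : (ι → F) → (ι → F) → F} (hf : IsSymplecticForm f)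
    {H : Subgroup (GL ι F)} (hH : FixesForm (matrixSet H) f) :
    (∃ M, SpMember f M ∧ H ≤ M) ∨ InSymplecticResidualClass H := by
  classical
  have hι : Nonempty ι := Fintype.card_pos_iff.1 (by omega)
  have hE := EForm.of_symplectic hf
  have hfix := fixesForm_iff_isIsom.1 hH
  by_cases hirr : Irred (natRep H)
  swap
  · exact Or.inl (sp_of_reducible hf hH hirr)
  by_cases hall : AllNormalAbs H
  swap
  · left
    unfold AllNormalAbs at hall
    push Not at hall
    obtain ⟨R, hRH, hHR, h1, h2⟩ := hall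
    have hstar : StarClosed f (spanAlg R) := hE.starClosed_spanAlg (fun g hg => hfix g (hRH hg))
    rcases sp_clifford hf hH hirr (spanAlg_normAlg hHR) hstar with h3 | ⟨h3, h4⟩
    · exact h3
    · obtain ⟨a, k, b, G₁, G₂, c, l₁, l₂, hT⟩ := exists_tensorForm hE hfix hRH hHR h1 h2
        (isSemisimpleModule_of_irred hirr (spanAlg_normAlg hHR)) h3 h4
      exact hT.sp_member hf hirr hfix
  rcases pieces_of_allNormalAbs hn H hirr hall with ⟨N, r, hN⟩ | ⟨k, L, hk, hL⟩
  · left
    rcases hN.symplectic_cases hn hf hH with ⟨F₀, hF₀, hreal⟩ | ⟨R, p, k, h1, h2, h3, h4, h5, h6, h7, h8, h9, h10, h11⟩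
    · exact symplectic_subfield hN.span hN.norm hf (fixesForm_le hN.le hH) hF₀ hreal
    · exact ⟨_, Or.inr (Or.inr (Or.inr (Or.inr (Or.inr (Or.inr (Or.inr (Or.inr (Or.inl
        ⟨R, p, k, h1, h2, h3, h4, h5, h6, h7, h8, h9, h10, rfl⟩)))))))), h11⟩
  · by_cases hk2 : 2 ≤ k
    · left
      obtain ⟨a, φ, b, G, c, l, hP⟩ := exists_powerForm hE hfix L (by omega) (fun i x hx => hfix x (hL.le i hx)) hL.comm hL.span hL.trans
      exact hP.sp_member hf hfix hk2 hL.le hL.not_scalar hL.perm
        (fun ⟨h1, h2⟩ => hP.false_of_two_three (by omega) hL.perfect hL.not_scalar h1 h2)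
    · have hk1 : k = 1 := by omega
      subst hk1
      have hP := corePiece_of_compData hL
      have hfixP := fixesForm_le hP.le hH
      by_cases hsub : ∃ F₀ : Subfield F, F₀ ≠ ⊤ ∧ RealisableOver F₀ (matrixSet (L 0))
      · obtain ⟨F₀, hF₀, hreal⟩ := hsub
        exact Or.inl (symplectic_subfield hP.span hP.norm hf hfixP hF₀ hreal)
      by_cases hquad : ∃ Q : (ι → F) → F, IsNondegenerateQuadraticForm Q ∧ FixesQuadForm (matrixSet (L 0)) Q
      · obtain ⟨Q, hQ, hQfix⟩ := hquad
        exact Or.inl (sp_member_of_core_quad hn hf hH hP.le hP.span hP.norm hQ hQfix)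
      by_cases hunit : ∃ (σ : F ≃+* F) (f : (ι → F) → (ι → F) → F), IsUnitaryForm σ f ∧ FixesForm (matrixSet (L 0)) f
      · obtain ⟨σ, g, hg, hgfix⟩ := hunit
        exact Or.inl (symplectic_of_unitary hP.span hP.norm hf hg hfixP hgfix)
      right
      exact ⟨L 0, hP.isResidualCore (fun F₀ h1 h2 => hsub ⟨F₀, h1, h2⟩), hquad, hunit⟩

/-- **Aschbacher's theorem**, standard symplectic group -/
theorem symplectic_structure_std [Fintype F] (m : ℕ) (hm : 1 ≤ m) (H : Subgroup (GL (Fin m ⊕ Fin m) F)) (hH : H ≤ spGL m F) :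
    (∃ M, SpMember (sympForm m F) M ∧ H ≤ M) ∨ InSymplecticResidualClass H := by
  apply symplectic_structure (by simp; omega) (GeoMax.Symp.std m F)
  rintro _ ⟨g, hg, rfl⟩ u v
  exact hH hg u v

end Cfsg.Agent.Asch
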