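import Mathlib
import Cfsg.Prelude.Def_GeometricClasses
import Cfsg.Agent.Asch.UniTensor
import Cfsg.Agent.Asch.FormTwo
set_option autoImplicit false
set_option linter.unusedSectionVars false

/-!
Tensor powers of two-dimensional unitary forms lie in class 5.
-/

namespace Cfsg.Agent.Asch

open Module Cfsg.Geo EForm

open scoped Matrix Kronecker MatrixGroups

variable {ι : Type} [Fintype ι] [DecidableEq ι] {F : Type*} [Field F]

/-- a skew-symmetric matrix with zero diagonal is alternating -/
lemma formOfGram_self_zero {κ : Type} [Fintype κ] {A : Matrix κ κ F} (hA : Aᵀ = -A) (hd : ∀ i, A i i = 0) (u : κ → F) :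
    formOfGram id A u u = 0 := by
  classical
  unfold formOfGram
  rw [← Finset.sum_product']
  apply Finset.sum_involution (fun p _ => (p.2, p.1))
  · rintro ⟨i, j⟩ _
    have h1 : A j i = - A i j := congrFun (congrFun hA i) j
    simp only [id_eq]
    rw [h1]; ring
  · rintro ⟨i, j⟩ _ hne heq
    have h2 : j = i := (Prod.mk.inj heq).1
    subst h2
    apply hne
    simp [hd]
  · rintro ⟨i, j⟩ _; exact Finset.mem_product.2 ⟨Finset.mem_univ _, Finset.mem_univ _⟩
  · rintro ⟨i, j⟩ _; rfl

lemma piMat_transpose' {t a : ℕ} (g : Fin t → Matrix (Fin a) (Fin a) F) : (piMat g)ᵀ = piMat (fun i => (g i)ᵀ) := rfl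

section

variable {k : ℕ}

/-- the standard alternating power -/
def altPow (F : Type*) [Field F] (k : ℕ) : Matrix (Fin k → Fin 2) (Fin k → Fin 2) F := piMat (fun _ : Fin k => altTwo F)

lemma altPow_sq : altPow F k * altPow F k = ((-1 : F) ^ k) • (1 : Matrix (Fin k → Fin 2) (Fin k → Fin 2) F) := by
  unfold altPow
  rw [← piMat_mul]
  have h1 : ((fun _ : Fin k => altTwo F) * (fun _ : Fin k => altTwo F)) = fun _ : Fin k => (-1 : F) • (1 : Matrix (Fin 2) (Fin 2) F) := by
    funext i
    rw [Pi.mul_apply, altTwo_sq, neg_smul, one_smul]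
  rw [h1]
  have h2 := piMat_smul (fun _ : Fin k => (-1 : F)) (fun _ : Fin k => (1 : Matrix (Fin 2) (Fin 2) F))
  rw [h2, Finset.prod_const, Finset.card_univ, Fintype.card_fin]
  congr 1
  exact piMat_one

lemma altPow_transpose : (altPow F k)ᵀ = ((-1 : F) ^ k) • altPow F k := by
  unfold altPow
  rw [piMat_transpose']
  have h2 := piMat_smul (fun _ : Fin k => (-1 : F)) (fun _ : Fin k => altTwo F)
  rw [Finset.prod_const, Finset.card_univ, Fintype.card_fin] at h2
  rw [← h2]
  congr 1
  funext i
  rw [altTwo_transpose, neg_smul, one_smul]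

lemma altPow_diag (hk : 1 ≤ k) (α : Fin k → Fin 2) : altPow F k α α = 0 := by
  unfold altPow piMat
  apply Finset.prod_eq_zero (Finset.mem_univ (⟨0, by omega⟩ : Fin k))
  generalize α ⟨0, by omega⟩ = i
  fin_cases i <;> simp [altTwo]

lemma altPow_map (σ : F ≃+* F) : (altPow F k).map σ = altPow F k := by
  unfold altPow
  rw [piMat_map]
  congr 1
  funext i
  ext x y
  fin_cases x <;> fin_cases y <;> simp [altTwo]

lemma altPow_det_ne_zero : (altPow F k).det ≠ 0 := by
  intro h0
  have := congrArg Matrix.det (altPow_sq (F := F) (k := k))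
  rw [Matrix.det_mul, h0, zero_mul, Matrix.det_smul, Matrix.det_one, mul_one] at this
  exact (pow_ne_zero _ (pow_ne_zero _ (neg_ne_zero.2 one_ne_zero))) this.symm

lemma altPow_act (τ : Equiv.Perm (Fin k)) (P : Fin k → GL (Fin 2) F) :
    (permMat F 2 τ * piMat (fun i => (P i : Matrix (Fin 2) (Fin 2) F)))ᵀ * altPow F k *
      (permMat F 2 τ * piMat (fun i => (P i : Matrix (Fin 2) (Fin 2) F))) =
      (∏ i, (P i : Matrix (Fin 2) (Fin 2) F).det) • altPow F k := by
  have hperm : (permMat F 2 τ)ᵀ * altPow F k * permMat F 2 τ = altPow F k := by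
    have h2 := permMat_conj (F := F) τ (fun _ : Fin k => altTwo F)
    have h3 : piMat ((fun _ : Fin k => altTwo F) ∘ τ.symm) = altPow F k := rfl
    rw [h3] at h2
    unfold altPow at h2 ⊢
    rw [permMat_transpose, mul_assoc, ← h2, ← mul_assoc, permMat_mul, inv_mul_cancel, permMat_one, one_mul]
  rw [Matrix.transpose_mul]
  calc (piMat (fun i => (P i : Matrix (Fin 2) (Fin 2) F)))ᵀ * (permMat F 2 τ)ᵀ * altPow F k *
        (permMat F 2 τ * piMat (fun i => (P i : Matrix (Fin 2) (Fin 2) F)))
      = (piMat (fun i => (P i : Matrix (Fin 2) (Fin 2) F)))ᵀ * ((permMat F 2 τ)ᵀ * altPow F k * permMat F 2 τ) *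
        piMat (fun i => (P i : Matrix (Fin 2) (Fin 2) F)) := by simp only [mul_assoc]
    _ = _ := by
      rw [hperm, piMat_transpose']
      unfold altPow
      rw [← piMat_mul, ← piMat_mul, ← piMat_smul]
      congr 1
      funext i
      have := mul_altTwo_mul (P i : Matrix (Fin 2) (Fin 2) F)ᵀ
      rw [Matrix.transpose_transpose, Matrix.det_transpose] at this
      exact this

end

/-- the bilinear form with a given Gram matrix in a basis -/
noncomputable def basisForm {κ : Type} [Fintype κ] (b : Basis κ F (ι → F)) (A : Matrix κ κ F) (u v : ι → F) : F :=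
  formOfGram id A (b.equivFun u) (b.equivFun v)

section BasisForm

variable {κ : Type} [Fintype κ] [DecidableEq κ] (b : Basis κ F (ι → F)) {A : Matrix κ κ F}

lemma isBilinearForm_basisForm : IsBilinearForm (basisForm b A) where
  add_left x y v := by unfold basisForm; rw [map_add, (isBilinearForm_formOfGram A).add_left]
  smul_left c x v := by unfold basisForm; rw [map_smul, (isBilinearForm_formOfGram A).smul_left]
  add_right v x y := by unfold basisForm; rw [map_add, (isBilinearForm_formOfGram A).add_right]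
  smul_right c v x := by unfold basisForm; rw [map_smul, (isBilinearForm_formOfGram A).smul_right]

lemma nondegenerate_basisForm (hA : A.det ≠ 0) : IsNondegenerateForm (basisForm b A) := by
  intro v hv
  have hv' : b.equivFun v ≠ 0 := by
    intro h
    exact hv (b.equivFun.map_eq_zero_iff.1 h)
  obtain ⟨⟨x, hx⟩, ⟨y, hy⟩⟩ := formOfGram_nondegenerate (RingEquiv.refl F) hA _ hv'
  refine ⟨⟨b.equivFun.symm x, ?_⟩, ⟨b.equivFun.symm y, ?_⟩⟩
  · unfold basisForm
    rw [LinearEquiv.apply_symm_apply]
    exact hx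
  · unfold basisForm
    rw [LinearEquiv.apply_symm_apply]
    exact hy

lemma equivFun_mulVec (g : Matrix ι ι F) (v : ι → F) :
    b.equivFun (g *ᵥ v) = LinearMap.toMatrix b b (Matrix.toLin' g) *ᵥ b.equivFun v := by
  funext i
  have := LinearMap.toMatrix_mulVec_repr b b (Matrix.toLin' g) v
  exact (congrFun this i).symm

lemma basisForm_act {g : GL ι F} {c : F}
    (h : (LinearMap.toMatrix b b (Matrix.toLin' (g : Matrix ι ι F)))ᵀ * A * LinearMap.toMatrix b b (Matrix.toLin' (g : Matrix ι ι F)) = c • A)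
    (u v : ι → F) : basisForm b A ((g : Matrix ι ι F) *ᵥ u) ((g : Matrix ι ι F) *ᵥ v) = c * basisForm b A u v := by
  unfold basisForm
  rw [equivFun_mulVec, equivFun_mulVec]
  set X := LinearMap.toMatrix b b (Matrix.toLin' (g : Matrix ι ι F))
  have h1 : ∀ x y : κ → F, formOfGram id A x y = x ⬝ᵥ (A *ᵥ y) := fun x y => formOfGram_eq (RingEquiv.refl F) A x y
  rw [h1, h1, ← Matrix.vecMul_transpose, ← Matrix.dotProduct_mulVec, Matrix.mulVec_mulVec, Matrix.mulVec_mulVec, h,
    Matrix.smul_mulVec, dotProduct_smul, smul_eq_mul]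

end BasisForm

/-- **two-dimensional factors** -/
theorem uni_member_two [Fintype F] [Nonempty ι] {q : ℕ} (hF : Fintype.card F = q ^ 2) {f : (ι → F) → (ι → F) → F}
    (hf : IsUnitaryFormPow q f) {k : ℕ} (hk : 1 ≤ k) {b : Basis (Fin k → Fin 2) F (ι → F)} {c : F} (hc : c ≠ 0)
    (hgram : gramB f b = c • (1 : Matrix (Fin k → Fin 2) (Fin k → Fin 2) F)) {H : Subgroup (GL ι F)} (hH : FixesForm (matrixSet H) f)
    (hact : ∀ g ∈ H, ∃ (τ : Equiv.Perm (Fin k)) (P : Fin k → GL (Fin 2) F),
      LinearMap.toMatrix b b (Matrix.toLin' (g : Matrix ι ι F)) = permMat F 2 τ * piMat (fun i => (P i : Matrix (Fin 2) (Fin 2) F))) :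
    ∃ M, UniMember q f M ∧ H ≤ M := by
  classical
  let σ := powEquiv hF
  have hσ : ∀ x, σ x = x ^ q := fun x => powEquiv_apply hF x
  have hS : IsSesq σ f := isSesq_of_pow hF hf
  set A := altPow F k with hA
  have hAA : A * A = ((-1 : F) ^ k) • (1 : Matrix (Fin k → Fin 2) (Fin k → Fin 2) F) := altPow_sq
  have hdet : A.det ≠ 0 := altPow_det_ne_zero
  set s : F := (-1) ^ k with hs
  have hss : s * s = 1 := by rw [hs, ← mul_pow, neg_one_mul, neg_neg, one_pow]
  have hmat : ∀ x y : (Fin k → Fin 2) → F, formOfGram id A x y = x ⬝ᵥ (A *ᵥ y) := fun x y => formOfGram_eq (RingEquiv.refl F) A x y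
  -- the comparison map
  let J : (ι → F) → (ι → F) := fun v => b.equivFun.symm ((c * s) • (A *ᵥ (fun i => σ (b.equivFun v i))))
  have hEf : EForm σ 1 f := by
    obtain ⟨x, hx⟩ := powEquiv_ne hF
    exact EForm.of_unitary (IsUnitaryFormPow.isUnitaryForm hf (σ := σ) hσ (fun h => hx (by
      show σ x = x
      rw [h]; rfl)) (powEquiv_invol hF))
  have hJ : ∀ u v, f u v = basisForm b A u (J v) := by
    intro u v
    have h1 : f u v = formOfGram σ (gramB f b) (b.equivFun u) (b.equivFun v) := by
      have h2 := hEf.apply_sum (fun i => b i) (b.equivFun u) (b.equivFun v)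
      have h3 : ∀ w : ι → F, ∑ i, b.equivFun w i • b i = w := fun w => b.sum_equivFun w
      rw [h3, h3] at h2
      rw [h2]; rfl
    rw [h1]
    unfold basisForm
    rw [LinearEquiv.apply_symm_apply, formOfGram_eq, hmat, hgram, Matrix.mulVec_smul, Matrix.mulVec_mulVec, hAA, Matrix.smul_mulVec,
      Matrix.one_mulVec, Matrix.smul_mulVec, Matrix.one_mulVec, smul_smul, mul_assoc, hss, mul_one]
  have hl : ∀ v, J (J v) = (c * σ c * s) • v := by
    intro v
    show b.equivFun.symm ((c * s) • (A *ᵥ (fun i => σ (b.equivFun (b.equivFun.symm ((c * s) • (A *ᵥ (fun i => σ (b.equivFun v i))))) i)))) = _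
    rw [LinearEquiv.apply_symm_apply]
    have h1 : (fun i => σ (((c * s) • (A *ᵥ (fun i => σ (b.equivFun v i)))) i)) = (σ c * s) • (A *ᵥ b.equivFun v) := by
      funext i
      simp only [Pi.smul_apply, smul_eq_mul, map_mul, Matrix.mulVec, dotProduct, map_sum]
      have h2 : σ s = s := by rw [hs, map_pow, map_neg, map_one]
      have h3 : ∀ i j, σ (A i j) = A i j := fun i j => congrFun (congrFun (altPow_map σ) i) j
      rw [h2]
      congr 1
      apply Finset.sum_congr rfl
      intro j _
      rw [h3, powEquiv_invol hF]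
    rw [h1, Matrix.mulVec_smul, Matrix.mulVec_mulVec, hAA, Matrix.smul_mulVec, Matrix.one_mulVec, smul_smul, smul_smul, map_smul,
      LinearEquiv.symm_apply_apply]
    congr 1
    linear_combination (c * σ c * s) * hss
  have hbil := isBilinearForm_basisForm b (A := A)
  have hndg := nondegenerate_basisForm b hdet
  have htr : Aᵀ = s • A := altPow_transpose
  have hsym : ∀ u v, basisForm b A u v = s * basisForm b A v u := by
    intro u v
    have h1 := formOfGram_star (RingEquiv.refl F) (G := A) (l := s) (fun _ => rfl) htr (b.equivFun v) (b.equivFun u)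
    exact h1
  have hf' : IsSymplecticForm (basisForm b A) ∨ (Odd q ∧ IsSymmetricForm (basisForm b A)) := by
    by_cases hcase : s = -1
    · left
      refine ⟨hbil, fun u v => by rw [hsym, hcase]; ring, fun v => ?_, hndg⟩
      exact formOfGram_self_zero (by rw [htr, hcase, neg_smul, one_smul]) (altPow_diag hk) _
    · have hs1 : s = 1 := by
        have h1 : (s - 1) * (s + 1) = 0 := by linear_combination hss
        rcases mul_eq_zero.1 h1 with h2 | h2
        · exact sub_eq_zero.1 h2
        · exact absurd (eq_neg_of_add_eq_zero_left h2) hcase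
      right
      refine ⟨?_, hbil, fun u v => by rw [hsym, hs1, one_mul], hndg⟩
      by_contra hodd
      have h2 := two_of_not_odd hF hodd
      apply hcase
      rw [hs1]
      have : (1 : F) + 1 = 0 := by rw [one_add_one_eq_two]; exact h2
      exact eq_neg_of_add_eq_zero_left this
  refine (unitary_comparison_subfield hF hf hf' hJ hl hH ?_).member
  intro g hg
  obtain ⟨τ, P, hP⟩ := hact g hg
  have hprod : ∏ i, (P i : Matrix (Fin 2) (Fin 2) F).det ≠ 0 := Finset.prod_ne_zero_iff.2 (fun i _ => Matrix.GeneralLinearGroup.det_ne_zero (P i))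
  refine ⟨Units.mk0 _ hprod, fun u v => ?_⟩
  exact basisForm_act b (by rw [hP]; exact altPow_act τ P) u v

end Cfsg.Agent.Asch
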