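import Mathlib
import Cfsg.Prelude.Def_GeometricClasses
import Cfsg.Agent.Asch.Core
import Cfsg.Agent.Asch.FormMembers
import Cfsg.Agent.Asch.PieceBForms
import Cfsg.Agent.Asch.SmallComp
import Cfsg.Agent.Asch.UniTwo
import Cfsg.Agent.Asch.SpMain
set_option autoImplicit false
set_option linter.unusedSectionVars false

/-!
The structure theorem for subgroups of the unitary groups.
-/

namespace Cfsg.Agent.Asch

open Module Cfsg.Geo EForm

open scoped Matrix Kronecker MatrixGroups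

variable {ι : Type} [Fintype ι] [DecidableEq ι] {F : Type*} [Field F]

/-- changing the basis in a tensor power -/
theorem power_rebase {σ : F ≃+* F} {ε : F} {f : (ι → F) → (ι → F) → F} (hf : EForm σ ε f) {k a : ℕ}
    {b : Basis (Fin k → Fin a) F (ι → F)} {G G' : Matrix (Fin a) (Fin a) F} {c : F}
    (hgram : gramB f b = c • piMat (fun _ : Fin k => G)) {X : GL (Fin a) F}
    (hX : (X : Matrix (Fin a) (Fin a) F)ᵀ * G * (X : Matrix (Fin a) (Fin a) F).map σ = G') {H : Subgroup (GL ι F)}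
    (hact : ∀ g ∈ H, ∃ (τ : Equiv.Perm (Fin k)) (P : Fin k → GL (Fin a) F),
      LinearMap.toMatrix b b (Matrix.toLin' (g : Matrix ι ι F)) = permMat F a τ * piMat (fun i => (P i : Matrix (Fin a) (Fin a) F))) :
    ∃ b' : Basis (Fin k → Fin a) F (ι → F), gramB f b' = c • piMat (fun _ : Fin k => G') ∧
      ∀ g ∈ H, ∃ (τ : Equiv.Perm (Fin k)) (P : Fin k → GL (Fin a) F),
        LinearMap.toMatrix b b (Matrix.toLin' (g : Matrix ι ι F)) = permMat F a τ * piMat (fun i => (P i : Matrix (Fin a) (Fin a) F)) ∧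
        LinearMap.toMatrix b' b' (Matrix.toLin' (g : Matrix ι ι F)) =
          permMat F a τ * piMat (fun i => ((X⁻¹ * P i * X : GL (Fin a) F) : Matrix (Fin a) (Fin a) F)) := by
  let M : GL (Fin k → Fin a) F := Matrix.GeneralLinearGroup.mkOfDetNeZero _ (det_piMat_ne_zero (fun _ : Fin k => X))
  have hM : (M : Matrix (Fin k → Fin a) (Fin k → Fin a) F) = piMat (fun _ : Fin k => (X : Matrix (Fin a) (Fin a) F)) := rfl
  have hMi : ((M⁻¹ : GL (Fin k → Fin a) F) : Matrix (Fin k → Fin a) (Fin k → Fin a) F) =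
      piMat (fun _ : Fin k => ((X⁻¹ : GL (Fin a) F) : Matrix (Fin a) (Fin a) F)) := by
    have h1 : ((M⁻¹ : GL (Fin k → Fin a) F) : Matrix (Fin k → Fin a) (Fin k → Fin a) F) * (M : Matrix (Fin k → Fin a) (Fin k → Fin a) F) = 1 := by
      rw [← Units.val_mul, inv_mul_cancel, Units.val_one]
    have h2 : (M : Matrix (Fin k → Fin a) (Fin k → Fin a) F) * piMat (fun _ : Fin k => ((X⁻¹ : GL (Fin a) F) : Matrix (Fin a) (Fin a) F)) = 1 := by
      rw [hM, ← piMat_mul, ← piMat_one]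
      congr 1
      funext i
      show (X : Matrix (Fin a) (Fin a) F) * ((X⁻¹ : GL (Fin a) F) : Matrix (Fin a) (Fin a) F) = 1
      rw [← Units.val_mul, mul_inv_cancel, Units.val_one]
    calc _ = ((M⁻¹ : GL (Fin k → Fin a) F) : Matrix (Fin k → Fin a) (Fin k → Fin a) F) *
          ((M : Matrix (Fin k → Fin a) (Fin k → Fin a) F) * piMat (fun _ : Fin k => ((X⁻¹ : GL (Fin a) F) : Matrix (Fin a) (Fin a) F))) := by
            rw [h2, mul_one]
      _ = _ := by rw [← mul_assoc, h1, one_mul]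
  refine ⟨rebase b M, ?_, ?_⟩
  · rw [gramB_rebase hf, hgram, hM, piMat_map, Matrix.mul_smul, Matrix.smul_mul, piMat_transpose', ← piMat_mul, ← piMat_mul]
    congr 2
    funext i
    exact hX
  · intro g hg
    obtain ⟨τ, P, hP⟩ := hact g hg
    refine ⟨τ, P, hP, ?_⟩
    rw [toMatrix_rebase, hP, hMi, hM]
    have h3 : piMat (fun _ : Fin k => ((X⁻¹ : GL (Fin a) F) : Matrix (Fin a) (Fin a) F)) * permMat F a τ =
        permMat F a τ * piMat (fun _ : Fin k => ((X⁻¹ : GL (Fin a) F) : Matrix (Fin a) (Fin a) F)) := by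
      rw [permMat_conj]; rfl
    rw [← mul_assoc, h3, mul_assoc, mul_assoc, ← piMat_mul, ← piMat_mul]
    congr 2
    funext i
    rw [Units.val_mul, Units.val_mul]
    exact (mul_assoc _ _ _).symm

/-- tensor powers of two-dimensional unitary forms -/
theorem PowerForm.uni_member_two [Fintype F] [Nonempty ι] {q : ℕ} (hF : Fintype.card F = q ^ 2) {f : (ι → F) → (ι → F) → F}
    (hfq : IsUnitaryFormPow q f) {σ : F ≃+* F} (hf : IsUnitaryForm σ f) {H : Subgroup (GL ι F)} (hH : FixesForm (matrixSet H) f)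
    {k : ℕ} {L : Fin k → Subgroup (GL ι F)}
    {φ : Fin k → (Matrix (Fin 2) (Fin 2) F →ₐ[F] Module.End F (ι → F))} {b : Basis (Fin k → Fin 2) F (ι → F)}
    {G : GL (Fin 2) F} {c l : F} (hP : PowerForm σ f L 2 φ b G c l) (hk : 2 ≤ k)
    (hperm : ∀ g ∈ H, ∃ σ : Equiv.Perm (Fin k), ∀ i, ∀ x ∈ L i, g * x * g⁻¹ ∈ L (σ i)) : ∃ M, UniMember q f M ∧ H ≤ M := by
  have hE := EForm.of_unitary hf
  obtain ⟨d, hd, hd'⟩ := exists_herm_scalar hf.ne_refl hf.involutive hP.l_mul
  have hG' : ((smulGL d hd G : Matrix (Fin 2) (Fin 2) F).map σ)ᵀ = (smulGL d hd G : Matrix (Fin 2) (Fin 2) F) := by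
    rw [coe_smulGL, map_smulMat, Matrix.transpose_smul, hP.G_star, smul_smul, hd']
  obtain ⟨X, hX⟩ := exists_herm_one hf.ne_refl hf.involutive hG'
  have hX' : (X : Matrix (Fin 2) (Fin 2) F)ᵀ * (G : Matrix (Fin 2) (Fin 2) F) * (X : Matrix (Fin 2) (Fin 2) F).map σ =
      d⁻¹ • (1 : Matrix (Fin 2) (Fin 2) F) := by
    rw [← hX, coe_smulGL, Matrix.mul_smul, Matrix.smul_mul, smul_smul, inv_mul_cancel₀ hd, one_smul]
  obtain ⟨b', hgram, hact⟩ := power_rebase hE hP.gram hX' (H := H) (fun g hg => by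
    obtain ⟨τ, hτ⟩ := hperm g hg
    obtain ⟨P, μ, -, h3, -⟩ := hP.exists_perm_mul hE (by omega) (hH _ ⟨g, hg, rfl⟩) hτ
    exact ⟨τ, P, h3⟩)
  have hgram' : gramB f b' = (c * ∏ _i : Fin k, d⁻¹) • (1 : Matrix (Fin k → Fin 2) (Fin k → Fin 2) F) := by
    rw [hgram, piMat_smul (fun _ : Fin k => d⁻¹) (fun _ : Fin k => (1 : Matrix (Fin 2) (Fin 2) F)), smul_smul]
    congr 1
    exact piMat_one
  refine Asch.uni_member_two hF hfq (by omega) (c := c * ∏ _i : Fin k, d⁻¹) ?_ hgram' hH (fun g hg => ?_)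
  · exact mul_ne_zero hP.c_ne (Finset.prod_ne_zero_iff.2 (fun _ _ => inv_ne_zero hd))
  · obtain ⟨τ, P, -, h⟩ := hact g hg
    exact ⟨τ, _, h⟩

/-- **Aschbacher's theorem**, unitary case, modulo the exceptional nine-dimensional case over the field with four elements -/
theorem unitary_structure_of [Fintype F] {q : ℕ} (hF : Fintype.card F = q ^ 2) (hn : 2 ≤ Fintype.card ι) {f : (ι → F) → (ι → F) → F}
    (hf : IsUnitaryFormPow q f) {H : Subgroup (GL ι F)} (hH : FixesForm (matrixSet H) f)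
    (hnine : ∀ (σ : F ≃+* F) (b : Basis (Fin 3 × Fin 3) F (ι → F)) (c : F), q = 2 → (∀ x, σ x = x ^ 2) →
      TensorForm σ f H 3 3 b 1 1 c 1 1 → ∃ M, UniMember q f M ∧ H ≤ M) :
    (∃ M, UniMember q f M ∧ H ≤ M) ∨ InUnitaryResidualClass H := by
  classical
  have hι : Nonempty ι := Fintype.card_pos_iff.1 (by omega)
  obtain ⟨σ, hσ, hσne, hσ2⟩ := exists_pow_sigma hF
  have hfu := IsUnitaryFormPow.isUnitaryForm hf hσ hσne hσ2
  have hE := EForm.of_unitary hfu
  have hfix := fixesForm_iff_isIsom.1 hH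
  by_cases hirr : Irred (natRep H)
  swap
  · exact Or.inl (uni_of_reducible hfu hH hirr)
  by_cases hall : AllNormalAbs H
  swap
  · left
    unfold AllNormalAbs at hall
    push Not at hall
    obtain ⟨R, hRH, hHR, h1, h2⟩ := hall
    have hstar : StarClosed f (spanAlg R) := hE.starClosed_spanAlg (fun g hg => hfix g (hRH hg))
    rcases uni_clifford hfu hH hirr (spanAlg_normAlg hHR) hstar with h3 | ⟨h3, h4⟩
    · exact h3
    · obtain ⟨a, k, b, G₁, G₂, c, l₁, l₂, hT⟩ := exists_tensorForm hE hfix hRH hHR h1 h2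
        (isSemisimpleModule_of_irred hirr (spanAlg_normAlg hHR)) h3 h4
      rcases hT.uni_cases hσ hfu with h5 | ⟨b', c', h5⟩ | ⟨hq, b', c', h5⟩
      · exact h5
      · obtain ⟨b'', hgram, hact, -⟩ := h5.toPower
        refine Asch.uni_member_two hF hf (k := 2) (by omega) h5.c_ne ?_ hH (fun g hg => ?_) (b := b'')
        · rw [hgram]
          congr 1
          exact piMat_one
        · obtain ⟨P, hP⟩ := hact g hg
          exact ⟨1, P, hP⟩
      · exact hnine σ b' c' hq (fun x => by rw [hσ, hq]) h5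
  rcases pieces_of_allNormalAbs hn H hirr hall with ⟨N, r, hN⟩ | ⟨k, L, hk, hL⟩
  · left
    rcases hN.unitary_cases hn hf hF hH with ⟨N', F₀, hF₀, h1, h2, h3, h4⟩ | ⟨r, R, p, e, k, h1, h2, h3, h4, h5, h6, h7, h8⟩
    · exact (unitary_subfield hF hn h1 h2 hf h3 hF₀ h4).member
    · exact ⟨_, Or.inr (Or.inr (Or.inr (Or.inr (Or.inr (Or.inr (Or.inr (Or.inr (Or.inr (Or.inl
        ⟨r, R, p, e, k, h1, h2, h3, h4, h5, h6, h7, rfl⟩))))))))), h8⟩
  · by_cases hk2 : 2 ≤ k
    · left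
      obtain ⟨a, φ, b, G, c, l, hP⟩ := exists_powerForm hE hfix L (by omega) (fun i x hx => hfix x (hL.le i hx)) hL.comm hL.span hL.trans
      have ha2 := hP.two_le (by omega) hL.not_scalar
      by_cases ha : a = 2
      · subst ha
        exact hP.uni_member_two hF hf hfu hH hk2 hL.perm
      · refine hP.uni_member hσ hfu hk2 (by omega) hL.perm ?_
        rintro ⟨hq, ha3⟩
        subst hq
        exact hP.false_of_three_two hE (by omega) hσ hσne (fun i x hx => hfix x (hL.le i hx)) hL.perfect hL.not_scalar hF ha3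
    · have hk1 : k = 1 := by omega
      subst hk1
      have hP := corePiece_of_compData hL
      have hfixP := fixesForm_le hP.le hH
      by_cases hsub : ∃ F₀ : Subfield F, F₀ ≠ ⊤ ∧ RealisableOver F₀ (matrixSet (L 0))
      · obtain ⟨F₀, hF₀, hreal⟩ := hsub
        exact Or.inl (unitary_subfield hF hn hP.span hP.norm hf hfixP hF₀ hreal).member
      by_cases hquad : ∃ Q : (ι → F) → F, IsNondegenerateQuadraticForm Q ∧ FixesQuadForm (matrixSet (L 0)) Q
      · obtain ⟨Q, hQ, hQfix⟩ := hquad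
        exact Or.inl (unitary_of_quadratic hF hP.span hP.norm hf hQ hfixP hQfix hH).member
      by_cases hsymp : ∃ f : (ι → F) → (ι → F) → F, IsSymplecticForm f ∧ FixesForm (matrixSet (L 0)) f
      · obtain ⟨g, hg, hgfix⟩ := hsymp
        exact Or.inl (unitary_of_symplectic hF hP.span hP.norm hf hg hfixP hgfix hH).member
      right
      exact ⟨L 0, hP.isResidualCore (fun F₀ h1 h2 => hsub ⟨F₀, h1, h2⟩), hquad, hsymp⟩

end Cfsg.Agent.Asch
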