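import Mathlib
import Cfsg.Prelude.Def_GeometricClasses
import Cfsg.Agent.Asch.OrthFrame
import Cfsg.Agent.Asch.SmallComp
import Cfsg.Agent.Asch.UniMain
set_option autoImplicit false
set_option linter.unusedSectionVars false

/-!
Tensor decompositions of quadratic forms: members of the geometric classes.
-/

namespace Cfsg.Agent.Asch

open Module Cfsg.Geo EForm

open scoped Matrix Kronecker MatrixGroups

variable {ι : Type} [Fintype ι] [DecidableEq ι] {F : Type*} [Field F]

section Tensor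

variable [Fintype F] [Nonempty ι] {Q : (ι → F) → F} {H : Subgroup (GL ι F)}

lemma neg_one_eq_of_two (h2 : (2 : F) = 0) : (-1 : F) = 1 := by
  have : (1 : F) + 1 = 0 := by rw [one_add_one_eq_two]; exact h2
  exact (eq_neg_of_add_eq_zero_left this).symm

lemma isIsom_polar (hH : FixesQuadForm (matrixSet H) Q) : ∀ g ∈ H, IsIsom (QuadraticMap.polar Q) g :=
  fixesForm_iff_isIsom.1 (fixesForm_polar hH)

/-- the quadratic form vanishes on pure tensors when both factors are alternating -/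
theorem TensorForm.quad_pure_zero (hQ : IsNondegenerateQuadraticForm Q) (hcard : 2 ≤ Fintype.card ι) (hirr : Irred (natRep H))
    (hH : FixesQuadForm (matrixSet H) Q) {a k : ℕ} {b : Basis (Fin a × Fin k) F (ι → F)} {G₁ : GL (Fin a) F} {G₂ : GL (Fin k) F}
    {c l₁ l₂ : F} (h : TensorForm (RingEquiv.refl F) (QuadraticMap.polar Q) H a k b G₁ G₂ c l₁ l₂)
    (h1 : ∀ u, formOfGram id (G₁ : Matrix (Fin a) (Fin a) F) u u = 0) (h2 : ∀ u, formOfGram id (G₂ : Matrix (Fin k) (Fin k) F) u u = 0)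
    (x : Fin a → F) (y : Fin k → F) : Q (pure2 b x y) = 0 := by
  have hE := EForm.of_symmetric (isSymmetricForm_polar hQ)
  by_cases hc : (2 : F) = 0
  · obtain ⟨Q', hQ', hQ0, hQH⟩ := exists_quad_two hE (fun u v => QuadraticMap.polar_comm Q u v) h.gram h1 h2
    have h3 := (IsNondegenerateQuadraticForm.isQuadFor hQ).eq_of_irred hc hQ' hcard hirr (fun g hg v => hH _ ⟨g, hg, rfl⟩ v) (fun g hg v => hQH g (isIsom_polar hH g hg) (by
      obtain ⟨P, R, μ, hμ, h3, h4, h5⟩ := h.act g hg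
      exact ⟨P, R, h3⟩) v)
    rw [h3]; exact hQ0 x y
  · have h3 := polar_self hQ (pure2 b x y)
    rw [form_pure2 hE h.gram] at h3
    have h4 : formOfGram (RingEquiv.refl F) (G₁ : Matrix (Fin a) (Fin a) F) x x = 0 := h1 x
    rw [h4, mul_zero, zero_mul] at h3
    exact (mul_eq_zero.1 h3.symm).resolve_left hc

/-- both factors alternating, first factor smaller -/
theorem TensorForm.orth_member_alt_lt (hQ : IsNondegenerateQuadraticForm Q) (hcard : 2 ≤ Fintype.card ι) (hirr : Irred (natRep H))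
    (hH : FixesQuadForm (matrixSet H) Q) {a k : ℕ} {b : Basis (Fin a × Fin k) F (ι → F)} {G₁ : GL (Fin a) F} {G₂ : GL (Fin k) F}
    {c : F} (h : TensorForm (RingEquiv.refl F) (QuadraticMap.polar Q) H a k b G₁ G₂ c (-1) (-1)) (hak : a < k)
    (h1 : ∀ u, formOfGram id (G₁ : Matrix (Fin a) (Fin a) F) u u = 0) (h2 : ∀ u, formOfGram id (G₂ : Matrix (Fin k) (Fin k) F) u u = 0) :
    ∃ M, OrthMember Q M ∧ H ≤ M := by
  have hE := EForm.of_symmetric (isSymmetricForm_polar hQ)
  obtain ⟨e⟩ := h.equiv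
  have hs1 := h.star₁
  have hs2 := h.star₂
  rw [map_refl, neg_smul, one_smul] at hs1 hs2
  refine ⟨_, Or.inr (Or.inr (Or.inr (Or.inr (Or.inr (Or.inr (Or.inr (Or.inr (Or.inl ⟨a, k, e, basisGL b e,
      formOfGram id (G₁ : Matrix (Fin a) (Fin a) F), formOfGram id (G₂ : Matrix (Fin k) (Fin k) F), h.two_le₁, hak,
      isSymplecticForm_formOfGram (Matrix.GeneralLinearGroup.det_ne_zero G₁) hs1 h1,
      isSymplecticForm_formOfGram (Matrix.GeneralLinearGroup.det_ne_zero G₂) hs2 h2,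
      isTensorFormStructure_of_gram hE b e h.c_ne h.gram, fun x y => ?_, rfl⟩)))))))), h.le_tensor e⟩
  rw [basisGL_mulVec]
  exact h.quad_pure_zero hQ hcard hirr hH h1 h2 x y

/-- both factors alternating of the same dimension -/
theorem TensorForm.orth_member_alt_eq (hQ : IsNondegenerateQuadraticForm Q) (hcard : 2 ≤ Fintype.card ι) (hirr : Irred (natRep H))
    (hH : FixesQuadForm (matrixSet H) Q) {a : ℕ} {b : Basis (Fin a × Fin a) F (ι → F)} {G₁ : GL (Fin a) F} {G₂ : GL (Fin a) F}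
    {c : F} (h : TensorForm (RingEquiv.refl F) (QuadraticMap.polar Q) H a a b G₁ G₂ c (-1) (-1))
    (h1 : ∀ u, formOfGram id (G₁ : Matrix (Fin a) (Fin a) F) u u = 0) (h2 : ∀ u, formOfGram id (G₂ : Matrix (Fin a) (Fin a) F) u u = 0) :
    ∃ M, OrthMember Q M ∧ H ≤ M := by
  have hE := EForm.of_symmetric (isSymmetricForm_polar hQ)
  obtain ⟨Y, hY⟩ := cong_alt (Matrix.GeneralLinearGroup.det_ne_zero G₂) (Matrix.GeneralLinearGroup.det_ne_zero G₁) h2 h1
  obtain ⟨b', h'⟩ := h.rebase hE 1 Y (G₁' := G₁) (G₂' := G₁) (by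
    rw [Units.val_one, Matrix.transpose_one, one_mul, map_refl, mul_one]) (by rw [map_refl]; exact hY)
  obtain ⟨b'', hgram, hact, hpure⟩ := h'.toPower
  obtain ⟨e⟩ : Nonempty (ι ≃ (Fin 2 → Fin a)) := ⟨Fintype.equivOfCardEq (by simp [h'.card_eq, pow_two])⟩
  have hs1 := h.star₁
  rw [map_refl, neg_smul, one_smul] at hs1
  refine ⟨_, Or.inr (Or.inr (Or.inr (Or.inr (Or.inr (Or.inr (Or.inr (Or.inr (Or.inr (Or.inr (Or.inr (Or.inr ⟨a, 2, e, basisGL b'' e,
      formOfGram id (G₁ : Matrix (Fin a) (Fin a) F), le_rfl, Or.inl even_two,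
      isSymplecticForm_formOfGram (Matrix.GeneralLinearGroup.det_ne_zero G₁) hs1 h1,
      isTensorPowerFormStructure_of_gram hE b'' e h'.c_ne hgram, fun x => ?_, rfl⟩))))))))))), ?_⟩
  · rw [basisGL_mulVec]
    have := h'.quad_pure_zero hQ hcard hirr hH h1 h1 (x 0) (x 1)
    rw [← hpure] at this
    exact this
  · intro g hg
    obtain ⟨P, hP⟩ := hact g hg
    exact mem_tensorWreathSubgroup b'' e g 1 P hP

/-- both factors alternating -/
theorem TensorForm.orth_member_alt (hQ : IsNondegenerateQuadraticForm Q) (hcard : 2 ≤ Fintype.card ι) (hirr : Irred (natRep H))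
    (hH : FixesQuadForm (matrixSet H) Q) {a k : ℕ} {b : Basis (Fin a × Fin k) F (ι → F)} {G₁ : GL (Fin a) F} {G₂ : GL (Fin k) F}
    {c : F} (h : TensorForm (RingEquiv.refl F) (QuadraticMap.polar Q) H a k b G₁ G₂ c (-1) (-1))
    (h1 : ∀ u, formOfGram id (G₁ : Matrix (Fin a) (Fin a) F) u u = 0) (h2 : ∀ u, formOfGram id (G₂ : Matrix (Fin k) (Fin k) F) u u = 0) :
    ∃ M, OrthMember Q M ∧ H ≤ M := by
  rcases lt_trichotomy a k with hak | hak | hak
  · exact h.orth_member_alt_lt hQ hcard hirr hH hak h1 h2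
  · subst hak
    exact h.orth_member_alt_eq hQ hcard hirr hH h1 h2
  · exact h.swap.orth_member_alt_lt hQ hcard hirr hH hak h2 h1

/-- a symmetric factor of dimension two -/
theorem TensorForm.orth_member_two (hQ : IsNondegenerateQuadraticForm Q) (h2 : (2 : F) ≠ 0)
    {a : ℕ} {b : Basis (Fin a × Fin 2) F (ι → F)} {G₁ : GL (Fin a) F} {G₂ : GL (Fin 2) F}
    {c l₁ : F} (h : TensorForm (RingEquiv.refl F) (QuadraticMap.polar Q) H a 2 b G₁ G₂ c l₁ 1) :
    ∃ M, OrthMember Q M ∧ H ≤ M := by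
  have hE := EForm.of_symmetric (isSymmetricForm_polar hQ)
  have hs2 := h.star₂
  rw [map_refl, one_smul] at hs2
  obtain ⟨S, d, hd, hS, hadj, hnorm⟩ := h.exists_skew hE hs2
  rcases skew_cases hE h2 hd hS hadj hnorm with ⟨m, D, h3, h4, h5, h6⟩ | ⟨K, h3, h4, h5, h6, h7⟩
  · refine ⟨_, Or.inr (Or.inr (Or.inr (Or.inr (Or.inl ⟨m, D, h3, h4, fun i w hw => ?_, rfl⟩)))), h6⟩
    have := h5 i w hw w hw
    rw [polar_self hQ] at this
    exact (mul_eq_zero.1 this).resolve_left h2
  · refine ⟨_, Or.inr (Or.inr (Or.inr (Or.inr (Or.inr (Or.inr (Or.inl ⟨K, h3, h4, h5, fun k hk => ?_, rfl⟩)))))), h7⟩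
    obtain ⟨c, hc⟩ := h6 k hk
    refine ⟨c, fun v => ?_⟩
    have := hc v
    rw [polar_self hQ, polar_self hQ] at this
    have h8 : (2 : F) * (Q (k *ᵥ v) - c * Q v) = 0 := by linear_combination this
    exact sub_eq_zero.1 ((mul_eq_zero.1 h8).resolve_left h2)

/-- symmetric factors of dimension at least three, the first one smaller -/
theorem TensorForm.orth_member_symm_lt (hQ : IsNondegenerateQuadraticForm Q) (h2 : (2 : F) ≠ 0)
    {a k : ℕ} {b : Basis (Fin a × Fin k) F (ι → F)} {G₁ : GL (Fin a) F} {G₂ : GL (Fin k) F}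
    {c : F} (h : TensorForm (RingEquiv.refl F) (QuadraticMap.polar Q) H a k b G₁ G₂ c 1 1) (ha : 3 ≤ a) (hak : a < k) :
    ∃ M, OrthMember Q M ∧ H ≤ M := by
  have hE := EForm.of_symmetric (isSymmetricForm_polar hQ)
  obtain ⟨e⟩ := h.equiv
  have hs1 := h.star₁
  have hs2 := h.star₂
  rw [map_refl, one_smul] at hs1 hs2
  exact ⟨_, Or.inr (Or.inr (Or.inr (Or.inr (Or.inr (Or.inr (Or.inr (Or.inl ⟨a, k, e, basisGL b e,
      formOfGram id (G₁ : Matrix (Fin a) (Fin a) F), formOfGram id (G₂ : Matrix (Fin k) (Fin k) F), two_ne_zero_iff_odd_card.1 h2, ha, hak,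
      isSymmetricForm_formOfGram (Matrix.GeneralLinearGroup.det_ne_zero G₁) hs1,
      isSymmetricForm_formOfGram (Matrix.GeneralLinearGroup.det_ne_zero G₂) hs2,
      isTensorFormStructure_of_gram hE b e h.c_ne h.gram, rfl⟩))))))), h.le_tensor e⟩

/-- symmetric factors of the same odd dimension -/
theorem TensorForm.orth_member_symm_eq (hQ : IsNondegenerateQuadraticForm Q) (h2 : (2 : F) ≠ 0)
    {a : ℕ} {b : Basis (Fin a × Fin a) F (ι → F)} {G₁ : GL (Fin a) F} {G₂ : GL (Fin a) F}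
    {c : F} (h : TensorForm (RingEquiv.refl F) (QuadraticMap.polar Q) H a a b G₁ G₂ c 1 1) (ha : 3 ≤ a) (hodd : Odd a) :
    ∃ M, OrthMember Q M ∧ H ≤ M := by
  have hE := EForm.of_symmetric (isSymmetricForm_polar hQ)
  have hs1 := h.star₁
  have hs2 := h.star₂
  rw [map_refl, one_smul] at hs1 hs2
  have hdet1 := Matrix.GeneralLinearGroup.det_ne_zero G₁
  have hdet2 := Matrix.GeneralLinearGroup.det_ne_zero G₂
  by_cases hex : Fintype.card F = 3 ∧ a = 3
  · obtain ⟨hF, ha3⟩ := hex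
    subst ha3
    have hdet : ((1 : Matrix (Fin 3) (Fin 3) F)).det ≠ 0 := by rw [Matrix.det_one]; exact one_ne_zero
    obtain ⟨X, d, hd, hX⟩ := cong_symm_odd h2 hodd hdet1 hdet hs1 Matrix.transpose_one
    obtain ⟨Y, d', hd', hY⟩ := cong_symm_odd h2 hodd hdet2 hdet hs2 Matrix.transpose_one
    obtain ⟨b', h'⟩ := h.rebase hE X Y (G₁' := smulGL d hd 1) (G₂' := smulGL d' hd' 1) (by rw [map_refl]; exact hX)
      (by rw [map_refl]; exact hY)
    have hgram : gramB (QuadraticMap.polar Q) b' = (c * (d * d')) • (1 : Matrix (Fin 3 × Fin 3) (Fin 3 × Fin 3) F) := by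
      rw [h'.gram, coe_smulGL, coe_smulGL, Units.val_one, Matrix.smul_kronecker, Matrix.kronecker_smul, Matrix.one_kronecker_one,
        smul_smul, smul_smul, mul_assoc]
    refine orth_frame_member hQ h2 (by rw [hF]; exact Nat.prime_three) b' (mul_ne_zero h.c_ne (mul_ne_zero hd hd')) hgram (by simp) (fun g hg => ?_)
    obtain ⟨P, R, μ, hμ, h3, h4, h5⟩ := h'.act g hg
    apply frame_act
    rintro ⟨j, j'⟩
    have key : ∀ {P : GL (Fin 3) F} {d : F} {hd : d ≠ 0} {μ : F}, μ ≠ 0 →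
        (P : Matrix (Fin 3) (Fin 3) F)ᵀ * (smulGL d hd (1 : GL (Fin 3) F) : Matrix (Fin 3) (Fin 3) F) * (P : Matrix (Fin 3) (Fin 3) F).map (RingEquiv.refl F) =
          μ • (smulGL d hd (1 : GL (Fin 3) F) : Matrix (Fin 3) (Fin 3) F) →
        (P : Matrix (Fin 3) (Fin 3) F)ᵀ * (P : Matrix (Fin 3) (Fin 3) F) = μ • (1 : Matrix (Fin 3) (Fin 3) F) := by
      intro P d hd μ _ h6
      rw [coe_smulGL, map_refl, Units.val_one, Matrix.mul_smul, mul_one, Matrix.smul_mul, smul_comm] at h6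
      exact smul_right_injective _ hd h6
    obtain ⟨i, hi⟩ := monomial_three hF hμ (key hμ h4) j
    obtain ⟨i', hi'⟩ := monomial_three hF (inv_ne_zero hμ) (key (inv_ne_zero hμ) h5) j'
    refine ⟨(i, i'), ?_⟩
    rintro ⟨p, p'⟩ hp
    rw [h3, Matrix.kroneckerMap_apply]
    by_cases hpi : p = i
    · subst hpi
      have : p' ≠ i' := fun h => hp (by rw [h])
      rw [hi' p' this, mul_zero]
    · rw [hi p hpi, zero_mul]
  · obtain ⟨Y, d, hd, hY⟩ := cong_symm_odd h2 hodd hdet2 hdet1 hs2 hs1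
    obtain ⟨b', h'⟩ := h.rebase hE 1 Y (G₁' := G₁) (G₂' := smulGL d hd G₁) (by
      rw [Units.val_one, Matrix.transpose_one, one_mul, map_refl, mul_one]) (by rw [map_refl]; exact hY)
    have h'' := h'.scale₂ (fun _ => rfl) (inv_ne_zero hd)
    have e1 : smulGL d⁻¹ (inv_ne_zero hd) (smulGL d hd G₁) = G₁ := by
      apply Units.ext
      rw [coe_smulGL, coe_smulGL, smul_smul, inv_mul_cancel₀ hd, one_smul]
    have e2 : (RingEquiv.refl F) d⁻¹ * 1 * d⁻¹⁻¹ = 1 := by
      rw [RingEquiv.refl_apply, inv_inv, mul_one, inv_mul_cancel₀ hd]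
    rw [e1, e2] at h''
    obtain ⟨b'', hgram, hact, -⟩ := h''.toPower
    obtain ⟨e⟩ : Nonempty (ι ≃ (Fin 2 → Fin a)) := ⟨Fintype.equivOfCardEq (by simp [h'.card_eq, pow_two])⟩
    refine ⟨_, Or.inr (Or.inr (Or.inr (Or.inr (Or.inr (Or.inr (Or.inr (Or.inr (Or.inr (Or.inr (Or.inr (Or.inl ⟨a, 2, e, basisGL b'' e,
      formOfGram id (G₁ : Matrix (Fin a) (Fin a) F), two_ne_zero_iff_odd_card.1 h2, ha, le_rfl, hex,
      isSymmetricForm_formOfGram (Matrix.GeneralLinearGroup.det_ne_zero G₁) hs1,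
      isTensorPowerFormStructure_of_gram hE b'' e h''.c_ne hgram, rfl⟩))))))))))), ?_⟩
    intro g hg
    obtain ⟨P, hP⟩ := hact g hg
    exact mem_tensorWreathSubgroup b'' e g 1 P hP

/-- **Tensor decompositions of quadratic forms.** -/
theorem TensorForm.orth_member (hQ : IsNondegenerateQuadraticForm Q) (hcard : 2 ≤ Fintype.card ι) (hirr : Irred (natRep H))
    (hH : FixesQuadForm (matrixSet H) Q) {a k : ℕ} {b : Basis (Fin a × Fin k) F (ι → F)} {G₁ : GL (Fin a) F} {G₂ : GL (Fin k) F}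
    {c l₁ l₂ : F} (h : TensorForm (RingEquiv.refl F) (QuadraticMap.polar Q) H a k b G₁ G₂ c l₁ l₂)
    (hsq : (2 : F) ≠ 0 → ∀ a, Even a → 4 ≤ a → Fintype.card ι ≠ a * a) : ∃ M, OrthMember Q M ∧ H ≤ M := by
  have hE := EForm.of_symmetric (isSymmetricForm_polar hQ)
  have hl1 := eq_one_or_neg_one_of_mul h.mul₁
  have hl2 := eq_one_or_neg_one_of_mul h.mul₂
  by_cases h2 : (2 : F) = 0
  · have hneg := neg_one_eq_of_two h2
    have e1 : l₁ = -1 := by rcases hl1 with h3 | h3 <;> [rw [h3, hneg]; exact h3]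
    have e2 : l₂ = -1 := by rcases hl2 with h3 | h3 <;> [rw [h3, hneg]; exact h3]
    subst e1 e2
    have halt : ∀ {a k : ℕ} {b : Basis (Fin a × Fin k) F (ι → F)} {G₁ : GL (Fin a) F} {G₂ : GL (Fin k) F} {c : F},
        TensorForm (RingEquiv.refl F) (QuadraticMap.polar Q) H a k b G₁ G₂ c (-1) (-1) →
          ∀ u, formOfGram id (G₁ : Matrix (Fin a) (Fin a) F) u u = 0 := by
      intro a k b G₁ G₂ c h
      have hs1 := h.star₁
      rw [map_refl, hneg, one_smul] at hs1
      have := h.two_le₂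
      apply alt_of_irred h2 hirr b h.two_le₁ (by omega) hs1
      intro g hg
      obtain ⟨P, R, μ, hμ, h3, h4, h5⟩ := h.act g hg
      refine ⟨P, R, μ, h3, ?_⟩
      rwa [map_refl] at h4
    exact h.orth_member_alt hQ hcard hirr hH (halt h) (halt h.swap)
  · have hs := h.sign_mul hE
    have hs' : (l₁ * l₂ - 1) * c = 0 := by
      have : c * (l₁ * l₂) * 1 = c := hs
      linear_combination this
    have hs'' : l₁ * l₂ = 1 := sub_eq_zero.1 ((mul_eq_zero.1 hs').resolve_right h.c_ne)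
    have hne : (1 : F) ≠ -1 := by
      intro h3
      apply h2
      rw [← one_add_one_eq_two]
      nth_rewrite 1 [h3]
      ring
    rcases hl1 with h3 | h3
    · have h4 : l₂ = 1 := by rw [h3, one_mul] at hs''; exact hs''
      subst h3 h4
      by_cases hk2 : k = 2
      · subst hk2
        exact h.orth_member_two hQ h2
      by_cases ha2 : a = 2
      · subst ha2
        exact h.swap.orth_member_two hQ h2
      have ha := h.two_le₁
      have hk := h.two_le₂
      rcases lt_trichotomy a k with hak | hak | hak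
      · exact h.orth_member_symm_lt hQ h2 (by omega) hak
      · subst hak
        have hodd : Odd a := by
          by_contra hev
          rw [Nat.not_odd_iff_even] at hev
          obtain ⟨j, hj⟩ := hev
          exact hsq h2 a ⟨j, hj⟩ (by omega) h.card_eq
        exact h.orth_member_symm_eq hQ h2 (by omega) hodd
      · exact h.swap.orth_member_symm_lt hQ h2 (by omega) hak
    · have h4 : l₂ = -1 := by
        rcases hl2 with h4 | h4
        · rw [h3, h4, mul_one] at hs''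
          exact absurd hs''.symm hne
        · exact h4
      subst h3 h4
      have hs1 := h.star₁
      have hs2 := h.star₂
      rw [map_refl, neg_smul, one_smul] at hs1 hs2
      exact h.orth_member_alt hQ hcard hirr hH
        (isSymplecticForm_formOfGram_of_two (Matrix.GeneralLinearGroup.det_ne_zero G₁) hs1 h2).alternating
        (isSymplecticForm_formOfGram_of_two (Matrix.GeneralLinearGroup.det_ne_zero G₂) hs2 h2).alternating

end Tensor

end Cfsg.Agent.Asch
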