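import Mathlib
import Cfsg.Prelude.Def_GeometricClasses
import Cfsg.Agent.Asch.OrthTensor
set_option autoImplicit false
set_option linter.unusedSectionVars false

/-!
Tensor powers of quadratic forms: members of the geometric classes.
-/

namespace Cfsg.Agent.Asch

open Module Cfsg.Geo EForm

open scoped Matrix Kronecker MatrixGroups commutatorElement

variable {ι : Type} [Fintype ι] [DecidableEq ι] {F : Type*} [Field F]

/-- changing the basis in a tensor power, for all matrices -/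
theorem power_rebase' {σ : F ≃+* F} {ε : F} {f : (ι → F) → (ι → F) → F} (hf : EForm σ ε f) {k a : ℕ}
    {b : Basis (Fin k → Fin a) F (ι → F)} {G G' : Matrix (Fin a) (Fin a) F} {c : F}
    (hgram : gramB f b = c • piMat (fun _ : Fin k => G)) {X : GL (Fin a) F}
    (hX : (X : Matrix (Fin a) (Fin a) F)ᵀ * G * (X : Matrix (Fin a) (Fin a) F).map σ = G') :
    ∃ b' : Basis (Fin k → Fin a) F (ι → F), gramB f b' = c • piMat (fun _ : Fin k => G') ∧
      ∀ (T : Module.End F (ι → F)) (τ : Equiv.Perm (Fin k)) (P : Fin k → GL (Fin a) F),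
        LinearMap.toMatrix b b T = permMat F a τ * piMat (fun i => (P i : Matrix (Fin a) (Fin a) F)) →
        LinearMap.toMatrix b' b' T =
          permMat F a τ * piMat (fun i => ((X⁻¹ * P i * X : GL (Fin a) F) : Matrix (Fin a) (Fin a) F)) := by
  let M : GL (Fin k → Fin a) F := Matrix.GeneralLinearGroup.mkOfDetNeZero _ (det_piMat_ne_zero (fun _ : Fin k => X))
  have hM : (M : Matrix (Fin k → Fin a) (Fin k → Fin a) F) = piMat (fun _ : Fin k => (X : Matrix (Fin a) (Fin a) F)) := rfl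
  have hMi : ((M⁻¹ : GL (Fin k → Fin a) F) : Matrix (Fin k → Fin a) (Fin k → Fin a) F) =
      piMat (fun _ : Fin k => ((X⁻¹ : GL (Fin a) F) : Matrix (Fin a) (Fin a) F)) := by
    have h1 : ((M⁻¹ : GL (Fin k → Fin a) F) : Matrix (Fin k → Fin a) (Fin k → Fin a) F) * (M : Matrix (Fin k → Fin a) (Fin k → Fin a) F) = 1 := by
      rw [← Units.val_mul, inv_mul_cancel, Units.val_one]
    have h2 : (M : Matrix (Fin k → Fin a) (Fin k → Fin a) F) * piMat (fun _ : Fin k => ((X⁻¹ : GL (Fin a) F) : Matrix (Fin a) (Fin a) F)) = 1 := by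
      rw [hM, ← piMat_mul, ← piMat_one]
      congr 1
      funext i
      show (X : Matrix (Fin a) (Fin a) F) * ((X⁻¹ : GL (Fin a) F) : Matrix (Fin a) (Fin a) F) = 1
      rw [← Units.val_mul, mul_inv_cancel, Units.val_one]
    calc _ = ((M⁻¹ : GL (Fin k → Fin a) F) : Matrix (Fin k → Fin a) (Fin k → Fin a) F) *
          ((M : Matrix (Fin k → Fin a) (Fin k → Fin a) F) * piMat (fun _ : Fin k => ((X⁻¹ : GL (Fin a) F) : Matrix (Fin a) (Fin a) F))) := by
            rw [h2, mul_one]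
      _ = _ := by rw [← mul_assoc, h1, one_mul]
  refine ⟨rebase b M, ?_, ?_⟩
  · rw [gramB_rebase hf, hgram, hM, piMat_map, Matrix.mul_smul, Matrix.smul_mul, piMat_transpose', ← piMat_mul, ← piMat_mul]
    congr 2
    funext i
    exact hX
  · intro T τ P hP
    rw [toMatrix_rebase, hP, hMi, hM]
    have h3 : piMat (fun _ : Fin k => ((X⁻¹ : GL (Fin a) F) : Matrix (Fin a) (Fin a) F)) * permMat F a τ =
        permMat F a τ * piMat (fun _ : Fin k => ((X⁻¹ : GL (Fin a) F) : Matrix (Fin a) (Fin a) F)) := by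
      rw [permMat_conj]; rfl
    rw [← mul_assoc, h3, mul_assoc, mul_assoc, ← piMat_mul, ← piMat_mul]
    congr 2
    funext i
    rw [Units.val_mul, Units.val_mul]
    exact (mul_assoc _ _ _).symm

/-- similarities in the new basis -/
lemma conj_similar {n : ℕ} {G G' : Matrix (Fin n) (Fin n) F} {Z P : GL (Fin n) F} {μ : F}
    (h1 : (Z : Matrix (Fin n) (Fin n) F)ᵀ * G * (Z : Matrix (Fin n) (Fin n) F) = G')
    (h2 : (P : Matrix (Fin n) (Fin n) F)ᵀ * G * (P : Matrix (Fin n) (Fin n) F) = μ • G) :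
    ((Z⁻¹ * P * Z : GL (Fin n) F) : Matrix (Fin n) (Fin n) F)ᵀ * G' * ((Z⁻¹ * P * Z : GL (Fin n) F) : Matrix (Fin n) (Fin n) F) = μ • G' := by
  have hZi : (Z : Matrix (Fin n) (Fin n) F) * ((Z⁻¹ : GL (Fin n) F) : Matrix (Fin n) (Fin n) F) = 1 := by
    rw [← Units.val_mul, mul_inv_cancel, Units.val_one]
  have hZt : ((Z⁻¹ : GL (Fin n) F) : Matrix (Fin n) (Fin n) F)ᵀ * (Z : Matrix (Fin n) (Fin n) F)ᵀ = 1 := by
    rw [← Matrix.transpose_mul, hZi, Matrix.transpose_one]
  rw [Units.val_mul, Units.val_mul, Matrix.transpose_mul, Matrix.transpose_mul, ← h1]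
  calc (Z : Matrix (Fin n) (Fin n) F)ᵀ * ((P : Matrix (Fin n) (Fin n) F)ᵀ * ((Z⁻¹ : GL (Fin n) F) : Matrix (Fin n) (Fin n) F)ᵀ) *
        ((Z : Matrix (Fin n) (Fin n) F)ᵀ * G * (Z : Matrix (Fin n) (Fin n) F)) *
        (((Z⁻¹ : GL (Fin n) F) : Matrix (Fin n) (Fin n) F) * (P : Matrix (Fin n) (Fin n) F) * (Z : Matrix (Fin n) (Fin n) F))
      = (Z : Matrix (Fin n) (Fin n) F)ᵀ * ((P : Matrix (Fin n) (Fin n) F)ᵀ * ((((Z⁻¹ : GL (Fin n) F) : Matrix (Fin n) (Fin n) F)ᵀ * (Z : Matrix (Fin n) (Fin n) F)ᵀ) *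
        (G * (((Z : Matrix (Fin n) (Fin n) F) * ((Z⁻¹ : GL (Fin n) F) : Matrix (Fin n) (Fin n) F)) *
        (P : Matrix (Fin n) (Fin n) F))))) * (Z : Matrix (Fin n) (Fin n) F) := by simp only [mul_assoc]
    _ = (Z : Matrix (Fin n) (Fin n) F)ᵀ * ((P : Matrix (Fin n) (Fin n) F)ᵀ * G * (P : Matrix (Fin n) (Fin n) F)) *
        (Z : Matrix (Fin n) (Fin n) F) := by rw [hZt, hZi, one_mul, one_mul]; simp only [mul_assoc]
    _ = _ := by rw [h2, Matrix.mul_smul, Matrix.smul_mul]

/-- elements normalising a non-singular matrix up to scalars: commutators centralise it -/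
lemma commutator_comm {n : ℕ} {S : Matrix (Fin n) (Fin n) F} (hS : S ≠ 0) {g h : GL (Fin n) F} {l m : F}
    (hg : (g : Matrix (Fin n) (Fin n) F) * S = l • (S * (g : Matrix (Fin n) (Fin n) F)))
    (hh : (h : Matrix (Fin n) (Fin n) F) * S = m • (S * (h : Matrix (Fin n) (Fin n) F))) :
    ((⁅g, h⁆ : GL (Fin n) F) : Matrix (Fin n) (Fin n) F) * S = S * ((⁅g, h⁆ : GL (Fin n) F) : Matrix (Fin n) (Fin n) F) := by
  have hl : ∀ {g : GL (Fin n) F} {l : F}, (g : Matrix (Fin n) (Fin n) F) * S = l • (S * (g : Matrix (Fin n) (Fin n) F)) → l ≠ 0 := by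
    intro g l hg h0
    subst h0
    rw [zero_smul] at hg
    apply hS
    have h1 : ((g⁻¹ : GL (Fin n) F) : Matrix (Fin n) (Fin n) F) * (g : Matrix (Fin n) (Fin n) F) = 1 := by
      rw [← Units.val_mul, inv_mul_cancel, Units.val_one]
    calc S = ((g⁻¹ : GL (Fin n) F) : Matrix (Fin n) (Fin n) F) * ((g : Matrix (Fin n) (Fin n) F) * S) := by rw [← mul_assoc, h1, one_mul]
      _ = 0 := by rw [hg, mul_zero]
  have hl0 := hl hg
  have hm0 := hl hh
  set c : GL (Fin n) F := ⁅g, h⁆ with hc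
  have hc' : c * (h * g) = g * h := by rw [hc, commutatorElement_def]; group
  have hc'' : (c : Matrix (Fin n) (Fin n) F) * ((h : Matrix (Fin n) (Fin n) F) * (g : Matrix (Fin n) (Fin n) F)) =
      (g : Matrix (Fin n) (Fin n) F) * (h : Matrix (Fin n) (Fin n) F) := by
    rw [← Units.val_mul, ← Units.val_mul, ← Units.val_mul, hc']
  have h1 : ((h : Matrix (Fin n) (Fin n) F) * (g : Matrix (Fin n) (Fin n) F)) * S =
      (l * m) • (S * ((h : Matrix (Fin n) (Fin n) F) * (g : Matrix (Fin n) (Fin n) F))) := by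
    rw [mul_assoc, hg, Matrix.mul_smul, ← mul_assoc, hh, Matrix.smul_mul, smul_smul, mul_assoc]
  have h2 : ((g : Matrix (Fin n) (Fin n) F) * (h : Matrix (Fin n) (Fin n) F)) * S =
      (l * m) • (S * ((g : Matrix (Fin n) (Fin n) F) * (h : Matrix (Fin n) (Fin n) F))) := by
    rw [mul_assoc, hh, Matrix.mul_smul, ← mul_assoc, hg, Matrix.smul_mul, smul_smul, mul_assoc, mul_comm l m]
  rw [← hc'', mul_assoc, h1, Matrix.mul_smul] at h2
  have h3 := smul_right_injective _ (mul_ne_zero hl0 hm0) h2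
  have h4 : ((h * g : GL (Fin n) F) : Matrix (Fin n) (Fin n) F) * (((h * g : GL (Fin n) F)⁻¹ : GL (Fin n) F) : Matrix (Fin n) (Fin n) F) = 1 := by
    rw [← Units.val_mul, mul_inv_cancel, Units.val_one]
  rw [Units.val_mul] at h4
  have h5 := congrArg (fun X => X * (((h * g : GL (Fin n) F)⁻¹ : GL (Fin n) F) : Matrix (Fin n) (Fin n) F)) h3
  simp only [mul_assoc] at h5
  rw [← mul_assoc (h : Matrix (Fin n) (Fin n) F) (g : Matrix (Fin n) (Fin n) F), h4, mul_one, mul_one] at h5
  exact h5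

namespace PowerForm

variable {f : (ι → F) → (ι → F) → F} {k : ℕ} {L : Fin k → Subgroup (GL ι F)} {a : ℕ}
    {φ : Fin k → (Matrix (Fin a) (Fin a) F →ₐ[F] Module.End F (ι → F))} {b : Basis (Fin k → Fin a) F (ι → F)}
    {G : GL (Fin a) F} {c l : F}

/-- two-dimensional orthogonal groups are soluble -/
theorem false_of_symm_two [Nonempty ι] (hP : PowerForm (RingEquiv.refl F) f L a φ b G c l) (h2 : (2 : F) ≠ 0) (hk : 0 < k)
    (hL : ∀ i, ∀ x ∈ L i, IsIsom f x) (hperf : ∀ i, ⁅L i, L i⁆ = L i) (ha : a = 2)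
    (hG : (G : Matrix (Fin a) (Fin a) F)ᵀ = (G : Matrix (Fin a) (Fin a) F)) : False := by
  subst ha
  obtain ⟨ψ, hψ, hψ'⟩ := hP.exists_hom ⟨0, hk⟩
  obtain ⟨S, ⟨d, hd, hSS⟩, hadj, hnorm⟩ := skewTwo hG
  have hS0 : S ≠ 0 := by
    rintro rfl
    rw [mul_zero] at hSS
    rcases smul_eq_zero.1 hSS.symm with h3 | h3
    · exact hd h3
    · exact one_ne_zero h3
  have hN : ∀ x : L ⟨0, hk⟩, ∃ l : F, (ψ x : Matrix (Fin 2) (Fin 2) F) * S = l • (S * (ψ x : Matrix (Fin 2) (Fin 2) F)) := by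
    intro x
    have h3 := hP.comp_isom (hL ⟨0, hk⟩) ⟨x, x.2, hψ' x⟩
    rw [map_refl] at h3
    exact hnorm (ψ x) 1 (by rw [h3, one_smul])
  -- the elements commuting with `S`
  let K : Subgroup (L ⟨0, hk⟩) :=
    { carrier := {x | (ψ x : Matrix (Fin 2) (Fin 2) F) * S = S * (ψ x : Matrix (Fin 2) (Fin 2) F)}
      mul_mem' := by
        intro x y hx hy
        simp only [Set.mem_ofPred_eq, map_mul, Units.val_mul] at *
        rw [mul_assoc, hy, ← mul_assoc, hx, mul_assoc]
      one_mem' := by simp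
      inv_mem' := by
        intro x hx
        simp only [Set.mem_ofPred_eq, map_inv] at *
        have e1 : ((ψ x)⁻¹ : GL (Fin 2) F) * ψ x = 1 := inv_mul_cancel _
        have e1' : (((ψ x)⁻¹ : GL (Fin 2) F) : Matrix (Fin 2) (Fin 2) F) * (ψ x : Matrix (Fin 2) (Fin 2) F) = 1 := by
          rw [← Units.val_mul, e1, Units.val_one]
        have e2' : (ψ x : Matrix (Fin 2) (Fin 2) F) * (((ψ x)⁻¹ : GL (Fin 2) F) : Matrix (Fin 2) (Fin 2) F) = 1 := by
          rw [← Units.val_mul, mul_inv_cancel, Units.val_one]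
        calc (((ψ x)⁻¹ : GL (Fin 2) F) : Matrix (Fin 2) (Fin 2) F) * S
            = (((ψ x)⁻¹ : GL (Fin 2) F) : Matrix (Fin 2) (Fin 2) F) * (S * (ψ x : Matrix (Fin 2) (Fin 2) F)) *
                (((ψ x)⁻¹ : GL (Fin 2) F) : Matrix (Fin 2) (Fin 2) F) := by rw [mul_assoc, mul_assoc, e2', mul_one]
          _ = (((ψ x)⁻¹ : GL (Fin 2) F) : Matrix (Fin 2) (Fin 2) F) * ((ψ x : Matrix (Fin 2) (Fin 2) F) * S) *
                (((ψ x)⁻¹ : GL (Fin 2) F) : Matrix (Fin 2) (Fin 2) F) := by rw [hx]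
          _ = _ := by rw [← mul_assoc, e1', one_mul] }
  have hcomm : ∀ x y : L ⟨0, hk⟩, ⁅x, y⁆ ∈ K := by
    intro x y
    obtain ⟨l, hl⟩ := hN x
    obtain ⟨m, hm⟩ := hN y
    show (ψ ⁅x, y⁆ : Matrix (Fin 2) (Fin 2) F) * S = S * (ψ ⁅x, y⁆ : Matrix (Fin 2) (Fin 2) F)
    rw [map_commutatorElement]
    exact commutator_comm hS0 hl hm
  have hKtop : ∀ x : L ⟨0, hk⟩, x ∈ K := by
    intro x
    have h3 : ⁅L ⟨0, hk⟩, L ⟨0, hk⟩⁆ ≤ K.map (L ⟨0, hk⟩).subtype := by
      rw [Subgroup.commutator_le]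
      intro x hx y hy
      exact Subgroup.mem_map.2 ⟨_, hcomm ⟨x, hx⟩ ⟨y, hy⟩, by rw [map_commutatorElement]; rfl⟩
    rw [hperf] at h3
    obtain ⟨y, hy, hyx⟩ := Subgroup.mem_map.1 (h3 x.2)
    have : y = x := Subtype.ext hyx
    rw [← this]; exact hy
  -- `S` commutes with everything
  have hall : ∀ X : Matrix (Fin 2) (Fin 2) F, X * S = S * X := by
    intro X
    have hX : X ∈ Algebra.adjoin F (comp φ L ⟨0, hk⟩) := by rw [hP.adjoin_comp]; trivial
    have hle : Algebra.adjoin F (comp φ L ⟨0, hk⟩) ≤ Subalgebra.centralizer F {S} := by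
      apply Algebra.adjoin_le
      rintro Y ⟨g, hg, hY⟩
      rw [SetLike.mem_coe, Subalgebra.mem_centralizer_iff]
      intro Z hZ
      rw [Set.mem_singleton_iff.1 hZ]
      have h3 := hKtop ⟨g, hg⟩
      have h4 : (ψ ⟨g, hg⟩ : Matrix (Fin 2) (Fin 2) F) = Y := hP.φ_injective _ (by rw [hψ' ⟨g, hg⟩, hY])
      have h5 : (ψ ⟨g, hg⟩ : Matrix (Fin 2) (Fin 2) F) * S = S * (ψ ⟨g, hg⟩ : Matrix (Fin 2) (Fin 2) F) := h3
      rw [h4] at h5
      exact h5.symm
    have := (Subalgebra.mem_centralizer_iff F).1 (hle hX) S rfl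
    exact this.symm
  have h3 : Sᵀ = -S := by
    have h4 : (Sᵀ + S) * (G : Matrix (Fin 2) (Fin 2) F) = 0 := by
      rw [add_mul, hadj, ← hall, neg_add_cancel]
    have hGi : (G : Matrix (Fin 2) (Fin 2) F) * ((G⁻¹ : GL (Fin 2) F) : Matrix (Fin 2) (Fin 2) F) = 1 := by
      rw [← Units.val_mul, mul_inv_cancel, Units.val_one]
    have h5 : Sᵀ + S = 0 := by
      calc Sᵀ + S = (Sᵀ + S) * ((G : Matrix (Fin 2) (Fin 2) F) * ((G⁻¹ : GL (Fin 2) F) : Matrix (Fin 2) (Fin 2) F)) := by rw [hGi, mul_one]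
        _ = 0 := by rw [← mul_assoc, h4, zero_mul]
    exact eq_neg_of_add_eq_zero_left h5
  -- `S` is skew and central, hence zero
  have e00 : S 0 0 = 0 := by
    have := congrFun (congrFun h3 0) 0
    have h6 : S 0 0 = - S 0 0 := this
    have h7 : 2 * S 0 0 = 0 := by linear_combination h6
    exact (mul_eq_zero.1 h7).resolve_left h2
  have e01 : S 0 1 = 0 := by
    have h6 := congrFun (congrFun (hall !![0, 0; 0, 1]) 0) 1
    simp [Matrix.mul_apply, Fin.sum_univ_two] at h6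
    exact h6.symm
  have e10 : S 1 0 = 0 := by
    have h6 := congrFun (congrFun (hall !![1, 0; 0, 0]) 1) 0
    simp [Matrix.mul_apply, Fin.sum_univ_two] at h6
    exact h6.symm
  have e11 : S 1 1 = 0 := by
    have h6 : S 1 1 = - S 1 1 := congrFun (congrFun h3 1) 1
    have h7 : 2 * S 1 1 = 0 := by linear_combination h6
    exact (mul_eq_zero.1 h7).resolve_left h2
  apply hS0
  ext i j
  fin_cases i <;> fin_cases j <;> assumption

end PowerForm

/-- **Tensor powers of quadratic forms.** -/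
theorem PowerForm.orth_member [Fintype F] [Nonempty ι] {Q : (ι → F) → F} (hQ : IsNondegenerateQuadraticForm Q)
    (hcard : 2 ≤ Fintype.card ι) {H : Subgroup (GL ι F)} (hirr : Irred (natRep H)) (hH : FixesQuadForm (matrixSet H) Q)
    {k : ℕ} {L : Fin k → Subgroup (GL ι F)} {a : ℕ}
    {φ : Fin k → (Matrix (Fin a) (Fin a) F →ₐ[F] Module.End F (ι → F))} {b : Basis (Fin k → Fin a) F (ι → F)}
    {G : GL (Fin a) F} {c l : F} (hP : PowerForm (RingEquiv.refl F) (QuadraticMap.polar Q) L a φ b G c l) (hk : 2 ≤ k)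
    (hLH : ∀ i, L i ≤ H) (hnt : ∀ i, ¬ L i ≤ scalars ι F) (hperf : ∀ i, ⁅L i, L i⁆ = L i)
    (hperm : ∀ g ∈ H, ∃ σ : Equiv.Perm (Fin k), ∀ i, ∀ x ∈ L i, g * x * g⁻¹ ∈ L (σ i)) :
    ∃ M, OrthMember Q M ∧ H ≤ M := by
  have hE := EForm.of_symmetric (isSymmetricForm_polar hQ)
  have hfix := isIsom_polar hH
  have hLfix : ∀ i, ∀ x ∈ L i, IsIsom (QuadraticMap.polar Q) x := fun i x hx => hfix x (hLH i hx)
  have ha2 : 2 ≤ a := hP.two_le (by omega) hnt
  have hs := hP.G_star
  rw [map_refl] at hs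
  obtain ⟨e⟩ : Nonempty (ι ≃ (Fin k → Fin a)) := ⟨Fintype.equivOfCardEq (by simp [hP.card_eq])⟩
  have hle := hP.le_wreath (by omega) e hperm
  have hact : ∀ g ∈ H, ∃ (τ : Equiv.Perm (Fin k)) (P : Fin k → GL (Fin a) F),
      LinearMap.toMatrix b b (Matrix.toLin' (g : Matrix ι ι F)) = permMat F a τ * piMat (fun i => (P i : Matrix (Fin a) (Fin a) F)) := by
    intro g hg
    obtain ⟨τ, hτ⟩ := hperm g hg
    obtain ⟨P, μ, -, h3, -⟩ := hP.exists_perm_mul hE (by omega) (hfix g hg) hτ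
    exact ⟨τ, P, h3⟩
  by_cases h2 : (2 : F) = 0
  · have hneg := neg_one_eq_of_two h2
    have e1 : l = 1 := by rcases eq_one_or_neg_one_of_mul hP.l_mul with h3 | h3 <;> [exact h3; rw [h3, hneg]]
    subst e1
    rw [one_smul] at hs
    have halt := hP.alternating (by omega) h2 ha2 hLfix hs
    obtain ⟨Q', hQ', hQ0, hQH⟩ := exists_quad_power hE (fun u v => QuadraticMap.polar_comm Q u v) hk hP.gram halt
    have h3 := (IsNondegenerateQuadraticForm.isQuadFor hQ).eq_of_irred h2 hQ' hcard hirr (fun g hg v => hH _ ⟨g, hg, rfl⟩ v)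
      (fun g hg v => hQH g (hfix g hg) (by
        obtain ⟨τ, P, hP⟩ := hact g hg
        exact ⟨τ, _, hP⟩) v)
    refine ⟨_, Or.inr (Or.inr (Or.inr (Or.inr (Or.inr (Or.inr (Or.inr (Or.inr (Or.inr (Or.inr (Or.inr (Or.inr ⟨a, k, e, basisGL b e,
      formOfGram id (G : Matrix (Fin a) (Fin a) F), hk, Or.inr (fun h => two_ne_zero_iff_odd_card.2 h h2),
      isSymplecticForm_formOfGram (Matrix.GeneralLinearGroup.det_ne_zero G) (by
        rw [hs]
        have : -(G : Matrix (Fin a) (Fin a) F) = (-1 : F) • (G : Matrix (Fin a) (Fin a) F) := by rw [neg_smul, one_smul]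
        rw [this, hneg, one_smul]) halt,
      isTensorPowerFormStructure_of_gram hE b e hP.c_ne hP.gram, fun x => ?_, rfl⟩))))))))))), hle⟩
    rw [basisGL_mulVec, h3]
    exact hQ0 x
  · have hodd := two_ne_zero_iff_odd_card.1 h2
    have hsg := hP.sign_mul hE
    have hl : l ^ k = 1 := by
      have h3 : (l ^ k - 1) * c = 0 := by
        have : c * l ^ k * 1 = c := hsg
        linear_combination this
      exact sub_eq_zero.1 ((mul_eq_zero.1 h3).resolve_right hP.c_ne)
    have hne : (1 : F) ≠ -1 := by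
      intro h3
      apply h2
      rw [← one_add_one_eq_two]
      nth_rewrite 1 [h3]
      ring
    rcases eq_one_or_neg_one_of_mul hP.l_mul with h3 | h3
    · subst h3
      rw [one_smul] at hs
      have ha3 : 3 ≤ a := by
        rcases Nat.lt_or_ge 2 a with h4 | h4
        · exact h4
        · exact (hP.false_of_symm_two h2 (by omega) hLfix hperf (by omega) hs).elim
      by_cases hex : Fintype.card F = 3 ∧ a = 3
      · obtain ⟨hF, rfl⟩ := hex
        have hdet : ((1 : Matrix (Fin 3) (Fin 3) F)).det ≠ 0 := by rw [Matrix.det_one]; exact one_ne_zero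
        obtain ⟨X, d, hd, hX⟩ := cong_symm_odd h2 (by decide) (Matrix.GeneralLinearGroup.det_ne_zero G) hdet hs Matrix.transpose_one
        obtain ⟨b', hgram, hact'⟩ := power_rebase' hE hP.gram (G' := d • (1 : Matrix (Fin 3) (Fin 3) F)) (by rw [map_refl]; exact hX)
        have hgram' : gramB (QuadraticMap.polar Q) b' = (c * ∏ _i : Fin k, d) • (1 : Matrix (Fin k → Fin 3) (Fin k → Fin 3) F) := by
          rw [hgram, piMat_smul (fun _ : Fin k => d) (fun _ : Fin k => (1 : Matrix (Fin 3) (Fin 3) F)), smul_smul]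
          congr 1
          exact piMat_one
        refine orth_frame_member hQ h2 (by rw [hF]; exact Nat.prime_three) b' (mul_ne_zero hP.c_ne (Finset.prod_ne_zero_iff.2 (fun _ _ => hd)))
          hgram' ?_ (fun g hg => ?_)
        · rw [Fintype.card_fun, Fintype.card_fin, Fintype.card_fin]
          calc 2 ≤ 3 ^ 1 := by norm_num
            _ ≤ 3 ^ k := Nat.pow_le_pow_right (by norm_num) (by omega)
        · obtain ⟨τ, hτ⟩ := hperm g hg
          obtain ⟨P, μ, hμ, h3, h4⟩ := hP.exists_perm_mul hE (by omega) (hfix g hg) hτ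
          have h5 := hact' _ τ P h3
          apply frame_act
          intro β
          have hcol : ∀ i : Fin k, ∃ x, ∀ x', x' ≠ x → ((X⁻¹ * P i * X : GL (Fin 3) F) : Matrix (Fin 3) (Fin 3) F) x' (β i) = 0 := by
            intro i
            have h6 := h4 i
            rw [map_refl] at h6
            have h7 := conj_similar hX h6
            rw [Matrix.mul_smul, mul_one, Matrix.smul_mul, smul_comm] at h7
            exact monomial_three hF (hμ i) (smul_right_injective _ hd h7) (β i)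
          choose x hx using hcol
          refine ⟨x ∘ τ.symm, fun α hα => ?_⟩
          rw [h5, Matrix.mul_apply, Finset.sum_eq_single (α ∘ τ)]
          · have hne : α ∘ τ ≠ x := by
              intro h6
              apply hα
              rw [← h6]
              funext i
              simp
            obtain ⟨i, hi⟩ := Function.ne_iff.1 hne
            have h7 : piMat (fun i => ((X⁻¹ * P i * X : GL (Fin 3) F) : Matrix (Fin 3) (Fin 3) F)) (α ∘ τ) β = 0 :=
              Finset.prod_eq_zero (Finset.mem_univ i) (hx i _ hi)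
            rw [h7, mul_zero]
          · intro γ _ hγ
            have : permMat F 3 τ α γ = 0 := by
              show (if γ = α ∘ τ then (1 : F) else 0) = 0
              rw [if_neg hγ]
            rw [this, zero_mul]
          · intro h; exact absurd (Finset.mem_univ _) h
      · exact ⟨_, Or.inr (Or.inr (Or.inr (Or.inr (Or.inr (Or.inr (Or.inr (Or.inr (Or.inr (Or.inr (Or.inr (Or.inl ⟨a, k, e, basisGL b e,
          formOfGram id (G : Matrix (Fin a) (Fin a) F), hodd, ha3, hk, hex,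
          isSymmetricForm_formOfGram (Matrix.GeneralLinearGroup.det_ne_zero G) hs,
          isTensorPowerFormStructure_of_gram hE b e hP.c_ne hP.gram, rfl⟩))))))))))), hle⟩
    · subst h3
      have hkeven : Even k := by
        rcases Nat.even_or_odd k with h4 | h4
        · exact h4
        · rw [h4.neg_one_pow] at hl
          exact absurd hl.symm hne
      rw [neg_smul, one_smul] at hs
      have hsymp := isSymplecticForm_formOfGram_of_two (Matrix.GeneralLinearGroup.det_ne_zero G) hs h2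
      refine ⟨_, Or.inr (Or.inr (Or.inr (Or.inr (Or.inr (Or.inr (Or.inr (Or.inr (Or.inr (Or.inr (Or.inr (Or.inr ⟨a, k, e, basisGL b e,
        formOfGram id (G : Matrix (Fin a) (Fin a) F), hk, Or.inl hkeven, hsymp,
        isTensorPowerFormStructure_of_gram hE b e hP.c_ne hP.gram, fun x => ?_, rfl⟩))))))))))), hle⟩
      rw [basisGL_mulVec]
      have h4 := polar_self hQ (pureT b x)
      rw [form_pureT hE hP.gram, Finset.prod_eq_zero (Finset.mem_univ (⟨0, by omega⟩ : Fin k)) (hsymp.alternating _), mul_zero] at h4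
      exact (mul_eq_zero.1 h4.symm).resolve_left h2

end Cfsg.Agent.Asch
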