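import Mathlib
import Cfsg.Prelude.Def_GeometricClasses
import Cfsg.Agent.Asch.Core
import Cfsg.Agent.Asch.FormOrth
import Cfsg.Agent.Asch.PieceBForms
import Cfsg.Agent.Asch.OrthPower
import Cfsg.Agent.Asch.SpMain
set_option autoImplicit false
set_option linter.unusedSectionVars false

/-!
The structure theorem for subgroups of the orthogonal groups.
-/

namespace Cfsg.Agent.Asch

open Module Cfsg.Geo EForm

open scoped Matrix Kronecker MatrixGroups

variable {ι : Type} [Fintype ι] [DecidableEq ι] {F : Type*} [Field F]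

lemma fixesQuadForm_le {R S : Subgroup (GL ι F)} (h : R ≤ S) {Q : (ι → F) → F} (hf : FixesQuadForm (matrixSet S) Q) :
    FixesQuadForm (matrixSet R) Q := by
  rintro _ ⟨g, hg, rfl⟩
  exact hf _ ⟨g, h hg, rfl⟩

/-- **Aschbacher's theorem**, orthogonal case, with the class 5 members supplied by a hypothesis -/
theorem orthogonal_structure_aux [Fintype F] (hn : 3 ≤ Fintype.card ι) {Q : (ι → F) → F} (hQ : IsNondegenerateQuadraticForm Q)
    (hsq : (2 : F) ≠ 0 → ∀ a, Even a → 4 ≤ a → Fintype.card ι ≠ a * a)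
    {H : Subgroup (GL ι F)} (hH : FixesQuadForm (matrixSet H) Q) (C : Prop)
    (hC : ∀ N : Subgroup (GL ι F), N ≤ H → spanAlg N = ⊤ → NormBy H N → ∀ F₀ : Subfield F, F₀ ≠ ⊤ → RealisableOver F₀ (matrixSet N) → C)
    (hM : ∀ M, OrthMember Q M → H ≤ M → C) :
    C ∨ InOrthogonalResidualClass H := by
  classical
  have hι : Nonempty ι := Fintype.card_pos_iff.1 (by omega)
  have hE := EForm.of_symmetric (isSymmetricForm_polar hQ)
  have hfix := isIsom_polar hH
  by_cases hirr : Irred (natRep H)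
  swap
  · obtain ⟨M, h1, h2⟩ := orth_of_reducible hQ hH hirr
    exact Or.inl (hM M h1 h2)
  by_cases hall : AllNormalAbs H
  swap
  · left
    unfold AllNormalAbs at hall
    push Not at hall
    obtain ⟨R, hRH, hHR, h1, h2⟩ := hall
    have hstar : StarClosed (QuadraticMap.polar Q) (spanAlg R) := hE.starClosed_spanAlg (fun g hg => hfix g (hRH hg))
    rcases orth_clifford hQ hn hH hirr (spanAlg_normAlg hHR) hstar with ⟨M, h3, h4⟩ | ⟨h3, h4⟩
    · exact hM M h3 h4
    · obtain ⟨a, k, b, G₁, G₂, c, l₁, l₂, hT⟩ := exists_tensorForm hE hfix hRH hHR h1 h2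
        (isSemisimpleModule_of_irred hirr (spanAlg_normAlg hHR)) h3 h4
      obtain ⟨M, h5, h6⟩ := hT.orth_member hQ (by omega) hirr hH hsq
      exact hM M h5 h6
  rcases pieces_of_allNormalAbs (by omega) H hirr hall with ⟨N, r, hN⟩ | ⟨k, L, hk, hL⟩
  · left
    rcases hN.orthogonal_cases (by omega) hQ hH with ⟨F₀, hF₀, hreal⟩ | ⟨R, p, k, h1, h2, h3, h4, h5, h6, h7, h8, h9, h10, h11⟩
    · exact hC N hN.le hN.span hN.norm F₀ hF₀ hreal
    · exact hM _ (Or.inr (Or.inr (Or.inr (Or.inr (Or.inr (Or.inr (Or.inr (Or.inr (Or.inr (Or.inr (Or.inl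
        ⟨R, p, k, h1, h2, h3, h4, h5, h6, h7, h8, h9, h10, rfl⟩))))))))))) h11
  · by_cases hk2 : 2 ≤ k
    · left
      obtain ⟨a, φ, b, G, c, l, hP⟩ := exists_powerForm hE hfix L (by omega) (fun i x hx => hfix x (hL.le i hx)) hL.comm hL.span hL.trans
      obtain ⟨M, h5, h6⟩ := hP.orth_member hQ (by omega) hirr hH hk2 hL.le hL.not_scalar hL.perfect hL.perm
      exact hM M h5 h6
    · have hk1 : k = 1 := by omega
      subst hk1
      have hP := corePiece_of_compData hL
      by_cases hsub : ∃ F₀ : Subfield F, F₀ ≠ ⊤ ∧ RealisableOver F₀ (matrixSet (L 0))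
      · obtain ⟨F₀, hF₀, hreal⟩ := hsub
        exact Or.inl (hC _ hP.le hP.span hP.norm F₀ hF₀ hreal)
      by_cases hunit : ∃ (σ : F ≃+* F) (f : (ι → F) → (ι → F) → F), IsUnitaryForm σ f ∧ FixesForm (matrixSet (L 0)) f
      · obtain ⟨σ, g, hg, hgfix⟩ := hunit
        obtain ⟨F₀, h0, h1⟩ := realisable_of_unitary hP.span hQ.polar_bilinear hQ.nondegenerate hg
          (fixesForm_polar (fixesQuadForm_le hP.le hH)) hgfix
        exact Or.inl (hC _ hP.le hP.span hP.norm F₀ h0 h1)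
      right
      exact ⟨L 0, hP.isResidualCore (fun F₀ h1 h2 => hsub ⟨F₀, h1, h2⟩), hunit⟩

/-- **Aschbacher's theorem**, orthogonal case -/
theorem orthogonal_structure [Fintype F] (hn : 3 ≤ Fintype.card ι) {Q : (ι → F) → F} (hQ : IsNondegenerateQuadraticForm Q)
    (hsq : (2 : F) ≠ 0 → ∀ a, Even a → 4 ≤ a → Fintype.card ι ≠ a * a)
    {H : Subgroup (GL ι F)} (hH : FixesQuadForm (matrixSet H) Q) :
    (∃ M, OrthMember Q M ∧ H ≤ M) ∨ InOrthogonalResidualClass H := by
  have hι : Nonempty ι := Fintype.card_pos_iff.1 (by omega)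
  exact orthogonal_structure_aux hn hQ hsq hH _
    (fun N hNH hN hHN F₀ hF₀ hreal => orthogonal_subfield hN hHN hQ (fixesQuadForm_le hNH hH) hF₀ hreal)
    (fun M h1 h2 => ⟨M, h1, h2⟩)

end Cfsg.Agent.Asch
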