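import Mathlib
import Cfsg.Prelude.Def_GeometricClasses
import Cfsg.Agent.Asch.OrthMain
import Cfsg.Agent.Asch.FormSubOdd
import Cfsg.Agent.AschCases.FieldSub
import Cfsg.Agent.Orth.Bridge
import Cfsg.Agent.Orth.Arith
set_option autoImplicit false
set_option linter.unusedSectionVars false

/-!
The structure theorem for subgroups of the orthogonal groups in odd dimension: members of the classes for the standard form.
-/

namespace Cfsg.Agent.Asch

open Module Cfsg.Geo EForm

open scoped Matrix Kronecker MatrixGroups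

variable {ι : Type} [Fintype ι] [DecidableEq ι] {F : Type*} [Field F]

/-- the multiple of a rational structure can be taken to be one -/
lemma exists_rescale_odd [Fintype F] (hodd : Odd (Fintype.card F)) (hι : Odd (Fintype.card ι))
    {Q : (ι → F) → F} (hQ : IsNondegenerateQuadraticForm Q)
    (hrat : ∀ (F₁ : Subfield F) (u : ι → F), RatVec F₁ u → Q u ∈ F₁)
    {F₁ : Subfield F} {r : ℕ} {P : GL ι F} {ζ : F} (hr : r.Prime) (hcard : Nat.card F = Nat.card F₁ ^ r) (h0 : ζ ≠ 0)
    (h1 : IsQuadFormRationalStructure (fun v => ζ * Q v) F₁ P) :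
    ∃ μ : Fˣ, IsQuadFormRationalStructure Q F₁ (scGL ι F μ * P) := by
  classical
  have : Nonempty ι := by
    by_contra h
    rw [not_nonempty_iff] at h
    rw [Fintype.card_eq_zero] at hι
    simp at hι
  have hF : ringChar F ≠ 2 := by
    intro h
    have := FiniteField.even_card_of_char_two h
    rw [Nat.odd_iff] at hodd
    omega
  suffices h : ∃ (s : F) (μ : Fˣ), s ∈ F₁ ∧ s ≠ 0 ∧ ζ = s * (μ : F) ^ 2 by
    obtain ⟨s, μ, hs, hs0, hζ⟩ := h
    exact ⟨μ, rational_rescale hQ hs hs0 hζ h1⟩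
  by_cases hsq : IsSquare ζ
  · obtain ⟨b, hb⟩ := hsq
    have hb0 : b ≠ 0 := by rintro rfl; rw [mul_zero] at hb; exact h0 hb
    exact ⟨1, Units.mk0 b hb0, F₁.one_mem, one_ne_zero, by rw [one_mul, Units.val_mk0, pow_two, hb]⟩
  · rcases hr.eq_two_or_odd' with h2 | h2
    · exfalso
      subst h2
      apply hsq
      have hf := hQ.polar_bilinear
      -- the discriminants
      have hd1 : (gramMatrix (fun u v => ζ * QuadraticMap.polar Q ((P : Matrix ι ι F) *ᵥ u) ((P : Matrix ι ι F) *ᵥ v))).det ∈ F₁ := by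
        apply det_mem_subfield
        intro i j
        show ζ * QuadraticMap.polar Q ((P : Matrix ι ι F) *ᵥ (Pi.single i 1)) ((P : Matrix ι ι F) *ᵥ (Pi.single j 1)) ∈ F₁
        rw [QuadraticMap.polar, ← Matrix.mulVec_add, mul_sub, mul_sub]
        exact F₁.sub_mem (F₁.sub_mem (h1 _ (RatVec.add (ratVec_single F₁ i) (ratVec_single F₁ j))) (h1 _ (ratVec_single F₁ i)))
          (h1 _ (ratVec_single F₁ j))
      have hd2 : (gramMatrix (QuadraticMap.polar Q)).det ∈ F₁ := by
        apply det_mem_subfield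
        intro i j
        show QuadraticMap.polar Q (Pi.single i 1) (Pi.single j 1) ∈ F₁
        rw [QuadraticMap.polar]
        exact F₁.sub_mem (F₁.sub_mem (hrat _ _ (RatVec.add (ratVec_single F₁ i) (ratVec_single F₁ j))) (hrat _ _ (ratVec_single F₁ i)))
          (hrat _ _ (ratVec_single F₁ j))
      have hd0 : (gramMatrix (QuadraticMap.polar Q)).det ≠ 0 :=
        (isSesq_of_bilinear hf).gram_det_ne_zero (fun v hv => (hQ.nondegenerate v hv).2)
      obtain ⟨a, ha⟩ := isSquare_of_index_two hodd hcard hd1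
      obtain ⟨b, hb⟩ := isSquare_of_index_two hodd hcard hd2
      rw [gram_pull hf, Matrix.det_smul, Matrix.det_mul, Matrix.det_mul, Matrix.det_transpose, hb] at ha
      have hP : (P : Matrix ι ι F).det ≠ 0 := Matrix.GeneralLinearGroup.det_ne_zero P
      have hb0 : b ≠ 0 := by rintro rfl; rw [mul_zero] at hb; exact hd0 hb
      obtain ⟨k, hk⟩ := hι
      rw [hk] at ha
      refine ⟨a / (ζ ^ k * (P : Matrix ι ι F).det * b), ?_⟩
      field_simp
      linear_combination ha
    · obtain ⟨s, hs, hs1⟩ := exists_nonsquare_odd_index hodd h2 hcard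
      have hs0 : s ≠ 0 := by rintro rfl; exact hs1 ⟨0, by simp⟩
      have h3 : IsSquare (ζ / s) := by
        by_contra hcon
        have e1 := (FiniteField.isSquare_iff hF (div_ne_zero h0 hs0)).not.1 hcon
        have e2 := (FiniteField.isSquare_iff hF h0).not.1 hsq
        have e3 := (FiniteField.isSquare_iff hF hs0).not.1 hs1
        have f2 := (FiniteField.pow_dichotomy hF h0).resolve_left e2
        have f3 := (FiniteField.pow_dichotomy hF hs0).resolve_left e3
        apply e1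
        rw [div_pow, f2, f3]
        norm_num
      obtain ⟨b, hb⟩ := h3
      have hb0 : b ≠ 0 := by
        rintro rfl
        rw [mul_zero, div_eq_zero_iff] at hb
        rcases hb with hb | hb
        · exact h0 hb
        · exact hs0 hb
      refine ⟨s, Units.mk0 b hb0, hs, hs0, ?_⟩
      rw [Units.val_mk0, pow_two, ← hb]
      field_simp

lemma isNondegenerateQuadraticForm_of {Q : QuadraticForm F (ι → F)} (h : (QuadraticMap.polarBilin Q).Nondegenerate) :
    IsNondegenerateQuadraticForm (Q : (ι → F) → F) where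
  smul c v := by rw [QuadraticMap.map_smul, smul_eq_mul, pow_two]
  polar_bilinear := {
    add_left := fun x y v => QuadraticMap.polar_add_left Q x y v
    smul_left := fun c x v => QuadraticMap.polar_smul_left Q c x v
    add_right := fun x y v => QuadraticMap.polar_add_right Q x y v
    smul_right := fun c x v => QuadraticMap.polar_smul_right Q c x v }
  nondegenerate := by
    intro v hv
    refine ⟨?_, ?_⟩
    · by_contra hcon
      push Not at hcon
      exact hv (h.2 v fun y => hcon y)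
    · by_contra hcon
      push Not at hcon
      exact hv (h.1 v fun y => hcon y)

lemma isometryGroup_le_fixes {Q : (ι → F) → F} {H : Subgroup (GL ι F)} (h : H ≤ isometryGroup F Q) :
    FixesQuadForm (matrixSet H) Q := by
  rintro _ ⟨g, hg, rfl⟩ v
  exact h hg v v

lemma omegaGL_le (Q : (ι → F) → F) : omegaGL Q ≤ isometryGroup F Q := by
  rintro _ ⟨g, -, rfl⟩
  exact g.2

/-- Members of the classes for the standard form in odd dimension over a field of odd order. -/
theorem OrthMember.inOrthogonalOddClass [Fintype F] (hodd : Odd (Fintype.card F)) {m : ℕ} (hm : 1 ≤ m)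
    (hQ : IsNondegenerateQuadraticForm (quadFormOdd m F))
    {M : Subgroup (GL (Unit ⊕ (Fin m ⊕ Fin m)) F)} (h : OrthMember (quadFormOdd m F) M) :
    InOrthogonalOddClass m F (M ⊓ isometryGroup F (quadFormOdd m F)) := by
  have hc : Fintype.card (Unit ⊕ (Fin m ⊕ Fin m)) = 2 * m + 1 := by simp; ring
  have hι : Odd (Fintype.card (Unit ⊕ (Fin m ⊕ Fin m))) := ⟨m, hc⟩
  unfold InOrthogonalOddClass
  rcases h with ⟨W, h1, h2, h3⟩ | ⟨W, h1, h2, h3, h4⟩ | ⟨v, h1, h2, h3⟩ | ⟨t, k, D, h1, h2, h3⟩ |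
    ⟨k, D, h1, h2, h3, h4⟩ | ⟨r, K, h1, h2, h3, h4, h5⟩ | ⟨K, h1, h2, h3, h4, h5⟩ |
    ⟨n₁, n₂, e, P, f₁, f₂, h0, h1, h2, h3, h4, h5, h6⟩ | ⟨n₁, n₂, e, P, f₁, f₂, h1, h2, h3, h4, h5, h6, h7⟩ |
    ⟨F₀, r, P, ζ, h1, h2, h3, h4, h5⟩ | ⟨R, p, k, h1, h2, h3, h4, h5, h6, h7, h8, h9, h10, h11⟩ |
    ⟨k, t, e, P, f₁, h0, h1, h2, h3, h4, h5, h6⟩ | ⟨k, t, e, P, f₁, h1, h2, h3, h4, h5, h6⟩
  · exact Or.inl ⟨W, h1, h2, by rw [h3]⟩
  · exact Or.inr (Or.inl ⟨W, h1, h2, h3, by rw [h4]⟩)
  · exact absurd hodd h1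
  · by_cases hk : 1 < k
    · exact Or.inr (Or.inr (Or.inl ⟨t, k, D, hk, h2, by rw [h3]⟩))
    · have hk1 : k = 1 := by
        have := h2.decomp.decomp.pos
        omega
      subst hk1
      exact Or.inr (Or.inr (Or.inr (Or.inl ⟨t, D, h1.resolve_left hk, h2, by rw [h3]⟩)))
  · exfalso
    omega
  · exact Or.inr (Or.inr (Or.inr (Or.inr (Or.inl ⟨r, K, h1, by rw [← hc]; exact h2, h3, h4, by rw [h5]⟩))))
  · exfalso
    have := AschCases.dvd_card_of_isFieldSubalgebra h1
    omega
  · exact Or.inr (Or.inr (Or.inr (Or.inr (Or.inr (Or.inl ⟨n₁, n₂, e, P, f₁, f₂, h1, h2, h3, h4, h5, by rw [h6]⟩)))))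
  · exfalso
    have h8 := even_card_of_isSymplecticForm h3
    rw [Fintype.card_fin] at h8
    have h9 : Fintype.card (Unit ⊕ (Fin m ⊕ Fin m)) = n₁ * n₂ := by
      rw [Fintype.card_congr e]; simp
    rw [h9, Nat.odd_mul] at hι
    exact (Nat.not_even_iff_odd.2 hι.1) h8
  · have hcard : Nat.card F = Nat.card F₀ ^ r := by rw [Nat.card_eq_fintype_card, h2]
    obtain ⟨μ, hμ⟩ := exists_rescale_odd hodd hι hQ (fun F₁ u hu => quadFormOdd_mem m F₁ u hu) h1 hcard h3 h4
    exact Or.inr (Or.inr (Or.inr (Or.inr (Or.inr (Or.inr (Or.inl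
      ⟨F₀, r, scGL _ F μ * P, h1, h2, hμ, by rw [h5, subfieldSubgroup_scGL]⟩))))))
  · exfalso
    have hk : k ≠ 0 := by
      rintro rfl
      rw [pow_zero] at h10
      omega
    rw [h10, Nat.odd_pow_iff hk] at hι
    revert hι
    decide
  · exact Or.inr (Or.inr (Or.inr (Or.inr (Or.inr (Or.inr (Or.inr ⟨k, t, e, P, f₁, h1, h2, h3, h4, h5, by rw [h6]⟩))))))
  · exfalso
    have h8 := even_card_of_isSymplecticForm h3
    rw [Fintype.card_fin] at h8
    have h9 : Fintype.card (Unit ⊕ (Fin m ⊕ Fin m)) = k ^ t := by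
      rw [Fintype.card_congr e]; simp
    rw [h9, Nat.odd_pow_iff (by omega)] at hι
    exact (Nat.not_even_iff_odd.2 hι) h8

/-- **Aschbacher's theorem**, orthogonal groups in odd dimension -/
theorem orthogonal_structure_odd [Fintype F] (hodd : Odd (Fintype.card F)) {m : ℕ} (hm : 1 ≤ m)
    {H : Subgroup (GL (Unit ⊕ (Fin m ⊕ Fin m)) F)} (hH : H ≤ isometryGroup F (quadFormOdd m F)) :
    (∃ M : Subgroup (GL (Unit ⊕ (Fin m ⊕ Fin m)) F), InOrthogonalOddClass m F M ∧ H ≤ M) ∨
      InOrthogonalResidualClass H := by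
  have hc : Fintype.card (Unit ⊕ (Fin m ⊕ Fin m)) = 2 * m + 1 := by simp; ring
  have h2 : (2 : F) ≠ 0 := Orth.two_ne_zero_of_odd hodd
  have hQ : IsNondegenerateQuadraticForm (quadFormOdd m F) :=
    isNondegenerateQuadraticForm_of (Orth.qfOdd_nondegenerate m F h2)
  rcases orthogonal_structure (by omega) hQ (fun _ a ha _ h => by
      rw [hc] at h
      have h3 : Even (a * a) := ha.mul_left a
      rw [← h] at h3
      exact (Nat.not_even_iff_odd.2 ⟨m, rfl⟩) h3) (isometryGroup_le_fixes hH) with ⟨M, h3, h4⟩ | h3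
  · exact Or.inl ⟨_, h3.inOrthogonalOddClass hodd hm hQ, le_inf h4 hH⟩
  · exact Or.inr h3

end Cfsg.Agent.Asch
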