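import Mathlib
import Cfsg.Prelude.Def_GeometricClasses
import Cfsg.Agent.Asch.CWStd
import Cfsg.Agent.Asch.EVCo
import Cfsg.Agent.UTP.AlgU2
set_option autoImplicit false
set_option linter.unusedSectionVars false
set_option linter.unusedVariables false
set_option linter.unusedSimpArgs false
set_option linter.style.haveILetI false

/-!
Unitary tensor powers: hermitian vectors and the special unitary group in coordinates.
-/

namespace Cfsg.Agent.Asch.CW

open Matrix Module Cfsg.Agent.Uni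

open scoped Matrix

/-- the field with its involution -/
structure UF (F : Type*) [Field F] [Fintype F] [StarRing F] (q : ℕ) : Prop where
  card : Fintype.card F = q ^ 2
  st : ∀ x : F, star x = x ^ q

section ip

variable {F : Type*} [Field F] [StarRing F] {k : ℕ}

/-- the inner product -/
def ip (u v : Fin k → F) : F := star u ⬝ᵥ v

/-- the rank one matrix `x ↦ ⟨v, x⟩ u` -/
def ut (u v : Fin k → F) : Matrix (Fin k) (Fin k) F := vecMulVec u (star v)

lemma ip_star (u v : Fin k → F) : star (ip u v) = ip v u := by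
  rw [ip, ip, Matrix.star_dotProduct v u]

lemma ip_zero_comm {u v : Fin k → F} (h : ip u v = 0) : ip v u = 0 := by rw [← ip_star, h, star_zero]

lemma ip_add_left (u u' v : Fin k → F) : ip (u + u') v = ip u v + ip u' v := by rw [ip, star_add, add_dotProduct]; rfl
lemma ip_add_right (u v v' : Fin k → F) : ip u (v + v') = ip u v + ip u v' := by rw [ip, dotProduct_add]; rfl
lemma ip_sub_left (u u' v : Fin k → F) : ip (u - u') v = ip u v - ip u' v := by rw [ip, star_sub, sub_dotProduct]; rfl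
lemma ip_sub_right (u v v' : Fin k → F) : ip u (v - v') = ip u v - ip u v' := by rw [ip, dotProduct_sub]; rfl
lemma ip_smul_left (c : F) (u v : Fin k → F) : ip (c • u) v = star c * ip u v := by
  rw [ip, star_smul, smul_dotProduct, smul_eq_mul]; rfl
lemma ip_smul_right (c : F) (u v : Fin k → F) : ip u (c • v) = c * ip u v := by rw [ip, dotProduct_smul, smul_eq_mul]; rfl
lemma ip_zero_left (v : Fin k → F) : ip 0 v = 0 := by rw [ip, star_zero, zero_dotProduct]
lemma ip_zero_right (v : Fin k → F) : ip v 0 = 0 := by rw [ip, dotProduct_zero]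
lemma ip_neg_left (u v : Fin k → F) : ip (-u) v = - ip u v := by rw [ip, star_neg, neg_dotProduct]; rfl
lemma ip_neg_right (u v : Fin k → F) : ip u (-v) = - ip u v := by rw [ip, dotProduct_neg]; rfl

lemma ut_mul (u v x y : Fin k → F) : ut u v * ut x y = ip v x • ut u y := vmv_mul _ _ _ _
lemma ut_mulVec (u v x : Fin k → F) : ut u v *ᵥ x = ip v x • u := by
  rw [ut, vecMulVec_mulVec]; ext i; simp [ip, mul_comm]
lemma ut_add_left (u u' v : Fin k → F) : ut (u + u') v = ut u v + ut u' v := add_vecMulVec _ _ _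
lemma ut_add_right (u v v' : Fin k → F) : ut u (v + v') = ut u v + ut u v' := by rw [ut, star_add, vecMulVec_add]; rfl
lemma ut_sub_left (u u' v : Fin k → F) : ut (u - u') v = ut u v - ut u' v := by
  rw [sub_eq_add_neg, ut_add_left, sub_eq_add_neg]; congr 1; rw [ut, neg_vecMulVec]; rfl
lemma ut_sub_right (u v v' : Fin k → F) : ut u (v - v') = ut u v - ut u v' := by
  rw [sub_eq_add_neg, ut_add_right, sub_eq_add_neg]; congr 1; rw [ut, star_neg, vecMulVec_neg]; rfl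
lemma ut_smul_left (c : F) (u v : Fin k → F) : ut (c • u) v = c • ut u v := smul_vecMulVec _ _ _
lemma ut_smul_right (c : F) (u v : Fin k → F) : ut u (c • v) = star c • ut u v := by rw [ut, star_smul, vecMulVec_smul]; rfl
lemma ut_zero_left (v : Fin k → F) : ut 0 v = 0 := zero_vecMulVec _
lemma ut_zero_right (v : Fin k → F) : ut v 0 = 0 := by rw [ut, star_zero, vecMulVec_zero]
lemma ut_conjT (u v : Fin k → F) : (ut u v)ᴴ = ut v u := by rw [ut, conjTranspose_vecMulVec, star_star]; rfl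
lemma mul_ut (A : Matrix (Fin k) (Fin k) F) (u v : Fin k → F) : A * ut u v = ut (A *ᵥ u) v := mul_vecMulVec _ _ _
lemma ut_mul_mat (A : Matrix (Fin k) (Fin k) F) (u v : Fin k → F) : ut u v * A = ut u (Aᴴ *ᵥ v) := by
  rw [ut, ut, vecMulVec_mul, star_mulVec, conjTranspose_conjTranspose]
lemma ut_ne_zero {u v : Fin k → F} (hu : u ≠ 0) (hv : v ≠ 0) : ut u v ≠ 0 := vmv_ne_zero hu (fun h => hv (by
  have := congrArg star h; rwa [star_star, star_zero] at this))
lemma ut_sq {u : Fin k → F} (hu : ip u u = 0) : ut u u * ut u u = 0 := by rw [ut_mul, hu, zero_smul]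
lemma ip_mulVec (A : Matrix (Fin k) (Fin k) F) (u v : Fin k → F) : ip u (A *ᵥ v) = ip (Aᴴ *ᵥ u) v := by
  rw [ip, ip, star_mulVec, conjTranspose_conjTranspose, dotProduct_mulVec]

/-- a unitary matrix -/
def Un {β : Type} [Fintype β] [DecidableEq β] (g : GL β F) : Prop := g.1ᴴ * g.1 = 1

section un

variable {β : Type} [Fintype β] [DecidableEq β]

lemma Un.inv_eq {g : GL β F} (hg : Un g) : (g⁻¹).1 = g.1ᴴ := by
  have h1 : g.1ᴴ * g.1 * (g⁻¹).1 = (g⁻¹).1 := by rw [show g.1ᴴ * g.1 = 1 from hg, one_mul]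
  rw [mul_assoc, mul_inv_val, mul_one] at h1
  exact h1.symm

lemma Un.inv {g : GL β F} (hg : Un g) : Un g⁻¹ := by
  show (g⁻¹).1ᴴ * (g⁻¹).1 = 1
  rw [hg.inv_eq, conjTranspose_conjTranspose, ← hg.inv_eq, mul_inv_val]

lemma Un.mul {g h : GL β F} (hg : Un g) (hh : Un h) : Un (g * h) := by
  show ((g * h).1)ᴴ * (g * h).1 = 1
  rw [Units.val_mul, conjTranspose_mul, mul_assoc, ← mul_assoc g.1ᴴ, show g.1ᴴ * g.1 = 1 from hg, one_mul]
  exact hh

lemma Un.conjT_conj {g : GL β F} (hg : Un g) (X : Matrix β β F) : (g.1 * X * (g⁻¹).1)ᴴ = g.1 * Xᴴ * (g⁻¹).1 := by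
  rw [hg.inv_eq, conjTranspose_mul, conjTranspose_mul, conjTranspose_conjTranspose, mul_assoc]

end un

lemma Un.conj_ut {g : GL (Fin k) F} (hg : Un g) (u v : Fin k → F) : g.1 * ut u v * (g⁻¹).1 = ut (g.1 *ᵥ u) (g.1 *ᵥ v) := by
  rw [mul_ut, ut_mul_mat, hg.inv_eq, conjTranspose_conjTranspose]

lemma Un.ip {g : GL (Fin k) F} (hg : Un g) (u v : Fin k → F) : CW.ip (g.1 *ᵥ u) (g.1 *ᵥ v) = CW.ip u v := by
  rw [ip_mulVec, mulVec_mulVec, show g.1ᴴ * g.1 = 1 from hg, one_mulVec]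

/-- the special unitary group -/
def SUg (k : ℕ) (F : Type*) [Field F] [StarRing F] : Subgroup (GL (Fin k) F) where
  carrier := {g | Un g ∧ g.1.det = 1}
  mul_mem' := fun {a b} ha hb => ⟨ha.1.mul hb.1, by rw [Units.val_mul, det_mul, ha.2, hb.2, one_mul]⟩
  one_mem' := ⟨by show (1 : Matrix _ _ F)ᴴ * 1 = 1; rw [conjTranspose_one, one_mul], by rw [Units.val_one, det_one]⟩
  inv_mem' := fun {a} ha => ⟨ha.1.inv, by
    have h1 : ((a⁻¹).1 * a.1).det = 1 := by rw [inv_mul_val, det_one]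
    rwa [det_mul, ha.2, mul_one] at h1⟩

lemma SUg.un {g : GL (Fin k) F} (hg : g ∈ SUg k F) : Un g := hg.1

lemma SUg.conj {g : GL (Fin k) F} (hg : g ∈ SUg k F) {B : GL (Fin k) F} (hB : Un B) : B * g * B⁻¹ ∈ SUg k F := by
  refine ⟨(hB.mul hg.1).mul hB.inv, ?_⟩
  have h1 : (B.1 * (B⁻¹).1).det = 1 := by rw [mul_inv_val, det_one]
  rw [det_mul] at h1
  rw [Units.val_mul, Units.val_mul, det_mul, det_mul, hg.2, mul_one, h1]

end ip

section geo

variable {F : Type*} [Field F] [Fintype F] [StarRing F] {q k : ℕ} (U : UF F q)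

include U

lemma ip_eq (u v : Fin k → F) : ip u v = hermForm k F q v u := by
  rw [ip, dotProduct, hermForm_def]
  refine Finset.sum_congr rfl fun i _ => ?_
  rw [Pi.star_apply, U.st, mul_comm]

lemma UF.q2 : 2 ≤ q := two_le_q U.card

lemma UF.exists_skew : ∃ c : F, c ≠ 0 ∧ star c = -c := by
  obtain ⟨c, h1, h2⟩ := Uni.exists_skew U.card
  exact ⟨c, h1, by rw [U.st, h2]⟩

lemma UF.exists_ne : ∃ c : F, star c ≠ c := by
  obtain ⟨c, h⟩ := exists_pow_q_ne U.card
  exact ⟨c, by rwa [U.st]⟩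

lemma UF.exists_norm {t : F} (ht : star t = t) : ∃ c : F, star c * c = t := by
  rw [U.st] at ht
  obtain ⟨c, h⟩ := exists_norm_eq U.card ht
  exact ⟨c, by rw [U.st, ← h, pow_succ]⟩

lemma UF.exists_tr {t : F} (ht : star t = t) : ∃ c : F, c + star c = t := by
  rw [U.st] at ht
  obtain ⟨c, h⟩ := exists_trace_eq U.card ht
  exact ⟨c, by rw [U.st, h]⟩

lemma UF.exists_real (hq : 3 ≤ q) : ∃ t : F, star t = t ∧ t ≠ 0 ∧ t ≠ 1 := by
  obtain ⟨t, h1, h2, h3⟩ := UTP.exists_fixed_ne (F := F) U.card hq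
  exact ⟨t, by rw [U.st, h1], h2, h3⟩

/-- sums over the elements of norm one -/
lemma UF.exists_circle : ∃ Ω : Finset F, (∀ w ∈ Ω, star w * w = 1) ∧ ∑ w ∈ Ω, w = 0 ∧ ∑ w ∈ Ω, star w = 0 ∧ ∑ w ∈ Ω, (1 : F) = 1 ∧
    ∑ w ∈ Ω, w * w = 0 ∧ ∑ w ∈ Ω, star w * star w = 0 := by
  classical
  obtain ⟨Ω, hΩ⟩ : ∃ Ω : Finset F, Ω = Finset.univ.filter (fun x : F => x ^ (q + 1) = 1) := ⟨_, rfl⟩
  have hmem : ∀ x, x ∈ Ω ↔ x ^ (q + 1) = 1 := fun x => by rw [hΩ, Finset.mem_filter]; simp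
  have hcard : Ω.card = q + 1 := by
    have h1 := card_norm_eq (c := (1 : F)) U.card (by rw [one_pow]) one_ne_zero
    rw [Nat.card_eq_fintype_card, Fintype.card_subtype] at h1
    rw [hΩ]; exact h1
  obtain ⟨z, hz, hz1⟩ := UTP.exists_norm_one_ne U.card (F := F)
  have hz0 : z ≠ 0 := by rintro rfl; rw [zero_pow (by omega)] at hz; exact zero_ne_one hz
  have hsum : ∑ w ∈ Ω, w = 0 := by
    have h1 : ∑ w ∈ Ω, z * w = ∑ w ∈ Ω, w := by
      refine Finset.sum_bij' (fun w _ => z * w) (fun w _ => z⁻¹ * w) ?_ ?_ ?_ ?_ ?_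
      · intro w hw; rw [hmem] at hw ⊢; rw [mul_pow, hz, hw, one_mul]
      · intro w hw; rw [hmem] at hw ⊢; rw [mul_pow, inv_pow, hz, hw, inv_one, one_mul]
      · intro w _; rw [← mul_assoc, inv_mul_cancel₀ hz0, one_mul]
      · intro w _; rw [← mul_assoc, mul_inv_cancel₀ hz0, one_mul]
      · intro w _; rfl
    rw [← Finset.mul_sum] at h1
    have h2 : (z - 1) * ∑ w ∈ Ω, w = 0 := by rw [sub_mul, h1, one_mul, sub_self]
    exact (mul_eq_zero.1 h2).resolve_left (sub_ne_zero.2 hz1)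
  obtain ⟨z', hz', hz1'⟩ := exists_norm_one_sq_ne U.card (F := F)
  have hz0' : z' ≠ 0 := by rintro rfl; rw [zero_pow (by omega)] at hz'; exact zero_ne_one hz'
  have hsum2 : ∑ w ∈ Ω, w * w = 0 := by
    have h1 : ∑ w ∈ Ω, (z' * z') * (w * w) = ∑ w ∈ Ω, w * w := by
      refine Finset.sum_bij' (fun w _ => z' * w) (fun w _ => z'⁻¹ * w) ?_ ?_ ?_ ?_ ?_
      · intro w hw; rw [hmem] at hw ⊢; rw [mul_pow, hz', hw, one_mul]
      · intro w hw; rw [hmem] at hw ⊢; rw [mul_pow, inv_pow, hz', hw, inv_one, one_mul]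
      · intro w _; rw [← mul_assoc, inv_mul_cancel₀ hz0', one_mul]
      · intro w _; rw [← mul_assoc, mul_inv_cancel₀ hz0', one_mul]
      · intro w _; ring
    rw [← Finset.mul_sum] at h1
    have h2 : (z' * z' - 1) * ∑ w ∈ Ω, w * w = 0 := by rw [sub_mul, h1, one_mul, sub_self]
    exact (mul_eq_zero.1 h2).resolve_left (sub_ne_zero.2 (by rwa [← pow_two]))
  refine ⟨Ω, fun w hw => ?_, hsum, ?_, ?_, hsum2, ?_⟩
  · rw [U.st, ← pow_succ]; exact (hmem w).1 hw
  · rw [← star_sum, hsum, star_zero]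
  · rw [Finset.sum_const, hcard, nsmul_eq_mul, mul_one]
    obtain ⟨p, f, hp, hc, hf, hqp⟩ := q_prime_pow U.card (F := F)
    rw [Nat.cast_add, hqp, Nat.cast_pow, CharP.cast_eq_zero, zero_pow hf.ne', zero_add, Nat.cast_one]
  · have : ∑ w ∈ Ω, star w * star w = star (∑ w ∈ Ω, w * w) := by
      rw [star_sum]; exact Finset.sum_congr rfl fun w _ => by rw [star_mul']
    rw [this, hsum2, star_zero]

/-- an element of the special unitary group as an element of `SUg` -/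
lemma exists_SUg (g : SU k F q) : ∃ s ∈ SUg k F, ∀ x, s.1 *ᵥ x = act g x := by
  refine ⟨Matrix.SpecialLinearGroup.toGL (g : Matrix.SpecialLinearGroup (Fin k) F), ⟨?_, ?_⟩, fun x => rfl⟩
  · exact UTP.SU_conjT_mul U.st U.card g
  · exact (g : Matrix.SpecialLinearGroup (Fin k) F).2

lemma exists_SUg_iso (hk : 3 ≤ k) {u u' : Fin k → F} (hu0 : u ≠ 0) (hu0' : u' ≠ 0) (hu : ip u u = 0) (hu' : ip u' u' = 0) :
    ∃ s ∈ SUg k F, s.1 *ᵥ u = u' := by
  rw [ip_eq U] at hu hu'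
  obtain ⟨g, hg⟩ := UTP.exists_SU_isotropic U.card hk hu0 hu0' hu hu'
  obtain ⟨s, hs, hsx⟩ := exists_SUg U g
  exact ⟨s, hs, by rw [hsx, hg]⟩

lemma exists_SUg_unit (hk : 2 ≤ k) {u u' : Fin k → F} (hu : ip u u = 1) (hu' : ip u' u' = 1) : ∃ s ∈ SUg k F, s.1 *ᵥ u = u' := by
  rw [ip_eq U] at hu hu'
  have hon : ∀ {u : Fin k → F}, hermForm k F q u u = 1 → IsON q (fun _ : Fin 1 => u) := by
    intro u hu i j
    rw [hu, if_pos (Subsingleton.elim i j)]
  obtain ⟨g, hg⟩ := UTP.exists_SU_ON U.card (hon hu) (hon hu') (by omega)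
  obtain ⟨s, hs, hsx⟩ := exists_SUg U g
  exact ⟨s, hs, by rw [hsx]; exact hg 0⟩

lemma mat_ext' {A B : Matrix (Fin k) (Fin k) F} (h : ∀ x, A *ᵥ x = B *ᵥ x) : A = B := by
  ext i j
  have := congrFun (h (Pi.single j 1)) i
  rwa [mulVec_single_one, mulVec_single_one] at this

/-- the elements of the unipotent radical -/
lemma exists_heis {u m : Fin k → F} {c : F} (hu : ip u u = 0) (hum : ip u m = 0) (hc : c + star c = -ip m m) :
    ∃ s ∈ SUg k F, s.1 = 1 + (ut m u - ut u m + c • ut u u) := by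
  rw [ip_eq U] at hu
  rw [ip_eq U, hermForm_eq_zero_comm U.card] at hum
  rw [ip_eq U, U.st] at hc
  obtain ⟨g, hg⟩ := exists_eich U.card u m c hu hum hc
  obtain ⟨s, hs, hsx⟩ := exists_SUg U g
  refine ⟨s, hs, mat_ext' U fun x => ?_⟩
  rw [hsx, hg x, add_mulVec, one_mulVec, add_mulVec, sub_mulVec, smul_mulVec, ut_mulVec, ut_mulVec, ut_mulVec, ip_eq U, ip_eq U, smul_smul]
  abel

lemma exists_tv {u : Fin k → F} {c : F} (hu : ip u u = 0) (hc : star c = -c) : ∃ s ∈ SUg k F, s.1 = 1 + c • ut u u := by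
  obtain ⟨s, hs, h⟩ := exists_heis U (m := 0) hu (ip_zero_right u) (c := c) (by rw [hc, ip_zero_right, neg_zero, add_neg_cancel])
  exact ⟨s, hs, by rw [h, ut_zero_left, ut_zero_right, sub_zero, zero_add]⟩

lemma exists_hypU {u : Fin k → F} (hu0 : u ≠ 0) (hu : ip u u = 0) : ∃ v, ip v v = 0 ∧ ip u v = 1 := by
  rw [ip_eq U] at hu
  obtain ⟨v, h1, h2, h3⟩ := exists_hyp' U.card hu0 hu
  refine ⟨v, by rw [ip_eq U]; exact h2, ?_⟩
  rw [ip_eq U, ← hermForm_symm U.card, h3, one_pow]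

/-- a vector of norm one orthogonal to a hyperbolic pair -/
lemma exists_unitU (hk : 3 ≤ k) {u v : Fin k → F} (hu : ip u u = 0) (hv : ip v v = 0) (huv : ip u v = 1) : ∃ m, ip m m = 1 ∧ ip u m = 0 ∧ ip v m = 0 := by
  have hH : Hyp q u v := by
    rw [ip_eq U] at hu hv
    refine ⟨hu, hv, ?_⟩
    rw [ip_eq U] at huv
    rw [← hermForm_symm U.card, huv, one_pow]
  have hnd := (hH.nd U.card).perp U.card
  obtain ⟨z, hz, hzz⟩ := hnd.exists_unit U.card (by
    intro h0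
    have := hH.finrank_perp U.card
    rw [h0, finrank_bot] at this
    omega)
  obtain ⟨h1, h2⟩ := (Hyp.mem_perp_iff U.card).1 hz
  refine ⟨z, by rw [ip_eq U]; exact hzz, by rw [ip_eq U]; exact h1, by rw [ip_eq U]; exact h2⟩

/-- a hyperbolic pair orthogonal to a given isotropic vector -/
lemma exists_second_pair (hk : 4 ≤ k) {y : Fin k → F} (hy0 : y ≠ 0) (hy : ip y y = 0) :
    ∃ x y', ip x x = 0 ∧ ip y' y' = 0 ∧ ip x y' = 1 ∧ ip y x = 0 ∧ ip y y' = 0 := by
  obtain ⟨z, hz, hyz⟩ := exists_hypU U hy0 hy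
  have hH : Hyp q y z := by
    rw [ip_eq U] at hy hz
    refine ⟨hy, hz, ?_⟩
    rw [ip_eq U] at hyz
    rw [← hermForm_symm U.card, hyz, one_pow]
  have hnd := (hH.nd U.card).perp U.card
  obtain ⟨a, ha, b, hb, hab⟩ := UTP.nd_exists_hyp_pair U.card hnd (by rw [hH.finrank_perp U.card]; omega)
  obtain ⟨h1, h2⟩ := (Hyp.mem_perp_iff U.card).1 ha
  obtain ⟨h3, h4⟩ := (Hyp.mem_perp_iff U.card).1 hb
  refine ⟨a, b, by rw [ip_eq U]; exact hab.1, by rw [ip_eq U]; exact hab.2.1, ?_, by rw [ip_eq U]; exact h1, by rw [ip_eq U]; exact h3⟩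
  rw [ip_eq U, ← hermForm_symm U.card, hab.2.2, one_pow]

/-- an isotropic vector orthogonal to two given vectors -/
lemma exists_iso_perp (hk : 4 ≤ k) (v w : Fin k → F) : ∃ u, u ≠ 0 ∧ ip u u = 0 ∧ ip u v = 0 ∧ ip u w = 0 := by
  obtain ⟨W, hW⟩ : ∃ W, W = perp q (Submodule.span F {v, w}) := ⟨_, rfl⟩
  have hmem : ∀ x ∈ W, ip x v = 0 ∧ ip x w = 0 := by
    intro x hx
    rw [hW, mem_perp_span U.card] at hx
    have h1 := hx v (by simp)
    have h2 := hx w (by simp)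
    refine ⟨?_, ?_⟩
    · rw [ip_eq U, hermForm_eq_zero_comm U.card]; exact h1
    · rw [ip_eq U, hermForm_eq_zero_comm U.card]; exact h2
  have hdim : 2 ≤ finrank F W := by
    have h1 := finrank_perp U.card (Submodule.span F {v, w})
    have h2 : finrank F (Submodule.span F ({v, w} : Set (Fin k → F))) ≤ 2 := by
      classical
      have h3 := finrank_span_finset_le_card (R := F) ({v, w} : Finset (Fin k → F))
      rw [Finset.coe_insert, Finset.coe_singleton] at h3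
      exact h3.trans Finset.card_le_two
    rw [hW]; omega
  by_cases hND : ND q W
  · obtain ⟨u, hu, hu0, huu⟩ := hND.exists_isotropic U.card hdim
    exact ⟨u, hu0, by rw [ip_eq U]; exact huu, hmem u hu⟩
  · unfold ND at hND
    push Not at hND
    obtain ⟨u, hu, hz, hu0⟩ := hND
    exact ⟨u, hu0, by rw [ip_eq U]; exact hz u hu, hmem u hu⟩

end geo

end Cfsg.Agent.Asch.CW
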