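import Mathlib
import Cfsg.Prelude.Def_GeometricClasses
import Cfsg.Agent.Asch.UNBase
set_option autoImplicit false
set_option linter.unusedSectionVars false
set_option linter.unusedVariables false
set_option linter.unusedSimpArgs false
set_option linter.style.haveILetI false

/-!
Unitary tensor powers: coefficients of root elements and elements of the unipotent radical.
-/

namespace Cfsg.Agent.Asch.CW

open Matrix Module

open scoped Matrix

section mem

variable {k : ℕ} {ι : Type} [Fintype ι] [DecidableEq ι] {F : Type*} [Field F] [Fintype F] [StarRing F] {q : ℕ} (U : UF F q)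
  {E : Matrix (Fin k) (Fin k) F →ₐ[F] Matrix ι ι F} {K : Subgroup (GL ι F)}

/-- `K` contains the special unitary group of the factor -/
def RootsU (E : Matrix (Fin k) (Fin k) F →ₐ[F] Matrix ι ι F) (K : Subgroup (GL ι F)) : Prop := ∀ s ∈ SUg k F, EU E s ∈ K

/-- the coefficients are scalar -/
def CoefU (E : Matrix (Fin k) (Fin k) F →ₐ[F] Matrix ι ι F) (K : Subgroup (GL ι F)) : Prop :=
  ∀ A, Cmt E A → ∀ u : Fin k → F, u ≠ 0 → ip u u = 0 → Mem1 K (E (ut u u) * A) → ∃ c : F, A = c • (1 : Matrix ι ι F)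

/-- the factor is compatible with the conjugate transpose -/
def HE (E : Matrix (Fin k) (Fin k) F →ₐ[F] Matrix ι ι F) : Prop := ∀ a, (E a)ᴴ = E aᴴ

lemma cmt_conjT (hE : HE E) {A : Matrix ι ι F} (hA : Cmt E A) : Cmt E Aᴴ := by
  intro a
  have h := congrArg conjTranspose (hA aᴴ)
  rw [conjTranspose_mul, conjTranspose_mul, hE, conjTranspose_conjTranspose] at h
  exact h.symm

lemma EU_conj {s : GL (Fin k) F} {A : Matrix ι ι F} (hA : Cmt E A) (a : Matrix (Fin k) (Fin k) F) :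
    (EU E s).1 * (E a * A) * ((EU E s)⁻¹).1 = E (s.1 * a * (s⁻¹).1) * A := by
  rw [EU_val, EU_inv_val, E_mul_A', E_A_mul hA]

lemma EU_conj_ut {s : GL (Fin k) F} (hs : Un s) {A : Matrix ι ι F} (hA : Cmt E A) (u v : Fin k → F) :
    (EU E s).1 * (E (ut u v) * A) * ((EU E s)⁻¹).1 = E (ut (s.1 *ᵥ u) (s.1 *ᵥ v)) * A := by
  rw [EU_conj hA, hs.conj_ut]

lemma un_EU (hE : HE E) {s : GL (Fin k) F} (hs : Un s) : Un (EU E s) := by
  show (E s.1)ᴴ * E s.1 = 1
  rw [hE, ← map_mul, show s.1ᴴ * s.1 = 1 from hs, map_one]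

include U in
lemma mem_rootU (hR : RootsU E K) {u : Fin k → F} (hu : ip u u = 0) {c : F} (hc : star c = -c) : Mem1 K (E (c • ut u u)) := by
  obtain ⟨s, hs, h⟩ := exists_tv U hu hc
  exact ⟨EU E s, hR s hs, by rw [EU_val, h, map_add, map_one]⟩

include U in
lemma mem_allU (hk : 3 ≤ k) (hR : RootsU E K) {u : Fin k → F} (hu0 : u ≠ 0) (hu : ip u u = 0) {A : Matrix ι ι F} (hA : Cmt E A)
    (h : Mem1 K (E (ut u u) * A)) {v : Fin k → F} (hv : ip v v = 0) : Mem1 K (E (ut v v) * A) := by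
  by_cases hv0 : v = 0
  · rw [hv0, ut_zero_left, map_zero, zero_mul]; exact mem1_zero
  obtain ⟨s, hs, hsu⟩ := exists_SUg_iso U hk hu0 hv0 hu hv
  have h1 := h.conj' (hR s hs)
  rw [EU_conj_ut hs.1 hA, hsu] at h1
  exact h1

/-- the coefficients -/
def coU (E : Matrix (Fin k) (Fin k) F →ₐ[F] Matrix ι ι F) (K : Subgroup (GL ι F)) : AddSubgroup (Matrix ι ι F) where
  carrier := {A | Cmt E A ∧ ∀ u : Fin k → F, ip u u = 0 → Mem1 K (E (ut u u) * A)}
  add_mem' := fun {A B} hA hB => ⟨hA.1.add hB.1, fun u hu => by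
    rw [mul_add]
    exact (hA.2 u hu).add (hB.2 u hu) (by rw [E_mul_A hA.1, ut_sq hu, map_zero, zero_mul])⟩
  zero_mem' := ⟨Cmt.zero, fun u _ => by rw [mul_zero]; exact mem1_zero⟩
  neg_mem' := fun {A} hA => ⟨hA.1.neg, fun u hu => by
    rw [mul_neg]; exact (hA.2 u hu).neg (E_A_sq hA.1 (ut_sq hu))⟩

include U in
lemma coU_of (hk : 3 ≤ k) (hR : RootsU E K) {u : Fin k → F} (hu0 : u ≠ 0) (hu : ip u u = 0) {A : Matrix ι ι F} (hA : Cmt E A)
    (h : Mem1 K (E (ut u u) * A)) : A ∈ coU E K := ⟨hA, fun v hv => mem_allU U hk hR hu0 hu hA h hv⟩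

include U in
lemma coU_smul {A : Matrix ι ι F} (hA : A ∈ coU E K) {t : F} (ht : star t = t) : t • A ∈ coU E K := by
  refine ⟨hA.1.smul t, fun u hu => ?_⟩
  obtain ⟨c, hc⟩ := U.exists_norm ht
  have h1 := hA.2 (c • u) (by rw [ip_smul_left, ip_smul_right, hu, mul_zero, mul_zero])
  rw [ut_smul_left, ut_smul_right, smul_smul, mul_comm c, hc, map_smul, smul_mul_assoc, ← mul_smul_comm] at h1
  exact h1

include U in
lemma scalar_mem_coU (hR : RootsU E K) {c : F} (hc : star c = -c) : c • (1 : Matrix ι ι F) ∈ coU E K :=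
  ⟨Cmt.one.smul c, fun u hu => by
    have := mem_rootU U hR hu hc
    rwa [map_smul, ← mul_one (E (ut u u)), ← mul_smul_comm] at this⟩

include U in
lemma exists_iso (hk : 2 ≤ k) : ∃ u : Fin k → F, u ≠ 0 ∧ ip u u = 0 := by
  obtain ⟨u, h1, h2⟩ := Uni.exists_isotropic U.card hk
  exact ⟨u, h1, by rw [ip_eq U]; exact h2⟩

lemma E_A_eq_zero {A : Matrix ι ι F} (hA : Cmt E A) {a : Matrix (Fin k) (Fin k) F} (ha : a ≠ 0) (h : E a * A = 0) : A = 0 := eq_zero_of_E_mul E hA ha h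

include U in
lemma coU_skew (hE : HE E) (hk : 2 ≤ k) (hU : ∀ x ∈ K, Un x) {A : Matrix ι ι F} (hA : A ∈ coU E K) : Aᴴ = -A := by
  obtain ⟨u, hu0, hu⟩ := exists_iso U hk (F := F)
  obtain ⟨x, hxK, hx⟩ := hA.2 u hu
  have h1 := Mem1.inv_eq hx (E_A_sq hA.1 (ut_sq hu))
  have h2 := (hU x hxK).inv_eq
  rw [h1, hx, conjTranspose_add, conjTranspose_one, conjTranspose_mul, hE, ut_conjT, ← cmt_conjT hE hA.1] at h2
  have h3 : E (ut u u) * (Aᴴ + A) = 0 := by
    rw [mul_add]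
    have := sub_eq_add_neg (1 : Matrix ι ι F) (E (ut u u) * A)
    rw [this] at h2
    rw [← add_left_cancel h2, neg_add_cancel]
  exact eq_neg_of_add_eq_zero_left (E_A_eq_zero ((cmt_conjT hE hA.1).add hA.1) (ut_ne_zero hu0 hu0) h3)

/-- the elements of the torus -/
lemma coU_T (hR : RootsU E K) (U : UF F q) {A : Matrix ι ι F} (hA : A ∈ coU E K) (hA2 : A * A = 0) {u v : Fin k → F} (hu : ip u u = 0) (hv : ip v v = 0)
    (huv : ip u v = 1) {c : F} (hc : star c = -c) : Mem1 K (E (ut v u - ut u v) * (c • A)) := by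
  have hvu : ip v u = 1 := by rw [← ip_star, huv, star_one]
  obtain ⟨Q, hQ⟩ : ∃ Q, Q = E (c • ut v v) := ⟨_, rfl⟩
  obtain ⟨P, hP⟩ : ∃ P, P = E (ut u u) * A := ⟨_, rfl⟩
  have mQ : Mem1 K Q := by rw [hQ]; exact mem_rootU U hR hv hc
  have mP : Mem1 K P := by rw [hP]; exact hA.2 u hu
  have hQQ : Q * Q = 0 := by rw [hQ, ← map_mul, smul_mul_smul_comm, ut_sq hv, smul_zero, map_zero]
  have hPP : P * P = 0 := by rw [hP]; exact E_A_sq hA.1 (ut_sq hu)
  have hPQ : P * Q = E (ut u v) * (c • A) := by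
    rw [hP, hQ, E_A_mul hA.1, mul_smul_comm, ut_mul, huv, one_smul, map_smul, smul_mul_assoc, mul_smul_comm]
  have hQP : Q * P = E (ut v u) * (c • A) := by
    rw [hP, hQ, E_mul_A', smul_mul_assoc, ut_mul, hvu, one_smul, map_smul, smul_mul_assoc, mul_smul_comm]
  have hPQP : P * Q * P = 0 := by
    rw [hPQ, hP, E_mul_A (hA.1.smul c), smul_mul_assoc, hA2, smul_zero, mul_zero]
  have hQPQ : Q * P * Q = E (ut v v) * ((c * c) • A) := by
    rw [hQP, hQ, map_smul, mul_smul_comm (c : F) (E (ut v u) * c • A), E_A_mul (hA.1.smul c), ut_mul, huv, one_smul, mul_smul_comm, mul_smul_comm, smul_smul]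
  have h1 := Mem1.comm3 mQ mP hQQ hPP hPQP
  have mQPQ : Mem1 K (Q * P * Q) := by
    rw [hQPQ]
    exact (coU_smul U hA (by rw [star_mul', hc, neg_mul_neg])).2 v hv
  have h2 := h1.add mQPQ (by
    calc (Q * P - P * Q - Q * P * Q) * (Q * P * Q) = Q * (P * Q * P) * Q - P * (Q * Q) * P * Q - Q * P * (Q * Q) * P * Q := by noncomm_ring
      _ = 0 := by rw [hPQP, hQQ]; simp)
  rw [sub_add_cancel, hQP, hPQ, ← sub_mul, ← map_sub] at h2
  exact h2

/-- elements of the unipotent radical -/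
def NU (E : Matrix (Fin k) (Fin k) F →ₐ[F] Matrix ι ι F) (u m : Fin k → F) (x y : Matrix ι ι F) : Matrix ι ι F :=
  E (ut m u) * x - E (ut u m) * xᴴ + E (ut u u) * y

lemma NU_add (u m : Fin k → F) (x y x' y' : Matrix ι ι F) : NU E u m (x + x') (y + y') = NU E u m x y + NU E u m x' y' := by
  rw [NU, NU, NU, conjTranspose_add, mul_add, mul_add, mul_add]; abel

lemma NU_eta (u m : Fin k → F) (x y z : Matrix ι ι F) : NU E u m x (y + z) = NU E u m x y + E (ut u u) * z := by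
  rw [NU, NU, mul_add]; abel

lemma NU_mul (hE : HE E) {u m : Fin k → F} (hu : ip u u = 0) (hum : ip u m = 0) {x y x' y' : Matrix ι ι F} (hx : Cmt E x) (hy : Cmt E y) :
    NU E u m x y * NU E u m x' y' = -(ip m m • (E (ut u u) * (xᴴ * x'))) := by
  have hmu := ip_zero_comm hum
  have hx' := cmt_conjT hE hx
  rw [NU, NU, add_mul, sub_mul, mul_add, mul_sub, mul_add, mul_sub, mul_add, mul_sub]
  rw [E_mul_A hx, E_mul_A hx, E_mul_A hx, E_mul_A hx', E_mul_A hx', E_mul_A hx', E_mul_A hy, E_mul_A hy, E_mul_A hy]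
  simp only [ut_mul, hu, hum, hmu, zero_smul, map_zero, zero_mul, map_smul, smul_mul_assoc, sub_zero, zero_sub, add_zero, zero_add]

lemma NU_prod (hE : HE E) {u m : Fin k → F} (hu : ip u u = 0) (hum : ip u m = 0) {x y x' y' : Matrix ι ι F} (hx : Cmt E x) (hy : Cmt E y) :
    (1 + NU E u m x y) * (1 + NU E u m x' y') = 1 + NU E u m (x + x') (y + y' + -(ip m m • (xᴴ * x'))) := by
  rw [NU_eta, NU_add, mul_neg, mul_smul_comm, ← NU_mul hE hu hum hx hy (x' := x') (y' := y')]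
  noncomm_ring

lemma E_uu_NU (hE : HE E) {u m : Fin k → F} (hu : ip u u = 0) (hum : ip u m = 0) {x y z : Matrix ι ι F} (hz : Cmt E z) :
    E (ut u u) * z * NU E u m x y = 0 := by
  rw [NU, mul_add, mul_sub, E_mul_A hz, E_mul_A hz, E_mul_A hz]
  simp only [ut_mul, hu, hum, zero_smul, map_zero, zero_mul, sub_zero, add_zero]

lemma NU_E_uu (hE : HE E) {u m : Fin k → F} (hu : ip u u = 0) (hum : ip u m = 0) {x y z : Matrix ι ι F} (hx : Cmt E x) (hy : Cmt E y) :
    NU E u m x y * (E (ut u u) * z) = 0 := by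
  have hmu := ip_zero_comm hum
  rw [NU, add_mul, sub_mul, E_mul_A hx, E_mul_A (cmt_conjT hE hx), E_mul_A hy]
  simp only [ut_mul, hu, hmu, zero_smul, map_zero, zero_mul, sub_zero, add_zero]

/-- the second coefficients -/
def PhiU (E : Matrix (Fin k) (Fin k) F →ₐ[F] Matrix ι ι F) (K : Subgroup (GL ι F)) (hE : HE E) (u m : Fin k → F) (hu : ip u u = 0) (hum : ip u m = 0) :
    Submodule F (Matrix ι ι F) where
  carrier := {x | Cmt E x ∧ ∀ c : F, ∃ y, Cmt E y ∧ Mem1 K (NU E u m (c • x) y)}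
  add_mem' := by
    rintro x x' ⟨hx, h⟩ ⟨hx', h'⟩
    refine ⟨hx.add hx', fun c => ?_⟩
    obtain ⟨y, hy, g, hg, hgx⟩ := h c
    obtain ⟨y', hy', g', hg', hgx'⟩ := h' c
    refine ⟨y + y' + -(ip m m • ((c • x)ᴴ * (c • x'))), (hy.add hy').add (((cmt_conjT hE (hx.smul c)).mul (hx'.smul c)).smul _).neg, g * g', K.mul_mem hg hg', ?_⟩
    rw [Units.val_mul, hgx, hgx', NU_prod hE hu hum (hx.smul c) hy, smul_add]
  zero_mem' := ⟨Cmt.zero, fun c => ⟨0, Cmt.zero, by rw [smul_zero, NU, mul_zero, conjTranspose_zero, mul_zero, mul_zero, sub_zero, add_zero]; exact mem1_zero⟩⟩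
  smul_mem' := fun c x hx => ⟨hx.1.smul c, fun c' => by
    obtain ⟨y, hy⟩ := hx.2 (c' * c)
    exact ⟨y, by rw [smul_smul]; exact hy⟩⟩

include U in
lemma one_mem_PhiU (hE : HE E) (hR : RootsU E K) {u m : Fin k → F} (hu : ip u u = 0) (hum : ip u m = 0) : (1 : Matrix ι ι F) ∈ PhiU E K hE u m hu hum := by
  refine ⟨Cmt.one, fun c => ?_⟩
  obtain ⟨d, hd⟩ := U.exists_tr (t := -ip (c • m) (c • m)) (by rw [star_neg, ip_star])
  obtain ⟨s, hs, h⟩ := exists_heis U hu (by rw [ip_smul_right, hum, mul_zero]) hd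
  refine ⟨d • 1, Cmt.one.smul d, EU E s, hR s hs, ?_⟩
  rw [EU_val, h, NU, ut_smul_left, ut_smul_right, map_add, map_one, map_add, map_sub, map_smul, map_smul, map_smul, conjTranspose_smul, conjTranspose_one,
    mul_smul_comm, mul_smul_comm, mul_smul_comm, mul_one, mul_one, mul_one]

lemma comm_gen {x y : GL ι F} {N N' : Matrix ι ι F} (hx : x.1 = 1 + N) (hy : y.1 = 1 + N') (h1 : (N * N' - N' * N) * N = 0) (h2 : (N * N' - N' * N) * N' = 0) :
    (x * y * (y * x)⁻¹).1 = 1 + (N * N' - N' * N) := by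
  have h3 : (x * y).1 = (1 + (N * N' - N' * N)) * (y * x).1 := by
    obtain ⟨δ, hδ⟩ : ∃ δ, δ = N * N' - N' * N := ⟨_, rfl⟩
    have e : (1 + N) * (1 + N') = (1 + N') * (1 + N) + δ := by rw [hδ]; noncomm_ring
    rw [← hδ] at h1 h2 ⊢
    have e' : δ * ((1 + N') * (1 + N)) = δ := by
      rw [← mul_assoc, mul_add δ, mul_one, h2, add_zero, mul_add δ, mul_one, h1, add_zero]
    rw [Units.val_mul, Units.val_mul, hx, hy, e, add_mul 1 δ, one_mul, e']
  rw [Units.val_mul, h3, mul_assoc, mul_inv_val, mul_one]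

include U in
/-- commutators in the unipotent radical -/
lemma coU_of_PhiU (hk : 3 ≤ k) (hE : HE E) (hR : RootsU E K) {u m : Fin k → F} (hu0 : u ≠ 0) (hu : ip u u = 0) (hum : ip u m = 0) (hm : ip m m = 1)
    {x : Matrix ι ι F} (hx : x ∈ PhiU E K hE u m hu hum) : x - xᴴ ∈ coU E K := by
  obtain ⟨y, hy, g, hg, hgx⟩ := hx.2 1
  rw [one_smul] at hgx
  obtain ⟨y', hy', g', hg', hgx'⟩ := (one_mem_PhiU U hE hR hu hum).2 1
  rw [one_smul] at hgx'
  have hxc := hx.1
  have e : NU E u m x y * NU E u m 1 y' - NU E u m 1 y' * NU E u m x y = E (ut u u) * (x - xᴴ) := by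
    rw [NU_mul hE hu hum hxc hy, NU_mul hE hu hum Cmt.one hy', hm, one_smul, one_smul, mul_one, conjTranspose_one, one_mul, mul_sub]; abel
  have hd : Cmt E (x - xᴴ) := hxc.sub (cmt_conjT hE hxc)
  refine coU_of U hk hR hu0 hu hd ⟨g * g' * (g' * g)⁻¹, K.mul_mem (K.mul_mem hg hg') (K.inv_mem (K.mul_mem hg' hg)), ?_⟩
  rw [comm_gen hgx hgx', e]
  · rw [e]; exact E_uu_NU hE hu hum hd
  · rw [e]; exact E_uu_NU hE hu hum hd

include U in
/-- multiplication by nilpotent coefficients -/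
lemma PhiU_mul (hk : 3 ≤ k) (hE : HE E) (hU : ∀ x ∈ K, Un x) (hR : RootsU E K) {u v m : Fin k → F} (hu : ip u u = 0) (hv : ip v v = 0) (huv : ip u v = 1)
    (hum : ip u m = 0) (hvm : ip v m = 0) {A : Matrix ι ι F} (hA : A ∈ coU E K) (hA2 : A * A = 0)
    {x : Matrix ι ι F} (hx : x ∈ PhiU E K hE u m hu hum) : x * A ∈ PhiU E K hE u m hu hum := by
  obtain ⟨c₀, hc0, hc⟩ := U.exists_skew
  have hvu : ip v u = 1 := by rw [← ip_star, huv, star_one]
  have hmu := ip_zero_comm hum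
  have hmv := ip_zero_comm hvm
  obtain ⟨a, ha⟩ : ∃ a, a = c₀ • A := ⟨_, rfl⟩
  have hac : Cmt E a := by rw [ha]; exact hA.1.smul _
  have haH : aᴴ = a := by rw [ha, conjTranspose_smul, hc, coU_skew U hE (by omega) hU hA, neg_smul_neg]
  have ha2 : a * a = 0 := by rw [ha, smul_mul_smul_comm, hA2, smul_zero]
  obtain ⟨T, hT, hTx⟩ := coU_T hR U hA hA2 hv hu hvu hc
  rw [← ha] at hTx
  obtain ⟨Z, hZ⟩ : ∃ Z, Z = E (ut u v - ut v u) * a := ⟨_, rfl⟩
  rw [← hZ] at hTx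
  have hZZ : Z * Z = 0 := by rw [hZ, E_mul_A hac, ha2, mul_zero]
  have hTi := Mem1.inv_eq hTx hZZ
  -- the element `x * a`
  have hxa : x * a ∈ PhiU E K hE u m hu hum := by
    refine ⟨hx.1.mul hac, fun c => ?_⟩
    obtain ⟨y, hy, hmem⟩ := hx.2 c
    obtain ⟨w, hw⟩ : ∃ w, w = c • x := ⟨_, rfl⟩
    rw [← hw] at hmem
    have hwc : Cmt E w := by rw [hw]; exact hx.1.smul c
    have h1 := hmem.conj' hT
    have e1 : T.1 * NU E u m w y * (T⁻¹).1 = NU E u m (w * (1 + a)) ((1 + a) * y * (1 + a)) := by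
      have r1 : Z * (E (ut m u) * w) = 0 := by
        rw [hZ, E_mul_A hac, sub_mul, ut_mul, ut_mul, hvm, hum, zero_smul, zero_smul, sub_zero, map_zero, zero_mul]
      have r2 : E (ut m u) * w * Z = -(E (ut m u) * (w * a)) := by
        rw [hZ, E_mul_A hwc, mul_sub, ut_mul, ut_mul, hu, huv, zero_smul, one_smul, zero_sub, map_neg, neg_mul]
      have r3 : Z * (E (ut u m) * wᴴ) = E (ut u m) * (a * wᴴ) := by
        rw [hZ, E_mul_A hac, sub_mul, ut_mul, ut_mul, hvu, hu, one_smul, zero_smul, sub_zero]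
      have r4 : E (ut u m) * wᴴ * Z = 0 := by
        rw [hZ, E_mul_A (cmt_conjT hE hwc), mul_sub, ut_mul, ut_mul, hmu, hmv, zero_smul, zero_smul, sub_zero, map_zero, zero_mul]
      have r5 : Z * (E (ut u u) * y) = E (ut u u) * (a * y) := by
        rw [hZ, E_mul_A hac, sub_mul, ut_mul, ut_mul, hvu, hu, one_smul, zero_smul, sub_zero]
      have r6 : E (ut u u) * y * Z = -(E (ut u u) * (y * a)) := by
        rw [hZ, E_mul_A hy, mul_sub, ut_mul, ut_mul, hu, huv, zero_smul, one_smul, zero_sub, map_neg, neg_mul]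
      have r7 : Z * (E (ut u u) * y * Z) = -(E (ut u u) * (a * (y * a))) := by
        rw [r6, mul_neg, hZ, E_mul_A hac, sub_mul, ut_mul, ut_mul, hvu, hu, one_smul, zero_smul, sub_zero]
      have r8 : Z * (E (ut m u) * w * Z) = 0 := by rw [← mul_assoc, r1, zero_mul]
      rw [hTx, hTi]
      have e2 : ∀ Y : Matrix ι ι F, (1 + Z) * Y * (1 - Z) = Y + Z * Y - Y * Z - Z * (Y * Z) := by intro Y; noncomm_ring
      rw [e2, NU, mul_add Z, mul_sub Z, add_mul _ _ Z, sub_mul _ _ Z, mul_add Z, mul_sub Z, r1, r2, r3, r4, r5, r6, mul_neg, mul_zero]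
      have r9 : Z * (E (ut m u) * (w * a)) = 0 := by
        rw [hZ, E_mul_A hac, sub_mul, ut_mul, ut_mul, hvm, hum, zero_smul, zero_smul, sub_zero, map_zero, zero_mul]
      have r10 : Z * (E (ut u u) * (y * a)) = E (ut u u) * (a * (y * a)) := by
        rw [hZ, E_mul_A hac, sub_mul, ut_mul, ut_mul, hvu, hu, one_smul, zero_smul, sub_zero]
      rw [mul_neg, r9, r10, NU, conjTranspose_mul, conjTranspose_add, conjTranspose_one, haH]
      simp only [mul_add, add_mul, mul_one, one_mul, mul_assoc]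
      abel
    rw [e1] at h1
    -- divide by the original element
    obtain ⟨g, hg, hgx⟩ := h1
    obtain ⟨y', hy', g', hg', hgx'⟩ := (Submodule.neg_mem _ hx).2 c
    rw [smul_neg, ← hw] at hgx'
    refine ⟨(1 + a) * y * (1 + a) + y' + -(ip m m • ((w * (1 + a))ᴴ * -w)), ?_, g * g', K.mul_mem hg hg', ?_⟩
    · have h1a : Cmt E (1 + a) := Cmt.one.add hac
      exact (((h1a.mul hy).mul h1a).add hy').add (((cmt_conjT hE (hwc.mul h1a)).mul hwc.neg).smul _).neg
    · have e3 : c • (x * a) = w * (1 + a) + -w := by rw [mul_add, mul_one, add_neg_cancel_comm, hw, smul_mul_assoc]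
      rw [Units.val_mul, hgx, hgx', NU_prod hE hu hum (hwc.mul (Cmt.one.add hac)) (((Cmt.one.add hac).mul hy).mul (Cmt.one.add hac)), e3]
  have h2 := Submodule.smul_mem _ c₀⁻¹ hxa
  rwa [ha, mul_smul_comm, smul_smul, inv_mul_cancel₀ hc0, one_smul] at h2

end mem

end Cfsg.Agent.Asch.CW
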