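import Mathlib
import Cfsg.Prelude.Def_GeometricClasses
import Cfsg.Agent.Asch.UNMem
import Cfsg.Agent.Asch.CWInvS
import Cfsg.Agent.Asch.CSFull
set_option autoImplicit false
set_option linter.unusedSectionVars false
set_option linter.unusedVariables false
set_option linter.unusedSimpArgs false
set_option linter.style.haveILetI false

/-!
Unitary tensor powers: invariant subgroups of the matrix algebra.
-/

namespace Cfsg.Agent.Asch.CW

open Matrix Module

open scoped Matrix

section span

variable {k : ℕ} {F : Type*} [Field F] [Fintype F] [StarRing F] {q : ℕ} (U : UF F q)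

include U

/-- the rank one matrices of isotropic vectors span the matrices of trace zero -/
theorem mem_of_trace_zero (hk : 3 ≤ k) {N : Submodule F (Matrix (Fin k) (Fin k) F)} (hN : ∀ x, ip x x = 0 → ut x x ∈ N) {a : Matrix (Fin k) (Fin k) F}
    (ha : a.trace = 0) : a ∈ N := by
  obtain ⟨s, hs0, hs⟩ := U.exists_skew
  obtain ⟨l, hl⟩ := U.exists_ne
  have pair : ∀ {P Q : Matrix (Fin k) (Fin k) F}, (∀ c : F, star c • P - c • Q ∈ N) → P ∈ N ∧ Q ∈ N := by
    intro P Q h
    have h1 := h 1
    rw [star_one, one_smul, one_smul] at h1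
    have h2 := N.sub_mem (h l) (N.smul_mem l h1)
    have h3 : star l • P - l • Q - l • (P - Q) = (star l - l) • P := by module
    rw [h3] at h2
    have h4 := N.smul_mem (star l - l)⁻¹ h2
    rw [smul_smul, inv_mul_cancel₀ (sub_ne_zero.2 hl), one_smul] at h4
    exact ⟨h4, by have := N.sub_mem h4 h1; rwa [sub_sub_cancel] at this⟩
  -- hyperbolic pairs
  have e1 : ∀ {x y : Fin k → F}, ip x x = 0 → ip y y = 0 → ip x y = 1 → ut x y - ut y x ∈ N := by
    intro x y hx hy hxy
    have hyx : ip y x = 1 := by rw [← ip_star, hxy, star_one]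
    have h1 := hN (y + s • x) (by
      rw [ip_add_left, ip_add_right, ip_add_right, ip_smul_left, ip_smul_left, ip_smul_right, ip_smul_right, hx, hy, hxy, hyx, hs]; ring)
    rw [ut_add_left, ut_add_right, ut_add_right, ut_smul_left, ut_smul_left, ut_smul_right, ut_smul_right, hs] at h1
    have h2 := N.sub_mem (N.sub_mem h1 (hN y hy)) (N.smul_mem (s * -s) (hN x hx))
    have h3 : ut y y + -s • ut y x + (s • ut x y + s • -s • ut x x) - ut y y - (s * -s) • ut x x = s • (ut x y - ut y x) := by module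
    rw [h3] at h2
    have h4 := N.smul_mem s⁻¹ h2
    rwa [smul_smul, inv_mul_cancel₀ hs0, one_smul] at h4
  have e2 : ∀ {x y m : Fin k → F}, ip x x = 0 → ip y y = 0 → ip x y = 1 → ip x m = 0 → ip y m = 0 → ut x m ∈ N ∧ ut m x ∈ N := by
    intro x y m hx hy hxy hxm hym
    have hyx : ip y x = 1 := by rw [← ip_star, hxy, star_one]
    have hmx := ip_zero_comm hxm
    have hmy := ip_zero_comm hym
    apply pair
    intro c
    obtain ⟨g, hg⟩ := U.exists_tr (t := -ip (c • m) (c • m)) (by rw [star_neg, ip_star])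
    have h0 : ip (c • m) (c • m) = star c * (c * ip m m) := by rw [ip_smul_left, ip_smul_right]
    have h1 := e1 (x := x) (y := y + c • m + g • x) hx (by
      simp only [ip_add_left, ip_add_right, ip_smul_left, ip_smul_right, hx, hy, hxy, hyx, hxm, hym, hmx, hmy]
      rw [h0] at hg
      linear_combination hg) (by
      simp only [ip_add_right, ip_smul_right, hx, hxy, hxm]; ring)
    simp only [ut_add_left, ut_add_right, ut_smul_left, ut_smul_right] at h1
    have h2 := N.sub_mem (N.sub_mem h1 (e1 hx hy hxy)) (N.smul_mem (star g - g) (hN x hx))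
    have h3 : ut x y + star c • ut x m + star g • ut x x - (ut y x + c • ut m x + g • ut x x) - (ut x y - ut y x) - (star g - g) • ut x x =
        star c • ut x m - c • ut m x := by module
    rwa [h3] at h2
  obtain ⟨x, hx0, hx⟩ := exists_iso U (by omega : 2 ≤ k) (F := F)
  obtain ⟨y, hy, hxy⟩ := exists_hypU U hx0 hx
  have hyx : ip y x = 1 := by rw [← ip_star, hxy, star_one]
  have e3 : ∀ {m m' : Fin k → F}, ip x m = 0 → ip y m = 0 → ip x m' = 0 → ip y m' = 0 → ut m m' - ip m' m • ut x y ∈ N := by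
    have e4 : ∀ {m : Fin k → F}, ip x m = 0 → ip y m = 0 → ut m m - ip m m • ut x y ∈ N := by
      intro m hxm hym
      have hmx := ip_zero_comm hxm
      have hmy := ip_zero_comm hym
      obtain ⟨g, hg⟩ := U.exists_tr (t := -ip m m) (by rw [star_neg, ip_star])
      have h1 := hN (y + m + g • x) (by
        simp only [ip_add_left, ip_add_right, ip_smul_left, ip_smul_right, hx, hy, hxy, hyx, hxm, hym, hmx, hmy]
        linear_combination hg)
      simp only [ut_add_left, ut_add_right, ut_smul_left, ut_smul_right] at h1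
      obtain ⟨a1, a2⟩ := e2 hx hy hxy hxm hym
      obtain ⟨a3, a4⟩ := e2 hy hx hyx hym hxm
      have h2 := N.sub_mem (N.sub_mem (N.sub_mem (N.sub_mem (N.sub_mem (N.sub_mem (N.sub_mem h1 (hN y hy)) a3) a4) (N.smul_mem g a1)) (N.smul_mem (star g) a2))
        (N.smul_mem (g * star g) (hN x hx))) (N.smul_mem (-star g) (e1 hx hy hxy))
      convert h2 using 1
      have : ip m m = -(g + star g) := by rw [hg, neg_neg]
      rw [this]
      module
    intro m m' hxm hym hxm' hym'
    apply (pair (P := ut m m' - ip m' m • ut x y) (Q := -(ut m' m - ip m m' • ut x y)) _).1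
    intro c
    have h1 := e4 (m := m + c • m') (by rw [ip_add_right, ip_smul_right, hxm, hxm']; ring) (by rw [ip_add_right, ip_smul_right, hym, hym']; ring)
    simp only [ut_add_left, ut_add_right, ut_smul_left, ut_smul_right, ip_add_left, ip_add_right, ip_smul_left, ip_smul_right] at h1
    have h2 := N.sub_mem (N.sub_mem h1 (e4 hxm hym)) (N.smul_mem (c * star c) (e4 hxm' hym'))
    convert h2 using 1
    module
  -- all matrices
  have key : ∀ v w : Fin k → F, ut v w - ip w v • ut x y ∈ N := by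
    intro v w
    obtain ⟨m, hm⟩ : ∃ m, m = v - ip y v • x - ip x v • y := ⟨_, rfl⟩
    obtain ⟨n, hn⟩ : ∃ n, n = w - ip y w • x - ip x w • y := ⟨_, rfl⟩
    have hxm : ip x m = 0 := by rw [hm, ip_sub_right, ip_sub_right, ip_smul_right, ip_smul_right, hx, hxy]; ring
    have hym : ip y m = 0 := by rw [hm, ip_sub_right, ip_sub_right, ip_smul_right, ip_smul_right, hy, hyx]; ring
    have hxn : ip x n = 0 := by rw [hn, ip_sub_right, ip_sub_right, ip_smul_right, ip_smul_right, hx, hxy]; ring
    have hyn : ip y n = 0 := by rw [hn, ip_sub_right, ip_sub_right, ip_smul_right, ip_smul_right, hy, hyx]; ring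
    have hnx := ip_zero_comm hxn
    have hny := ip_zero_comm hyn
    have hv : v = m + ip y v • x + ip x v • y := by rw [hm]; abel
    have hw : w = n + ip y w • x + ip x w • y := by rw [hn]; abel
    generalize ip y v = a at hv
    generalize ip x v = b at hv
    generalize ip y w = c at hw
    generalize ip x w = d at hw
    subst hv hw
    obtain ⟨a1, a2⟩ := e2 hx hy hxy hxm hym
    obtain ⟨a3, a4⟩ := e2 hy hx hyx hym hxm
    obtain ⟨b1, b2⟩ := e2 hx hy hxy hxn hyn
    obtain ⟨b3, b4⟩ := e2 hy hx hyx hyn hxn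
    simp only [ut_add_left, ut_add_right, ut_smul_left, ut_smul_right, ip_add_left, ip_add_right, ip_smul_left, ip_smul_right, hx, hy, hxy, hyx, hxm, hym, hnx, hny]
    have h := N.add_mem (N.add_mem (N.add_mem (N.add_mem (N.add_mem (N.add_mem (N.add_mem (e3 hxm hym hxn hyn) (N.smul_mem (star c) a2)) (N.smul_mem (star d) a4))
      (N.smul_mem a b1)) (N.smul_mem b b3)) (N.smul_mem (a * star c) (hN x hx))) (N.smul_mem (b * star d) (hN y hy))) (N.smul_mem (-(b * star c)) (e1 hx hy hxy))
    convert h using 1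
    module
  have h1 : a - a.trace • ut x y ∈ N := by
    have h2 : ∀ i j, single i j (a i j) - (single i j (a i j)).trace • ut x y ∈ N := by
      intro i j
      have h3 : single i j (a i j) = a i j • ut (Pi.single i 1) (Pi.single j 1) := by
        rw [ut, ← Pi.single_star, star_one, ← single_eq_vmv, smul_single, smul_eq_mul, mul_one]
      have h4 : (ut (Pi.single i 1 : Fin k → F) (Pi.single j 1)).trace = ip (Pi.single j 1) (Pi.single i 1) := by
        rw [ut, trace_vecMulVec, dotProduct_comm]; rfl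
      rw [h3, trace_smul, h4, smul_assoc, ← smul_sub]
      exact N.smul_mem _ (key _ _)
    have h5 : a - a.trace • ut x y = ∑ i, ∑ j, (single i j (a i j) - (single i j (a i j)).trace • ut x y) := by
      simp only [Finset.sum_sub_distrib, ← Finset.sum_smul, ← trace_sum]
      rw [← matrix_eq_sum_single a]
    rw [h5]
    exact N.sum_mem fun i _ => N.sum_mem fun j _ => h2 i j
  rwa [ha, zero_smul, sub_zero] at h1

/-- products of two rank one matrices of isotropic vectors span everything -/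
theorem mem_of_products (hk : 3 ≤ k) {N : Submodule F (Matrix (Fin k) (Fin k) F)} (hN : ∀ x y, ip x x = 0 → ip y y = 0 → ut x x * ut y y ∈ N)
    (a : Matrix (Fin k) (Fin k) F) : a ∈ N := by
  have h1 : ∀ y, ip y y = 0 → ∀ b : Matrix (Fin k) (Fin k) F, b.trace = 0 → b * ut y y ∈ N := by
    intro y hy b hb
    exact mem_of_trace_zero U hk (N := N.comap (LinearMap.mulRight F (ut y y))) (fun x hx => hN x y hx hy) hb
  have h2 : ∀ b c : Matrix (Fin k) (Fin k) F, b.trace = 0 → c.trace = 0 → b * c ∈ N := by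
    intro b c hb hc
    exact mem_of_trace_zero U hk (N := N.comap (LinearMap.mulLeft F b)) (fun y hy => h1 y hy b hb) hc
  rw [matrix_eq_sum_single a]
  refine N.sum_mem fun i _ => N.sum_mem fun j _ => ?_
  obtain ⟨r, hr1, hr2⟩ := Sys.exists_third hk i j
  have h3 : single i j (a i j) = single i r (a i j) * single r j (1 : F) := by rw [single_mul_single_same, mul_one]
  rw [h3]
  exact h2 _ _ (trace_single_eq_of_ne _ _ _ (Ne.symm hr1)) (trace_single_eq_of_ne _ _ _ hr2)

end span

section cu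

variable {k : ℕ} {ι : Type} [Fintype ι] [DecidableEq ι] {F : Type*} [Field F] [Fintype F] [StarRing F] {q : ℕ} (U : UF F q)
  {E : Matrix (Fin k) (Fin k) F →ₐ[F] Matrix ι ι F}

/-- contractions -/
def cu (E : Matrix (Fin k) (Fin k) F →ₐ[F] Matrix ι ι F) (x y : Fin k → F) (Z : Matrix ι ι F) : Matrix ι ι F := ctr E (star x) y Z

lemma cu_cmt (x y : Fin k → F) (Z : Matrix ι ι F) : Cmt E (cu E x y Z) := ctr_cmt _ _ _

lemma E_cu (a x y b : Fin k → F) (Z : Matrix ι ι F) : E (ut a x) * Z * E (ut y b) = E (ut a b) * cu E x y Z := (E_mul_ctr _ _ _ _ _).symm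

lemma cu_eq_of {a b : Fin k → F} (ha : a ≠ 0) (hb : b ≠ 0) {x y : Fin k → F} {Z A : Matrix ι ι F} (hA : Cmt E A) (h : E (ut a x) * Z * E (ut y b) = E (ut a b) * A) :
    cu E x y Z = A := by
  rw [E_cu] at h
  have h1 : E (ut a b) * (cu E x y Z - A) = 0 := by rw [mul_sub, h, sub_self]
  exact sub_eq_zero.1 (E_A_eq_zero ((cu_cmt _ _ _).sub hA) (ut_ne_zero ha hb) h1)

lemma exists_ne_zero (hk : 0 < k) : ∃ a : Fin k → F, a ≠ 0 := ⟨Pi.single ⟨0, hk⟩ 1, by
  intro h0; have := congrFun h0 ⟨0, hk⟩; rw [Pi.single_eq_same] at this; exact one_ne_zero this⟩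

lemma cu_E_mul (hk : 0 < k) (x y : Fin k → F) (a : Matrix (Fin k) (Fin k) F) {A : Matrix ι ι F} (hA : Cmt E A) : cu E x y (E a * A) = ip x (a *ᵥ y) • A := by
  obtain ⟨z, hz⟩ := exists_ne_zero (F := F) hk
  apply cu_eq_of hz hz (hA.smul _)
  have h1 : ut z x * a * ut y z = ip x (a *ᵥ y) • ut z z := by rw [mul_assoc, mul_ut a y z, ut_mul]
  rw [mul_assoc, mul_assoc, ← hA, E_mul_A', E_mul_A', h1, map_smul, smul_mul_assoc, mul_smul_comm]

lemma cu_add (x y : Fin k → F) (Z Z' : Matrix ι ι F) : cu E x y (Z + Z') = cu E x y Z + cu E x y Z' := by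
  rw [cu, cu, cu, ctr, ctr, ctr, ← Finset.sum_add_distrib]
  exact Finset.sum_congr rfl fun _ _ => by rw [mul_add, add_mul]

/-- a matrix whose contractions with isotropic vectors vanish commutes with the factor -/
lemma cmt_of_cu [Nonempty ι] (hk : 3 ≤ k) {Z : Matrix ι ι F} (h : ∀ x, ip x x = 0 → cu E x x Z = 0) (U : UF F q) : Cmt E Z := by
  let L : Matrix (Fin k) (Fin k) F →ₗ[F] Matrix ι ι F :=
    { toFun := fun a => ∑ l, ∑ m, a m l • blk E Z l m
      map_add' := fun a b => by simp only [Matrix.add_apply, add_smul, Finset.sum_add_distrib]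
      map_smul' := fun c a => by simp only [Matrix.smul_apply, smul_eq_mul, mul_smul, Finset.smul_sum, RingHom.id_apply] }
  have hL : ∀ a, L a = ∑ l, ∑ m, a m l • blk E Z l m := fun a => rfl
  have hctr : ∀ x, L (ut x x) = cu E x x Z := by
    intro x
    rw [hL, cu]
    obtain ⟨z, hz⟩ := exists_ne_zero (F := F) (by omega : 0 < k)
    have h1 : ∀ l m, (ut x x) m l • blk E Z l m = (star x l * x m) • blk E Z l m := by
      intro l m; rw [ut, vecMulVec_apply, mul_comm]
    simp only [h1]
    symm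
    apply cu_eq_of hz hz (Cmt.sum fun l _ => Cmt.sum fun m _ => (blk_cmt _ _ _ _).smul _)
    rw [ut, ut, ut, vmv_sum_right z (star x), vmv_sum_left x (star z), map_sum, map_sum, Finset.sum_mul, Finset.sum_mul, Finset.mul_sum]
    refine Finset.sum_congr rfl fun l _ => ?_
    rw [Finset.mul_sum, Finset.mul_sum]
    refine Finset.sum_congr rfl fun m _ => ?_
    rw [map_smul, map_smul, smul_mul_assoc, smul_mul_assoc, mul_smul_comm, smul_smul, mul_smul_comm]
    congr 1
    -- rank one pieces
    have h2 : vecMulVec z (Pi.single l 1 : Fin k → F) = ∑ p, z p • single p l 1 := by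
      rw [vmv_sum_left z]
      refine Finset.sum_congr rfl fun p _ => ?_
      rw [← single_eq_vmv]
    have h3 : vecMulVec (Pi.single m 1 : Fin k → F) (star z) = ∑ r, star z r • single m r 1 := by
      rw [vmv_sum_right]
      refine Finset.sum_congr rfl fun p _ => ?_
      rw [← single_eq_vmv]
    have h4 : vecMulVec z (star z) = ∑ p, ∑ r, (z p * star z r) • single p r (1 : F) := by
      ext i j
      rw [vecMulVec_apply, Matrix.sum_apply]
      rw [Finset.sum_eq_single i]
      · rw [Matrix.sum_apply, Finset.sum_eq_single j]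
        · rw [Matrix.smul_apply, single_apply_same, smul_eq_mul, mul_one]
        · intro r _ hr; rw [Matrix.smul_apply, Matrix.single_apply, if_neg (fun h => hr h.2), smul_zero]
        · intro h; exact absurd (Finset.mem_univ _) h
      · intro p _ hp
        rw [Matrix.sum_apply]
        apply Finset.sum_eq_zero
        intro r _
        rw [Matrix.smul_apply, Matrix.single_apply, if_neg (fun h => hp h.1), smul_zero]
      · intro h; exact absurd (Finset.mem_univ _) h
    rw [h2, h3, h4, map_sum, map_sum, map_sum, Finset.sum_mul, Finset.sum_mul, Finset.sum_mul]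
    refine Finset.sum_congr rfl fun p _ => ?_
    rw [map_sum, Finset.mul_sum, Finset.sum_mul]
    refine Finset.sum_congr rfl fun r _ => ?_
    rw [map_smul, map_smul, map_smul, smul_mul_assoc, smul_mul_assoc, mul_smul_comm, smul_smul, ← E_single_mul_blk, smul_mul_assoc]
  have hz : ∀ a : Matrix (Fin k) (Fin k) F, a.trace = 0 → L a = 0 := by
    intro a ha
    exact mem_of_trace_zero U hk (N := LinearMap.ker L) (fun x hx => by rw [LinearMap.mem_ker, hctr, h x hx]) ha
  have hs : ∀ l m, L (single m l 1) = blk E Z l m := by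
    intro l m
    rw [hL, Finset.sum_eq_single l]
    · rw [Finset.sum_eq_single m]
      · rw [single_apply_same, one_smul]
      · intro r _ hr; rw [Matrix.single_apply, if_neg (fun h => hr h.1.symm), zero_smul]
      · intro h; exact absurd (Finset.mem_univ _) h
    · intro p _ hp
      apply Finset.sum_eq_zero
      intro r _
      rw [Matrix.single_apply, if_neg (fun h => hp h.2.symm), zero_smul]
    · intro h; exact absurd (Finset.mem_univ _) h
  have hoff : ∀ l m, l ≠ m → blk E Z l m = 0 := by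
    intro l m hlm
    rw [← hs]; exact hz _ (trace_single_eq_of_ne _ _ _ (Ne.symm hlm))
  have hdiag : ∀ l m, blk E Z l l = blk E Z m m := by
    intro l m
    rw [← hs, ← hs, ← sub_eq_zero, ← map_sub]
    apply hz
    rw [trace_sub, trace_single_eq_same, trace_single_eq_same, sub_self]
  have h0 : (0 : ℕ) < k := by omega
  have h1 : Z = blk E Z ⟨0, h0⟩ ⟨0, h0⟩ := by
    conv_lhs => rw [← sum_blk E Z]
    have h2 : ∀ l, ∑ m, E (single l m 1) * blk E Z l m = E (single l l 1) * blk E Z ⟨0, h0⟩ ⟨0, h0⟩ := by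
      intro l
      rw [Finset.sum_eq_single l]
      · rw [hdiag l ⟨0, h0⟩]
      · intro m _ hm; rw [hoff l m (Ne.symm hm), mul_zero]
      · intro h; exact absurd (Finset.mem_univ _) h
    simp only [h2]
    rw [← Finset.sum_mul, ← map_sum, sum_single_diag, map_one, one_mul]
  rw [h1]; exact blk_cmt _ _ _ _

end cu

namespace Sys

variable {k : ℕ} {T ι : Type} [DecidableEq T] [Fintype ι] [DecidableEq ι] {F : Type*} [Field F] [Fintype F] [StarRing F] {q : ℕ} (U : UF F q) {S : Sys k T ι F}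

/-- additive groups invariant under the special unitary groups of the factors -/
structure InvU (S : Sys k T ι F) (J : Finset T) (B : AddSubgroup (Matrix ι ι F)) : Prop where
  on : ∀ b ∈ B, S.On J b
  smul : ∀ t : F, star t = t → ∀ b ∈ B, t • b ∈ B
  conj : ∀ j ∈ J, ∀ s ∈ SUg k F, ∀ b ∈ B, S.E j s.1 * b * S.E j (s⁻¹).1 ∈ B

namespace InvU

variable {J : Finset T} {B : AddSubgroup (Matrix ι ι F)}

include U in
lemma XX3 (hq : 3 ≤ q) (hB : S.InvU J B) {j : T} (hj : j ∈ J) {x : Fin k → F} (hx : ip x x = 0) {b : Matrix ι ι F} (hb : b ∈ B) :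
    S.E j (ut x x) * cu (S.E j) x x b ∈ B := by
  obtain ⟨c, hc0, hc⟩ := U.exists_skew
  obtain ⟨t, ht, ht0, ht1⟩ := U.exists_real hq
  obtain ⟨X, hX⟩ : ∃ X, X = S.E j (ut x x) := ⟨_, rfl⟩
  have key : ∀ d : F, star d = -d → d • (X * b - b * X) - (d * d) • (X * b * X) ∈ B := by
    intro d hd
    obtain ⟨s, hs, hsx⟩ := exists_tv U hx hd
    have h1 := B.sub_mem (hB.conj j hj s hs b hb) hb
    have h2 : (s⁻¹).1 = 1 - d • ut x x := Mem1.inv_eq hsx (by rw [smul_mul_smul_comm, ut_sq hx, smul_zero])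
    rw [hsx, h2, map_add, map_sub, map_one, map_smul, ← hX] at h1
    convert h1 using 1
    have h9 : ∀ P : Matrix ι ι F, (1 + P) * b * (1 - P) - b = P * b - b * P - P * b * P := by intro P; noncomm_ring
    rw [h9]
    simp only [smul_mul_assoc, mul_smul_comm, smul_smul]
    module
  have h1 := B.sub_mem (hB.smul t ht _ (key c hc)) (key (t * c) (by rw [star_mul', ht, hc, mul_neg]))
  have h2 : t • (c • (X * b - b * X) - (c * c) • (X * b * X)) - ((t * c) • (X * b - b * X) - (t * c * (t * c)) • (X * b * X)) = ((t * t - t) * (c * c)) • (X * b * X) := by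
    module
  rw [h2] at h1
  have h3 : (t * t - t) * (c * c) ≠ 0 := by
    refine mul_ne_zero ?_ (mul_ne_zero hc0 hc0)
    rw [show t * t - t = t * (t - 1) by ring]
    exact mul_ne_zero ht0 (sub_ne_zero.2 ht1)
  have h4 := hB.smul (((t * t - t) * (c * c))⁻¹) (by rw [star_inv₀, star_mul', star_sub, star_mul', star_mul', ht, hc, neg_mul_neg]) _ h1
  rw [smul_smul, inv_mul_cancel₀ h3, one_smul, hX, E_cu] at h4
  exact h4

include U in
lemma G4 (hB : S.InvU J B) {j : T} (hj : j ∈ J) {x y : Fin k → F} (hx : ip x x = 0) (hy : ip y y = 0) (hxy : ip x y = 0) {b : Matrix ι ι F} (hb : b ∈ B) :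
    S.E j (ut x x) * cu (S.E j) y y b + S.E j (ut y y) * cu (S.E j) x x b ∈ B := by
  obtain ⟨Ω, h1, h2, h3, h4, h5, h6⟩ := U.exists_circle
  have hyx := ip_zero_comm hxy
  obtain ⟨A, hA⟩ : ∃ A, A = S.E j (ut x y) := ⟨_, rfl⟩
  obtain ⟨A', hA'⟩ : ∃ A', A' = S.E j (ut y x) := ⟨_, rfl⟩
  have key : ∀ w ∈ Ω, w • (A * b - b * A) - star w • (A' * b - b * A') - (w * w) • (A * b * A) - (star w * star w) • (A' * b * A') + (1 : F) • (A * b * A' + A' * b * A) ∈ B := by
    intro w hw
    obtain ⟨s, hs, hsx⟩ := exists_heis U (u := x) (m := -(star w • y)) (c := 0) hx (by rw [ip_neg_right, ip_smul_right, hxy, mul_zero, neg_zero]) (by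
      rw [ip_neg_left, ip_neg_right, ip_smul_left, ip_smul_right, hy]; simp)
    have hsx' : s.1 = 1 + (w • ut x y - star w • ut y x) := by
      rw [hsx, show -(star w • y) = (-star w) • y by rw [neg_smul], ut_smul_left, ut_smul_right, star_neg, star_star]
      module
    have hN : (w • ut x y - star w • ut y x) * (w • ut x y - star w • ut y x) = 0 := by
      rw [sub_mul, mul_sub, mul_sub, smul_mul_smul_comm, smul_mul_smul_comm, smul_mul_smul_comm, smul_mul_smul_comm, ut_mul, ut_mul, ut_mul, ut_mul, hx, hy, hxy, hyx]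
      simp
    have h7 := B.sub_mem (hB.conj j hj s hs b hb) hb
    rw [Mem1.inv_eq hsx' hN, hsx'] at h7
    simp only [map_add, map_sub, map_one, map_smul] at h7
    rw [← hA, ← hA'] at h7
    convert h7 using 1
    have h8 : star w * w = 1 := h1 w hw
    have h9 : ∀ P : Matrix ι ι F, (1 + P) * b * (1 - P) - b = P * b - b * P - P * b * P := by intro P; noncomm_ring
    rw [h9]
    simp only [sub_mul, mul_sub, smul_mul_assoc, mul_smul_comm, smul_smul, smul_sub]
    rw [mul_comm w (star w), h8]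
    module
  have h7 : ∑ w ∈ Ω, (w • (A * b - b * A) - star w • (A' * b - b * A') - (w * w) • (A * b * A) - (star w * star w) • (A' * b * A') + (1 : F) • (A * b * A' + A' * b * A)) ∈ B :=
    B.sum_mem key
  rw [Finset.sum_add_distrib, Finset.sum_sub_distrib, Finset.sum_sub_distrib, Finset.sum_sub_distrib, ← Finset.sum_smul, ← Finset.sum_smul, ← Finset.sum_smul,
    ← Finset.sum_smul, ← Finset.sum_smul, h2, h3, h4, h5, h6, zero_smul, zero_smul, zero_smul, zero_smul, one_smul, sub_zero, sub_zero, sub_zero, zero_add,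
    hA, hA', E_cu, E_cu] at h7
  exact h7

include U in
lemma XX (hk : 3 ≤ k) (hq : 3 ≤ q ∨ 4 ≤ k) (hB : S.InvU J B) {j : T} (hj : j ∈ J) {x : Fin k → F} (hx : ip x x = 0) {b : Matrix ι ι F} (hb : b ∈ B) :
    S.E j (ut x x) * cu (S.E j) x x b ∈ B := by
  rcases hq with hq | hk4
  · exact XX3 U hq hB hj hx hb
  by_cases hx0 : x = 0
  · rw [hx0, ut_zero_left, map_zero, zero_mul]; exact B.zero_mem
  obtain ⟨y, z, hy, hz, hyz, hxy, hxz⟩ := exists_second_pair U hk4 hx0 hx
  have hyx := ip_zero_comm hxy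
  have hzx := ip_zero_comm hxz
  have hzy : ip z y = 1 := by rw [← ip_star, hyz, star_one]
  have h1 := G4 U hB hj hy hx hyx hb
  have h2 := G4 U hB hj hx hz hxz h1
  rw [cu_add, cu_add, cu_E_mul (by omega) _ _ _ (cu_cmt _ _ _), cu_E_mul (by omega) _ _ _ (cu_cmt _ _ _), cu_E_mul (by omega) _ _ _ (cu_cmt _ _ _),
    cu_E_mul (by omega) _ _ _ (cu_cmt _ _ _), ut_mulVec, ut_mulVec, ut_mulVec, ut_mulVec] at h2
  simp only [hyz, hxz, hyx, hzx, hxy, hx, one_smul, zero_smul, ip_zero_right, add_zero, zero_add, mul_zero, hzy] at h2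
  exact h2

end InvU

/-- the coefficients -/
def mSU (S : Sys k T ι F) (j : T) (B : AddSubgroup (Matrix ι ι F)) : AddSubgroup (Matrix ι ι F) where
  carrier := {d | Cmt (S.E j) d ∧ ∀ x : Fin k → F, ip x x = 0 → S.E j (ut x x) * d ∈ B}
  add_mem' := fun {a b} ha hb => ⟨ha.1.add hb.1, fun x hx => by rw [mul_add]; exact B.add_mem (ha.2 x hx) (hb.2 x hx)⟩
  zero_mem' := ⟨Cmt.zero, fun x _ => by rw [mul_zero]; exact B.zero_mem⟩
  neg_mem' := fun {a} ha => ⟨ha.1.neg, fun x hx => by rw [mul_neg]; exact B.neg_mem (ha.2 x hx)⟩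

variable {J : Finset T} {B : AddSubgroup (Matrix ι ι F)}

include U in
lemma mSU_inv (hk : 3 ≤ k) (hB : S.InvU J B) {j : T} (hj : j ∈ J) : S.InvU (J.erase j) (S.mSU j B) where
  on := by
    rintro d ⟨hd, h⟩ i hi
    obtain ⟨x, hx0, hx⟩ := exists_iso U (by omega : 2 ≤ k) (F := F)
    by_cases hij : i = j
    · subst hij; exact hd
    · have hiJ : i ∉ J := fun h' => hi (Finset.mem_erase.2 ⟨hij, h'⟩)
      have h1 := hB.on _ (h x hx) i hiJ
      exact cmt_coeff hij hx0 (fun h0 => hx0 (by have := congrArg star h0; rwa [star_star, star_zero] at this)) hd h1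
  smul := fun t ht d hd => ⟨hd.1.smul t, fun x hx => by rw [mul_smul_comm]; exact hB.smul t ht _ (hd.2 x hx)⟩
  conj := by
    rintro l hl s hs d ⟨hd, h⟩
    have hlj : l ≠ j := Finset.ne_of_mem_erase hl
    have hc : ∀ a, Cmt (S.E j) (S.E l a) := fun a => cmt_E (Ne.symm hlj) a
    refine ⟨((hc _).mul hd).mul (hc _), fun x hx => ?_⟩
    have h1 := hB.conj l (Finset.mem_of_mem_erase hl) s hs _ (h x hx)
    convert h1 using 1
    rw [← mul_assoc, ← mul_assoc, ← mul_assoc, hc]

include U in
lemma mem_mSU (hk : 3 ≤ k) (hB : S.InvU J B) {j : T} (hj : j ∈ J) {x : Fin k → F} (hx0 : x ≠ 0) (hx : ip x x = 0) {d : Matrix ι ι F} (hd : Cmt (S.E j) d)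
    (h : S.E j (ut x x) * d ∈ B) : d ∈ S.mSU j B := by
  refine ⟨hd, fun y hy => ?_⟩
  by_cases hy0 : y = 0
  · rw [hy0, ut_zero_left, map_zero, zero_mul]; exact B.zero_mem
  obtain ⟨s, hs, hsx⟩ := exists_SUg_iso U hk hx0 hy0 hx hy
  have h1 := hB.conj j hj s hs _ h
  rw [E_mul_A', E_A_mul hd, hs.1.conj_ut, hsx] at h1
  exact h1

end Sys

section std

variable {k t : ℕ} {F : Type*} [Field F] [Fintype F] [StarRing F] {q : ℕ} (U : UF F q)

/-- partial pure tensors -/
def pU (D : Finset (Fin t)) (x : Fin t → Fin k → F) : Matrix (Fin t → Fin k) (Fin t → Fin k) F :=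
  piMat (fun j => if j ∈ D then ut (x j) (x j) else 1)

lemma pU_empty (x : Fin t → Fin k → F) : pU ∅ x = (1 : Matrix (Fin t → Fin k) (Fin t → Fin k) F) := by
  rw [pU, ← piMat_one]; congr 1

lemma pU_insert {D : Finset (Fin t)} {j : Fin t} (hj : j ∉ D) (x : Fin t → Fin k → F) :
    pU (insert j D) x = (std k t F).E j (ut (x j) (x j)) * pU D x := by
  show _ = fac j _ * _
  rw [pU, pU, fac_mul_piMat]; congr 1; funext l
  by_cases h : l = j
  · subst h; rw [Function.update_self, if_pos (Finset.mem_insert_self _ _), if_neg hj, mul_one]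
  · rw [Function.update_of_ne h]; simp only [Finset.mem_insert, h, false_or]

lemma pU_cmt {D : Finset (Fin t)} {i : Fin t} (hi : i ∉ D) (x : Fin t → Fin k → F) : Cmt ((std k t F).E i) (pU D x) := piMat_comm_fac (by rw [if_neg hi])

lemma pU_sq {D : Finset (Fin t)} {j : Fin t} (hj : j ∈ D) {x : Fin t → Fin k → F} (hx : ip (x j) (x j) = 0) : pU D x * pU D x = 0 := by
  rw [← Finset.insert_erase hj, pU_insert (Finset.notMem_erase _ _)]
  exact E_A_sq (pU_cmt (Finset.notMem_erase _ _) x) (ut_sq hx)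

include U in
/-- an invariant group contains products of root vectors -/
theorem exists_prodU [Nonempty (Fin k)] (hk : 3 ≤ k) (hq : 3 ≤ q ∨ 4 ≤ k) : ∀ (n : ℕ) (J : Finset (Fin t)) (B : AddSubgroup (Matrix (Fin t → Fin k) (Fin t → Fin k) F)),
    J.card = n → (std k t F).InvU J B → ∀ b ∈ B, b ≠ 0 → ∃ D ⊆ J, (∃ c : F, c ≠ 0 ∧ ∀ x : Fin t → Fin k → F, (∀ j, ip (x j) (x j) = 0) → c • pU D x ∈ B) ∧
      ((¬ ∃ c : F, b = c • (1 : Matrix (Fin t → Fin k) (Fin t → Fin k) F)) → D.Nonempty) := by
  intro n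
  induction n with
  | zero =>
    intro J B hJ hB b hb hb0
    rw [Finset.card_eq_zero] at hJ
    subst hJ
    obtain ⟨c, hc⟩ := Sys.on_empty (hB.on b hb)
    refine ⟨∅, Finset.Subset.refl _, ⟨c, ?_, fun x _ => by rw [pU_empty, ← hc]; exact hb⟩, fun h => absurd ⟨c, hc⟩ h⟩
    rintro rfl; exact hb0 (by rw [hc, zero_smul])
  | succ n ih =>
    intro J B hJ hB b hb hb0
    have step : ∀ b ∈ B, ∀ j ∈ J, ¬ Cmt ((std k t F).E j) b → ∃ D ⊆ J, (∃ c : F, c ≠ 0 ∧ ∀ x : Fin t → Fin k → F, (∀ j, ip (x j) (x j) = 0) → c • pU D x ∈ B) ∧ D.Nonempty := by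
      intro b hb j hj hnc
      have h1 : ∃ x, ip x x = 0 ∧ cu ((std k t F).E j) x x b ≠ 0 := by
        by_contra hcon
        push Not at hcon
        exact hnc (cmt_of_cu hk hcon U)
      obtain ⟨x, hx, hd⟩ := h1
      have hx0 : x ≠ 0 := by
        rintro rfl
        apply hd
        obtain ⟨z, hz⟩ := exists_ne_zero (F := F) (by omega : 0 < k)
        apply cu_eq_of hz hz Cmt.zero
        rw [ut_zero_right, map_zero, zero_mul, zero_mul, mul_zero]
      have h2 := Sys.mem_mSU U hk hB hj hx0 hx (cu_cmt _ _ _) (Sys.InvU.XX U hk hq hB hj hx hb)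
      obtain ⟨D, hD, ⟨c, hc0, hc⟩, -⟩ := ih (J.erase j) _ (by rw [Finset.card_erase_of_mem hj, hJ]; rfl) (Sys.mSU_inv U hk hB hj) _ h2 hd
      have hjD : j ∉ D := fun h => Finset.notMem_erase j J (hD h)
      refine ⟨insert j D, Finset.insert_subset hj (hD.trans (Finset.erase_subset _ _)), ⟨c, hc0, fun x hx => ?_⟩, Finset.insert_nonempty _ _⟩
      rw [pU_insert hjD, ← mul_smul_comm]
      exact (hc x hx).2 (x j) (hx j)
    by_cases hcon : ∃ j ∈ J, ¬ Cmt ((std k t F).E j) b
    · obtain ⟨j, hj, hnc⟩ := hcon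
      obtain ⟨D, hD, h1, h2⟩ := step b hb j hj hnc
      exact ⟨D, hD, h1, fun _ => h2⟩
    · push Not at hcon
      have hon : (std k t F).On ∅ b := by
        intro i _
        by_cases hi : i ∈ J
        · exact hcon i hi
        · exact hB.on b hb i hi
      obtain ⟨c, hc⟩ := Sys.on_empty hon
      refine ⟨∅, Finset.empty_subset _, ⟨c, ?_, fun x _ => by rw [pU_empty, ← hc]; exact hb⟩, fun h => absurd ⟨c, hc⟩ h⟩
      rintro rfl; exact hb0 (by rw [hc, zero_smul])

end std

end Cfsg.Agent.Asch.CW
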