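import Mathlib
import Cfsg.Prelude.Def_GeometricClasses
import Cfsg.Agent.Asch.UNInv
import Cfsg.Agent.Asch.CWInd2
set_option autoImplicit false
set_option linter.unusedSectionVars false
set_option linter.unusedVariables false
set_option linter.unusedSimpArgs false
set_option linter.style.haveILetI false

/-!
The block lemma in the unitary case.
-/

namespace Cfsg.Agent.Asch.CW

open Matrix Module

open scoped Matrix

section cu2

variable {k : ℕ} {ι : Type} [Fintype ι] [DecidableEq ι] {F : Type*} [Field F] [Fintype F] [StarRing F] {q : ℕ}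
  {E : Matrix (Fin k) (Fin k) F →ₐ[F] Matrix ι ι F}

lemma cu_conj (hE : HE E) (hk : 0 < k) (x y : Fin k → F) (Z : Matrix ι ι F) : cu E y x Zᴴ = (cu E x y Z)ᴴ := by
  obtain ⟨z, hz⟩ := exists_ne_zero (F := F) hk
  apply cu_eq_of hz hz (cmt_conjT hE (cu_cmt _ _ _))
  have h := congrArg conjTranspose (E_cu (E := E) z x y z Z)
  rw [conjTranspose_mul, conjTranspose_mul, conjTranspose_mul, hE, hE, hE, ut_conjT, ut_conjT, ut_conjT, ← mul_assoc, ← cmt_conjT hE (cu_cmt _ _ _)] at h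
  exact h

lemma cu_add_left (hk : 0 < k) (x x' y : Fin k → F) (Z : Matrix ι ι F) : cu E (x + x') y Z = cu E x y Z + cu E x' y Z := by
  obtain ⟨z, hz⟩ := exists_ne_zero (F := F) hk
  apply cu_eq_of hz hz ((cu_cmt _ _ _).add (cu_cmt _ _ _))
  rw [ut_add_right, map_add, add_mul, add_mul, E_cu, E_cu, mul_add]

lemma cu_add_right (hk : 0 < k) (x y y' : Fin k → F) (Z : Matrix ι ι F) : cu E x (y + y') Z = cu E x y Z + cu E x y' Z := by
  obtain ⟨z, hz⟩ := exists_ne_zero (F := F) hk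
  apply cu_eq_of hz hz ((cu_cmt _ _ _).add (cu_cmt _ _ _))
  rw [ut_add_left, map_add, mul_add, E_cu, E_cu, mul_add]

lemma cu_smul_left (hk : 0 < k) (c : F) (x y : Fin k → F) (Z : Matrix ι ι F) : cu E (c • x) y Z = star c • cu E x y Z := by
  obtain ⟨z, hz⟩ := exists_ne_zero (F := F) hk
  apply cu_eq_of hz hz ((cu_cmt _ _ _).smul _)
  rw [ut_smul_right, map_smul, smul_mul_assoc, smul_mul_assoc, E_cu, mul_smul_comm]

lemma cu_smul_right (hk : 0 < k) (c : F) (x y : Fin k → F) (Z : Matrix ι ι F) : cu E x (c • y) Z = c • cu E x y Z := by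
  obtain ⟨z, hz⟩ := exists_ne_zero (F := F) hk
  apply cu_eq_of hz hz ((cu_cmt _ _ _).smul _)
  rw [ut_smul_left, map_smul, mul_smul_comm, E_cu, mul_smul_comm]

lemma cu_mul (hk : 0 < k) (x y : Fin k → F) (a b : Matrix (Fin k) (Fin k) F) (Z : Matrix ι ι F) : cu E x y (E a * Z * E b) = cu E (aᴴ *ᵥ x) (b *ᵥ y) Z := by
  obtain ⟨z, hz⟩ := exists_ne_zero (F := F) hk
  apply cu_eq_of hz hz (cu_cmt _ _ _)
  rw [← E_cu, ← ut_mul_mat, ← mul_ut, map_mul, map_mul]
  simp only [mul_assoc]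

/-- a matrix with scalar contractions -/
lemma exists_of_cu {S Y : Matrix ι ι F} (hS : Cmt E S) (h : ∀ x y, ∃ c : F, cu E x y Y = c • S) : ∃ b, Y = E b * S := by
  choose c hc using h
  refine ⟨∑ l, ∑ m, c (Pi.single l 1) (Pi.single m 1) • single l m 1, ?_⟩
  conv_lhs => rw [← sum_blk E Y]
  simp only [map_sum, Finset.sum_mul]
  refine Finset.sum_congr rfl fun l _ => Finset.sum_congr rfl fun m _ => ?_
  have h1 : blk E Y l m = c (Pi.single l 1) (Pi.single m 1) • S := by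
    rw [← hc]
    have h2 : E (single l l 1) * (blk E Y l m - cu E (Pi.single l 1) (Pi.single m 1) Y) = 0 := by
      have e1 : single l l (1 : F) = ut (Pi.single l 1) (Pi.single l 1) := by rw [ut, ← Pi.single_star, star_one, ← single_eq_vmv]
      have e2 : single m l (1 : F) = ut (Pi.single m 1) (Pi.single l 1) := by rw [ut, ← Pi.single_star, star_one, ← single_eq_vmv]
      rw [mul_sub, E_single_mul_blk]
      nth_rewrite 2 [e1]
      rw [← E_cu, ← e1, ← e2, sub_self]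
    have h3 : single l l (1 : F) ≠ 0 := by
      intro h0
      have := congrFun (congrFun h0 l) l
      rw [single_apply_same] at this
      exact one_ne_zero this
    exact sub_eq_zero.1 (eq_zero_of_E_mul E ((blk_cmt _ _ _ _).sub (cu_cmt _ _ _)) h3 h2)
  rw [h1, map_smul, smul_mul_assoc, mul_smul_comm]

end cu2

section blk

variable {k : ℕ} {ι : Type} [Fintype ι] [DecidableEq ι] {F : Type*} [Field F] [Fintype F] [StarRing F] {q : ℕ} (U : UF F q)
  {E : Matrix (Fin k) (Fin k) F →ₐ[F] Matrix ι ι F} {K : Subgroup (GL ι F)}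

/-- `h` conjugates the special unitary group of the factor into `K` -/
structure Gd (E : Matrix (Fin k) (Fin k) F →ₐ[F] Matrix ι ι F) (K : Subgroup (GL ι F)) (h : GL ι F) : Prop where
  un : Un h
  cj : ∀ s ∈ SUg k F, h * EU E s * h⁻¹ ∈ K

/-- `h` is a product of an element of the factor and an element commuting with the factor -/
def Cn (E : Matrix (Fin k) (Fin k) F →ₐ[F] Matrix ι ι F) (h : GL ι F) : Prop :=
  ∃ (B : GL (Fin k) F) (a : GL ι F), Un B ∧ Un a ∧ Cmt E a.1 ∧ h = EU E B * a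

lemma EU_mul (B B' : GL (Fin k) F) : EU E (B * B') = EU E B * EU E B' := map_mul (Units.map _) _ _

lemma EU_inv (B : GL (Fin k) F) : EU E B⁻¹ = (EU E B)⁻¹ := map_inv (Units.map _) _

lemma cn_of [Nonempty ι] (hE : HE E) {h a : GL ι F} (hh : Un h) (ha : Un a) (hac : Cmt E a.1) {b : Matrix (Fin k) (Fin k) F} (hb : h.1 = E b * a.1) : Cn E h := by
  have h1 : E b = h.1 * (a⁻¹).1 := by rw [hb, mul_assoc, mul_inv_val, mul_one]
  have h2 : E (bᴴ * b) = 1 := by
    have h3 : Un (h * a⁻¹) := hh.mul ha.inv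
    have h4 : (h * a⁻¹).1 = E b := by rw [h1]; rfl
    rw [map_mul, ← hE, ← h4]; exact h3
  have h3 : bᴴ * b = 1 := E_inj' (E := E) (by rw [h2, map_one])
  have h4 : b * bᴴ = 1 := mul_eq_one_comm.1 h3
  refine ⟨⟨b, bᴴ, h4, h3⟩, a, h3, ha, hac, Units.ext ?_⟩
  rw [Units.val_mul, EU_val]; exact hb

lemma Cn.mul_EU {h : GL ι F} (hh : Cn E h) {B : GL (Fin k) F} (hB : Un B) : Cn E (h * EU E B) := by
  obtain ⟨B', a, h1, h2, h3, h4⟩ := hh
  refine ⟨B' * B, a, h1.mul hB, h2, h3, ?_⟩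
  rw [h4, EU_mul, mul_assoc, mul_assoc, Sys.EU_comm_of_cmt h3]

lemma Cn.mul_cmt {h : GL ι F} (hh : Cn E h) {a : GL ι F} (ha : Un a) (hac : Cmt E a.1) : Cn E (h * a) := by
  obtain ⟨B', a', h1, h2, h3, h4⟩ := hh
  refine ⟨B', a' * a, h1, h2.mul ha, ?_, ?_⟩
  · rw [Units.val_mul]; exact h3.mul hac
  · rw [h4, mul_assoc]

lemma Cn.EU_mul {h : GL ι F} (hh : Cn E h) {B : GL (Fin k) F} (hB : Un B) : Cn E (EU E B * h) := by
  obtain ⟨B', a, h1, h2, h3, h4⟩ := hh
  exact ⟨B * B', a, hB.mul h1, h2, h3, by rw [h4, CW.EU_mul, mul_assoc]⟩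

lemma Gd.mul_EU (hE : HE E) {h : GL ι F} (hh : Gd E K h) {B : GL (Fin k) F} (hB : Un B) : Gd E K (h * EU E B) where
  un := hh.un.mul (un_EU hE hB)
  cj := fun s hs => by
    have h1 : h * EU E B * EU E s * (h * EU E B)⁻¹ = h * EU E (B * s * B⁻¹) * h⁻¹ := by
      rw [EU_mul, EU_mul, EU_inv, _root_.mul_inv_rev]; simp only [mul_assoc]
    rw [h1]; exact hh.cj _ (SUg.conj hs hB)

lemma Gd.mul_cmt {h : GL ι F} (hh : Gd E K h) {a : GL ι F} (ha : Un a) (hac : Cmt E a.1) : Gd E K (h * a) where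
  un := hh.un.mul ha
  cj := fun s hs => by
    have h1 : h * a * EU E s * (h * a)⁻¹ = h * EU E s * h⁻¹ := by
      rw [_root_.mul_inv_rev, mul_assoc h a, ← Sys.EU_comm_of_cmt hac]; group
    rw [h1]; exact hh.cj _ hs

lemma Gd.EU_mul (hE : HE E) (hR : RootsU E K) {h : GL ι F} (hh : Gd E K h) {B : GL (Fin k) F} (hB : B ∈ SUg k F) : Gd E K (EU E B * h) where
  un := (un_EU hE hB.1).mul hh.un
  cj := fun s hs => by
    have h1 : EU E B * h * EU E s * (EU E B * h)⁻¹ = EU E B * (h * EU E s * h⁻¹) * (EU E B)⁻¹ := by group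
    rw [h1]; exact K.mul_mem (K.mul_mem (hR _ hB) (hh.cj _ hs)) (K.inv_mem (hR _ hB))

lemma Mem1.sum {γ : Type*} (s : Finset γ) (f : γ → Matrix ι ι F) (h : ∀ x ∈ s, Mem1 K (f x)) (h0 : ∀ x ∈ s, ∀ y ∈ s, f x * f y = 0) : Mem1 K (∑ x ∈ s, f x) := by
  classical
  induction s using Finset.induction_on with
  | empty => rw [Finset.sum_empty]; exact mem1_zero
  | insert a s ha ih =>
    rw [Finset.sum_insert ha]
    refine (h a (Finset.mem_insert_self _ _)).add (ih (fun x hx => h x (Finset.mem_insert_of_mem hx)) fun x hx y hy => h0 x (Finset.mem_insert_of_mem hx) y (Finset.mem_insert_of_mem hy)) ?_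
    rw [Finset.mul_sum]
    exact Finset.sum_eq_zero fun y hy => h0 a (Finset.mem_insert_self _ _) y (Finset.mem_insert_of_mem hy)

lemma scal_of_smul {A : Matrix ι ι F} {t : F} (ht : t ≠ 0) (h : ∃ c : F, t • A = c • (1 : Matrix ι ι F)) : ∃ c : F, A = c • (1 : Matrix ι ι F) := by
  obtain ⟨c, hc⟩ := h
  exact ⟨t⁻¹ * c, by rw [mul_smul, ← hc, smul_smul, inv_mul_cancel₀ ht, one_smul]⟩

include U in
/-- the last step -/
lemma blk0 (hk : 3 ≤ k) (hq : 3 ≤ q ∨ 4 ≤ k) (hR : RootsU E K) (hC : CoefU E K) {h : GL ι F} (hG : Gd E K h) {e : Fin k → F} (he0 : e ≠ 0) (he : ip e e = 0)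
    {ψ : Matrix ι ι F} (hψ : Cmt E ψ) (hh : h.1 = 1 + E (ut e e) * ψ) : ∃ c : F, ψ = c • (1 : Matrix ι ι F) := by
  have hsq : E (ut e e) * ψ * (E (ut e e) * ψ) = 0 := E_A_sq hψ (ut_sq he)
  have hinv := Mem1.inv_eq hh hsq
  have key : ∀ s ∈ SUg k F, ∀ v, s.1 *ᵥ e = v → ip e v = 0 → Mem1 K (E (ut e e) * ψ - E (ut v v) * ψ) := by
    intro s hs v hv hev
    refine ⟨h * EU E s * h⁻¹ * (EU E s)⁻¹, K.mul_mem (hG.cj s hs) (K.inv_mem (hR s hs)), ?_⟩
    have h1 : (h * EU E s * h⁻¹ * (EU E s)⁻¹).1 = h.1 * ((EU E s).1 * (h⁻¹).1 * ((EU E s)⁻¹).1) := by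
      simp only [Units.val_mul, mul_assoc]
    have h2 : (EU E s).1 * (h⁻¹).1 * ((EU E s)⁻¹).1 = 1 - E (ut v v) * ψ := by
      rw [hinv, mul_sub, mul_one, sub_mul, mul_inv_val, EU_conj_ut hs.1 hψ, hv]
    have h3 : E (ut e e) * ψ * (E (ut v v) * ψ) = 0 := by rw [E_mul_A hψ, ut_mul, hev, zero_smul, map_zero, zero_mul]
    rw [h1, h2, hh, mul_sub, mul_one, add_mul, one_mul, h3, add_zero]; abel
  rcases hq with hq | hk4
  · obtain ⟨t, ht, ht0, ht1⟩ := U.exists_real hq
    obtain ⟨c, hc⟩ := U.exists_norm ht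
    have hc0 : c ≠ 0 := by rintro rfl; rw [mul_zero] at hc; exact ht0 hc.symm
    obtain ⟨s, hs, hse⟩ := exists_SUg_iso U hk he0 (smul_ne_zero hc0 he0) he (u' := c • e) (by rw [ip_smul_left, ip_smul_right, he, mul_zero, mul_zero])
    have h1 := key s hs _ hse (by rw [ip_smul_right, he, mul_zero])
    have h2 : E (ut e e) * ψ - E (ut (c • e) (c • e)) * ψ = E (ut e e) * ((1 - t) • ψ) := by
      rw [ut_smul_left, ut_smul_right, smul_smul, mul_comm c, hc, map_smul, smul_mul_assoc, mul_smul_comm, sub_smul, one_smul]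
    rw [h2] at h1
    exact scal_of_smul (sub_ne_zero.2 (Ne.symm ht1)) (hC _ (hψ.smul _) e he0 he h1)
  · obtain ⟨y, y', hy, hy', hyy, hey, hey'⟩ := exists_second_pair U hk4 he0 he
    have hy0 : y ≠ 0 := by rintro rfl; rw [ip_zero_left] at hyy; exact zero_ne_one hyy
    have hye := ip_zero_comm hey
    have hyy' : ip y' y = 1 := by rw [← ip_star, hyy, star_one]
    have hye' := ip_zero_comm hey'
    obtain ⟨Ω, w1, w2, w3, w4, -, -⟩ := U.exists_circle
    have h1 : ∀ w ∈ Ω, Mem1 K (-(star w • (E (ut e y) * ψ)) - w • (E (ut y e) * ψ) - (1 : F) • (E (ut y y) * ψ)) := by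
      intro w hw
      have hv : ip (e + w • y) (e + w • y) = 0 := by
        simp only [ip_add_left, ip_add_right, ip_smul_left, ip_smul_right, he, hy, hey, hye, mul_zero, add_zero]
      have hv0 : e + w • y ≠ 0 := by
        intro h0
        have h2 : ip y' (e + w • y) = 0 := by rw [h0, ip_zero_right]
        rw [ip_add_right, ip_smul_right, hye', hyy', zero_add, mul_one] at h2
        have := w1 w hw
        rw [h2, mul_zero] at this
        exact zero_ne_one this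
      obtain ⟨s, hs, hse⟩ := exists_SUg_iso U hk he0 hv0 he hv
      have h2 := key s hs _ hse (by rw [ip_add_right, ip_smul_right, he, hey, mul_zero, add_zero])
      convert h2 using 1
      rw [ut_add_left, ut_add_right, ut_add_right, ut_smul_left, ut_smul_left, ut_smul_right, ut_smul_right, smul_smul, mul_comm w, w1 w hw]
      simp only [map_add, map_smul, add_mul, smul_mul_assoc]
      module
    have h2 := Mem1.sum Ω _ h1 (by
      intro w _ w' _
      simp only [sub_mul, mul_sub, neg_mul, mul_neg, smul_mul_assoc, mul_smul_comm, E_mul_A hψ, ut_mul, he, hy, hey, hye, zero_smul, map_zero, zero_mul, smul_zero, sub_zero, neg_zero])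
    rw [Finset.sum_sub_distrib, Finset.sum_sub_distrib, Finset.sum_neg_distrib, ← Finset.sum_smul, ← Finset.sum_smul, ← Finset.sum_smul, w2, w3, w4, zero_smul, zero_smul,
      one_smul, neg_zero, zero_sub, neg_zero, zero_sub, ← mul_neg] at h2
    obtain ⟨c, hc⟩ := hC _ hψ.neg y hy0 hy h2
    exact ⟨-c, by rw [neg_smul, ← hc, neg_neg]⟩

include U in
lemma QW0 (hE : HE E) (hU : ∀ x ∈ K, Un x) (hR : RootsU E K) (hC : CoefU E K) {e m : Fin k → F} (he0 : e ≠ 0) (he : ip e e = 0) (hem : ip e m = 0)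
    {g : GL ι F} (hg : g ∈ K) (h1 : ∀ z, E (ut z e) * g.1 = E (ut z e)) {ρ : Matrix ι ι F} (hρ : Cmt E ρ) (h2 : g.1 * E (ut m e) = E (ut m e) + E (ut e e) * ρ) :
    ∃ c : F, ρ - ρᴴ = c • (1 : Matrix ι ι F) := by
  have hme := ip_zero_comm hem
  have hgi := (hU g hg).inv_eq
  obtain ⟨d, hd⟩ := U.exists_tr (t := -ip m m) (by rw [star_neg, ip_star])
  obtain ⟨s, hs, hs1⟩ := exists_heis U he hem hd
  obtain ⟨N', hN'⟩ : ∃ N', N' = E (ut m e) - E (ut e m) + d • E (ut e e) := ⟨_, rfl⟩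
  have hy : (EU E s).1 = 1 + N' := by rw [EU_val, hs1, hN', map_add, map_one, map_add, map_sub, map_smul]
  obtain ⟨N, hN⟩ : ∃ N, N = g.1 - 1 := ⟨_, rfl⟩
  have hg1 : g.1 = 1 + N := by rw [hN]; abel
  have r1 : ∀ z, E (ut z e) * N = 0 := fun z => by rw [hN, mul_sub, h1, mul_one, sub_self]
  have r2 : ∀ z, N * E (ut e z) = 0 := fun z => by
    have h3 : E (ut z e) * (g⁻¹).1 = E (ut z e) := by
      conv_lhs => rw [← h1 z]
      rw [mul_assoc, mul_inv_val, mul_one]
    rw [hgi] at h3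
    have h4 := congrArg conjTranspose h3
    rw [conjTranspose_mul, conjTranspose_conjTranspose, hE, ut_conjT] at h4
    rw [hN, sub_mul, h4, one_mul, sub_self]
  have r3 : N * E (ut m e) = E (ut e e) * ρ := by rw [hN, sub_mul, h2, one_mul]; abel
  have r4 : E (ut e m) * N = -(E (ut e e) * ρᴴ) := by
    have h3 := congrArg conjTranspose h2
    rw [conjTranspose_mul, conjTranspose_add, conjTranspose_mul, hE, hE, ut_conjT, ut_conjT, ← hgi, ← cmt_conjT hE hρ] at h3
    have h4 : E (ut e m) = (E (ut e m) + E (ut e e) * ρᴴ) * g.1 := by rw [← h3, mul_assoc, inv_mul_val, mul_one]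
    rw [add_mul, cmt_conjT hE hρ, mul_assoc, h1, ← cmt_conjT hE hρ] at h4
    rw [hN, mul_sub, mul_one]
    have : E (ut e m) * g.1 = E (ut e m) - E (ut e e) * ρᴴ := by
      nth_rewrite 2 [h4]; abel
    rw [this]; abel
  have e1 : N * N' - N' * N = E (ut e e) * (ρ - ρᴴ) := by
    rw [hN', mul_add, mul_sub, add_mul, sub_mul, mul_smul_comm, smul_mul_assoc, r1, r1, r2, r2, r3, r4, mul_sub]; simp only [smul_zero, sub_zero, add_zero, zero_sub]; abel
  have hc : Cmt E (ρ - ρᴴ) := hρ.sub (cmt_conjT hE hρ)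
  apply hC _ hc e he0 he
  refine ⟨g * EU E s * (EU E s * g)⁻¹, K.mul_mem (K.mul_mem hg (hR s hs)) (K.inv_mem (K.mul_mem (hR s hs) hg)), ?_⟩
  rw [comm_gen hg1 hy, e1]
  · rw [e1, hc, mul_assoc, r1, mul_zero]
  · rw [e1, hc, mul_assoc, hN', mul_add, mul_sub, mul_smul_comm, ← map_mul, ← map_mul, ← map_mul, ut_mul, ut_mul, ut_mul, he, hem, zero_smul, zero_smul]
    simp

include U in
/-- Lemma Q, unitary version -/
lemma QW (hE : HE E) (hU : ∀ x ∈ K, Un x) (hR : RootsU E K) (hC : CoefU E K) {e m : Fin k → F} (he0 : e ≠ 0) (he : ip e e = 0) (hem : ip e m = 0)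
    {g : GL ι F} (hg : g ∈ K) (h1 : ∀ z, E (ut z e) * g.1 = E (ut z e)) {ρ : Matrix ι ι F} (hρ : Cmt E ρ) (h2 : g.1 * E (ut m e) = E (ut m e) + E (ut e e) * ρ) :
    ∃ c : F, ρ = c • (1 : Matrix ι ι F) := by
  obtain ⟨l, hl⟩ := U.exists_ne
  obtain ⟨c, hc⟩ := QW0 U hE hU hR hC he0 he hem hg h1 hρ h2
  obtain ⟨c', hc'⟩ := QW0 U hE hU hR hC (m := l • m) he0 he (by rw [ip_smul_right, hem, mul_zero]) hg h1 (hρ.smul l) (by
    rw [ut_smul_left, map_smul, mul_smul_comm, h2, smul_add, mul_smul_comm])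
  rw [conjTranspose_smul] at hc'
  apply scal_of_smul (sub_ne_zero.2 hl)
  refine ⟨star l * c - c', ?_⟩
  have h3 : (star l - l) • ρ = star l • (ρ - ρᴴ) - (l • ρ - star l • ρᴴ) := by module
  rw [h3, hc, hc', sub_smul, mul_smul]

/-- the projection onto the orthogonal complement of a hyperbolic pair -/
def PP (e f : Fin k → F) : Matrix (Fin k) (Fin k) F := 1 - ut e f - ut f e

section PP

variable {e f : Fin k → F}

lemma PP_mulVec (x : Fin k → F) : PP e f *ᵥ x = x - ip f x • e - ip e x • f := by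
  rw [PP, sub_mulVec, sub_mulVec, one_mulVec, ut_mulVec, ut_mulVec]

lemma PP_conjT : (PP e f)ᴴ = PP e f := by
  rw [PP, conjTranspose_sub, conjTranspose_sub, conjTranspose_one, ut_conjT, ut_conjT]; abel

lemma ip_PP_e (he : ip e e = 0) (hf : ip f f = 0) (hef : ip e f = 1) (x : Fin k → F) : ip e (PP e f *ᵥ x) = 0 := by
  rw [PP_mulVec, ip_sub_right, ip_sub_right, ip_smul_right, ip_smul_right, he, hef]; ring

lemma ip_PP_f (he : ip e e = 0) (hf : ip f f = 0) (hef : ip e f = 1) (x : Fin k → F) : ip f (PP e f *ᵥ x) = 0 := by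
  have hfe : ip f e = 1 := by rw [← ip_star, hef, star_one]
  rw [PP_mulVec, ip_sub_right, ip_sub_right, ip_smul_right, ip_smul_right, hf, hfe]; ring

lemma PP_of {m : Fin k → F} (hem : ip e m = 0) (hfm : ip f m = 0) : PP e f *ᵥ m = m := by
  rw [PP_mulVec, hem, hfm, zero_smul, zero_smul, sub_zero, sub_zero]

lemma PP_e (he : ip e e = 0) (hef : ip e f = 1) : PP e f *ᵥ e = 0 := by
  have hfe : ip f e = 1 := by rw [← ip_star, hef, star_one]
  rw [PP_mulVec, he, hfe, zero_smul, one_smul, sub_self, sub_zero]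

lemma PP_f (hf : ip f f = 0) (hef : ip e f = 1) : PP e f *ᵥ f = 0 := by
  rw [PP_mulVec, hf, hef, zero_smul, one_smul, sub_zero, sub_self]

lemma PP_sq (he : ip e e = 0) (hf : ip f f = 0) (hef : ip e f = 1) : PP e f * PP e f = PP e f := by
  have hfe : ip f e = 1 := by rw [← ip_star, hef, star_one]
  rw [PP]
  simp only [mul_sub, sub_mul, mul_one, one_mul, ut_mul, he, hf, hef, hfe, zero_smul, one_smul]
  abel

lemma PP_ut_e (he : ip e e = 0) (hef : ip e f = 1) (z : Fin k → F) : PP e f * ut e z = 0 := by rw [mul_ut, PP_e he hef, ut_zero_left]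

lemma PP_ut_f (hf : ip f f = 0) (hef : ip e f = 1) (z : Fin k → F) : PP e f * ut f z = 0 := by rw [mul_ut, PP_f hf hef, ut_zero_left]

lemma ut_e_PP (he : ip e e = 0) (hef : ip e f = 1) (z : Fin k → F) : ut z e * PP e f = 0 := by rw [ut_mul_mat, PP_conjT, PP_e he hef, ut_zero_right]

lemma ut_f_PP (hf : ip f f = 0) (hef : ip e f = 1) (z : Fin k → F) : ut z f * PP e f = 0 := by rw [ut_mul_mat, PP_conjT, PP_f hf hef, ut_zero_right]

lemma one_eq_PP : (1 : Matrix ι ι F) = E (ut e f) + E (ut f e) + E (PP e f) := by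
  rw [← map_add, ← map_add, PP, ← map_one E]; congr 1; abel

end PP

include U in
lemma exists_pair_perp (hk : 4 ≤ k) {e f : Fin k → F} (he : ip e e = 0) (hf : ip f f = 0) (hef : ip e f = 1) :
    ∃ x y, ip x x = 0 ∧ ip y y = 0 ∧ ip x y = 1 ∧ ip e x = 0 ∧ ip f x = 0 ∧ ip e y = 0 ∧ ip f y = 0 := by
  have hH : Uni.Hyp q e f := by
    rw [ip_eq U] at he hf
    refine ⟨he, hf, ?_⟩
    rw [ip_eq U] at hef
    rw [← Uni.hermForm_symm U.card, hef, one_pow]
  have hnd := (hH.nd U.card).perp U.card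
  obtain ⟨a, ha, b, hb, hab⟩ := UTP.nd_exists_hyp_pair U.card hnd (by rw [hH.finrank_perp U.card]; omega)
  obtain ⟨h1, h2⟩ := (Uni.Hyp.mem_perp_iff U.card).1 ha
  obtain ⟨h3, h4⟩ := (Uni.Hyp.mem_perp_iff U.card).1 hb
  refine ⟨a, b, by rw [ip_eq U]; exact hab.1, by rw [ip_eq U]; exact hab.2.1, ?_, by rw [ip_eq U]; exact h1, by rw [ip_eq U]; exact h2,
    by rw [ip_eq U]; exact h3, by rw [ip_eq U]; exact h4⟩
  rw [ip_eq U, ← Uni.hermForm_symm U.card, hab.2.2, one_pow]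

/-- a torus element -/
lemma exists_torus {e f : Fin k → F} (he : ip e e = 0) (hf : ip f f = 0) (hef : ip e f = 1) {t : F} (ht : star t = t) (ht0 : t ≠ 0) :
    ∃ s ∈ SUg k F, s.1 *ᵥ e = t • e ∧ (∀ m, ip e m = 0 → ip f m = 0 → s.1 *ᵥ m = m) := by
  have hfe : ip f e = 1 := by rw [← ip_star, hef, star_one]
  obtain ⟨A, hA⟩ : ∃ A, A = 1 + (t - 1) • ut e f + (t⁻¹ - 1) • ut f e := ⟨_, rfl⟩
  have hAA : Aᴴ * A = 1 := by
    rw [hA]
    simp only [conjTranspose_add, conjTranspose_one, conjTranspose_smul, ut_conjT, star_sub, star_inv₀, star_one, ht, mul_add, add_mul, mul_one, one_mul, smul_mul_assoc,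
      mul_smul_comm, ut_mul, he, hf, hef, hfe, zero_smul, one_smul, smul_zero, smul_smul, add_zero, zero_add]
    have h1 : (t - 1) * (t⁻¹ - 1) = 2 - t - t⁻¹ := by field_simp; ring
    have h2 : (t⁻¹ - 1) * (t - 1) = 2 - t - t⁻¹ := by rw [mul_comm, h1]
    simp only [smul_add, smul_smul, h1, h2]
    module
  have hAA' : A * Aᴴ = 1 := mul_eq_one_comm.1 hAA
  have hdet : A.det = 1 := by
    have h1 : A = (1 + (t - 1) • ut e f) * (1 + (t⁻¹ - 1) • ut f e) := by
      rw [hA, mul_add, mul_one, add_mul, one_mul, smul_mul_smul_comm, ut_mul, hf, zero_smul, smul_zero, add_zero]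
    have h2 : ∀ (c : F) (x y : Fin k → F), (1 + c • ut x y).det = 1 + c * ip y x := by
      intro c x y
      rw [← ut_smul_left, ut, vecMulVec_eq Unit, det_one_add_replicateCol_mul_replicateRow, dotProduct_smul]; rfl
    rw [h1, det_mul, h2, h2, hfe, hef]
    field_simp; ring
  refine ⟨⟨A, Aᴴ, hAA', hAA⟩, ⟨hAA, hdet⟩, ?_, ?_⟩
  · show A *ᵥ e = _
    rw [hA, add_mulVec, add_mulVec, one_mulVec, smul_mulVec, smul_mulVec, ut_mulVec, ut_mulVec, he, hfe]
    module
  · intro m hem hfm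
    show A *ᵥ m = _
    rw [hA, add_mulVec, add_mulVec, one_mulVec, smul_mulVec, smul_mulVec, ut_mulVec, ut_mulVec, hem, hfm]
    module

include U in
/-- the unipotent case -/
lemma blk1 [Nonempty ι] (hk : 3 ≤ k) (hq : 3 ≤ q ∨ 4 ≤ k) (hE : HE E) (hU : ∀ x ∈ K, Un x) (hR : RootsU E K) (hC : CoefU E K) {h : GL ι F} (hG : Gd E K h)
    {e f : Fin k → F} (he : ip e e = 0) (hf : ip f f = 0) (hef : ip e f = 1)
    (h1 : ∀ z, h.1 * E (ut e z) = E (ut e z)) (h2 : ∀ z, E (ut z e) * h.1 = E (ut z e)) (h3 : E (PP e f) * h.1 * E (PP e f) = E (PP e f)) : Cn E h := by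
  have hfe : ip f e = 1 := by rw [← ip_star, hef, star_one]
  have he0 : e ≠ 0 := by rintro rfl; rw [ip_zero_left] at hef; exact zero_ne_one hef
  have hinv := hG.un.inv_eq
  have h1' : ∀ z, (h⁻¹).1 * E (ut e z) = E (ut e z) := fun z => by
    conv_lhs => rw [← h1 z]
    rw [← mul_assoc, inv_mul_val, one_mul]
  have h2' : ∀ z, E (ut z e) * (h⁻¹).1 = E (ut z e) := fun z => by
    conv_lhs => rw [← h2 z]
    rw [mul_assoc, mul_inv_val, mul_one]
  obtain ⟨a, ha⟩ : ∃ a : (Fin k → F) → Matrix ι ι F, ∀ m, a m = cu E f m h.1 := ⟨_, fun _ => rfl⟩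
  have hac : ∀ m, Cmt E (a m) := fun m => by rw [ha]; exact cu_cmt _ _ _
  have h4 : ∀ m, ip e m = 0 → ip f m = 0 → ∀ z, h.1 * E (ut m z) = E (ut m z) + E (ut e z) * a m := by
    intro m hem hfm z
    have e1 : h.1 * E (ut m z) = E (ut e f) * h.1 * E (ut m z) + E (ut f e) * h.1 * E (ut m z) + E (PP e f) * h.1 * E (ut m z) := by
      rw [← add_mul, ← add_mul, ← add_mul, ← add_mul, ← one_eq_PP (E := E), one_mul]
    have e2 : E (PP e f) * h.1 * E (ut m z) = E (ut m z) := by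
      have e3 : ut m z = PP e f * ut m z := by rw [mul_ut, PP_of hem hfm]
      nth_rewrite 1 [e3]
      rw [map_mul, ← mul_assoc, h3, ← map_mul, ← e3]
    rw [e1, e2, E_cu, h2, ← map_mul, ut_mul, hem, zero_smul, map_zero, ha, add_zero, add_comm]
  have h4' : ∀ m, ip e m = 0 → ip f m = 0 → ∀ z, (h⁻¹).1 * E (ut m z) = E (ut m z) - E (ut e z) * a m := by
    intro m hem hfm z
    have e1 := congrArg (fun X => (h⁻¹).1 * X) (h4 m hem hfm z)
    simp only [mul_add, ← mul_assoc] at e1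
    rw [inv_mul_val, one_mul, h1'] at e1
    exact eq_sub_of_add_eq e1.symm
  -- commutators
  have h5 : ∀ s ∈ SUg k F, ∀ t : F, t ≠ 0 → s.1 *ᵥ e = t • e → ∀ m, ip e m = 0 → ip f m = 0 → ∀ m', s.1 *ᵥ m = m' → ip e m' = 0 → ip f m' = 0 →
      ∃ c : F, a m' - t • a m = c • (1 : Matrix ι ι F) := by
    intro s hs t ht0 hse m hem hfm m' hsm hem' hfm'
    have hsi := hs.1.inv_eq
    have hmv : ∀ x y, s.1 *ᵥ x = y → (s⁻¹).1 *ᵥ y = x := fun x y hxy => by rw [← hxy, mulVec_mulVec, inv_mul_val, one_mulVec]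
    apply QW U hE hU hR hC he0 he hem' (g := h * EU E s * h⁻¹ * (EU E s)⁻¹) (K.mul_mem (hG.cj s hs) (K.inv_mem (hR s hs)))
    · intro z
      simp only [Units.val_mul, ← mul_assoc]
      have e1 : ut z e * s.1 = (star t)⁻¹ • ut z e := by
        have e2 : s.1ᴴ *ᵥ e = t⁻¹ • e := by
          rw [← hsi]
          have e3 := hmv e _ hse
          rw [mulVec_smul] at e3
          calc (s⁻¹).1 *ᵥ e = t⁻¹ • (t • ((s⁻¹).1 *ᵥ e)) := by rw [smul_smul, inv_mul_cancel₀ ht0, one_smul]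
            _ = t⁻¹ • e := by rw [e3]
        rw [ut_mul_mat, e2, ut_smul_right, star_inv₀]
      have e4 : ut z e * (s⁻¹).1 = star t • ut z e := by
        rw [ut_mul_mat, hsi, conjTranspose_conjTranspose, hse, ut_smul_right]
      rw [h2, EU_val, ← map_mul, e1, map_smul, smul_mul_assoc, h2', smul_mul_assoc, EU_inv_val, ← map_mul, e4, map_smul, smul_smul, inv_mul_cancel₀, one_smul]
      intro h0; apply ht0; have := congrArg star h0; rwa [star_star, star_zero] at this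
    · exact (hac _).sub ((hac _).smul t)
    · simp only [Units.val_mul, mul_assoc]
      rw [EU_inv_val, ← map_mul, mul_ut, hmv m _ hsm, h4' m hem hfm, mul_sub, EU_val, ← map_mul, mul_ut, hsm, ← mul_assoc (E s.1), ← map_mul, mul_ut, hse, ut_smul_left, map_smul,
        mul_sub, h4 m' hem' hfm', smul_mul_assoc, mul_smul_comm, ← mul_assoc, h1, mul_sub, mul_smul_comm]
      abel
  -- the second coefficients are scalars
  have h6 : ∀ m, ip e m = 0 → ip f m = 0 → ∃ c : F, a m = c • (1 : Matrix ι ι F) := by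
    rcases hq with hq | hk4
    · intro m hem hfm
      obtain ⟨t, ht, ht0, ht1⟩ := U.exists_real hq
      obtain ⟨s, hs, hse, hsm⟩ := exists_torus he hf hef ht ht0
      have h7 := h5 s hs t ht0 hse m hem hfm m (hsm m hem hfm) hem hfm
      rw [show a m - t • a m = (1 - t) • a m by rw [sub_smul, one_smul]] at h7
      exact scal_of_smul (sub_ne_zero.2 (Ne.symm ht1)) h7
    · obtain ⟨c, hc0, hc⟩ := U.exists_skew
      have aadd : ∀ x y, a (x + y) = a x + a y := fun x y => by rw [ha, ha, ha, cu_add_right (by omega)]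
      have asmul : ∀ (c : F) x, a (c • x) = c • a x := fun c x => by rw [ha, ha, cu_smul_right (by omega)]
      have iso : ∀ x, ip x x = 0 → ip e x = 0 → ip f x = 0 → ∃ c : F, a x = c • (1 : Matrix ι ι F) := by
        intro x hx hex hfx
        by_cases hx0 : x = 0
        · exact ⟨0, by rw [hx0, zero_smul, ← zero_smul F (0 : Fin k → F), asmul, zero_smul]⟩
        obtain ⟨z, hz, hxz⟩ := exists_hypU U hx0 hx
        obtain ⟨m, hm⟩ : ∃ m, m = PP e f *ᵥ z := ⟨_, rfl⟩
        have hem : ip e m = 0 := by rw [hm]; exact ip_PP_e he hf hef z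
        have hfm : ip f m = 0 := by rw [hm]; exact ip_PP_f he hf hef z
        have hxm : ip x m = 1 := by
          rw [hm, PP_mulVec, ip_sub_right, ip_sub_right, ip_smul_right, ip_smul_right, hxz, ip_zero_comm hex, ip_zero_comm hfx]; ring
        obtain ⟨s, hs, hs1⟩ := exists_tv U hx hc
        have hse : s.1 *ᵥ e = (1 : F) • e := by
          rw [hs1, add_mulVec, one_mulVec, smul_mulVec, ut_mulVec, ip_zero_comm hex, zero_smul, smul_zero, add_zero, one_smul]
        have hsm : s.1 *ᵥ m = m + c • x := by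
          rw [hs1, add_mulVec, one_mulVec, smul_mulVec, ut_mulVec, hxm, one_smul]
        have h7 := h5 s hs 1 one_ne_zero hse m hem hfm _ hsm (by rw [ip_add_right, ip_smul_right, hem, hex, mul_zero, add_zero])
          (by rw [ip_add_right, ip_smul_right, hfm, hfx, mul_zero, add_zero])
        rw [aadd, asmul, one_smul, add_sub_cancel_left] at h7
        exact scal_of_smul hc0 h7
      have padd : ∀ x y, (∃ c : F, a x = c • (1 : Matrix ι ι F)) → (∃ c : F, a y = c • (1 : Matrix ι ι F)) → ∃ c : F, a (x + y) = c • (1 : Matrix ι ι F) := by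
        rintro x y ⟨c, hc⟩ ⟨c', hc'⟩
        exact ⟨c + c', by rw [aadd, hc, hc', add_smul]⟩
      have psmul : ∀ (d : F) x, (∃ c : F, a x = c • (1 : Matrix ι ι F)) → ∃ c : F, a (d • x) = c • (1 : Matrix ι ι F) := by
        rintro d x ⟨c, hc⟩
        exact ⟨d * c, by rw [asmul, hc, mul_smul]⟩
      obtain ⟨x, y, hx, hy, hxy, hex, hfx, hey, hfy⟩ := exists_pair_perp U hk4 he hf hef
      have hyx : ip y x = 1 := by rw [← ip_star, hxy, star_one]
      intro m hem hfm
      obtain ⟨m', hm'⟩ : ∃ m', m' = m - ip y m • x - ip x m • y := ⟨_, rfl⟩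
      have hxm' : ip x m' = 0 := by rw [hm', ip_sub_right, ip_sub_right, ip_smul_right, ip_smul_right, hx, hxy]; ring
      have hym' : ip y m' = 0 := by rw [hm', ip_sub_right, ip_sub_right, ip_smul_right, ip_smul_right, hy, hyx]; ring
      have hem' : ip e m' = 0 := by rw [hm', ip_sub_right, ip_sub_right, ip_smul_right, ip_smul_right, hem, hex, hey]; ring
      have hfm' : ip f m' = 0 := by rw [hm', ip_sub_right, ip_sub_right, ip_smul_right, ip_smul_right, hfm, hfx, hfy]; ring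
      obtain ⟨g, hg⟩ := U.exists_tr (t := -ip m' m') (by rw [star_neg, ip_star])
      have i1 : ip (m' + g • x + y) (m' + g • x + y) = 0 := by
        simp only [ip_add_left, ip_add_right, ip_smul_left, ip_smul_right, hx, hy, hxy, hyx, hxm', hym', ip_zero_comm hxm', ip_zero_comm hym']
        linear_combination hg
      have i2 := iso _ i1 (by simp only [ip_add_right, ip_smul_right, hem', hex, hey]; ring) (by simp only [ip_add_right, ip_smul_right, hfm', hfx, hfy]; ring)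
      have ix := iso x hx hex hfx
      have iy := iso y hy hey hfy
      have i3 : m = (m' + g • x + y) + ((ip y m - g) • x + (ip x m - 1) • y) := by rw [hm']; module
      rw [i3]
      exact padd _ _ i2 (padd _ _ (psmul _ _ ix) (psmul _ _ iy))
  -- the element
  obtain ⟨R, hRR⟩ : ∃ R, R = E (ut e f) * h.1 * E (PP e f) := ⟨_, rfl⟩
  obtain ⟨r, hr⟩ : ∃ r, R = E r * 1 := by
    apply exists_of_cu Cmt.one
    intro x y
    rw [hRR, cu_mul (by omega), ut_conjT, ut_mulVec, cu_smul_left (by omega), ← ha]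
    obtain ⟨c, hc⟩ := h6 (PP e f *ᵥ y) (ip_PP_e he hf hef y) (ip_PP_f he hf hef y)
    exact ⟨star (ip e x) * c, by rw [hc, mul_smul]⟩
  rw [mul_one] at hr
  obtain ⟨n, hn⟩ : ∃ n, n = rᴴ *ᵥ f := ⟨_, rfl⟩
  have hRn : R = E (ut e n) := by
    have e1 : E (ut e f) * R = R := by rw [hRR, ← mul_assoc, ← mul_assoc, ← map_mul, ut_mul, hfe, one_smul]
    rw [← e1, hr, ← map_mul, ut_mul_mat, ← hn]
  have hne : ip n e = 0 := by
    have e1 : R * E (ut e e) = 0 := by rw [hRR, mul_assoc, ← map_mul, PP_ut_e he hef, map_zero, mul_zero]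
    rw [hRn, ← map_mul, ut_mul, map_smul] at e1
    refine (smul_eq_zero.1 e1).resolve_right ?_
    intro h0
    exact ut_ne_zero he0 he0 (E_inj' (E := E) (by rw [h0, map_zero]))
  have hen := ip_zero_comm hne
  have hRH : Rᴴ = E (ut n e) := by rw [hRn, hE, ut_conjT]
  obtain ⟨ψ, hψ⟩ : ∃ ψ, ψ = cu E f f h.1 := ⟨_, rfl⟩
  have hψc : Cmt E ψ := by rw [hψ]; exact cu_cmt _ _ _
  have hform : h.1 = 1 + E (ut e n) - E (ut n e) + E (ut e e) * ψ := by
    have e1 : h.1 * E (PP e f) = R + E (PP e f) := by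
      have : h.1 * E (PP e f) = E (ut e f) * h.1 * E (PP e f) + E (ut f e) * h.1 * E (PP e f) + E (PP e f) * h.1 * E (PP e f) := by
        rw [← add_mul, ← add_mul, ← add_mul, ← add_mul, ← one_eq_PP (E := E), one_mul]
      rw [this, h2, h3, ← map_mul, ut_e_PP he hef, map_zero, add_zero, ← hRR]
    have e2 : E (PP e f) * h.1 = E (PP e f) - Rᴴ := by
      have e3 := congrArg conjTranspose e1
      rw [conjTranspose_mul, conjTranspose_add, hE, PP_conjT, ← hinv] at e3
      have e4 : E (PP e f) = (Rᴴ + E (PP e f)) * h.1 := by rw [← e3, mul_assoc, inv_mul_val, mul_one]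
      rw [add_mul, hRH, h2, ← hRH] at e4
      rw [eq_sub_iff_add_eq, add_comm]; exact e4.symm
    have e3 : h.1 * E (ut f e) = E (ut e e) * ψ + E (ut f e) - E (ut n e) := by
      have : h.1 * E (ut f e) = E (ut e f) * h.1 * E (ut f e) + E (ut f e) * h.1 * E (ut f e) + E (PP e f) * h.1 * E (ut f e) := by
        rw [← add_mul, ← add_mul, ← add_mul, ← add_mul, ← one_eq_PP (E := E), one_mul]
      rw [this, h2, e2, E_cu, ← hψ, sub_mul, hRH, ← map_mul, ← map_mul, ← map_mul, PP_ut_f hf hef, ut_mul, ut_mul, hef, one_smul, one_smul, map_zero]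
      abel
    have e4 : h.1 = h.1 * E (ut e f) + h.1 * E (ut f e) + h.1 * E (PP e f) := by
      rw [← mul_add, ← mul_add, ← one_eq_PP (E := E), mul_one]
    rw [e4, h1, e3, e1, hRn, one_eq_PP (E := E) (e := e) (f := f)]
    abel
  obtain ⟨c, hc⟩ := U.exists_tr (t := -ip (-n) (-n)) (by rw [star_neg, ip_star])
  obtain ⟨s, hs, hs1⟩ := exists_heis U he (m := -n) (by rw [ip_neg_right, hen, neg_zero]) hc
  have hs1' : E s.1 = 1 + E (ut e n) - E (ut n e) + c • E (ut e e) := by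
    have : ut (-n) e - ut e (-n) = ut e n - ut n e := by
      rw [← neg_one_smul F n, ut_smul_left, ut_smul_right, star_neg, star_one]; module
    rw [hs1, this, map_add, map_one, map_add, map_sub, map_smul]; abel
  have hse : s.1 *ᵥ e = e := by
    rw [hs1, add_mulVec, one_mulVec, add_mulVec, sub_mulVec, smul_mulVec, ut_mulVec, ut_mulVec, ut_mulVec, he, ip_neg_left, hne]; simp
  have hhs : h.1 = E s.1 + E (ut e e) * (ψ - c • (1 : Matrix ι ι F)) := by rw [hform, hs1', mul_sub, mul_smul_comm, mul_one]; abel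
  have hsc : Cmt E (ψ - c • (1 : Matrix ι ι F)) := hψc.sub (Cmt.one.smul c)
  have hG' := hG.mul_EU hE (B := s⁻¹) hs.1.inv
  have hh' : (h * EU E s⁻¹).1 = 1 + E (ut e e) * (ψ - c • (1 : Matrix ι ι F)) := by
    rw [Units.val_mul, hhs, EU_val, add_mul, ← map_mul, mul_inv_val, map_one, hsc, mul_assoc, ← map_mul, ut_mul_mat, hs.1.inv_eq, conjTranspose_conjTranspose, hse, ← hsc]
  obtain ⟨d, hd⟩ := blk0 U hk hq hR hC hG' he0 he hsc hh'
  refine cn_of hE hG.un (a := 1) (by show (1 : GL ι F).1ᴴ * (1 : GL ι F).1 = 1; rw [Units.val_one, conjTranspose_one, mul_one]) (by rw [Units.val_one]; exact Cmt.one) (b := s.1 + d • ut e e) ?_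
  rw [Units.val_one, mul_one, hhs, hd, map_add, map_smul, mul_smul_comm, mul_one]

include U in
/-- the case when a root element is fixed -/
lemma blk2 [Nonempty ι] (hk : 3 ≤ k) (hq : 3 ≤ q ∨ 4 ≤ k) (hE : HE E) (hU : ∀ x ∈ K, Un x) (hR : RootsU E K) (hC : CoefU E K) {h : GL ι F} (hG : Gd E K h)
    {e : Fin k → F} (he0 : e ≠ 0) (he : ip e e = 0) (hhe : h.1 * E (ut e e) = E (ut e e) * h.1) : Cn E h := by
  obtain ⟨f, hf, hef⟩ := exists_hypU U he0 he
  have hfe : ip f e = 1 := by rw [← ip_star, hef, star_one]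
  have hf0 : f ≠ 0 := by rintro rfl; rw [ip_zero_right] at hef; exact zero_ne_one hef
  have hinv := hG.un.inv_eq
  have hk0 : 0 < k := by omega
  obtain ⟨S, hS⟩ : ∃ S, S = cu E e f h.1 := ⟨_, rfl⟩
  have hSc : Cmt E S := by rw [hS]; exact cu_cmt _ _ _
  have hSc' := cmt_conjT hE hSc
  have R1 : ∀ z, h.1 * E (ut e z) = E (ut e z) * S := by
    intro z
    have e1 : ut e z = ut e e * ut f z := by rw [ut_mul, hef, one_smul]
    nth_rewrite 1 [e1]
    rw [map_mul, ← mul_assoc, hhe, E_cu, hS]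
  have hS2 : cu E f e h.1 = S := by
    apply cu_eq_of he0 he0 hSc
    rw [mul_assoc, R1, ← mul_assoc, ← map_mul, ut_mul, hfe, one_smul]
  have R3 : ∀ z, E (ut z e) * h.1 = E (ut z e) * S := by
    intro z
    have e1 : ut z e = ut z f * ut e e := by rw [ut_mul, hfe, one_smul]
    nth_rewrite 1 [e1]
    rw [map_mul, mul_assoc, ← hhe, ← mul_assoc, E_cu, hS2]
  have R2 : ∀ z, E (ut z e) * h.1ᴴ = E (ut z e) * Sᴴ := by
    intro z
    have e1 := congrArg conjTranspose (R1 z)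
    rw [conjTranspose_mul, conjTranspose_mul, hE, ut_conjT, ← hSc'] at e1
    exact e1
  have R4 : ∀ z, h.1ᴴ * E (ut e z) = E (ut e z) * Sᴴ := by
    intro z
    have e1 := congrArg conjTranspose (R3 z)
    rw [conjTranspose_mul, conjTranspose_mul, hE, ut_conjT, ← hSc'] at e1
    exact e1
  have hSS : Sᴴ * S = 1 := by
    have e1 : E (ut e e) * (Sᴴ * S - 1) = 0 := by
      have e2 : E (ut e e) * h.1ᴴ * h.1 = E (ut e e) := by rw [mul_assoc, show h.1ᴴ * h.1 = 1 from hG.un, mul_one]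
      rw [R2, hSc', mul_assoc, R3, ← mul_assoc, ← hSc', mul_assoc] at e2
      rw [mul_sub, e2, mul_one, sub_self]
    exact sub_eq_zero.1 (E_A_eq_zero ((hSc'.mul hSc).sub Cmt.one) (ut_ne_zero he0 he0) e1)
  have hSS' : S * Sᴴ = 1 := mul_eq_one_comm.1 hSS
  obtain ⟨P, hP⟩ : ∃ P, P = PP e f := ⟨_, rfl⟩
  have hPe := PP_e he hef
  have hPH : Pᴴ = P := by rw [hP]; exact PP_conjT
  have hPP : P * P = P := by rw [hP]; exact PP_sq he hf hef
  -- the middle block
  have h6 : ∀ m', ip e m' = 0 → ∀ m, ip e m = 0 → ∃ c : F, cu E m' m h.1 = c • S := by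
    intro m' hem' m hem
    have hme := ip_zero_comm hem
    have hme' := ip_zero_comm hem'
    obtain ⟨d, hd⟩ := U.exists_tr (t := -ip m m) (by rw [star_neg, ip_star])
    obtain ⟨s, hs, hs1⟩ := exists_heis U he hem hd
    have hEs : E s.1 = 1 + (E (ut m e) - E (ut e m) + d • E (ut e e)) := by rw [hs1, map_add, map_one, map_add, map_sub, map_smul]
    have hse : (s⁻¹).1 *ᵥ e = e := by
      have e1 : s.1 *ᵥ e = e := by
        rw [hs1, add_mulVec, one_mulVec, add_mulVec, sub_mulVec, smul_mulVec, ut_mulVec, ut_mulVec, ut_mulVec, he, hme]; simp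
      nth_rewrite 1 [← e1]
      rw [mulVec_mulVec, inv_mul_val, one_mulVec]
    obtain ⟨c, hc⟩ := QW U hE hU hR hC he0 he hem' (g := h * EU E s * h⁻¹) (hG.cj s hs) (ρ := -(S * (cu E m' m h.1)ᴴ)) (by
      intro z
      have e1 : ut z e * s.1 = ut z e := by rw [ut_mul_mat, ← hs.1.inv_eq, hse]
      rw [Units.val_mul, Units.val_mul, hinv, ← mul_assoc, ← mul_assoc, R3, hSc, mul_assoc S, EU_val, ← map_mul, e1, mul_assoc S, R2, ← mul_assoc, ← hSc, mul_assoc, hSS', mul_one])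
      (hSc.mul (cmt_conjT hE (cu_cmt _ _ _))).neg (by
      obtain ⟨V, hV⟩ : ∃ V, V = h.1ᴴ * E (ut m' e) := ⟨_, rfl⟩
      have v1 : ∀ z, E (ut z e) * V = 0 := fun z => by
        rw [hV, ← mul_assoc, R2, hSc', mul_assoc, ← map_mul, ut_mul, hem', zero_smul, map_zero, mul_zero]
      have v2 : E (ut e m) * V = E (ut e e) * (cu E m' m h.1)ᴴ := by
        rw [hV, ← mul_assoc, E_cu, cu_conj hE hk0]
      have v3 : h.1 * V = E (ut m' e) := by
        rw [hV, ← mul_assoc, ← hinv, mul_inv_val, one_mul]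
      rw [Units.val_mul, Units.val_mul, hinv, EU_val, mul_assoc, mul_assoc, ← hV, hEs, add_mul, one_mul, add_mul, sub_mul, smul_mul_assoc, v1, v1, v2, mul_add, v3, smul_zero,
        add_zero, zero_sub, mul_neg, ← mul_assoc, R1, mul_neg, mul_assoc])
    have e1 : (cu E m' m h.1)ᴴ = -c • Sᴴ := by
      have e2 : S * (cu E m' m h.1)ᴴ = -c • (1 : Matrix ι ι F) := by rw [neg_smul, ← hc, neg_neg]
      calc (cu E m' m h.1)ᴴ = Sᴴ * (S * (cu E m' m h.1)ᴴ) := by rw [← mul_assoc, hSS, one_mul]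
        _ = _ := by rw [e2, mul_smul_comm, mul_one]
    refine ⟨star (-c), ?_⟩
    have e3 := congrArg conjTranspose e1
    rw [conjTranspose_conjTranspose, conjTranspose_smul, conjTranspose_conjTranspose] at e3
    exact e3
  obtain ⟨b₀, hb₀⟩ : ∃ b₀, E P * h.1 * E P = E b₀ * S := by
    apply exists_of_cu hSc
    intro x y
    rw [cu_mul hk0, hPH, hP]
    exact h6 _ (ip_PP_e he hf hef x) _ (ip_PP_e he hf hef y)
  obtain ⟨b, hb⟩ : ∃ b, b = P * b₀ * P := ⟨_, rfl⟩
  have hbS : E b * S = E P * h.1 * E P := by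
    rw [hb, map_mul, map_mul, mul_assoc, hSc, ← mul_assoc, mul_assoc (E P), ← hb₀]
    calc E P * (E P * h.1 * E P) * E P = (E P * E P) * h.1 * (E P * E P) := by simp only [mul_assoc]
      _ = _ := by rw [← map_mul, hPP]
  have hPb : P * b = b := by rw [hb, ← mul_assoc, ← mul_assoc, hPP]
  have hbP : b * P = b := by rw [hb, mul_assoc, hPP]
  have hbHP : bᴴ * P = bᴴ := by have := congrArg conjTranspose hPb; rwa [conjTranspose_mul, hPH] at this
  have hPbH : P * bᴴ = bᴴ := by have := congrArg conjTranspose hbP; rwa [conjTranspose_mul, hPH] at this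
  have hPe' : ∀ z, P * ut e z = 0 := fun z => by rw [hP]; exact PP_ut_e he hef z
  have hPf' : ∀ z, P * ut f z = 0 := fun z => by rw [hP]; exact PP_ut_f hf hef z
  have heP' : ∀ z, ut z e * P = 0 := fun z => by rw [hP]; exact ut_e_PP he hef z
  have hfP' : ∀ z, ut z f * P = 0 := fun z => by rw [hP]; exact ut_f_PP hf hef z
  have hbb : bᴴ * b = P := by
    apply E_inj' (E := E)
    have e1 : (E b * S)ᴴ * (E b * S) = E (bᴴ * b) := by
      rw [conjTranspose_mul, hE, hSc, ← mul_assoc, ← hSc', mul_assoc (E bᴴ), hSS, mul_one, ← map_mul]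
    have e2 : E (ut f e) * h.1 * E P = 0 := by rw [R3, hSc, mul_assoc, ← map_mul, heP', map_zero, mul_zero]
    have e3 : E P * h.1ᴴ * E (ut e f) = 0 := by
      have e4 := congrArg conjTranspose e2
      rwa [conjTranspose_mul, conjTranspose_mul, hE, hE, ut_conjT, hPH, conjTranspose_zero, ← mul_assoc] at e4
    rw [← e1, hbS, conjTranspose_mul, conjTranspose_mul, hE, hPH]
    have e5 : E P = 1 - E (ut e f) - E (ut f e) := by rw [hP, PP, map_sub, map_sub, map_one]
    have e6 : E P * (h.1ᴴ * E P) * (E P * h.1 * E P) = E P * h.1ᴴ * (E P * (h.1 * E P)) := by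
      calc E P * (h.1ᴴ * E P) * (E P * h.1 * E P) = E P * h.1ᴴ * (E P * E P) * h.1 * E P := by simp only [mul_assoc]
        _ = _ := by rw [← map_mul, hPP]; simp only [mul_assoc]
    have e7 : E P * (h.1 * E P) = h.1 * E P - E (ut e f) * (h.1 * E P) := by
      nth_rewrite 1 [e5]
      rw [sub_mul, sub_mul, one_mul, ← mul_assoc (E (ut f e)), e2, sub_zero]
    rw [e6, e7, mul_sub, ← mul_assoc _ (E (ut e f)), e3, zero_mul, sub_zero]
    calc E P * h.1ᴴ * (h.1 * E P) = E P * (h.1ᴴ * h.1) * E P := by simp only [mul_assoc]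
      _ = _ := by rw [show h.1ᴴ * h.1 = 1 from hG.un, mul_one, ← map_mul, hPP]
  obtain ⟨B, hB⟩ : ∃ B, B = ut e f + ut f e + b := ⟨_, rfl⟩
  have z1 : ∀ z, ut z e * b = 0 := fun z => by rw [← hPb, ← mul_assoc, heP', zero_mul]
  have z2 : ∀ z, ut z f * b = 0 := fun z => by rw [← hPb, ← mul_assoc, hfP', zero_mul]
  have z3 : ∀ z, bᴴ * ut e z = 0 := fun z => by rw [← hbHP, mul_assoc, hPe', mul_zero]
  have z4 : ∀ z, bᴴ * ut f z = 0 := fun z => by rw [← hbHP, mul_assoc, hPf', mul_zero]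
  have hBB : Bᴴ * B = 1 := by
    rw [hB, conjTranspose_add, conjTranspose_add, ut_conjT, ut_conjT]
    simp only [add_mul, mul_add, ut_mul, he, hf, hef, hfe, zero_smul, one_smul, z1, z2, z3, z4, hbb, add_zero, zero_add]
    rw [hP, PP]; abel
  have hBB' : B * Bᴴ = 1 := mul_eq_one_comm.1 hBB
  have hPB : P * B = b := by rw [hB, mul_add, mul_add, hPe', hPf', hPb, zero_add, zero_add]
  have hbb' : b * bᴴ = P := by
    calc b * bᴴ = P * (B * Bᴴ) * P := by rw [← hPB, conjTranspose_mul, hPH]; simp only [mul_assoc]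
      _ = P := by rw [hBB', mul_one, hPP]
  have hBHP : Bᴴ * P = bᴴ := by have := congrArg conjTranspose hPB; rwa [conjTranspose_mul, hPH] at this
  have hbe : ∀ z, b * ut e z = 0 := fun z => by rw [← hbP, mul_assoc, hPe', mul_zero]
  have hBe : B *ᵥ e = e := by
    have : b *ᵥ e = 0 := by
      rw [← hbP, ← mulVec_mulVec, hP, hPe, mulVec_zero]
    rw [hB, add_mulVec, add_mulVec, ut_mulVec, ut_mulVec, he, hfe, this]; simp
  have hBHe : Bᴴ *ᵥ e = e := by
    nth_rewrite 1 [← hBe]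
    rw [mulVec_mulVec, hBB, one_mulVec]
  -- the normalised element
  let Bg : GL (Fin k) F := ⟨B, Bᴴ, hBB', hBB⟩
  let Sg : GL ι F := ⟨S, Sᴴ, hSS', hSS⟩
  have hBgU : Un Bg := hBB
  have hSgU : Un Sg := hSS
  have hSgc : Cmt E Sg.1 := hSc
  have hSgc' : Cmt E (Sg⁻¹).1 := hSc'
  have hG' : Gd E K (h * EU E Bg⁻¹ * Sg⁻¹) := (hG.mul_EU hE hBgU.inv).mul_cmt hSgU.inv hSgc'
  have hv : (h * EU E Bg⁻¹ * Sg⁻¹).1 = h.1 * E Bᴴ * Sᴴ := rfl
  have hC' : Cn E (h * EU E Bg⁻¹ * Sg⁻¹) := by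
    apply blk1 U hk hq hE hU hR hC hG' he hf hef
    · intro z
      rw [hv, mul_assoc, ← hSc', ← mul_assoc, mul_assoc h.1, ← map_mul, mul_ut, hBHe, R1, mul_assoc, hSS', mul_one]
    · intro z
      rw [hv, ← mul_assoc, ← mul_assoc, R3, hSc, mul_assoc S, ← map_mul, ut_mul_mat, conjTranspose_conjTranspose, hBe, ← hSc, mul_assoc, hSS', mul_one]
    · rw [hv, ← hP]
      calc E P * (h.1 * E Bᴴ * Sᴴ) * E P = E P * h.1 * E Bᴴ * (Sᴴ * E P) := by simp only [mul_assoc]
        _ = E P * h.1 * (E Bᴴ * E P) * Sᴴ := by rw [← hSc']; simp only [mul_assoc]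
        _ = E P * h.1 * (E P * E bᴴ) * Sᴴ := by rw [← map_mul, ← map_mul, hBHP, hPbH]
        _ = E P * h.1 * E P * E bᴴ * Sᴴ := by simp only [mul_assoc]
        _ = E b * S * E bᴴ * Sᴴ := by rw [← hbS]
        _ = E (b * bᴴ) * (S * Sᴴ) := by rw [mul_assoc (E b), ← hSc, map_mul]; simp only [mul_assoc]
        _ = _ := by rw [hbb', hSS', mul_one]
  have hfin : h = h * EU E Bg⁻¹ * Sg⁻¹ * Sg * EU E Bg := by
    rw [inv_mul_cancel_right, EU_inv, inv_mul_cancel_right]
  rw [hfin]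
  exact (hC'.mul_cmt hSgU hSgc).mul_EU hBgU

include U in
/-- the block lemma, unitary version -/
theorem block_U [Nonempty ι] (hk : 3 ≤ k) (hq : 3 ≤ q ∨ 4 ≤ k) (hE : HE E) (hU : ∀ x ∈ K, Un x) (hR : RootsU E K) (hC : CoefU E K) {h : GL ι F} (hG : Gd E K h)
    {u₀ u : Fin k → F} {γ : F} (hu₀ : u₀ ≠ 0) (hu₀' : ip u₀ u₀ = 0) (hγ : γ ≠ 0) (hu : u ≠ 0) (hr : h.1 * E (ut u₀ u₀) * (h⁻¹).1 = γ • E (ut u u)) : Cn E h := by
  have hγs : star γ = γ := by
    have e1 := hG.un.conjT_conj (E (ut u₀ u₀))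
    rw [hr, hE, ut_conjT, hr, conjTranspose_smul, hE, ut_conjT] at e1
    have e2 : (star γ - γ) • E (ut u u) = 0 := by rw [sub_smul, e1, sub_self]
    refine sub_eq_zero.1 ((smul_eq_zero.1 e2).resolve_right fun h0 => ut_ne_zero hu hu (E_inj' (E := E) (by rw [h0, map_zero])))
  obtain ⟨c, hc⟩ := U.exists_norm hγs
  have hc0 : c ≠ 0 := by rintro rfl; rw [mul_zero] at hc; exact hγ hc.symm
  have hr' : h.1 * E (ut u₀ u₀) * (h⁻¹).1 = E (ut (c • u) (c • u)) := by
    rw [hr, ut_smul_left, ut_smul_right, smul_smul, mul_comm c, hc, map_smul]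
  have hcu : c • u ≠ 0 := smul_ne_zero hc0 hu
  have hiso : ip (c • u) (c • u) = 0 := by
    have e1 : E (ut (c • u) (c • u)) * E (ut (c • u) (c • u)) = 0 := by
      rw [← hr']
      calc h.1 * E (ut u₀ u₀) * (h⁻¹).1 * (h.1 * E (ut u₀ u₀) * (h⁻¹).1) = h.1 * E (ut u₀ u₀) * ((h⁻¹).1 * h.1) * E (ut u₀ u₀) * (h⁻¹).1 := by simp only [mul_assoc]
        _ = h.1 * (E (ut u₀ u₀) * E (ut u₀ u₀)) * (h⁻¹).1 := by rw [inv_mul_val, mul_one]; simp only [mul_assoc]
        _ = 0 := by rw [← map_mul, ut_sq hu₀', map_zero, mul_zero, zero_mul]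
    rw [← map_mul, ut_mul, map_smul] at e1
    exact (smul_eq_zero.1 e1).resolve_right fun h0 => ut_ne_zero hcu hcu (E_inj' (E := E) (by rw [h0, map_zero]))
  obtain ⟨s, hs, hsu⟩ := exists_SUg_iso U hk hcu hu₀ hiso hu₀'
  have hG' := hG.EU_mul hE hR hs
  have h1 : (EU E s * h).1 * E (ut u₀ u₀) = E (ut u₀ u₀) * (EU E s * h).1 := by
    have e1 : (EU E s * h).1 * E (ut u₀ u₀) * ((EU E s * h)⁻¹).1 = E (ut u₀ u₀) := by
      rw [_root_.mul_inv_rev, Units.val_mul, Units.val_mul]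
      calc (EU E s).1 * h.1 * E (ut u₀ u₀) * ((h⁻¹).1 * ((EU E s)⁻¹).1) = (EU E s).1 * (h.1 * E (ut u₀ u₀) * (h⁻¹).1) * ((EU E s)⁻¹).1 := by simp only [mul_assoc]
        _ = _ := by
          rw [hr']
          have := EU_conj_ut hs.1 (Cmt.one (E := E)) (c • u) (c • u)
          rwa [mul_one, mul_one, hsu] at this
    nth_rewrite 2 [← e1]
    rw [mul_assoc _ _ (EU E s * h).1, inv_mul_val, mul_one]
  have h2 := blk2 U hk hq hE hU hR hC hG' hu₀ hu₀' h1
  have h3 : h = EU E s⁻¹ * (EU E s * h) := by rw [EU_inv, inv_mul_cancel_left]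
  rw [h3]
  exact h2.EU_mul hs.1.inv

end blk

end Cfsg.Agent.Asch.CW
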