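import Mathlib
import Cfsg.Prelude.Def_GeometricClasses
import Cfsg.Agent.Asch.UNBlock
import Cfsg.Agent.Asch.CSInd
import Cfsg.Agent.Asch.CWSwap
set_option autoImplicit false
set_option linter.unusedSectionVars false
set_option linter.unusedVariables false
set_option linter.unusedSimpArgs false
set_option linter.style.haveILetI false

/-!
The induction in the unitary case.
-/

namespace Cfsg.Agent.Asch.CW

open Matrix Module

open scoped Matrix

/-- standing assumptions -/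
structure CtxU {k : ℕ} {T ι : Type} [Fintype ι] [DecidableEq ι] {F : Type*} [Field F] [Fintype F] [StarRing F] (S : Sys k T ι F) (q : ℕ) : Prop where
  U : UF F q
  hk : 3 ≤ k
  hq : 3 ≤ q ∨ 4 ≤ k
  hE : ∀ i, HE (S.E i)

namespace Sys

variable {k : ℕ} {T ι : Type} [DecidableEq T] [Fintype ι] [DecidableEq ι] {F : Type*} [Field F] [Fintype F] [StarRing F] {q : ℕ} {S : Sys k T ι F} {J : Finset T}
  {K K' : Subgroup (GL ι F)}

/-- the data for the inductive step -/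
structure GoodU (S : Sys k T ι F) (J : Finset T) (K' : Subgroup (GL ι F)) : Prop where
  on : ∀ x ∈ K', S.On J x.1
  un : ∀ x ∈ K', Un x
  root : ∀ i ∈ J, RootsU (S.E i) K'
  coef : ∀ i ∈ J, CoefU (S.E i) K'

/-- the inductive claim, unitary version -/
def ClaimU (S : Sys k T ι F) (J : Finset T) : Prop :=
  ∀ K' : Subgroup (GL ι F), S.GoodU J K' → ∀ h : GL ι F, S.On J h.1 → Un h → (∀ i ∈ J, ∀ s ∈ SUg k F, h * EU (S.E i) s * h⁻¹ ∈ K') → h ∈ S.Mon J

/-- the unitary elements of the centraliser of a factor -/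
def subU (S : Sys k T ι F) (i : T) (K' : Subgroup (GL ι F)) : Subgroup (GL ι F) where
  carrier := {a | a ∈ S.subC i K' ∧ Un a}
  mul_mem' := fun {a b} ⟨h1, h2⟩ ⟨h3, h4⟩ => ⟨(S.subC i K').mul_mem h1 h3, h2.mul h4⟩
  one_mem' := ⟨(S.subC i K').one_mem, by show (1 : GL ι F).1ᴴ * (1 : GL ι F).1 = 1; rw [Units.val_one, conjTranspose_one, mul_one]⟩
  inv_mem' := fun {a} ⟨h1, h2⟩ => ⟨(S.subC i K').inv_mem h1, h2.inv⟩

/-- the step when a root of a factor goes to a root of the same factor -/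
theorem block_step_sameU [Nonempty ι] (hX : CtxU S q) {i : T} (hi : i ∈ J) (IH : S.ClaimU (J.erase i)) (hG : S.GoodU J K')
    {h : GL ι F} (hh : S.On J h.1) (hun : Un h) (hroot : ∀ i ∈ J, ∀ s ∈ SUg k F, h * EU (S.E i) s * h⁻¹ ∈ K')
    {u₀ u : Fin k → F} {γ : F} (hu₀ : u₀ ≠ 0) (hu₀' : ip u₀ u₀ = 0) (hγ : γ ≠ 0) (hu : u ≠ 0) (hr : h.1 * S.E i (ut u₀ u₀) * (h⁻¹).1 = γ • S.E i (ut u u)) :
    h ∈ S.Mon J := by
  obtain ⟨B, a, hBU, haU, ha, hBa⟩ := block_U hX.U hX.hk hX.hq (hX.hE i) hG.un (hG.root i hi) (hG.coef i hi) ⟨hun, hroot i hi⟩ hu₀ hu₀' hγ hu hr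
  have haJ : S.On (J.erase i) a.1 := by
    have h1 : S.On J a.1 := by
      have : a = (EU (S.E i) B)⁻¹ * h := by rw [hBa, inv_mul_cancel_left]
      rw [this, Units.val_mul]
      exact (On.inv (on_EU hi B)).mul hh
    intro l hl
    by_cases hli : l = i
    · subst hli; exact ha
    · exact h1 l fun h2 => hl (Finset.mem_erase.2 ⟨hli, h2⟩)
  have hE1 : EU (S.E i) 1 = 1 := map_one (Units.map _)
  have hcomm : ∀ {j : T}, j ≠ i → ∀ s : GL (Fin k) F, Cmt (S.E i) (EU (S.E j) s).1 := fun hji s => cmt_E (Ne.symm hji) _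
  have hamon : a ∈ S.Mon (J.erase i) := by
    apply IH (S.subU i K')
    · refine ⟨?_, fun x hx => hx.2, ?_, ?_⟩
      · rintro x ⟨⟨hx, D, hD⟩, -⟩ l hl
        by_cases hli : l = i
        · subst hli; exact hx
        · have h1 : S.On J x.1 := by
            have : x = (EU (S.E i) D)⁻¹ * (EU (S.E i) D * x) := by rw [inv_mul_cancel_left]
            rw [this, Units.val_mul]
            exact (On.inv (on_EU hi D)).mul (hG.on _ hD)
          exact h1 l fun h2 => hl (Finset.mem_erase.2 ⟨hli, h2⟩)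
      · intro j hj s hs
        obtain ⟨hji, hjJ⟩ := Finset.mem_erase.1 hj
        exact ⟨⟨hcomm hji s, 1, by rw [hE1, one_mul]; exact hG.root j hjJ s hs⟩, un_EU (hX.hE j) hs.1⟩
      · intro j hj A hA v hv0 hv hmem
        obtain ⟨hji, hjJ⟩ := Finset.mem_erase.1 hj
        obtain ⟨x, ⟨⟨hxc, D, hD⟩, hxU⟩, hxv⟩ := hmem
        refine blk0 hX.U hX.hk hX.hq (hG.root j hjJ) (hG.coef j hjJ) (h := x) ⟨hxU, fun s hs => ?_⟩ hv0 hv hA hxv
        have hxE : EU (S.E i) D * x = x * EU (S.E i) D := EU_comm_of_cmt hxc D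
        have hyE : EU (S.E i) D * EU (S.E j) s = EU (S.E j) s * EU (S.E i) D := EU_comm_of_cmt (hcomm hji s) D
        have h3 : x * EU (S.E j) s * x⁻¹ = (EU (S.E i) D * x) * EU (S.E j) s * (EU (S.E i) D * x)⁻¹ := by
          rw [hxE, _root_.mul_inv_rev]
          calc x * EU (S.E j) s * x⁻¹ = x * (EU (S.E j) s * EU (S.E i) D) * (EU (S.E i) D)⁻¹ * x⁻¹ := by group
            _ = _ := by rw [← hyE]; group
        rw [h3]
        exact K'.mul_mem (K'.mul_mem hD (hG.root j hjJ s hs)) (K'.inv_mem hD)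
    · exact haJ
    · exact haU
    · intro j hj s hs
      obtain ⟨hji, hjJ⟩ := Finset.mem_erase.1 hj
      have hc : Cmt (S.E i) (a * EU (S.E j) s * a⁻¹).1 := by
        rw [Units.val_mul, Units.val_mul]; exact conj_cmt ha (hcomm hji s)
      have h1 : h * EU (S.E j) s * h⁻¹ = a * EU (S.E j) s * a⁻¹ := by
        have h2 := EU_comm_of_cmt hc B
        rw [hBa]
        calc EU (S.E i) B * a * EU (S.E j) s * (EU (S.E i) B * a)⁻¹ = EU (S.E i) B * (a * EU (S.E j) s * a⁻¹) * (EU (S.E i) B)⁻¹ := by group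
          _ = _ := by rw [h2, mul_inv_cancel_right]
      refine ⟨⟨hc, 1, ?_⟩, (haU.mul (un_EU (hX.hE j) hs.1)).mul haU.inv⟩
      rw [hE1, one_mul, ← h1]
      exact hroot j hjJ s hs
  rw [hBa]
  apply Subgroup.mul_mem _ (EU_mem_mon i B)
  obtain ⟨σ, hσ, hσ1, hσ2⟩ := perms_of_mon hamon haJ
  apply mon_of_perms hσ
  intro l
  by_cases hl : l ∈ J.erase i
  · have := (hσ2 l).2 hl
    exact ⟨fun _ => Finset.mem_of_mem_erase hl, fun _ => Finset.mem_of_mem_erase this⟩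
  · rw [hσ1 l hl]

lemma flip_un (hX : CtxU S q) {i j : T} (hij : i ≠ j) : Un (S.flip hij) := by
  show (S.flip hij).1ᴴ * (S.flip hij).1 = 1
  have h1 : (S.flip hij).1ᴴ = S.flipM i j := by
    rw [flip_val, flipM, conjTranspose_sum]
    simp only [conjTranspose_sum, conjTranspose_mul, hX.hE i _, hX.hE j _, conjTranspose_single, star_one]
    rw [Finset.sum_comm]
    refine Finset.sum_congr rfl fun l _ => Finset.sum_congr rfl fun m _ => ?_
    exact S.comm j i (Ne.symm hij) _ _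
  rw [h1, flip_val, flipM_sq hij]

/-- the block step, unitary version -/
theorem block_stepU [Fintype T] [Nonempty ι] (hX : CtxU S q) (IH : ∀ i ∈ J, S.ClaimU (J.erase i)) (hG : S.GoodU J K')
    {h : GL ι F} (hh : S.On J h.1) (hun : Un h) (hroot : ∀ i ∈ J, ∀ s ∈ SUg k F, h * EU (S.E i) s * h⁻¹ ∈ K') {i j : T} (hi : i ∈ J) (hj : j ∈ J)
    {u₀ u : Fin k → F} {γ : F} (hu₀ : u₀ ≠ 0) (hu₀' : ip u₀ u₀ = 0) (hγ : γ ≠ 0) (hu : u ≠ 0) (hr : h.1 * S.E i (ut u₀ u₀) * (h⁻¹).1 = γ • S.E j (ut u u)) :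
    h ∈ S.Mon J := by
  by_cases hij : i = j
  · subst hij
    exact block_step_sameU hX hi (IH i hi) hG hh hun hroot hu₀ hu₀' hγ hu hr
  obtain ⟨π, hπ⟩ : ∃ π, π = S.flip hij := ⟨_, rfl⟩
  have hπon : S.On J π.1 := by rw [hπ]; exact flip_on hij hi hj
  have hπc : ∀ l a, π.1 * S.E l a * (π⁻¹).1 = S.E (Equiv.swap i j l) a := by rw [hπ]; exact flip_conj hij
  have hπu : Un π := by rw [hπ]; exact flip_un hX hij
  have hinv : π⁻¹ = π := by rw [hπ]; exact Units.ext rfl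
  have hsw : ∀ l, Equiv.swap i j l ∈ J ↔ l ∈ J := swap_mem_iff hi hj
  have hπE : ∀ l (s : GL (Fin k) F), π * EU (S.E l) s * π⁻¹ = EU (S.E (Equiv.swap i j l)) s := fun l s => Units.ext (by
    rw [Units.val_mul, Units.val_mul, EU_val, EU_val]; exact hπc l s.1)
  have hG' : S.GoodU J (K'.comap (MulAut.conj π).toMonoidHom) := by
    refine ⟨?_, ?_, ?_, ?_⟩
    · intro x hx
      have h3 := hG.on _ (show π * x * π⁻¹ ∈ K' from hx)
      have h4 : x = π⁻¹ * (π * x * π⁻¹) * π := by group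
      rw [h4, Units.val_mul, Units.val_mul]
      exact ((On.inv hπon).mul h3).mul hπon
    · intro x hx
      have h3 := hG.un _ (show π * x * π⁻¹ ∈ K' from hx)
      have h4 : x = π⁻¹ * (π * x * π⁻¹) * π := by group
      rw [h4]
      exact (hπu.inv.mul h3).mul hπu
    · intro l hl s hs
      show π * EU (S.E l) s * π⁻¹ ∈ K'
      rw [hπE]
      exact hG.root _ ((hsw l).2 hl) s hs
    · intro l hl A hA v hv0 hv hmem
      have h3 := comap_mem1 hmem
      have h4 : π.1 * (S.E l (ut v v) * A) * (π⁻¹).1 = S.E (Equiv.swap i j l) (ut v v) * (π.1 * A * (π⁻¹).1) := by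
        rw [← hπc]
        calc π.1 * (S.E l (ut v v) * A) * (π⁻¹).1 = π.1 * S.E l (ut v v) * ((π⁻¹).1 * π.1) * A * (π⁻¹).1 := by rw [inv_mul_val, mul_one]; simp only [mul_assoc]
          _ = _ := by simp only [mul_assoc]
      rw [h4] at h3
      have h5 : Cmt (S.E (Equiv.swap i j l)) (π.1 * A * (π⁻¹).1) := by
        intro x
        rw [← hπc]
        calc π.1 * S.E l x * (π⁻¹).1 * (π.1 * A * (π⁻¹).1) = π.1 * S.E l x * ((π⁻¹).1 * π.1) * A * (π⁻¹).1 := by simp only [mul_assoc]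
          _ = π.1 * (S.E l x * A) * (π⁻¹).1 := by rw [inv_mul_val, mul_one]; simp only [mul_assoc]
          _ = π.1 * (A * S.E l x) * (π⁻¹).1 := by rw [hA]
          _ = π.1 * A * ((π⁻¹).1 * π.1) * S.E l x * (π⁻¹).1 := by rw [inv_mul_val, mul_one]; simp only [mul_assoc]
          _ = _ := by simp only [mul_assoc]
      obtain ⟨c, hc⟩ := hG.coef _ ((hsw l).2 hl) _ h5 v hv0 hv h3
      refine ⟨c, ?_⟩
      have h6 : A = (π⁻¹).1 * (π.1 * A * (π⁻¹).1) * π.1 := by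
        calc A = ((π⁻¹).1 * π.1) * A * ((π⁻¹).1 * π.1) := by rw [inv_mul_val, one_mul, mul_one]
          _ = _ := by simp only [mul_assoc]
      rw [h6, hc, mul_smul_comm, mul_one, smul_mul_assoc, inv_mul_val]
  have h2 : π * h ∈ S.Mon J := by
    refine block_step_sameU hX hi (IH i hi) hG' (h := π * h) ?_ (hπu.mul hun) ?_ hu₀ hu₀' hγ hu ?_
    · rw [Units.val_mul]; exact hπon.mul hh
    · intro l hl s hs
      show π * (π * h * EU (S.E l) s * (π * h)⁻¹) * π⁻¹ ∈ K'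
      have : π * (π * h * EU (S.E l) s * (π * h)⁻¹) * π⁻¹ = h * EU (S.E l) s * h⁻¹ := by
        have e1 : π * π = 1 := by nth_rewrite 1 [← hinv]; exact inv_mul_cancel π
        calc π * (π * h * EU (S.E l) s * (π * h)⁻¹) * π⁻¹ = (π * π) * (h * EU (S.E l) s * h⁻¹) * (π * π)⁻¹ := by group
          _ = _ := by rw [e1, one_mul, inv_one, mul_one]
      rw [this]; exact hroot l hl s hs
    · have : (π * h).1 * S.E i (ut u₀ u₀) * ((π * h)⁻¹).1 = π.1 * (h.1 * S.E i (ut u₀ u₀) * (h⁻¹).1) * (π⁻¹).1 := by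
        rw [_root_.mul_inv_rev, Units.val_mul, Units.val_mul]; simp only [mul_assoc]
      rw [this, hr, mul_smul_comm, smul_mul_assoc, hπc, Equiv.swap_apply_right]
  have h3 : h = π⁻¹ * (π * h) := by group
  rw [h3]
  exact Subgroup.mul_mem _ (Subgroup.inv_mem _ (by rw [hπ]; exact flip_mem_mon hij hi hj)) h2

lemma exists_ip_one {u : Fin k → F} (hu : u ≠ 0) : ∃ x, ip u x = 1 := by
  obtain ⟨m₀, hm₀⟩ := Function.ne_iff.1 hu
  refine ⟨(star (u m₀))⁻¹ • Pi.single m₀ 1, ?_⟩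
  have h1 : star (u m₀) ≠ 0 := fun h0 => hm₀ (by have := congrArg star h0; rwa [star_star, star_zero] at this)
  rw [ip_smul_right, ip, dotProduct_single_one, Pi.star_apply, inv_mul_cancel₀ h1]

/-- the shape of the hermitian matrices of rank one -/
lemma root_shapeU [Fintype T] [Nonempty ι] (hX : CtxU S q) {j : T} {u' φ' : Fin k → F} (hne : S.E j (vecMulVec u' φ') ≠ 0)
    (hst : (S.E j (vecMulVec u' φ'))ᴴ = S.E j (vecMulVec u' φ')) : ∃ (γ : F) (u : Fin k → F), γ ≠ 0 ∧ u ≠ 0 ∧ vecMulVec u' φ' = γ • ut u u := by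
  obtain ⟨w, hw⟩ : ∃ w, w = star φ' := ⟨_, rfl⟩
  have e : vecMulVec u' φ' = ut u' w := by rw [ut, hw, star_star]
  rw [e] at hne hst ⊢
  rw [hX.hE, ut_conjT] at hst
  have hu' : u' ≠ 0 := by rintro rfl; exact hne (by rw [ut_zero_left, map_zero])
  have h1 : ut w u' = ut u' w := E_inj (S := S) hst
  obtain ⟨x, hx⟩ := exists_ip_one hu'
  have h3 := congrArg (fun M => M *ᵥ x) h1
  simp only [ut_mulVec] at h3
  rw [hx, one_smul] at h3
  refine ⟨star (ip w x), u', ?_, hu', ?_⟩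
  · intro h0
    have h4 : ip w x = 0 := by have := congrArg star h0; rwa [star_star, star_zero] at this
    rw [h4, zero_smul] at h3
    exact hne (by rw [h3, ut_zero_right, map_zero])
  · conv_lhs => rw [h3]
    rw [ut_smul_right]

lemma smul_ut_eq (c : F) (u : Fin k → F) : c • ut u u = vecMulVec (c • u) (star u) := by rw [← ut_smul_left]; rfl

lemma dot_star {u : Fin k → F} (hu : ip u u = 0) (c : F) : star u ⬝ᵥ (c • u) = 0 := by
  rw [dotProduct_smul]; show c • ip u u = 0; rw [hu, smul_zero]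

lemma star_ne {u : Fin k → F} (hu : u ≠ 0) : star u ≠ 0 := fun h => hu (by have := congrArg star h; rwa [star_star, star_zero] at this)

/-- from a linear to a unitary root -/
lemma shape_of [Fintype T] [Nonempty ι] (hX : CtxU S q) {h : GL ι F} (hun : Un h) {i : T} {u : Fin k → F} (hu0 : u ≠ 0) {c : F} (hc0 : c ≠ 0) (hc : star c = -c) {j : T} {u' φ' : Fin k → F}
    (hr : h.1 * S.E i (vecMulVec (c • u) (star u)) * (h⁻¹).1 = S.E j (vecMulVec u' φ')) :
    ∃ (γ : F) (u' : Fin k → F), γ ≠ 0 ∧ u' ≠ 0 ∧ h.1 * S.E i (ut u u) * (h⁻¹).1 = γ • S.E j (ut u' u') := by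
  rw [← smul_ut_eq, map_smul, mul_smul_comm, smul_mul_assoc] at hr
  have hr' : h.1 * S.E i (ut u u) * (h⁻¹).1 = S.E j (vecMulVec (c⁻¹ • u') φ') := by
    rw [smul_vecMulVec, map_smul, ← hr, smul_smul, inv_mul_cancel₀ hc0, one_smul]
  have hne : S.E j (vecMulVec (c⁻¹ • u') φ') ≠ 0 := by
    rw [← hr']
    intro h0
    exact ut_ne_zero hu0 hu0 (E_inj (S := S) (i := i) (by rw [conj_eq_zero h h0, map_zero]))
  obtain ⟨γ, w, hγ, hw, hsh⟩ := root_shapeU hX hne (by rw [← hr', hun.conjT_conj, hX.hE, ut_conjT])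
  exact ⟨γ, w, hγ, hw, by rw [hr', hsh, map_smul]⟩

section fus

variable [Fintype T]

/-- fusion for a single root element -/
theorem fusU1 [Nonempty ι] (hX : CtxU S q) (hq : Odd (Fintype.card F) ∨ 4 ≤ k) {h : GL ι F} (hh : S.On J h.1) (hun : Un h)
    {i : T} (hi : i ∈ J) {u : Fin k → F} (hu0 : u ≠ 0) (hu : ip u u = 0) {c : F} (hc0 : c ≠ 0) (hc : star c = -c) {y : GL ι F}
    (hy : y.1 = 1 + h.1 * S.E i (c • ut u u) * (h⁻¹).1) (hyM : y ∈ S.Mon J) :
    ∃ j ∈ J, ∃ (γ : F) (u' : Fin k → F), γ ≠ 0 ∧ u' ≠ 0 ∧ h.1 * S.E i (ut u u) * (h⁻¹).1 = γ • S.E j (ut u' u') := by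
  rw [smul_ut_eq] at hy
  obtain ⟨j, hj, u', φ', hr⟩ := fus_of hX.hk hq hh hi (smul_ne_zero hc0 hu0) (star_ne hu0) (dot_star hu c) hy hyM
  exact ⟨j, hj, shape_of hX hun hu0 hc0 hc hr⟩

/-- fusion for root groups -/
theorem fusU [Nonempty ι] (hX : CtxU S q) {h : GL ι F} (hh : S.On J h.1) (hun : Un h)
    {i : T} (hi : i ∈ J) {u : Fin k → F} (hu0 : u ≠ 0) (hu : ip u u = 0)
    (hM : ∀ c : F, star c = -c → ∀ y : GL ι F, y.1 = 1 + h.1 * S.E i (c • ut u u) * (h⁻¹).1 → y ∈ S.Mon J) :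
    ∃ j ∈ J, ∃ (γ : F) (u' : Fin k → F), γ ≠ 0 ∧ u' ≠ 0 ∧ h.1 * S.E i (ut u u) * (h⁻¹).1 = γ • S.E j (ut u' u') := by
  obtain ⟨c, hc0, hc⟩ := hX.U.exists_skew
  have hex : ∀ c : F, ∃ y : GL ι F, y.1 = 1 + h.1 * S.E i (c • ut u u) * (h⁻¹).1 := fun c =>
    exists_of_sq_zero (sq_conj (E_sq (by rw [smul_mul_smul_comm, ut_sq hu, smul_zero])))
  by_cases hq : Odd (Fintype.card F) ∨ 4 ≤ k
  · obtain ⟨y, hy⟩ := hex c
    exact fusU1 hX hq hh hun hi hu0 hu hc0 hc hy (hM c hc y hy)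
  push Not at hq
  have hk3 : k = 3 := by have := hX.hk; omega
  have h2 : (2 : F) = 0 := by
    by_contra h2
    apply hq.1
    have h3 : ringChar F ≠ 2 := by
      intro h3
      apply h2
      have := ringChar.spec F 2
      have h4 : ((2 : ℕ) : F) = 0 := (ringChar.spec F 2).2 (by rw [h3])
      exact_mod_cast h4
    rw [Nat.odd_iff]
    exact FiniteField.odd_card_of_char_ne_two h3
  have hq3 : 3 ≤ q := by
    rcases hX.hq with h | h
    · exact h
    · omega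
  obtain ⟨t, ht, ht0, ht1⟩ := hX.U.exists_real hq3
  have htc : star (t * c) = -(t * c) := by rw [star_mul', ht, hc, mul_neg]
  have hadd : star (c + t * c) = -(c + t * c) := by rw [star_add, hc, htc]; ring
  have hc1 : c + t * c ≠ 0 := by
    intro h0
    have h3 : (1 + t) * c = 0 := by rw [add_mul, one_mul, h0]
    rcases mul_eq_zero.1 h3 with h4 | h4
    · apply ht1
      have h5 : (1 : F) + 1 = 0 := by rw [one_add_one_eq_two, h2]
      linear_combination h4 - h5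
    · exact hc0 h4
  obtain ⟨y₁, hy₁⟩ := hex c
  obtain ⟨y₂, hy₂⟩ := hex (t * c)
  have hzero : h.1 * S.E i (c • ut u u) * (h⁻¹).1 * (h.1 * S.E i ((t * c) • ut u u) * (h⁻¹).1) = 0 := by
    calc h.1 * S.E i (c • ut u u) * (h⁻¹).1 * (h.1 * S.E i ((t * c) • ut u u) * (h⁻¹).1) =
          h.1 * S.E i (c • ut u u) * ((h⁻¹).1 * h.1) * S.E i ((t * c) • ut u u) * (h⁻¹).1 := by simp only [mul_assoc]
      _ = h.1 * (S.E i (c • ut u u) * S.E i ((t * c) • ut u u)) * (h⁻¹).1 := by rw [inv_mul_val, mul_one]; simp only [mul_assoc]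
      _ = 0 := by rw [← map_mul, smul_mul_smul_comm, ut_sq hu, smul_zero, map_zero, mul_zero, zero_mul]
  have hy₃ : (y₁ * y₂).1 = 1 + h.1 * S.E i ((c + t * c) • ut u u) * (h⁻¹).1 := by
    rw [Units.val_mul, hy₁, hy₂, mul_add, mul_one, add_mul, one_mul, hzero, add_zero, add_smul, map_add, mul_add, add_mul, add_assoc]
  have hsub : ∀ {y : GL ι F} {c : F}, y.1 = 1 + h.1 * S.E i (c • ut u u) * (h⁻¹).1 → y.1 - 1 = h.1 * S.E i (c • ut u u) * (h⁻¹).1 := fun hy => by rw [hy]; abel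
  have hsq : ∀ {y : GL ι F} {c : F}, y.1 = 1 + h.1 * S.E i (c • ut u u) * (h⁻¹).1 → (y.1 - 1) * (y.1 - 1) = 0 := fun hy => by
    rw [hsub hy]
    exact sq_conj (E_sq (by rw [smul_mul_smul_comm, ut_sq hu, smul_zero]))
  set z : Fin k := ⟨0, by omega⟩
  have hrk : ∀ {y : GL ι F} {c : F}, y.1 = 1 + h.1 * S.E i (c • ut u u) * (h⁻¹).1 → (y.1 - 1).rank ≤ (S.E i (single z z 1)).rank := fun hy => by
    rw [hsub hy, rank_conj, smul_ut_eq]; exact rank_vmv_le i z _ _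
  have hon : ∀ {y : GL ι F} {c : F}, y.1 = 1 + h.1 * S.E i (c • ut u u) * (h⁻¹).1 → S.On J y.1 := fun hy => by
    rw [hy]; exact On.one.add ((hh.mul (on_E hi _)).mul (On.inv hh))
  obtain ⟨σ₁, p1, -, -⟩ := perms_of_mon (hM _ hc _ hy₁) (hon hy₁)
  obtain ⟨σ₂, p2, -, -⟩ := perms_of_mon (hM _ htc _ hy₂) (hon hy₂)
  have fin : ∀ {d : F} {y : GL ι F} {σ : Equiv.Perm T}, d ≠ 0 → star d = -d → y.1 = 1 + h.1 * S.E i (d • ut u u) * (h⁻¹).1 → S.Perms y σ → σ = 1 →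
      ∃ j ∈ J, ∃ (γ : F) (u' : Fin k → F), γ ≠ 0 ∧ u' ≠ 0 ∧ h.1 * S.E i (ut u u) * (h⁻¹).1 = γ • S.E j (ut u' u') := by
    intro d y σ hd0 hd hy hp hσ
    rw [smul_ut_eq] at hy
    obtain ⟨j, hj, u', φ', hr⟩ := fus_sigma_one hX.hk hh hi (smul_ne_zero hd0 hu0) (star_ne hu0) (dot_star hu d) hy hp (fun j => by rw [hσ]; rfl)
    exact ⟨j, hj, shape_of hX hun hu0 hd0 hd hr⟩
  rcases three_roots hk3 h2 (hsq hy₁) (hsq hy₂) (hsq hy₃) p1 p2 i z (hrk hy₁) (hrk hy₂) (hrk hy₃) with h3 | h3 | h3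
  · exact fin hc0 hc hy₁ p1 h3
  · exact fin (mul_ne_zero ht0 hc0) htc hy₂ p2 h3
  · exact fin hc1 hadd hy₃ (perms_mul p1 p2) h3

/-- the root elements of the conjugate -/
lemma root_conj_mem [Nonempty ι] (hX : CtxU S q) {h : GL ι F} {i : T} (hroot : ∀ s ∈ SUg k F, h * EU (S.E i) s * h⁻¹ ∈ K') {u : Fin k → F} (hu : ip u u = 0)
    {c : F} (hc : star c = -c) {y : GL ι F} (hy : y.1 = 1 + h.1 * S.E i (c • ut u u) * (h⁻¹).1) : y ∈ K' := by
  obtain ⟨s, hs, hs1⟩ := exists_tv hX.U hu hc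
  have : y = h * EU (S.E i) s * h⁻¹ := Units.ext (by
    rw [hy, Units.val_mul, Units.val_mul, EU_val, hs1, map_add, map_one, mul_add, mul_one, add_mul, mul_inv_val])
  rw [this]; exact hroot s hs

/-- root groups act freely on cosets, weak version -/
lemma hfree_ofU [Nonempty ι] (hX : CtxU S q) (IH : ∀ i ∈ J, S.ClaimU (J.erase i)) (hG : S.GoodU J K') {i : T} (hi : i ∈ J) {u : Fin k → F} (hu0 : u ≠ 0) (hu : ip u u = 0)
    {g : GL ι F} (hg : g ∈ K') (hM : ∀ (c : F), star c = -c → ∀ x : GL ι F, x.1 = 1 + S.E i (c • ut u u) → g⁻¹ * x * g ∈ S.Mon J) : g ∈ S.Mon J := by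
  have hg' : g⁻¹ ∈ K' := K'.inv_mem hg
  obtain ⟨j, hj, γ, u', hγ, hu', hr⟩ := fusU hX (hG.on _ hg') (hG.un _ hg') hi hu0 hu (fun c hc y hy => by
    have h1 := hM c hc (g * y * g⁻¹) (by
      rw [Units.val_mul, Units.val_mul, hy, mul_add, mul_one, add_mul, mul_inv_val, inv_inv]
      congr 1
      calc g.1 * ((g⁻¹).1 * S.E i (c • ut u u) * g.1) * (g⁻¹).1 = (g.1 * (g⁻¹).1) * S.E i (c • ut u u) * (g.1 * (g⁻¹).1) := by simp only [mul_assoc]
        _ = _ := by rw [mul_inv_val, one_mul, mul_one])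
    have h2 : g⁻¹ * (g * y * g⁻¹) * g = y := by group
    rwa [h2] at h1)
  have := block_stepU hX IH hG (hG.on _ hg') (hG.un _ hg') (fun i hi s hs => K'.mul_mem (K'.mul_mem hg' (hG.root i hi s hs)) (K'.inv_mem hg')) hi hj hu0 hu hγ hu' hr
  rw [← inv_inv g]
  exact Subgroup.inv_mem _ this

/-- root groups act freely on cosets, strong version -/
lemma hfree_ofU1 [Nonempty ι] (hX : CtxU S q) (hq : Odd (Fintype.card F) ∨ 4 ≤ k) (IH : ∀ i ∈ J, S.ClaimU (J.erase i)) (hG : S.GoodU J K') {i : T} (hi : i ∈ J) {u : Fin k → F}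
    (hu0 : u ≠ 0) (hu : ip u u = 0) {c : F} (hc0 : c ≠ 0) (hc : star c = -c) {x : GL ι F} (hx : x.1 = 1 + S.E i (c • ut u u))
    {g : GL ι F} (hg : g ∈ K') (hgx : g⁻¹ * x * g ∈ S.Mon J) : g ∈ S.Mon J := by
  have hg' : g⁻¹ ∈ K' := K'.inv_mem hg
  have hy : (g⁻¹ * x * g).1 = 1 + (g⁻¹).1 * S.E i (c • ut u u) * ((g⁻¹)⁻¹).1 := by
    rw [Units.val_mul, Units.val_mul, hx, mul_add, mul_one, add_mul, inv_mul_val, inv_inv]
  obtain ⟨j, hj, γ, u', hγ, hu', hr⟩ := fusU1 hX hq (hG.on _ hg') (hG.un _ hg') hi hu0 hu hc0 hc hy hgx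
  have := block_stepU hX IH hG (hG.on _ hg') (hG.un _ hg') (fun i hi s hs => K'.mul_mem (K'.mul_mem hg' (hG.root i hi s hs)) (K'.inv_mem hg')) hi hj hu0 hu hγ hu' hr
  rw [← inv_inv g]
  exact Subgroup.inv_mem _ this

/-- **The inductive step** -/
theorem claim_of_monU [Nonempty ι] (hX : CtxU S q) (J : Finset T) (IH : ∀ i ∈ J, S.ClaimU (J.erase i))
    (hM : ∀ K' : Subgroup (GL ι F), S.GoodU J K' → J.Nonempty → ∀ g ∈ K', g ∈ S.Mon J) : S.ClaimU J := by
  intro K' hG h hh hun hroot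
  by_cases hJ : J.Nonempty
  swap
  · rw [Finset.not_nonempty_iff_eq_empty] at hJ
    subst hJ
    exact ⟨1, fun i => Iff.rfl, fun i hi => absurd hi (Finset.notMem_empty i)⟩
  have hK'M := hM K' hG hJ
  obtain ⟨i, hi⟩ := hJ
  obtain ⟨u, hu0, hu⟩ := exists_iso hX.U (by have := hX.hk; omega : 2 ≤ k) (F := F)
  obtain ⟨j, hj, γ, u', hγ, hu', hr⟩ := fusU hX hh hun hi hu0 hu (fun c hc y hy => hK'M _ (root_conj_mem hX (hroot i hi) hu hc hy))
  exact block_stepU hX IH hG hh hun hroot hi hj hu0 hu hγ hu' hr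

end fus

end Sys

end Cfsg.Agent.Asch.CW
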