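import Mathlib
import Cfsg.Prelude.Def_GeometricClasses
import Cfsg.Agent.Asch.UNInd
import Cfsg.Agent.Asch.EVTr
set_option autoImplicit false
set_option linter.unusedSectionVars false
set_option linter.unusedVariables false
set_option linter.unusedSimpArgs false
set_option linter.style.haveILetI false

/-!
The relative trace argument, unitary case.
-/

namespace Cfsg.Agent.Asch.CW

open Matrix Module

open scoped Matrix

section abstract

variable {G : Type*} [Group G] {A : Type*} [AddCommGroup A] {N X : Subgroup G}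

open scoped Classical in
theorem sum_quotient_eq2 [Finite G] {p : ℕ} [Fact p.Prime] {h : G ⧸ N → A} {act : G → A → A}
    (hX : ∀ x ∈ X, ∀ c : G ⧸ N, h (x • c) = act x (h c))
    (hfree : ∀ g : G, (∀ x ∈ X, g⁻¹ * x * g ∈ N) → g ∈ N)
    (hpart : ∀ x ∈ X, x ≠ 1 → ∀ a, act x a = a → ∀ y ∈ X, act y a = a)
    (hXp : IsPGroup p X) (hp : ∀ a : A, p • a = 0)
    (hXN : X ≤ N)
    (hkill : ∀ a : A, ∑ᶠ x : X, act x a = 0) :
    ∑ᶠ c : G ⧸ N, h c = h ((1 : G) : G ⧸ N) := by
  haveI : Fintype G := Fintype.ofFinite G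
  haveI : Fintype (G ⧸ N) := Fintype.ofFinite _
  haveI : Fintype X := Fintype.ofFinite _
  rw [finsum_eq_sum_of_fintype, ← Finset.add_sum_erase Finset.univ h (Finset.mem_univ ((1 : G) : G ⧸ N))]
  rw [add_eq_left]
  let π : G ⧸ N → Quotient (MulAction.orbitRel X (G ⧸ N)) := Quotient.mk _
  haveI : Fintype (Quotient (MulAction.orbitRel X (G ⧸ N))) := Fintype.ofFinite _
  rw [← Finset.sum_fiberwise_of_maps_to (g := π) (t := Finset.univ) (fun _ _ => Finset.mem_univ _)]
  apply Finset.sum_eq_zero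
  intro ω _
  by_cases hne : ((Finset.univ.erase ((1 : G) : G ⧸ N)).filter (fun c => π c = ω)).Nonempty
  swap
  · rw [Finset.not_nonempty_iff_eq_empty] at hne
    rw [hne, Finset.sum_empty]
  obtain ⟨c₀, hc₀⟩ := hne
  rw [Finset.mem_filter, Finset.mem_erase] at hc₀
  obtain ⟨⟨hc1, -⟩, hc2⟩ := hc₀
  have hset : (Finset.univ.erase ((1 : G) : G ⧸ N)).filter (fun c => π c = ω) = Finset.univ.image (fun x : X => x • c₀) := by
    ext c
    rw [Finset.mem_filter, Finset.mem_erase, Finset.mem_image]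
    constructor
    · rintro ⟨⟨hc, -⟩, hc'⟩
      rw [← hc2] at hc'
      have h1 : (MulAction.orbitRel X (G ⧸ N)) c c₀ := Quotient.exact hc'
      obtain ⟨x, hx⟩ := (MulAction.orbitRel_apply.1 h1)
      exact ⟨x, Finset.mem_univ _, hx⟩
    · rintro ⟨x, -, rfl⟩
      refine ⟨⟨?_, Finset.mem_univ _⟩, ?_⟩
      · intro h1
        apply hc1
        have h2 : c₀ = x⁻¹ • ((1 : G) : G ⧸ N) := by rw [← h1, inv_smul_smul]
        rw [h2]
        have h3 : (x⁻¹ • ((1 : G) : G ⧸ N) : G ⧸ N) = (((x⁻¹ : X) : G) * 1 : G) := rfl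
        rw [h3, mul_one, eq_comm, QuotientGroup.eq, inv_one, one_mul]
        exact hXN (x⁻¹).2
      · rw [← hc2]
        apply Quotient.sound
        show (MulAction.orbitRel X (G ⧸ N)) _ _
        rw [MulAction.orbitRel_apply]
        exact ⟨x, rfl⟩
  rw [hset]
  by_cases hfr : ∀ x : X, x • c₀ = c₀ → x = 1
  · rw [Finset.sum_image]
    · have h1 : ∀ x : X, h (x • c₀) = act x (h c₀) := fun x => hX x x.2 c₀
      simp only [h1]
      rw [← finsum_eq_sum_of_fintype]
      exact hkill _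
    · intro x _ y _ hxy
      have h1 : (y⁻¹ * x) • c₀ = c₀ := by
        have hxy' : x • c₀ = y • c₀ := hxy
        rw [mul_smul, hxy', inv_smul_smul]
      have := hfr _ h1
      exact (inv_mul_eq_one.1 this).symm
  · push Not at hfr
    obtain ⟨x, hx, hx1⟩ := hfr
    have h1 : act x (h c₀) = h c₀ := by
      rw [← hX x x.2 c₀]
      exact congrArg h hx
    have h2 : ∀ y : X, h (y • c₀) = h c₀ := fun y => by
      have := hX y y.2 c₀
      rw [hpart x x.2 (fun h => hx1 (Subtype.ext h)) _ h1 y y.2] at this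
      exact this
    have h3 : ∀ c ∈ Finset.univ.image (fun x : X => x • c₀), h c = h c₀ := by
      intro c hc
      obtain ⟨y, -, rfl⟩ := Finset.mem_image.1 hc
      exact h2 y
    rw [Finset.sum_congr rfl h3, Finset.sum_const]
    have hcard : (Finset.univ.image (fun x : X => x • c₀)).card = Nat.card (MulAction.orbit X c₀) := by
      have h4 : MulAction.orbit X c₀ = ((Finset.univ.image (fun x : X => x • c₀) : Finset (G ⧸ N)) : Set (G ⧸ N)) := by
        ext c
        rw [Finset.mem_coe, Finset.mem_image, MulAction.mem_orbit_iff]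
        exact ⟨fun ⟨y, hy⟩ => ⟨y, Finset.mem_univ _, hy⟩, fun ⟨y, _, hy⟩ => ⟨y, hy⟩⟩
      rw [h4, Nat.card_coe_set_eq, Set.ncard_coe_finset]
    obtain ⟨n, hn⟩ := hXp.card_orbit c₀
    rw [hcard, hn]
    rcases Nat.eq_zero_or_pos n with h0 | h0
    · exfalso
      rw [h0, pow_zero, ← hcard, Finset.card_eq_one] at hn
      obtain ⟨d, hd⟩ := hn
      have h5 : ∀ y : X, y • c₀ = c₀ := by
        intro y
        have e1 : y • c₀ ∈ Finset.univ.image (fun x : X => x • c₀) := Finset.mem_image_of_mem _ (Finset.mem_univ _)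
        have e2 : (1 : X) • c₀ ∈ Finset.univ.image (fun x : X => x • c₀) := Finset.mem_image_of_mem _ (Finset.mem_univ _)
        rw [hd, Finset.mem_singleton] at e1 e2
        rw [one_smul] at e2
        rw [e1, e2]
      obtain ⟨g, rfl⟩ := QuotientGroup.mk_surjective c₀
      apply hc1
      rw [eq_comm, QuotientGroup.eq, inv_one, one_mul]
      apply hfree
      intro y hy
      have h6 : ((y * g : G) : G ⧸ N) = ((⟨y, hy⟩ : X) • (g : G ⧸ N) : G ⧸ N) := rfl
      have h7 := h6.trans (h5 ⟨y, hy⟩)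
      rw [eq_comm, QuotientGroup.eq] at h7
      rwa [mul_assoc]
    · obtain ⟨m, rfl⟩ : ∃ m, n = m + 1 := ⟨n - 1, by omega⟩
      rw [pow_succ, mul_nsmul, hp]

end abstract

section sums

variable {F : Type*} [Field F] [Fintype F] [StarRing F] {q : ℕ} (U : UF F q)

include U

lemma UF.exists_real4 (hq : 4 ≤ q) : ∃ t : F, star t = t ∧ t ≠ 0 ∧ t * t ≠ 1 := by
  classical
  by_contra hcon
  push Not at hcon
  have h1 := Uni.card_fixed (F := F) U.card
  rw [Nat.card_eq_fintype_card, Fintype.card_subtype] at h1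
  have h2 : Finset.univ.filter (fun c : F => c ^ q = c) ⊆ {0, 1, -1} := by
    intro c hc
    rw [Finset.mem_filter] at hc
    simp only [Finset.mem_insert, Finset.mem_singleton]
    by_cases hc0 : c = 0
    · left; exact hc0
    · have h3 := hcon c (by rw [U.st, hc.2]) hc0
      have h4 : (c - 1) * (c + 1) = 0 := by linear_combination h3
      rcases mul_eq_zero.1 h4 with h5 | h5
      · right; left; linear_combination h5
      · right; right; linear_combination h5
  have h3 := Finset.card_le_card h2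
  rw [h1] at h3
  have h4 : ({0, 1, -1} : Finset F).card ≤ 3 := Finset.card_le_three
  omega

/-- sums over the skew elements -/
lemma UF.sum_skew [Fintype {c : F // star c = -c}] : ∑ c : {c : F // star c = -c}, (1 : F) = 0 := by
  classical
  obtain ⟨s, hs0, hs⟩ := U.exists_skew
  let e : {c : F // star c = -c} ≃ {c : F // star c = -c} :=
    { toFun := fun c => ⟨c.1 + s, by rw [star_add, c.2, hs]; ring⟩
      invFun := fun c => ⟨c.1 - s, by rw [star_sub, c.2, hs]; ring⟩
      left_inv := fun c => Subtype.ext (by simp)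
      right_inv := fun c => Subtype.ext (by simp) }
  have h1 : ∑ c : {c : F // star c = -c}, (c.1 + s) = ∑ c : {c : F // star c = -c}, c.1 := Equiv.sum_comp e fun c => c.1
  rw [Finset.sum_add_distrib, add_eq_left] at h1
  have h2 : ∑ c : {c : F // star c = -c}, s = (∑ c : {c : F // star c = -c}, (1 : F)) * s := by rw [Finset.sum_mul]; simp
  rw [h2] at h1
  exact (mul_eq_zero.1 h1).resolve_right hs0

lemma UF.sum_skew1 [Fintype {c : F // star c = -c}] (hq : 3 ≤ q) : ∑ c : {c : F // star c = -c}, c.1 = 0 := by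
  classical
  obtain ⟨t, ht, ht0, ht1⟩ := U.exists_real hq
  let e : {c : F // star c = -c} ≃ {c : F // star c = -c} :=
    { toFun := fun c => ⟨t * c.1, by rw [star_mul', c.2, ht]; ring⟩
      invFun := fun c => ⟨t⁻¹ * c.1, by rw [star_mul', c.2, star_inv₀, ht]; ring⟩
      left_inv := fun c => Subtype.ext (by simp [← mul_assoc, inv_mul_cancel₀ ht0])
      right_inv := fun c => Subtype.ext (by simp [← mul_assoc, mul_inv_cancel₀ ht0]) }
  have h1 : ∑ c : {c : F // star c = -c}, (t * c.1) = ∑ c : {c : F // star c = -c}, c.1 := Equiv.sum_comp e fun c => c.1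
  rw [← Finset.mul_sum] at h1
  have h2 : (t - 1) * ∑ c : {c : F // star c = -c}, c.1 = 0 := by rw [sub_mul, h1, one_mul, sub_self]
  exact (mul_eq_zero.1 h2).resolve_left (sub_ne_zero.2 ht1)

lemma UF.sum_skew2 [Fintype {c : F // star c = -c}] (hq : 4 ≤ q) : ∑ c : {c : F // star c = -c}, c.1 * c.1 = 0 := by
  classical
  obtain ⟨t, ht, ht0, ht1⟩ := U.exists_real4 hq
  let e : {c : F // star c = -c} ≃ {c : F // star c = -c} :=
    { toFun := fun c => ⟨t * c.1, by rw [star_mul', c.2, ht]; ring⟩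
      invFun := fun c => ⟨t⁻¹ * c.1, by rw [star_mul', c.2, star_inv₀, ht]; ring⟩
      left_inv := fun c => Subtype.ext (by simp [← mul_assoc, inv_mul_cancel₀ ht0])
      right_inv := fun c => Subtype.ext (by simp [← mul_assoc, mul_inv_cancel₀ ht0]) }
  have h1 : ∑ c : {c : F // star c = -c}, (t * c.1) * (t * c.1) = ∑ c : {c : F // star c = -c}, c.1 * c.1 := Equiv.sum_comp e fun c => c.1 * c.1
  have h3 : ∀ c : {c : F // star c = -c}, (t * c.1) * (t * c.1) = (t * t) * (c.1 * c.1) := fun c => by ring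
  simp only [h3] at h1
  rw [← Finset.mul_sum] at h1
  have h2 : (t * t - 1) * ∑ c : {c : F // star c = -c}, c.1 * c.1 = 0 := by rw [sub_mul, h1, one_mul, sub_self]
  exact (mul_eq_zero.1 h2).resolve_left (sub_ne_zero.2 ht1)

end sums

section rg

variable {k : ℕ} {ι : Type} [Fintype ι] [DecidableEq ι] {F : Type*} [Field F] [Fintype F] [StarRing F] {q : ℕ} (U : UF F q)
  {E : Matrix (Fin k) (Fin k) F →ₐ[F] Matrix ι ι F}

/-- the root groups -/
def RGU (E : Matrix (Fin k) (Fin k) F →ₐ[F] Matrix ι ι F) (u : Fin k → F) (hu : ip u u = 0) : Subgroup (GL ι F) where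
  carrier := {x | ∃ c : F, star c = -c ∧ x.1 = 1 + E (c • ut u u)}
  mul_mem' := by
    rintro x y ⟨c, hc, hx⟩ ⟨d, hd, hy⟩
    refine ⟨c + d, by rw [star_add, hc, hd]; ring, ?_⟩
    have h0 : E (c • ut u u) * E (d • ut u u) = 0 := by rw [← map_mul, smul_mul_smul_comm, ut_sq hu, smul_zero, map_zero]
    rw [Units.val_mul, hx, hy, mul_add, mul_one, add_mul, one_mul, h0, add_zero, add_smul, map_add, add_assoc]
  one_mem' := ⟨0, by rw [star_zero, neg_zero], by rw [zero_smul, map_zero, add_zero, Units.val_one]⟩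
  inv_mem' := by
    rintro x ⟨c, hc, hx⟩
    refine ⟨-c, by rw [star_neg, hc], ?_⟩
    have h0 : E (c • ut u u) * E (c • ut u u) = 0 := by rw [← map_mul, smul_mul_smul_comm, ut_sq hu, smul_zero, map_zero]
    rw [Mem1.inv_eq hx h0, neg_smul, map_neg, sub_eq_add_neg]

lemma rgu_sq {u : Fin k → F} (hu : ip u u = 0) (c : F) : E (c • ut u u) * E (c • ut u u) = 0 := by
  rw [← map_mul, smul_mul_smul_comm, ut_sq hu, smul_zero, map_zero]

include U in
lemma rgu_kill [Nonempty ι] {u : Fin k → F} (hu0 : u ≠ 0) (hu : ip u u = 0) (hq : 4 ≤ q) (K : Subgroup (GL ι F)) (hK : RGU E u hu ≤ K) (a : Matrix ι ι F) :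
    ∑ᶠ x : (RGU E u hu).subgroupOf K, Sys.cj (x : K).1 a = 0 := by
  classical
  have hex : ∀ c : {c : F // star c = -c}, ∃ x : GL ι F, x.1 = 1 + E (c.1 • ut u u) := fun c => exists_of_sq_zero (rgu_sq hu c.1)
  choose y hy using hex
  have hyX : ∀ c, y c ∈ RGU E u hu := fun c => ⟨c.1, c.2, hy c⟩
  let e : {c : F // star c = -c} → (RGU E u hu).subgroupOf K := fun c => ⟨⟨y c, hK (hyX c)⟩, Subgroup.mem_subgroupOf.2 (hyX c)⟩
  have he : Function.Bijective e := by
    constructor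
    · intro c c' h
      have h1 : y c = y c' := congrArg (fun x : (RGU E u hu).subgroupOf K => (x : K).1) h
      have h2 := hy c
      rw [h1, hy c', add_right_inj] at h2
      have h3 := E_inj' h2
      have h4 : (c'.1 - c.1) • ut u u = 0 := by rw [sub_smul, h3, sub_self]
      exact (Subtype.ext (sub_eq_zero.1 ((smul_eq_zero.1 h4).resolve_right (ut_ne_zero hu0 hu0)))).symm
    · rintro ⟨⟨x, hxK⟩, hx⟩
      obtain ⟨c, hc, hxc⟩ := Subgroup.mem_subgroupOf.1 hx
      refine ⟨⟨c, hc⟩, Subtype.ext (Subtype.ext (Units.ext ?_))⟩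
      show (y ⟨c, hc⟩).1 = x.1
      rw [hy]; exact hxc.symm
  have h1 := finsum_eq_of_bijective (f := fun c : {c : F // star c = -c} => Sys.cj (y c) a) (g := fun x : (RGU E u hu).subgroupOf K => Sys.cj (x : K).1 a)
    e he (fun c => rfl)
  rw [← h1, finsum_eq_sum_of_fintype]
  have h2 : ∀ c : {c : F // star c = -c}, Sys.cj (y c) a = (1 : F) • a + c.1 • (E (ut u u) * a - a * E (ut u u)) - (c.1 * c.1) • (E (ut u u) * a * E (ut u u)) := by
    intro c
    rw [Sys.cj, Mem1.inv_eq (hy c) (rgu_sq hu c.1), hy, map_smul]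
    simp only [add_mul, mul_sub, one_mul, mul_one, smul_mul_assoc, mul_smul_comm, smul_smul, smul_add, smul_sub]
    module
  simp only [h2]
  rw [Finset.sum_sub_distrib, Finset.sum_add_distrib, ← Finset.sum_smul, ← Finset.sum_smul, ← Finset.sum_smul, U.sum_skew, U.sum_skew1 (by omega), U.sum_skew2 hq,
    zero_smul, zero_smul, zero_smul, add_zero, sub_zero]

lemma heis_mul {u m m' : Fin k → F} (hu : ip u u = 0) (hum : ip u m = 0) (hum' : ip u m' = 0) (c c' : F) :
    (ut m u - ut u m + c • ut u u) * (ut m' u - ut u m' + c' • ut u u) = -(ip m m') • ut u u := by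
  have hmu := ip_zero_comm hum
  simp only [add_mul, mul_add, sub_mul, mul_sub, smul_mul_assoc, mul_smul_comm, ut_mul, hu, hum, hum', hmu, zero_smul, smul_zero, sub_zero, zero_sub, add_zero, zero_add, neg_smul]

include U in
/-- a submodule containing all hermitian matrices of rank one is everything -/
lemma mem_of_all {N : Submodule F (Matrix (Fin k) (Fin k) F)} (hN : ∀ v, ut v v ∈ N) (a : Matrix (Fin k) (Fin k) F) : a ∈ N := by
  obtain ⟨l, hl⟩ := U.exists_ne
  have h1 : ∀ v w, ut v w ∈ N := by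
    intro v w
    have h2 : ∀ c : F, star c • ut v w + c • ut w v ∈ N := by
      intro c
      have h3 := N.sub_mem (N.sub_mem (hN (v + c • w)) (hN v)) (N.smul_mem (c * star c) (hN w))
      have h4 : ut (v + c • w) (v + c • w) - ut v v - (c * star c) • ut w w = star c • ut v w + c • ut w v := by
        simp only [ut_add_left, ut_add_right, ut_smul_left, ut_smul_right]; module
      rwa [h4] at h3
    have h3 := h2 1
    rw [star_one, one_smul, one_smul] at h3
    have h4 := N.sub_mem (h2 l) (N.smul_mem l h3)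
    have h5 : star l • ut v w + l • ut w v - l • (ut v w + ut w v) = (star l - l) • ut v w := by module
    rw [h5] at h4
    have h6 := N.smul_mem (star l - l)⁻¹ h4
    rwa [smul_smul, inv_mul_cancel₀ (sub_ne_zero.2 hl), one_smul] at h6
  rw [matrix_eq_sum_single a]
  refine N.sum_mem fun i _ => N.sum_mem fun j _ => ?_
  have h3 : single i j (a i j) = a i j • ut (Pi.single i 1) (Pi.single j 1) := by
    rw [ut, ← Pi.single_star, star_one, ← single_eq_vmv, smul_single, smul_eq_mul, mul_one]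
  rw [h3]
  exact N.smul_mem _ (h1 _ _)

end rg

namespace Sys

variable {k : ℕ} {T ι : Type} [DecidableEq T] [Fintype ι] [DecidableEq ι] {F : Type*} [Field F] [Fintype F] [StarRing F] {q : ℕ} {S : Sys k T ι F} {J : Finset T}
  {τ : Matrix ι ι F →ₗ[F] F} {K K' : Subgroup (GL ι F)}

open scoped Classical in
theorem FK_eq_pr2 {p : ℕ} [Fact p.Prime] [CharP F p] (hτ : ∀ Z Z', S.On J Z → S.On J Z' → τ (Z * Z') = τ (Z' * Z)) (hK : ∀ g ∈ K, S.On J g.1)
    {X : Subgroup (GL ι F)} (hXK : X ≤ K) (hXM : X ≤ S.Mon J)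
    (hfree : ∀ g ∈ K, (∀ x ∈ X, g⁻¹ * x * g ∈ S.Mon J) → g ∈ S.Mon J)
    (hpart : ∀ x ∈ X, x ≠ 1 → ∀ a : Matrix ι ι F, cj x a = a → ∀ y ∈ X, cj y a = a)
    (hXp : IsPGroup p (X.subgroupOf K))
    (hkill : ∀ a : Matrix ι ι F, ∑ᶠ x : X.subgroupOf K, cj (x : K).1 a = 0)
    {Z : Matrix ι ι F} (hZ : S.On J Z) (hZX : ∀ x ∈ X, cj x Z = Z) : S.FK τ J K Z = S.pr τ J Z := by
  haveI : Finite K := inferInstance
  have h := sum_quotient_eq2 (G := K) (N := (S.Mon J).subgroupOf K) (X := X.subgroupOf K) (p := p) (h := S.hfun τ J K Z)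
    (act := fun x a => cj x.1 a) (by
      intro x hx c
      have h1 := hfun_smul hτ hK hZ x c
      rw [hZX _ (Subgroup.mem_subgroupOf.1 hx)] at h1
      exact h1)
    (by
      intro g hg
      refine Subgroup.mem_subgroupOf.2 (hfree g.1 g.2 fun x hx => ?_)
      exact Subgroup.mem_subgroupOf.1 (hg ⟨x, hXK hx⟩ (Subgroup.mem_subgroupOf.2 hx)))
    (by
      intro x hx hx1 a ha y hy
      exact hpart x.1 (Subgroup.mem_subgroupOf.1 hx) (fun h => hx1 (Subtype.ext h)) a ha y.1 (Subgroup.mem_subgroupOf.1 hy))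
    hXp (fun a => by rw [← Nat.cast_smul_eq_nsmul F, CharP.cast_eq_zero, zero_smul])
    (fun x hx => Subgroup.mem_subgroupOf.2 (hXM (Subgroup.mem_subgroupOf.1 hx)))
    hkill
  rw [FK, h, hfun_mk hτ hK hZ]
  rw [Subgroup.coe_one, inv_one, cj_one, cj_one]

section fix

variable [Fintype T]

/-- the fields with `4 ≤ q` -/
theorem hfixA [Nonempty ι] (hX : CtxU S q) (hq4 : 4 ≤ q) (IH : ∀ i ∈ J, S.ClaimU (J.erase i)) (hG : S.GoodU J K')
    (hτ : ∀ Z Z', S.On J Z → S.On J Z' → τ (Z * Z') = τ (Z' * Z)) :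
    ∀ i ∈ J, ∀ u : Fin k → F, ip u u = 0 → ∀ b, Cmt (S.E i) b → S.On J b → S.FK τ J K' (S.E i (ut u u) * b) = S.pr τ J (S.E i (ut u u) * b) := by
  intro i hi u hu b hb hbJ
  by_cases hu0 : u = 0
  · rw [hu0, ut_zero_left, map_zero, zero_mul, FK_zero, pr_zero]
  obtain ⟨p, f, hp, hcp, hf, hqp⟩ := Uni.q_prime_pow hX.U.card (F := F)
  haveI : Fact p.Prime := ⟨hp⟩
  haveI := hcp
  have hXK : RGU (S.E i) u hu ≤ K' := by
    rintro x ⟨c, hc, hx⟩
    obtain ⟨s, hs, hs1⟩ := exists_tv hX.U hu hc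
    have : x = EU (S.E i) s := Units.ext (by rw [hx, EU_val, hs1, map_add, map_one])
    rw [this]; exact hG.root i hi s hs
  apply FK_eq_pr2 (p := p) hτ hG.on hXK
  · rintro x ⟨c, hc, hx⟩
    obtain ⟨s, hs, hs1⟩ := exists_tv hX.U hu hc
    have : x = EU (S.E i) s := Units.ext (by rw [hx, EU_val, hs1, map_add, map_one])
    rw [this]; exact EU_mem_mon i s
  · intro g hg hgM
    exact hfree_ofU hX IH hG hi hu0 hu hg fun c hc x hx => hgM x ⟨c, hc, hx⟩
  · rintro x ⟨c, hc, hx⟩ hx1 a ha y ⟨d, hd, hy⟩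
    have hc0 : c ≠ 0 := by
      rintro rfl
      apply hx1
      apply Units.ext
      rw [hx, zero_smul, map_zero, add_zero, Units.val_one]
    have h1 : x.1 * a = a * x.1 := by
      have h2 : x.1 * a * (x⁻¹).1 * x.1 = a * x.1 := congrArg (fun M => M * x.1) ha
      rwa [mul_assoc, inv_mul_val, mul_one] at h2
    rw [hx, add_mul, mul_add, one_mul, mul_one, map_smul, smul_mul_assoc, mul_smul_comm] at h1
    have h2 : c • (S.E i (ut u u) * a - a * S.E i (ut u u)) = 0 := by
      rw [smul_sub, sub_eq_zero]; exact add_left_cancel h1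
    have h3 := sub_eq_zero.1 ((smul_eq_zero.1 h2).resolve_left hc0)
    apply cj_eq_self
    rw [hy, add_mul, mul_add, one_mul, mul_one, map_smul, smul_mul_assoc, mul_smul_comm, h3]
  · rintro ⟨⟨x, hxK⟩, hx⟩
    obtain ⟨c, hc, hxc⟩ := Subgroup.mem_subgroupOf.1 hx
    refine ⟨1, Subtype.ext (Subtype.ext (Units.ext ?_))⟩
    show (x ^ p ^ 1).1 = 1
    rw [pow_one, Units.val_pow_eq_pow_val]
    have hxc' : x.1 = 1 + S.E i (c • ut u u) := hxc
    have h1 : (x.1 - 1) * (x.1 - 1) = 0 := by rw [hxc', add_sub_cancel_left]; exact rgu_sq hu c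
    rw [pow_eq_of_sq_zero h1, CharP.cast_eq_zero, zero_smul, add_zero]
  · intro a
    exact rgu_kill hX.U hu0 hu hq4 K' hXK a
  · exact (on_E hi _).mul hbJ
  · rintro x ⟨c, hc, hx⟩
    apply cj_eq_self
    rw [hx, add_mul, mul_add, one_mul, mul_one]
    congr 1
    rw [E_mul_A', E_A_mul hb, smul_mul_assoc, mul_smul_comm]

/-- the field with nine elements -/
theorem hfixB [Nonempty ι] (hX : CtxU S q) (hq3 : q = 3) (IH : ∀ i ∈ J, S.ClaimU (J.erase i)) (hG : S.GoodU J K')
    (hτ : ∀ Z Z', S.On J Z → S.On J Z' → τ (Z * Z') = τ (Z' * Z)) :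
    ∀ i ∈ J, ∀ u : Fin k → F, ip u u = 0 → ∀ b, Cmt (S.E i) b → S.On J b → S.FK τ J K' (S.E i (ut u u) * b) = S.pr τ J (S.E i (ut u u) * b) := by
  intro i hi u hu b hb hbJ
  by_cases hu0 : u = 0
  · rw [hu0, ut_zero_left, map_zero, zero_mul, FK_zero, pr_zero]
  obtain ⟨p, f, hp, hcp, hf, hqp⟩ := Uni.q_prime_pow hX.U.card (F := F)
  have h3 : (3 : F) = 0 := by
    have hp3 : p ∣ 3 := by rw [← hq3, hqp]; exact dvd_pow_self p hf.ne'
    have hp3' : p = 3 := (Nat.prime_dvd_prime_iff_eq hp Nat.prime_three).1 hp3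
    haveI := hcp
    have := CharP.cast_eq_zero F p
    rw [hp3'] at this
    exact_mod_cast this
  have hodd : Odd (Fintype.card F) := by rw [hX.U.card, hq3]; decide
  obtain ⟨v, hv, huv⟩ := exists_hypU hX.U hu0 hu
  obtain ⟨m, hm, hum, hvm⟩ := exists_unitU hX.U hX.hk hu hv huv
  obtain ⟨l, hl⟩ := hX.U.exists_ne
  have huml : ip u (l • m) = 0 := by rw [ip_smul_right, hum, mul_zero]
  obtain ⟨c, hc⟩ := hX.U.exists_tr (t := -ip m m) (by rw [star_neg, ip_star])
  obtain ⟨c', hc'⟩ := hX.U.exists_tr (t := -ip (l • m) (l • m)) (by rw [star_neg, ip_star])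
  obtain ⟨s₁, hs₁, e₁⟩ := exists_heis hX.U hu hum hc
  obtain ⟨s₂, hs₂, e₂⟩ := exists_heis hX.U hu huml hc'
  have hd : star (star l - l) = -(star l - l) := by rw [star_sub, star_star]; ring
  obtain ⟨s₀, hs₀, e₀⟩ := exists_tv hX.U hu hd
  have hd0 : star l - l ≠ 0 := sub_ne_zero.2 hl
  obtain ⟨n₁, hn₁⟩ : ∃ n₁, n₁ = ut m u - ut u m + c • ut u u := ⟨_, rfl⟩
  obtain ⟨n₂, hn₂⟩ : ∃ n₂, n₂ = ut (l • m) u - ut u (l • m) + c' • ut u u := ⟨_, rfl⟩
  rw [← hn₁] at e₁
  rw [← hn₂] at e₂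
  have m11 : n₁ * n₁ = -(ip m m) • ut u u := by rw [hn₁]; exact heis_mul hu hum hum c c
  have m12 : n₁ * n₂ = -(ip m (l • m)) • ut u u := by rw [hn₁, hn₂]; exact heis_mul hu hum huml c c'
  have m21 : n₂ * n₁ = -(ip (l • m) m) • ut u u := by rw [hn₁, hn₂]; exact heis_mul hu huml hum c' c
  have m22 : n₂ * n₂ = -(ip (l • m) (l • m)) • ut u u := by rw [hn₂]; exact heis_mul hu huml huml c' c'
  have hun : ∀ (c : F) (m : Fin k → F), ip u m = 0 → ut u u * (ut m u - ut u m + c • ut u u) = 0 := fun c m hum => by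
    simp only [mul_add, mul_sub, mul_smul_comm, ut_mul, hu, hum, zero_smul, smul_zero, sub_zero, add_zero]
  have hnu : ∀ (c : F) (m : Fin k → F), ip u m = 0 → (ut m u - ut u m + c • ut u u) * ut u u = 0 := fun c m hum => by
    simp only [add_mul, sub_mul, smul_mul_assoc, ut_mul, hu, ip_zero_comm hum, zero_smul, smul_zero, sub_zero, add_zero]
  have u1 : ut u u * n₁ = 0 := by rw [hn₁]; exact hun _ _ hum
  have u2 : ut u u * n₂ = 0 := by rw [hn₂]; exact hun _ _ huml
  have v1 : n₁ * ut u u = 0 := by rw [hn₁]; exact hnu _ _ hum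
  have v2 : n₂ * ut u u = 0 := by rw [hn₂]; exact hnu _ _ huml
  have cube : ∀ {n : Matrix (Fin k) (Fin k) F} {d : F} {s : GL (Fin k) F}, n * n = d • ut u u → ut u u * n = 0 → s.1 = 1 + n → s ^ 3 = 1 := by
    intro n d s h1 h2 h4
    apply Units.ext
    rw [Units.val_pow_eq_pow_val, Units.val_one, h4, pow_succ, pow_two]
    have h5 : n * n * n = 0 := by rw [h1, smul_mul_assoc, h2, smul_zero]
    have : (1 + n) * (1 + n) * (1 + n) = 1 + (3 : F) • n + ((3 : F) • (n * n) + n * n * n) := by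
      rw [show (3 : F) • n = n + n + n by module, show (3 : F) • (n * n) = n * n + n * n + n * n by module]
      noncomm_ring
    rw [this, h3, h5, zero_smul, zero_smul, add_zero, add_zero, add_zero]
  have cube' : ∀ {s : GL (Fin k) F}, s ^ 3 = 1 → EU (S.E i) s ^ 3 = 1 := fun {s} hs => by
    have : EU (S.E i) (s ^ 3) = EU (S.E i) s ^ 3 := map_pow (Units.map _) _ _
    rw [← this, hs]; exact map_one (Units.map _)
  have com : ∀ {s s' : GL (Fin k) F}, s * s' = s' * s → EU (S.E i) s * EU (S.E i) s' = EU (S.E i) s' * EU (S.E i) s := fun {s s'} hs => by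
    rw [← EU_mul, ← EU_mul, hs]
  have inv₁ : (s₁⁻¹).1 * ut u u = ut u u := by
    have h1 : s₁.1 * ut u u = ut u u := by rw [e₁, add_mul, one_mul, v1, add_zero]
    nth_rewrite 1 [← h1]
    rw [← mul_assoc, inv_mul_val, one_mul]
  have inv₂ : (s₂⁻¹).1 * ut u u = ut u u := by
    have h1 : s₂.1 * ut u u = ut u u := by rw [e₂, add_mul, one_mul, v2, add_zero]
    nth_rewrite 1 [← h1]
    rw [← mul_assoc, inv_mul_val, one_mul]
  have cZ : ∀ {s : GL (Fin k) F} {n : Matrix (Fin k) (Fin k) F}, s.1 = 1 + n → n * ut u u = 0 → ut u u * n = 0 →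
      cj (EU (S.E i) s) (S.E i (ut u u) * b) = S.E i (ut u u) * b := by
    intro s n hs h1 h2
    apply cj_eq_self
    rw [EU_val, hs, map_add, map_one, add_mul, mul_add, one_mul, mul_one, E_mul_A', E_A_mul hb, h1, h2]
  have hx0 : (EU (S.E i) s₀).1 = 1 + S.E i ((star l - l) • ut u u) := by rw [EU_val, e₀, map_add, map_one]
  apply FK_eq_pr3 h3 hτ hG.on (hG.root i hi _ hs₀) (hG.root i hi _ hs₁) (hG.root i hi _ hs₂) (EU_mem_mon i _) (EU_mem_mon i _) (EU_mem_mon i _) hx0 (rgu_sq hu _)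
    (cube' (cube (n := (star l - l) • ut u u) (d := 0) (by rw [smul_mul_smul_comm, ut_sq hu, smul_zero, zero_smul]) (by rw [mul_smul_comm, ut_sq hu, smul_zero]) e₀))
    (cube' (cube m11 u1 e₁)) (cube' (cube m22 u2 e₂))
  · apply com
    apply Units.ext
    rw [Units.val_mul, Units.val_mul, e₀, e₁]
    simp only [add_mul, mul_add, one_mul, mul_one, smul_mul_assoc, mul_smul_comm, u1, v1, smul_zero, add_zero]; abel
  · apply com
    apply Units.ext
    rw [Units.val_mul, Units.val_mul, e₀, e₂]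
    simp only [add_mul, mul_add, one_mul, mul_one, smul_mul_assoc, mul_smul_comm, u2, v2, smul_zero, add_zero]; abel
  · rw [← EU_mul, ← EU_mul, ← EU_mul]
    congr 1
    apply Units.ext
    rw [Units.val_mul, Units.val_mul, Units.val_mul, e₀, e₁, e₂]
    have h4 : ut u u * ((1 + n₂) * (1 + n₁)) = ut u u := by
      have h8 : ut u u * (1 + n₂) = ut u u := by rw [mul_add, mul_one, u2, add_zero]
      rw [← mul_assoc, h8, mul_add, mul_one, u1, add_zero]
    rw [add_mul 1 ((star l - l) • ut u u), one_mul, smul_mul_assoc, h4]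
    have h5 : n₁ * n₂ = n₂ * n₁ + (star l - l) • ut u u := by
      rw [m12, m21, ip_smul_left, ip_smul_right, hm]; module
    have h6 : (1 + n₁) * (1 + n₂) = 1 + n₁ + n₂ + n₁ * n₂ := by noncomm_ring
    have h7 : (1 + n₂) * (1 + n₁) = 1 + n₁ + n₂ + n₂ * n₁ := by noncomm_ring
    rw [h6, h7, h5]; abel
  · rw [EU_val, ← map_mul, e₁, mul_add, mul_one, smul_mul_assoc, u1, smul_zero, add_zero]
  · rw [EU_inv_val, ← map_mul, mul_smul_comm, inv₁]
  · rw [EU_val, ← map_mul, e₂, mul_add, mul_one, smul_mul_assoc, u2, smul_zero, add_zero]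
  · rw [EU_inv_val, ← map_mul, mul_smul_comm, inv₂]
  · intro g hg hgx
    exact hfree_ofU1 hX (Or.inl hodd) IH hG hi hu0 hu hd0 hd hx0 hg hgx
  · exact (on_E hi _).mul hbJ
  · exact cZ e₀ (by rw [smul_mul_assoc, ut_sq hu, smul_zero]) (by rw [mul_smul_comm, ut_sq hu, smul_zero])
  · exact cZ e₁ v1 u1
  · exact cZ e₂ v2 u2

open scoped Classical in
theorem FK_pairU [Nonempty ι] (hX : CtxU S q) (hk4 : 4 ≤ k) (IH : ∀ i ∈ J, S.ClaimU (J.erase i)) (hG : S.GoodU J K')
    (hτ : ∀ Z Z', S.On J Z → S.On J Z' → τ (Z * Z') = τ (Z' * Z)) {i : T} (hi : i ∈ J) {u : Fin k → F} (hu0 : u ≠ 0) (hu : ip u u = 0)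
    {Z Z' : Matrix ι ι F} (hZ : S.On J Z) (hZc : S.E i (ut u u) * Z = Z * S.E i (ut u u))
    (hZ' : S.On J Z') (hZc' : S.E i (ut u u) * Z' = Z' * S.E i (ut u u)) : τ (S.FK τ J K' Z * Z') = τ (S.pr τ J Z * Z') := by
  obtain ⟨c, hc0, hc⟩ := hX.U.exists_skew
  obtain ⟨s, hs, hs1⟩ := exists_tv hX.U hu hc
  obtain ⟨x, hxE⟩ : ∃ x, x = EU (S.E i) s := ⟨_, rfl⟩
  have hxK : x ∈ K' := by rw [hxE]; exact hG.root i hi s hs
  have hx : x.1 = 1 + S.E i (c • ut u u) := by rw [hxE, EU_val, hs1, map_add, map_one]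
  have hsq : (x.1 - 1) * (x.1 - 1) = 0 := by rw [hx, add_sub_cancel_left]; exact rgu_sq hu c
  have hpow : ∀ n : ℕ, (x ^ n).1 = 1 + S.E i (((n : F) * c) • ut u u) := by
    intro n
    rw [Units.val_pow_eq_pow_val, pow_eq_of_sq_zero hsq, hx, add_sub_cancel_left, mul_smul, map_smul (S.E i) (n : F)]
  have hne : ut u u ≠ 0 := ut_ne_zero hu0 hu0
  have hn0 : ∀ n : ℕ, x ^ n = 1 → (n : F) = 0 := by
    intro n hn
    have h1 := hpow n
    rw [hn, Units.val_one] at h1
    have h2 : S.E i (((n : F) * c) • ut u u) = 0 := by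
      have := h1.symm
      rwa [add_eq_left] at this
    have h3 := E_inj (S := S) (i := i) (h2.trans (map_zero _).symm)
    exact (mul_eq_zero.1 ((smul_eq_zero.1 h3).resolve_right hne)).resolve_right hc0
  have hfin : Finite (GL ι F) := inferInstance
  have hXp : ∀ y ∈ Subgroup.zpowers x, ∃ n : ℕ, x ^ n = y := by
    intro y hy
    exact (mem_powers_iff_mem_zpowers.2 hy)
  refine FK_pair (X := Subgroup.zpowers x) hτ hG.on ?_ ?_ ?_ ?_ hZ ?_ hZ' ?_
  · exact (Subgroup.zpowers_le).2 hxK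
  · rw [Subgroup.zpowers_le, hxE]
    exact EU_mem_mon i s
  · intro y hy hy1 g hg hgy
    obtain ⟨n, rfl⟩ := hXp y hy
    have hn : (n : F) ≠ 0 := by
      intro h0
      apply hy1
      apply Units.ext
      rw [hpow, h0, zero_mul, zero_smul, map_zero, add_zero, Units.val_one]
    exact hfree_ofU1 hX (Or.inr hk4) IH hG hi hu0 hu (mul_ne_zero hn hc0) (by rw [star_mul', hc, star_natCast, mul_neg]) (hpow n) hg hgy
  · intro a
    rw [finsum_eq_sum_of_fintype, Finset.sum_const, Finset.card_univ, ← Nat.card_eq_fintype_card]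
    have h1 : Nat.card ((Subgroup.zpowers x).subgroupOf K') = orderOf x := by
      rw [← Nat.card_zpowers]
      exact Nat.card_congr (Subgroup.subgroupOfEquivOfLe ((Subgroup.zpowers_le).2 hxK)).toEquiv
    rw [h1, nsmul_eq_mul, hn0 _ (pow_orderOf_eq_one x), zero_mul]
  · intro y hy
    obtain ⟨n, rfl⟩ := hXp y hy
    apply cj_eq_self
    rw [hpow, map_smul, add_mul, mul_add, one_mul, mul_one, smul_mul_assoc, hZc, mul_smul_comm]
  · intro y hy
    obtain ⟨n, rfl⟩ := hXp y hy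
    apply cj_eq_self
    rw [hpow, map_smul, add_mul, mul_add, one_mul, mul_one, smul_mul_assoc, hZc', mul_smul_comm]

theorem dFK_pairU [Nonempty ι] (hX : CtxU S q) (hk4 : 4 ≤ k) (IH : ∀ i ∈ J, S.ClaimU (J.erase i)) (hG : S.GoodU J K')
    (hτ : ∀ Z Z', S.On J Z → S.On J Z' → τ (Z * Z') = τ (Z' * Z)) {i : T} (hi : i ∈ J)
    {b b' : Matrix ι ι F} (hb : Cmt (S.E i) b) (hbJ : S.On J b) (hb' : Cmt (S.E i) b') (hbJ' : S.On J b') (a a' : Matrix (Fin k) (Fin k) F) :
    τ (S.dFK τ J K' (S.E i a * b) * (S.E i a' * b')) = 0 := by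
  let N : Submodule F (Matrix (Fin k) (Fin k) F) :=
    { carrier := {a | ∀ (c : F) (a' : Matrix (Fin k) (Fin k) F), τ (S.dFK τ J K' (S.E i a * (c • b)) * (S.E i a' * b')) = 0}
      add_mem' := by
        intro x y hx hy c a'
        rw [map_add, add_mul, map_add, add_mul, map_add, hx, hy, add_zero]
      zero_mem' := by
        intro c a'
        rw [map_zero, zero_mul, map_zero, zero_mul, map_zero]
      smul_mem' := by
        intro d x hx c a'
        have : S.E i (d • x) * (c • b) = S.E i x * ((d * c) • b) := by rw [map_smul, smul_mul_assoc, mul_smul_comm, mul_smul_comm, smul_smul]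
        rw [this]; exact hx _ _ }
  have hN : a ∈ N := by
    apply mem_of_all hX.U
    intro v c a'
    let N' : Submodule F (Matrix (Fin k) (Fin k) F) :=
      { carrier := {a' | τ (S.dFK τ J K' (S.E i (ut v v) * (c • b)) * (S.E i a' * b')) = 0}
        add_mem' := by
          intro x y hx hy
          show _ = _
          rw [map_add, add_mul, mul_add, map_add, hx, hy, add_zero]
        zero_mem' := by
          show _ = _
          rw [map_zero, zero_mul, mul_zero, map_zero]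
        smul_mem' := by
          intro d x hx
          show _ = _
          rw [map_smul, smul_mul_assoc, mul_smul_comm, map_smul, hx, smul_zero] }
    have hN' : a' ∈ N' := by
      apply mem_of_all hX.U
      intro v'
      show _ = _
      obtain ⟨u, hu0, hu, huv, huv'⟩ := exists_iso_perp hX.U hk4 v v'
      have key : ∀ {v : Fin k → F} {b : Matrix ι ι F}, Cmt (S.E i) b → ip u v = 0 → S.E i (ut u u) * (S.E i (ut v v) * b) = S.E i (ut v v) * b * S.E i (ut u u) := by
        intro v b hb h1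
        rw [E_mul_A', E_A_mul hb, ut_mul, ut_mul, h1, ip_zero_comm h1, zero_smul, zero_smul]
      have := FK_pairU (τ := τ) hX hk4 IH hG hτ hi hu0 hu ((on_E hi (ut v v)).mul (hbJ.smul c)) (key (hb.smul c) huv) ((on_E hi (ut v' v')).mul hbJ') (key hb' huv')
      rw [dFK_apply, sub_mul, map_sub, this, sub_self]
    exact hN'
  have := hN 1 a'
  rwa [one_smul] at this

theorem FK_eq_prU [Nonempty ι] (hX : CtxU S q) (hk4 : 4 ≤ k) (IH : ∀ i ∈ J, S.ClaimU (J.erase i)) (hG : S.GoodU J K') (hJ : J.Nonempty)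
    (hτ : ∀ Z Z', S.On J Z → S.On J Z' → τ (Z * Z') = τ (Z' * Z)) {Z₀ : Matrix ι ι F} (hZ₀ : S.On J Z₀) (hτ₀ : τ Z₀ ≠ 0)
    {Z : Matrix ι ι F} (hZ : S.On J Z) : S.FK τ J K' Z = S.pr τ J Z := by
  obtain ⟨i, hi⟩ := hJ
  rw [← sub_eq_zero]
  refine tau_nondeg (by omega) J τ hτ Z₀ hZ₀ hτ₀ _ ((FK_on hG.on Z).sub (pr_on Z)) fun Z' hZ' => ?_
  have hbl : ∀ {Z : Matrix ι ι F}, S.On J Z → ∀ l m, S.On J (blk (S.E i) Z l m) := fun hZ l m => (hZ.blk i l m).mono (Finset.erase_subset _ _)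
  show τ (S.dFK τ J K' Z * Z') = 0
  conv_lhs => rw [← sum_blk (S.E i) Z, ← sum_blk (S.E i) Z']
  rw [map_sum, Finset.sum_mul, map_sum]
  apply Finset.sum_eq_zero
  intro l _
  rw [map_sum, Finset.sum_mul, map_sum]
  apply Finset.sum_eq_zero
  intro m _
  rw [Finset.mul_sum, map_sum]
  apply Finset.sum_eq_zero
  intro l' _
  rw [Finset.mul_sum, map_sum]
  apply Finset.sum_eq_zero
  intro m' _
  exact dFK_pairU hX hk4 IH hG hτ hi (blk_cmt _ _ _ _) (hbl hZ l m) (blk_cmt _ _ _ _) (hbl hZ' l' m') _ _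

/-- `K'` permutes the factors -/
theorem mon_of_U [Nonempty ι] (hX : CtxU S q) (IH : ∀ i ∈ J, S.ClaimU (J.erase i)) (hG : S.GoodU J K') (hJ : J.Nonempty)
    (hτ : ∀ Z Z', S.On J Z → S.On J Z' → τ (Z * Z') = τ (Z' * Z)) {Z₀ : Matrix ι ι F} (hZ₀ : S.On J Z₀) (hτ₀ : τ Z₀ ≠ 0) :
    ∀ g ∈ K', g ∈ S.Mon J := by
  have hk := hX.hk
  have hfix0 : ∀ i ∈ J, ∀ u : Fin k → F, ip u u = 0 → ∀ b, Cmt (S.E i) b → S.On J b → S.FK τ J K' (S.E i (ut u u) * b) = S.pr τ J (S.E i (ut u u) * b) := by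
    by_cases hk4 : 4 ≤ k
    · intro i hi u hu b hb hbJ
      exact FK_eq_prU hX hk4 IH hG hJ hτ hZ₀ hτ₀ ((on_E hi _).mul hbJ)
    · have hq3 : 3 ≤ q := by
        rcases hX.hq with h | h
        · exact h
        · omega
      rcases Nat.eq_or_lt_of_le hq3 with h | h
      · exact hfixB hX h.symm IH hG hτ
      · exact hfixA hX h IH hG hτ
  have hfix : ∀ i ∈ J, ∀ u φ : Fin k → F, φ ⬝ᵥ u = 0 → ∀ b, Cmt (S.E i) b → S.On J b →
      S.FK τ J K' (S.E i (vecMulVec u φ) * b) = S.pr τ J (S.E i (vecMulVec u φ) * b) := by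
    intro i hi u φ huφ b hb hbJ
    let N : Submodule F (Matrix (Fin k) (Fin k) F) :=
      { carrier := {a | ∀ c : F, S.FK τ J K' (S.E i a * (c • b)) = S.pr τ J (S.E i a * (c • b))}
        add_mem' := by
          intro x y hx hy c
          rw [map_add, add_mul, FK_add, pr_add, hx, hy]
        zero_mem' := by
          intro c
          rw [map_zero, zero_mul, FK_zero, pr_zero]
        smul_mem' := by
          intro d x hx c
          have : S.E i (d • x) * (c • b) = S.E i x * ((d * c) • b) := by rw [map_smul, smul_mul_assoc, mul_smul_comm, mul_smul_comm, smul_smul]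
          rw [this]; exact hx _ }
    have hN : vecMulVec u φ ∈ N := mem_of_trace_zero hX.U hk (N := N) (fun x hx c => hfix0 i hi x hx _ (hb.smul c) (hbJ.smul c)) (by rw [trace_vecMulVec, dotProduct_comm, huφ])
    have := hN 1
    rwa [one_smul] at this
  intro g hg
  obtain ⟨i, hi⟩ := hJ
  set z : Fin k := ⟨0, by omega⟩
  obtain ⟨u, hu0, hu⟩ := exists_iso hX.U (by omega : 2 ≤ k) (F := F)
  obtain ⟨c, hc0, hc⟩ := hX.U.exists_skew
  have huc : star u ⬝ᵥ (c • u) = 0 := dot_star hu c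
  have hcu := smul_ne_zero hc0 hu0
  have hsu := star_ne hu0
  obtain ⟨w, hw⟩ := trace_conclusion (by omega) hτ hZ₀ hτ₀ hG.on hfix hg hi huc
  have hne0 : g.1 * S.E i (vecMulVec (c • u) (star u)) * (g⁻¹).1 ≠ 0 := by
    intro h0
    exact vmv_ne_zero hcu hsu (E_inj (S := S) (i := i) (by rw [conj_eq_zero g h0, map_zero]))
  obtain ⟨j, hj, a, ha⟩ := factor_of_sum hk hw (sq_conj (E_vmv_sq huc)) hne0 i z (by
    rw [rank_conj]; exact rank_vmv_le i z _ _)
  obtain ⟨y, hy⟩ := exists_of_sq_zero (sq_conj (h := g) (E_vmv_sq (E := S.E i) huc))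
  have hyA : y.1 = S.E j (1 + a) := by rw [hy, map_add, map_one, ha]
  obtain ⟨j', hj', u', φ', hr⟩ := fus_finish (by omega) (hG.on g hg) hi hcu hsu huc hy hyA
  obtain ⟨γ, w', hγ, hw', hr'⟩ := shape_of hX (hG.un g hg) hu0 hc0 hc hr
  exact block_stepU hX IH hG (hG.on _ hg) (hG.un _ hg) (fun i hi s hs => K'.mul_mem (K'.mul_mem hg (hG.root i hi s hs)) (K'.inv_mem hg)) hi hj' hu0 hu hγ hw' hr'

end fix

end Sys

/-- **The claim for the standard system**, unitary case -/
theorem claimU_std {k t q : ℕ} {F : Type*} [Field F] [Fintype F] [StarRing F] (hX : CtxU (std k t F) q) (J : Finset (Fin t)) : (std k t F).ClaimU J := by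
  have hk := hX.hk
  haveI : Nonempty (Fin k) := ⟨⟨0, by omega⟩⟩
  induction hn : J.card using Nat.strong_induction_on generalizing J with
  | _ n ih =>
    have IH : ∀ i ∈ J, (std k t F).ClaimU (J.erase i) := by
      intro i hi
      apply ih _ _ _ rfl
      rw [← hn]; exact Finset.card_erase_lt_of_mem hi
    refine Sys.claim_of_monU hX J IH fun K' hG hJ => ?_
    have hτ := tauJ_tracial (F := F) (by omega : 0 < k) J
    obtain ⟨Z₀, hZ₀, hτ₀⟩ := exists_tauJ_ne (F := F) (by omega : 0 < k) J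
    exact Sys.mon_of_U hX IH hG hJ hτ hZ₀ hτ₀

end Cfsg.Agent.Asch.CW
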