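import Mathlib
import Cfsg.Prelude.Def_GeometricClasses
import Cfsg.Agent.Asch.UNTr
import Cfsg.Agent.Asch.CWFull
set_option autoImplicit false
set_option linter.unusedSectionVars false
set_option linter.unusedVariables false
set_option linter.unusedSimpArgs false
set_option linter.style.haveILetI false

/-!
Unitary tensor powers: the case of non-scalar coefficients.
-/

namespace Cfsg.Agent.Asch.CW

open Matrix Module

open scoped Matrix

section skew

variable {F : Type*} [Field F] [Fintype F] [StarRing F] {q : ℕ} (U : UF F q)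

include U

lemma UF.exists_sub {c : F} (hc : star c = -c) : ∃ c' : F, c' - star c' = c := by
  obtain ⟨s, hs0, hs⟩ := U.exists_skew
  obtain ⟨d, hd⟩ := U.exists_tr (t := s⁻¹ * c) (by rw [star_mul', star_inv₀, hs, hc, inv_neg, neg_mul_neg])
  refine ⟨s * d, ?_⟩
  rw [star_mul', hs]
  have : s * d - -s * star d = s * (d + star d) := by ring
  rw [this, hd, ← mul_assoc, mul_inv_cancel₀ hs0, one_mul]

end skew

section tv

variable {k : ℕ} {ι : Type} [Fintype ι] [DecidableEq ι] {F : Type*} [Field F] [Fintype F] [StarRing F] {q : ℕ} (U : UF F q)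
  {E : Matrix (Fin k) (Fin k) F →ₐ[F] Matrix ι ι F} {K : Subgroup (GL ι F)}

/-- the unipotent radicals are full -/
def FullU (E : Matrix (Fin k) (Fin k) F →ₐ[F] Matrix ι ι F) (K : Subgroup (GL ι F)) (hE : HE E) : Prop :=
  ∀ (u v m : Fin k → F) (hu : ip u u = 0) (hv : ip v v = 0) (huv : ip u v = 1) (hum : ip u m = 0) (hvm : ip v m = 0), ∀ x, Cmt E x → x ∈ PhiU E K hE u m hu hum

include U in
lemma full_skew (hk : 3 ≤ k) (hE : HE E) (hR : RootsU E K) (hF : FullU E K hE) {x : Matrix ι ι F} (hx : Cmt E x) : x - xᴴ ∈ coU E K := by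
  obtain ⟨u, hu0, hu⟩ := exists_iso U (by omega : 2 ≤ k) (F := F)
  obtain ⟨v, hv, huv⟩ := exists_hypU U hu0 hu
  obtain ⟨m, hm, hum, hvm⟩ := exists_unitU U hk hu hv huv
  exact coU_of_PhiU U hk hE hR hu0 hu hum hm (hF u v m hu hv huv hum hvm x hx)

include U in
lemma full_herm (hk : 3 ≤ k) (hE : HE E) (hR : RootsU E K) (hF : FullU E K hE) {x : Matrix ι ι F} (hx : Cmt E x) (hxH : xᴴ = x) {c : F} (hc : star c = -c) :
    c • x ∈ coU E K := by
  obtain ⟨d, hd⟩ := U.exists_sub hc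
  have h := full_skew U hk hE hR hF (hx.smul d)
  rw [conjTranspose_smul, hxH, ← sub_smul, hd] at h
  exact h

lemma NU_mul' (hE : HE E) {u m m' : Fin k → F} (hu : ip u u = 0) (hum : ip u m = 0) (hum' : ip u m' = 0) {x y x' y' : Matrix ι ι F} (hx : Cmt E x) (hy : Cmt E y) :
    NU E u m x y * NU E u m' x' y' = -(ip m m' • (E (ut u u) * (xᴴ * x'))) := by
  have hmu := ip_zero_comm hum
  have hx' := cmt_conjT hE hx
  rw [NU, NU, add_mul, sub_mul, mul_add, mul_sub, mul_add, mul_sub, mul_add, mul_sub]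
  rw [E_mul_A hx, E_mul_A hx, E_mul_A hx, E_mul_A hx', E_mul_A hx', E_mul_A hx', E_mul_A hy, E_mul_A hy, E_mul_A hy]
  simp only [ut_mul, hu, hum, hum', hmu, zero_smul, map_zero, zero_mul, map_smul, smul_mul_assoc, sub_zero, zero_sub, add_zero, zero_add]

/-- sums of elements of the unipotent radical -/
lemma psi_sum (hE : HE E) (hF : FullU E K hE) {u v : Fin k → F} (hu : ip u u = 0) (hv : ip v v = 0) (huv : ip u v = 1) {γ : Type*} (s : Finset γ)
    (m : γ → Fin k → F) (x : γ → Matrix ι ι F) (hum : ∀ l, ip u (m l) = 0) (hvm : ∀ l, ip v (m l) = 0) (hx : ∀ l, Cmt E (x l)) :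
    ∃ y, Cmt E y ∧ Mem1 K (∑ l ∈ s, NU E u (m l) (x l) 0 + E (ut u u) * y) := by
  classical
  induction s using Finset.induction_on with
  | empty => exact ⟨0, Cmt.zero, by rw [Finset.sum_empty, mul_zero, add_zero]; exact mem1_zero⟩
  | insert a s ha ih =>
    obtain ⟨y, hy, g, hg, hgx⟩ := ih
    obtain ⟨y', hy', g', hg', hgx'⟩ := (hF u v (m a) hu hv huv (hum a) (hvm a) (x a) (hx a)).2 1
    rw [one_smul] at hgx'
    refine ⟨y' + y + -∑ l ∈ s, ip (m a) (m l) • ((x a)ᴴ * x l), (hy'.add hy).add (Cmt.sum fun l _ => ((cmt_conjT hE (hx a)).mul (hx l)).smul _).neg, g' * g, K.mul_mem hg' hg, ?_⟩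
    have h1 : NU E u (m a) (x a) y' * (∑ l ∈ s, NU E u (m l) (x l) 0 + E (ut u u) * y) = -(E (ut u u) * ∑ l ∈ s, ip (m a) (m l) • ((x a)ᴴ * x l)) := by
      rw [mul_add, NU_E_uu hE hu (hum a) (hx a) hy', add_zero, Finset.mul_sum, Finset.mul_sum, ← Finset.sum_neg_distrib]
      refine Finset.sum_congr rfl fun l _ => ?_
      rw [NU_mul' hE hu (hum a) (hum l) (hx a) hy', mul_smul_comm]
    have h2 : NU E u (m a) (x a) y' = NU E u (m a) (x a) 0 + E (ut u u) * y' := by
      rw [← NU_eta, zero_add]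
    rw [Units.val_mul, hgx, hgx', mul_add, mul_one, add_mul, one_mul, h1, Finset.sum_insert ha, h2, mul_add, mul_add, mul_neg]
    abel

lemma star_vecMul_eq (b : ι → F) (A : Matrix ι ι F) : star b ᵥ* A = star (Aᴴ *ᵥ b) := by rw [star_mulVec, conjTranspose_conjTranspose]

lemma vmv_mulVec' (a : ι → F) (r w : ι → F) : vecMulVec a r *ᵥ w = (r ⬝ᵥ w) • a := by
  rw [vecMulVec_mulVec]; ext i; simp [mul_comm]

include U in
/-- **all transvections** -/
theorem transvU (hk : 3 ≤ k) (hE : HE E) (hU : ∀ x ∈ K, Un x) (hR : RootsU E K) (hF : FullU E K hE) {w : ι → F} (hw : star w ⬝ᵥ w = 0) {c : F} (hc : star c = -c) :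
    Mem1 K (c • vecMulVec w (star w)) := by
  by_cases hw0 : w = 0
  · rw [hw0, zero_vecMulVec, smul_zero]; exact mem1_zero
  have hdual : ∀ b : ι → F, b ≠ 0 → ∃ η : ι → F, star η ⬝ᵥ b = 1 := by
    intro b hb
    obtain ⟨m₀, hm₀⟩ := Function.ne_iff.1 hb
    refine ⟨star ((b m₀)⁻¹) • Pi.single m₀ 1, ?_⟩
    rw [star_smul, star_star, smul_dotProduct, ← Pi.single_star, star_one, single_one_dotProduct, smul_eq_mul, inv_mul_cancel₀ hm₀]
  -- a root vector
  obtain ⟨u, hu, hub⟩ : ∃ u : Fin k → F, ip u u = 0 ∧ E (ut u u) *ᵥ w ≠ 0 := by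
    by_contra hcon
    push Not at hcon
    let N : Submodule F (Matrix (Fin k) (Fin k) F) :=
      { carrier := {a | E a *ᵥ w = 0}
        add_mem' := by
          intro a b ha hb
          show E (a + b) *ᵥ w = 0
          rw [map_add, add_mulVec, ha, hb, add_zero]
        zero_mem' := by
          show E 0 *ᵥ w = 0
          rw [map_zero, zero_mulVec]
        smul_mem' := by
          intro d a ha
          show E (d • a) *ᵥ w = 0
          rw [map_smul, smul_mulVec, ha, smul_zero] }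
    have h1 : (1 : Matrix (Fin k) (Fin k) F) ∈ N := mem_of_products U hk (N := N) (fun x y hx hy => by
      show E (ut x x * ut y y) *ᵥ w = 0
      rw [map_mul, ← mulVec_mulVec, hcon y hy, mulVec_zero]) 1
    have h2 : E 1 *ᵥ w = 0 := h1
    rw [map_one, one_mulVec] at h2
    exact hw0 h2
  have hu0 : u ≠ 0 := by
    rintro rfl
    apply hub
    rw [ut_zero_left, map_zero, zero_mulVec]
  obtain ⟨v, hv, huv⟩ := exists_hypU U hu0 hu
  have hvu : ip v u = 1 := by rw [← ip_star, huv, star_one]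
  obtain ⟨b, hb⟩ : ∃ b, b = E (ut v u) *ᵥ w := ⟨_, rfl⟩
  have hb0 : b ≠ 0 := by
    intro h0
    apply hub
    have : ut u u = ut u u * ut v u := by rw [ut_mul, huv, one_smul]
    rw [this, map_mul, ← mulVec_mulVec, ← hb, h0, mulVec_zero]
  obtain ⟨η, hη⟩ := hdual b hb0
  obtain ⟨P, hP⟩ : ∃ P, P = PP u v := ⟨_, rfl⟩
  have hPu : ∀ z, P * ut u z = 0 := fun z => by rw [hP]; exact PP_ut_e hu huv z
  have huP : ∀ z, ut z u * P = 0 := fun z => by rw [hP]; exact ut_e_PP hu huv z
  have hPP : P * P = P := by rw [hP]; exact PP_sq hu hv huv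
  have hPH : Pᴴ = P := by rw [hP]; exact PP_conjT
  -- step 1
  obtain ⟨Y, hY⟩ : ∃ Y, Y = -vecMulVec w (star η) := ⟨_, rfl⟩
  obtain ⟨y₁, hy₁, g₁, hg₁, hgx₁⟩ := psi_sum (K := K) hE hF hu hv huv Finset.univ (fun l : Fin k => P *ᵥ Pi.single l 1) (fun l => cu E (Pi.single l 1) v Y)
    (fun l => by rw [hP]; exact ip_PP_e hu hv huv _) (fun l => by rw [hP]; exact ip_PP_f hu hv huv _) (fun l => cu_cmt _ _ _)
  have hsum : ∑ l, ut (P *ᵥ Pi.single l 1 : Fin k → F) (Pi.single l 1) = P := by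
    have h1 : ∀ l : Fin k, ut (P *ᵥ Pi.single l 1 : Fin k → F) (Pi.single l 1) = P * single l l 1 := fun l => by
      rw [← mul_ut, ut, ← Pi.single_star, star_one, ← single_eq_vmv]
    simp only [h1]
    rw [← Finset.mul_sum, sum_single_diag, mul_one]
  have hZ : ∑ l, E (ut (P *ᵥ Pi.single l 1 : Fin k → F) u) * cu E (Pi.single l 1) v Y = E P * Y * E (ut v u) := by
    have h1 : ∀ l : Fin k, E (ut (P *ᵥ Pi.single l 1 : Fin k → F) u) * cu E (Pi.single l 1) v Y = E (ut (P *ᵥ Pi.single l 1 : Fin k → F) (Pi.single l 1)) * Y * E (ut v u) :=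
      fun l => (E_cu _ _ _ _ _).symm
    simp only [h1]
    rw [← Finset.sum_mul, ← Finset.sum_mul, ← map_sum, hsum]
  obtain ⟨Z', hZ'⟩ : ∃ Z', Z' = ∑ l, E (ut u (P *ᵥ Pi.single l 1 : Fin k → F)) * (cu E (Pi.single l 1) v Y)ᴴ := ⟨_, rfl⟩
  have hgx : g₁.1 = 1 + (E P * Y * E (ut v u) - Z' + E (ut u u) * y₁) := by
    rw [hgx₁]
    simp only [NU, mul_zero, add_zero]
    rw [Finset.sum_sub_distrib, hZ, hZ']
  have hPZ' : E P * Z' = 0 := by
    rw [hZ', Finset.mul_sum]
    exact Finset.sum_eq_zero fun l _ => by rw [← mul_assoc, ← map_mul, hPu, map_zero, zero_mul]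
  have hvZ' : E (ut v u) * Z' = 0 := by
    rw [hZ', Finset.mul_sum]
    exact Finset.sum_eq_zero fun l _ => by rw [← mul_assoc, ← map_mul, ut_mul, hu, zero_smul, map_zero, zero_mul]
  obtain ⟨w', hw'⟩ : ∃ w', w' = g₁.1 *ᵥ w := ⟨_, rfl⟩
  have hPw' : E P *ᵥ w' = 0 := by
    have h1 : E P * g₁.1 = E P + E P * Y * E (ut v u) := by
      rw [hgx, mul_add, mul_one, mul_add, mul_sub, hPZ', ← mul_assoc (E P) (E (ut u u)), ← map_mul, hPu, map_zero, zero_mul, add_zero, sub_zero, ← mul_assoc, ← mul_assoc,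
        ← map_mul, hPP]
    rw [hw', mulVec_mulVec, h1, add_mulVec, ← mulVec_mulVec, ← hb, hY, ← mulVec_mulVec, neg_mulVec, vmv_mulVec', hη, one_smul, mulVec_neg, add_neg_cancel]
  have hbw' : E (ut v u) *ᵥ w' = b := by
    have h1 : E (ut v u) * g₁.1 = E (ut v u) := by
      rw [hgx, mul_add, mul_one, mul_add, mul_sub, hvZ', ← mul_assoc (E (ut v u)) (E (ut u u)), ← map_mul, ut_mul, hu, zero_smul, map_zero, zero_mul, add_zero, sub_zero,
        ← mul_assoc, ← mul_assoc, ← map_mul, huP, map_zero, zero_mul, zero_mul, add_zero]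
    rw [hw', mulVec_mulVec, h1, ← hb]
  have hiso' : star w' ⬝ᵥ w' = 0 := by
    rw [hw', star_mulVec, ← dotProduct_mulVec, mulVec_mulVec, show g₁.1ᴴ * g₁.1 = 1 from hU _ hg₁, one_mulVec, hw]
  -- step 2
  obtain ⟨a, ha⟩ : ∃ a, a = E (ut u v) *ᵥ w' := ⟨_, rfl⟩
  have hab : w' = a + b := by
    have h1 : (1 : Matrix ι ι F) *ᵥ w' = w' := one_mulVec _
    rw [one_eq_PP (E := E) (e := u) (f := v), add_mulVec, add_mulVec, ← hP, hPw', add_zero, ← ha, hbw'] at h1
    exact h1.symm
  have dadj : ∀ (x y z z' : Fin k → F) (p r : ι → F), star (E (ut x y) *ᵥ p) ⬝ᵥ (E (ut z z') *ᵥ r) = ip x z * (star p ⬝ᵥ (E (ut y z') *ᵥ r)) := by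
    intro x y z z' p r
    rw [star_mulVec, hE, ut_conjT, ← dotProduct_mulVec, mulVec_mulVec, ← map_mul, ut_mul, map_smul, smul_mulVec, dotProduct_smul, smul_eq_mul]
  have haa : star a ⬝ᵥ a = 0 := by rw [ha, dadj, hu, zero_mul]
  have hbb : star b ⬝ᵥ b = 0 := by rw [← hbw', dadj, hv, zero_mul]
  obtain ⟨κ, hκ⟩ : ∃ κ, κ = -(star w' ⬝ᵥ b) := ⟨_, rfl⟩
  have hκs : star κ = -κ := by
    have h1 : star w' ⬝ᵥ b = star a ⬝ᵥ b := by rw [hab, star_add, add_dotProduct, hbb, add_zero]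
    have h2 : star a ⬝ᵥ b + star b ⬝ᵥ a = 0 := by
      rw [hab, star_add, add_dotProduct, dotProduct_add, dotProduct_add, haa, hbb, zero_add, add_zero] at hiso'
      exact hiso'
    have h3 : star (star a ⬝ᵥ b) = star b ⬝ᵥ a := (Matrix.star_dotProduct b a).symm
    rw [hκ, h1, star_neg, h3, neg_inj]
    linear_combination h2
  obtain ⟨κ', hκ'⟩ := U.exists_sub hκs
  obtain ⟨R, hRR⟩ : ∃ R, R = cu E v v (vecMulVec w' (star η)) := ⟨_, rfl⟩
  obtain ⟨H, hH⟩ : ∃ H, H = cu E v v (vecMulVec η (star η)) := ⟨_, rfl⟩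
  have hRc : Cmt E R := by rw [hRR]; exact cu_cmt _ _ _
  have hHc : Cmt E H := by rw [hH]; exact cu_cmt _ _ _
  have vmvH : ∀ p r : ι → F, (vecMulVec p (star r))ᴴ = vecMulVec r (star p) := fun p r => by rw [conjTranspose_vecMulVec, star_star]
  have hRH : Rᴴ = cu E v v (vecMulVec η (star w')) := by rw [hRR, ← cu_conj hE (by omega), vmvH]
  have hHH : Hᴴ = H := by rw [hH, ← cu_conj hE (by omega), vmvH]
  have act : ∀ p r : ι → F, (E (ut u u) * cu E v v (vecMulVec p (star r))) *ᵥ w' = (star r ⬝ᵥ b) • (E (ut u v) *ᵥ p) := by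
    intro p r
    rw [← E_cu, ← mulVec_mulVec, hbw', ← mulVec_mulVec, vmv_mulVec', mulVec_smul]
  obtain ⟨B, hBB⟩ : ∃ B, B = (-R + κ' • H) - (-R + κ' • H)ᴴ := ⟨_, rfl⟩
  have hBco : B ∈ coU E K := by rw [hBB]; exact full_skew U hk hE hR hF (hRc.neg.add (hHc.smul κ'))
  have hBe : B = -R + Rᴴ + κ • H := by
    rw [hBB, conjTranspose_add, conjTranspose_neg, conjTranspose_smul, hHH, ← hκ']; module
  obtain ⟨g₂, hg₂, hgx₂⟩ := hBco.2 u hu
  have hw'' : g₂.1 *ᵥ w' = b := by
    rw [hgx₂, add_mulVec, one_mulVec, hBe, mul_add, mul_add, mul_neg, mul_smul_comm, add_mulVec, add_mulVec, neg_mulVec, smul_mulVec, hRH]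
    nth_rewrite 1 [hRR]
    rw [hH, act, act, act, hη, one_smul, one_smul, ← ha, hκ]
    nth_rewrite 1 [hab]
    rw [neg_smul]; abel
  -- step 3
  obtain ⟨G, hG⟩ : ∃ G, G = cu E u u (vecMulVec w' (star w')) := ⟨_, rfl⟩
  have hGc : Cmt E G := by rw [hG]; exact cu_cmt _ _ _
  have hGH : Gᴴ = G := by rw [hG, ← cu_conj hE (by omega), vmvH]
  have h1 := (full_herm U hk hE hR hF hGc hGH hc).2 v hv
  have h2 : E (ut v v) * (c • G) = c • vecMulVec b (star b) := by
    rw [mul_smul_comm, hG, ← E_cu, mul_vecMulVec, hbw', vecMulVec_mul, star_vecMul_eq, hE, ut_conjT, hbw']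
  rw [h2] at h1
  obtain ⟨g, hgd⟩ : ∃ g, g = g₂ * g₁ := ⟨_, rfl⟩
  have hgK : g ∈ K := by rw [hgd]; exact K.mul_mem hg₂ hg₁
  have hgw : g.1 *ᵥ w = b := by rw [hgd, Units.val_mul, ← mulVec_mulVec, ← hw', hw'']
  have hgb : (g⁻¹).1 *ᵥ b = w := by rw [← hgw, mulVec_mulVec, inv_mul_val, one_mulVec]
  have h3 := h1.conj' (K.inv_mem hgK)
  have h4 : (g⁻¹).1 * (c • vecMulVec b (star b)) * ((g⁻¹)⁻¹).1 = c • vecMulVec w (star w) := by
    rw [inv_inv, mul_smul_comm, smul_mul_assoc, mul_vecMulVec, hgb, vecMulVec_mul, star_vecMul_eq, ← (hU g hgK).inv_eq, hgb]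
  rw [h4] at h3
  exact h3

end tv

namespace Sys

variable {k : ℕ} {T ι : Type} [Fintype T] [DecidableEq T] [Fintype ι] [DecidableEq ι] {F : Type*} [Field F] [Fintype F] [StarRing F] {q : ℕ} {S : Sys k T ι F}
  {K : Subgroup (GL ι F)}

lemma coU_inv (hX : CtxU S q) (hR : ∀ i, RootsU (S.E i) K) (i : T) : S.InvU (Finset.univ.erase i) (coU (S.E i) K) where
  on := by
    rintro b ⟨hb, -⟩ l hl
    have : l = i := by
      by_contra h
      exact hl (Finset.mem_erase.2 ⟨h, Finset.mem_univ _⟩)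
    rw [this]; exact hb
  smul := fun t ht b hb => coU_smul hX.U hb ht
  conj := by
    rintro j hj s hs b ⟨hb, hmem⟩
    have hji := Finset.ne_of_mem_erase hj
    have hc : ∀ a, Cmt (S.E i) (S.E j a) := fun a => cmt_E (Ne.symm hji) a
    refine ⟨((hc _).mul hb).mul (hc _), fun u hu => ?_⟩
    have h1 := (hmem u hu).conj' (hR j s hs)
    rw [EU_val, EU_inv_val] at h1
    convert h1 using 1
    rw [← mul_assoc, ← mul_assoc, ← mul_assoc, hc]

/-- the relation between factors -/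
def RelU (S : Sys k T ι F) (K : Subgroup (GL ι F)) (i l : T) : Prop :=
  i ≠ l ∧ ∀ c : F, star c = -c → ∀ x : Fin k → F, ip x x = 0 → c • S.E l (ut x x) ∈ coU (S.E i) K

lemma relU_symm {i l : T} (h : S.RelU K i l) : S.RelU K l i := by
  refine ⟨Ne.symm h.1, fun c hc x hx => ⟨(cmt_E (Ne.symm h.1) _).smul c, fun u hu => ?_⟩⟩
  have h1 := (h.2 c hc u hu).2 x hx
  rw [mul_smul_comm] at h1 ⊢
  rwa [S.comm l i (Ne.symm h.1)]

lemma relU_conj {i j : T} (h : S.RelU K i j) {g : GL ι F} (hg : g ∈ K) {i' j' : T} (hi : ∀ a, g.1 * S.E i a * (g⁻¹).1 = S.E i' a)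
    (hj : ∀ a, g.1 * S.E j a * (g⁻¹).1 = S.E j' a) (hij' : i' ≠ j') : S.RelU K i' j' := by
  refine ⟨hij', fun c hc x hx => ⟨(cmt_E hij' _).smul c, fun u hu => ?_⟩⟩
  have h1 := ((h.2 c hc x hx).2 u hu).conj' hg
  rw [← hi, ← hj]
  convert h1 using 1
  rw [mul_smul_comm, mul_smul_comm, mul_smul_comm, smul_mul_assoc]
  congr 1
  calc g.1 * S.E i (ut u u) * (g⁻¹).1 * (g.1 * S.E j (ut x x) * (g⁻¹).1) = g.1 * S.E i (ut u u) * ((g⁻¹).1 * g.1) * S.E j (ut x x) * (g⁻¹).1 := by
        simp only [mul_assoc]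
    _ = _ := by rw [inv_mul_val, mul_one]; simp only [mul_assoc]

/-- the second coefficients are closed under multiplication by related factors -/
lemma phiU_rel (hX : CtxU S q) (hU : ∀ x ∈ K, Un x) (hR : ∀ i, RootsU (S.E i) K) {i l : T} (h : S.RelU K i l) {u v m : Fin k → F} (hu : ip u u = 0) (hv : ip v v = 0)
    (huv : ip u v = 1) (hum : ip u m = 0) (hvm : ip v m = 0) (a : Matrix (Fin k) (Fin k) F) :
    ∀ z ∈ PhiU (S.E i) K (hX.hE i) u m hu hum, z * S.E l a ∈ PhiU (S.E i) K (hX.hE i) u m hu hum := by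
  obtain ⟨c, hc0, hc⟩ := hX.U.exists_skew
  let N : Submodule F (Matrix (Fin k) (Fin k) F) :=
    { carrier := {a | ∀ z ∈ PhiU (S.E i) K (hX.hE i) u m hu hum, z * S.E l a ∈ PhiU (S.E i) K (hX.hE i) u m hu hum}
      add_mem' := by
        intro a b ha hb z hz
        rw [map_add, mul_add]; exact Submodule.add_mem _ (ha z hz) (hb z hz)
      zero_mem' := by
        intro z hz
        rw [map_zero, mul_zero]; exact Submodule.zero_mem _
      smul_mem' := by
        intro d a ha z hz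
        rw [map_smul, mul_smul_comm]; exact Submodule.smul_mem _ _ (ha z hz) }
  have h1 : ∀ x : Fin k → F, ip x x = 0 → ut x x ∈ N := by
    intro x hx z hz
    have h2 := PhiU_mul hX.U hX.hk (hX.hE i) hU (hR i) hu hv huv hum hvm (h.2 c hc x hx)
      (by rw [smul_mul_smul_comm, ← map_mul, ut_sq hx, map_zero, smul_zero]) hz
    rw [mul_smul_comm] at h2
    have h3 := Submodule.smul_mem _ c⁻¹ h2
    rwa [smul_smul, inv_mul_cancel₀ hc0, one_smul] at h3
  have h2 : a ∈ N := mem_of_products hX.U hX.hk (N := N) (fun x y hx hy z hz => by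
    rw [map_mul, ← mul_assoc]; exact h1 y hy _ (h1 x hx z hz)) a
  exact h2

lemma phiU_on (hX : CtxU S q) (hU : ∀ x ∈ K, Un x) (hR : ∀ i, RootsU (S.E i) K) {i : T} (h : ∀ l, i ≠ l → S.RelU K i l) {u v m : Fin k → F} (hu : ip u u = 0)
    (hv : ip v v = 0) (huv : ip u v = 1) (hum : ip u m = 0) (hvm : ip v m = 0) (J : Finset T) : i ∉ J → ∀ x, S.On J x →
    ∀ z ∈ PhiU (S.E i) K (hX.hE i) u m hu hum, z * x ∈ PhiU (S.E i) K (hX.hE i) u m hu hum := by
  induction J using Finset.induction_on with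
  | empty =>
    intro _ x hx z hz
    obtain ⟨c, hc⟩ := on_empty hx
    rw [hc, mul_smul_comm, mul_one]; exact Submodule.smul_mem _ _ hz
  | insert j J' hj ih =>
    intro hi x hx z hz
    have hij : i ≠ j := fun h' => hi (h' ▸ Finset.mem_insert_self _ _)
    have hblk : ∀ l m, S.On J' (blk (S.E j) x l m) := by
      intro l m
      have := hx.blk j l m
      rwa [Finset.erase_insert hj] at this
    rw [← sum_blk (S.E j) x, Finset.mul_sum]
    refine Submodule.sum_mem _ fun l _ => ?_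
    rw [Finset.mul_sum]
    refine Submodule.sum_mem _ fun p _ => ?_
    rw [← mul_assoc]
    exact ih (fun h' => hi (Finset.mem_insert_of_mem h')) _ (hblk l p) _ (phiU_rel hX hU hR (h j hij) hu hv huv hum hvm _ z hz)

theorem full_of_rel (hX : CtxU S q) (hU : ∀ x ∈ K, Un x) (hR : ∀ i, RootsU (S.E i) K) {i : T} (h : ∀ l, i ≠ l → S.RelU K i l) : FullU (S.E i) K (hX.hE i) := by
  intro u v m hu hv huv hum hvm x hx
  have h1 := phiU_on hX hU hR h hu hv huv hum hvm (Finset.univ.erase i) (Finset.notMem_erase _ _) x (by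
    intro l hl
    have : l = i := by
      by_contra h
      exact hl (Finset.mem_erase.2 ⟨h, Finset.mem_univ _⟩)
    rw [this]; exact hx) 1 (one_mem_PhiU hX.U (hX.hE i) (hR i) hu hum)
  rwa [one_mul] at h1

end Sys

section std

variable {k t : ℕ} {F : Type*} [Field F] [Fintype F] [StarRing F] {q : ℕ} {K : Subgroup (GL (Fin t → Fin k) F)}

/-- products over a set of factors -/
def qU (D : Finset (Fin t)) (b : Fin t → Matrix (Fin k) (Fin k) F) : Matrix (Fin t → Fin k) (Fin t → Fin k) F := piMat (fun j => if j ∈ D then b j else 1)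

lemma qU_mul (D : Finset (Fin t)) (b b' : Fin t → Matrix (Fin k) (Fin k) F) : qU D b * qU D b' = qU D (fun j => b j * b' j) := by
  rw [qU, qU, qU, ← piMat_mul]
  congr 1
  funext j
  show (if j ∈ D then b j else 1) * (if j ∈ D then b' j else 1) = _
  split_ifs
  · rfl
  · rw [one_mul]

lemma qU_update {D : Finset (Fin t)} {j : Fin t} (hj : j ∈ D) (b : Fin t → Matrix (Fin k) (Fin k) F) (a : Matrix (Fin k) (Fin k) F) :
    qU D (Function.update b j a) = (std k t F).E j a * qU D (Function.update b j 1) := by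
  show _ = fac j a * _
  rw [qU, qU, fac_mul_piMat]
  congr 1
  funext l
  by_cases h : l = j
  · subst h; rw [Function.update_self, if_pos hj, if_pos hj, Function.update_self, Function.update_self, mul_one]
  · rw [Function.update_of_ne h, Function.update_of_ne h, Function.update_of_ne h]

theorem rel_of_prodU [Nonempty (Fin k)] (hX : CtxU (std k t F) q) (hU : ∀ x ∈ K, Un x) (hR : ∀ i, RootsU ((std k t F).E i) K) {i : Fin t} {D : Finset (Fin t)}
    (hiD : i ∉ D) (hD : D.Nonempty) {c : F} (hc0 : c ≠ 0) (hprod : ∀ x : Fin t → Fin k → F, (∀ j, ip (x j) (x j) = 0) → c • pU D x ∈ coU ((std k t F).E i) K) :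
    ∃ l, (std k t F).RelU K i l := by
  have hk := hX.hk
  obtain ⟨l, hl⟩ := hD
  have hil : i ≠ l := fun h => hiD (h ▸ hl)
  obtain ⟨u, hu0, hu⟩ := exists_iso hX.U (by omega : 2 ≤ k) (F := F)
  obtain ⟨v, hv, huv⟩ := exists_hypU hX.U hu0 hu
  obtain ⟨m, hm, hum, hvm⟩ := exists_unitU hX.U hk hu hv huv
  obtain ⟨Φ, hΦ⟩ : ∃ Φ, Φ = PhiU ((std k t F).E i) K (hX.hE i) u m hu hum := ⟨_, rfl⟩
  have hmul : ∀ x : Fin t → Fin k → F, (∀ j, ip (x j) (x j) = 0) → ∀ z ∈ Φ, z * pU D x ∈ Φ := by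
    intro x hx z hz
    rw [hΦ] at hz ⊢
    have h2 := PhiU_mul hX.U hk (hX.hE i) hU (hR i) hu hv huv hum hvm (hprod x hx)
      (by rw [smul_mul_smul_comm, pU_sq hl (hx l), smul_zero]) hz
    rw [mul_smul_comm] at h2
    have h3 := Submodule.smul_mem _ c⁻¹ h2
    rwa [smul_smul, inv_mul_cancel₀ hc0, one_smul] at h3
  have h1 : (1 : Matrix (Fin t → Fin k) (Fin t → Fin k) F) ∈ Φ := by rw [hΦ]; exact one_mem_PhiU hX.U (hX.hE i) (hR i) hu hum
  have main : ∀ D' : Finset (Fin t), D' ⊆ D → ∀ b : Fin t → Matrix (Fin k) (Fin k) F,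
      (∀ j ∈ D, j ∉ D' → ∃ x y : Fin k → F, ip x x = 0 ∧ ip y y = 0 ∧ b j = ut x x * ut y y) → qU D b ∈ Φ := by
    intro D'
    induction D' using Finset.induction_on with
    | empty =>
      intro _ b hb
      have hb' : ∀ j, ∃ x y : Fin k → F, ip x x = 0 ∧ ip y y = 0 ∧ (j ∈ D → b j = ut x x * ut y y) := by
        intro j
        by_cases hj : j ∈ D
        · obtain ⟨x, y, hx, hy, h⟩ := hb j hj (Finset.notMem_empty _)
          exact ⟨x, y, hx, hy, fun _ => h⟩
        · exact ⟨0, 0, ip_zero_left _, ip_zero_left _, fun h => absurd h hj⟩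
      choose x y hx hy hxy using hb'
      have h2 : qU D b = 1 * pU D x * pU D y := by
        have e1 : pU D x = qU D (fun j => ut (x j) (x j)) := rfl
        have e2 : pU D y = qU D (fun j => ut (y j) (y j)) := rfl
        rw [one_mul, e1, e2, qU_mul, qU, qU]
        congr 1
        funext j
        by_cases hj : j ∈ D
        · rw [if_pos hj, if_pos hj, hxy j hj]
        · rw [if_neg hj, if_neg hj]
      rw [h2]
      exact hmul y hy _ (hmul x hx _ h1)
    | insert j D' hj ih =>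
      intro hsub b hb
      have hjD : j ∈ D := hsub (Finset.mem_insert_self _ _)
      let N : Submodule F (Matrix (Fin k) (Fin k) F) :=
        { carrier := {a | qU D (Function.update b j a) ∈ Φ}
          add_mem' := by
            intro a a' ha ha'
            show qU D (Function.update b j (a + a')) ∈ Φ
            rw [qU_update hjD, map_add, add_mul, ← qU_update hjD, ← qU_update hjD]
            exact Submodule.add_mem _ ha ha'
          zero_mem' := by
            show qU D (Function.update b j 0) ∈ Φ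
            rw [qU_update hjD, map_zero, zero_mul]; exact Submodule.zero_mem _
          smul_mem' := by
            intro d a ha
            show qU D (Function.update b j (d • a)) ∈ Φ
            rw [qU_update hjD, map_smul, smul_mul_assoc, ← qU_update hjD]
            exact Submodule.smul_mem _ _ ha }
      have h2 : b j ∈ N := mem_of_products hX.U hk (N := N) (fun x y hx hy => by
        show qU D (Function.update b j (ut x x * ut y y)) ∈ Φ
        apply ih ((Finset.subset_insert _ _).trans hsub)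
        intro l hl hl'
        by_cases hlj : l = j
        · subst hlj; exact ⟨x, y, hx, hy, by rw [Function.update_self]⟩
        · rw [Function.update_of_ne hlj]
          exact hb l hl (fun h => by
            rcases Finset.mem_insert.1 h with h | h
            · exact hlj h
            · exact hl' h)) (b j)
      have h3 : qU D (Function.update b j (b j)) ∈ Φ := h2
      rwa [Function.update_eq_self] at h3
  have hE : ∀ a, (std k t F).E l a ∈ Φ := by
    intro a
    have h2 := main D (Finset.Subset.refl _) (Function.update (fun _ => 1) l a) (fun j hj hj' => absurd hj hj')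
    rw [qU_update hl] at h2
    have h3 : qU D (Function.update (fun _ => (1 : Matrix (Fin k) (Fin k) F)) l 1) = 1 := by
      rw [qU, ← piMat_one]
      congr 1
      funext j
      by_cases hj : j = l
      · subst hj; rw [Function.update_self]; simp
      · rw [Function.update_of_ne hj]; simp
    rwa [h3, mul_one] at h2
  refine ⟨l, hil, fun d hd x hx => ?_⟩
  obtain ⟨d', hd'⟩ := hX.U.exists_sub hd
  have h2 := hE (d' • ut x x)
  rw [hΦ] at h2
  have h3 := coU_of_PhiU hX.U hk (hX.hE i) (hR i) hu0 hu hum hm h2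
  rw [hX.hE l, conjTranspose_smul, ut_conjT, ← map_sub, ← sub_smul, hd', map_smul] at h3
  exact h3

/-- **the full case** for the standard system -/
theorem full_stdU (hX : CtxU (std k t F) q) (hU : ∀ x ∈ K, Un x) (hR : ∀ i, RootsU ((std k t F).E i) K)
    (hperm : ∀ (i j m : Fin t) (hij : i ≠ j) (hjm : j ≠ m), i ≠ m →
      ((std k t F).flip hij * (std k t F).flip hjm) * ((std k t F).flip hij * (std k t F).flip hjm) ∈ K)
    {i : Fin t} {A : Matrix (Fin t → Fin k) (Fin t → Fin k) F} (hA : A ∈ coU ((std k t F).E i) K)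
    (hns : ¬ ∃ c : F, A = c • (1 : Matrix (Fin t → Fin k) (Fin t → Fin k) F)) {w : (Fin t → Fin k) → F} (hw : star w ⬝ᵥ w = 0) {c : F} (hc : star c = -c) :
    Mem1 K (c • vecMulVec w (star w)) := by
  have hk := hX.hk
  haveI : Nonempty (Fin k) := ⟨⟨0, by omega⟩⟩
  have hA0 : A ≠ 0 := by rintro rfl; exact hns ⟨0, by rw [zero_smul]⟩
  obtain ⟨D, hD, ⟨d, hd0, hd⟩, hDn⟩ := exists_prodU hX.U hk hX.hq _ (Finset.univ.erase i) _ rfl (Sys.coU_inv hX hR i) A hA hA0
  obtain ⟨j, hrel⟩ := rel_of_prodU hX hU hR (fun h => Finset.notMem_erase _ _ (hD h)) (hDn hns) hd0 hd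
  have hij := hrel.1
  have hall : ∀ m, i ≠ m → (std k t F).RelU K i m := by
    intro m hm
    by_cases hmj : m = j
    · rw [hmj]; exact hrel
    have hjm : j ≠ m := Ne.symm hmj
    have hgK := hperm i j m hij hjm hm
    set x := (std k t F).flip hij with hx
    set y := (std k t F).flip hjm with hy
    have cj2 : ∀ {p q : GL (Fin t → Fin k) F} {Z W V : Matrix (Fin t → Fin k) (Fin t → Fin k) F}, q.1 * Z * (q⁻¹).1 = W → p.1 * W * (p⁻¹).1 = V →
        (p * q).1 * Z * ((p * q)⁻¹).1 = V := by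
      intro p q Z W V h1 h2
      rw [_root_.mul_inv_rev, Units.val_mul, Units.val_mul, ← h2, ← h1]
      simp only [mul_assoc]
    have yi : ∀ a, y.1 * (std k t F).E i a * (y⁻¹).1 = (std k t F).E i a := fun a => conj_eq_iff.2 (Sys.flip_cmt hjm hij hm a).symm
    have yj : ∀ a, y.1 * (std k t F).E j a * (y⁻¹).1 = (std k t F).E m a := Sys.flip_conj_left hjm
    have ym : ∀ a, y.1 * (std k t F).E m a * (y⁻¹).1 = (std k t F).E j a := Sys.flip_conj_right hjm
    have xi : ∀ a, x.1 * (std k t F).E i a * (x⁻¹).1 = (std k t F).E j a := Sys.flip_conj_left hij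
    have xj : ∀ a, x.1 * (std k t F).E j a * (x⁻¹).1 = (std k t F).E i a := Sys.flip_conj_right hij
    have xm : ∀ a, x.1 * (std k t F).E m a * (x⁻¹).1 = (std k t F).E m a := fun a => conj_eq_iff.2 (Sys.flip_cmt hij (Ne.symm hm) hmj a).symm
    have ci : ∀ a, ((x * y) * (x * y)).1 * (std k t F).E i a * (((x * y) * (x * y))⁻¹).1 = (std k t F).E m a :=
      fun a => cj2 (cj2 (yi a) (xi a)) (cj2 (yj a) (xm a))
    have cj : ∀ a, ((x * y) * (x * y)).1 * (std k t F).E j a * (((x * y) * (x * y))⁻¹).1 = (std k t F).E i a :=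
      fun a => cj2 (cj2 (yj a) (xm a)) (cj2 (ym a) (xj a))
    exact Sys.relU_symm (Sys.relU_conj hrel hgK ci cj (Ne.symm hm))
  exact transvU hX.U hk (hX.hE i) hU (hR i) (Sys.full_of_rel hX hU hR hall) hw hc

end std

end Cfsg.Agent.Asch.CW
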