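import Mathlib
import Cfsg.Prelude.Def_GeometricClasses
import Cfsg.Agent.Asch.UNFull
import Cfsg.Agent.Asch.UNTr
import Cfsg.Agent.Asch.CWLin
import Cfsg.Agent.UTP.Final
set_option autoImplicit false
set_option linter.unusedSectionVars false
set_option linter.unusedVariables false
set_option linter.style.haveILetI false

/-!
Class 7, unitary case: maximality of the tensor wreath subgroup in the special unitary group.
-/

namespace Cfsg.Agent.Asch.CW

open Matrix Module Cfsg.Geo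

open scoped Matrix MatrixGroups Kronecker

section overg

variable {k t : ℕ} {F : Type*} [Field F]

lemma piMat_conjT [StarRing F] (g : Fin t → Matrix (Fin k) (Fin k) F) : (piMat g)ᴴ = piMat (fun i => (g i)ᴴ) := by
  ext x y
  rw [conjTranspose_apply]
  show star (∏ i, g i (y i) (x i)) = ∏ i, (g i)ᴴ (x i) (y i)
  rw [star_prod]
  rfl

lemma he_std [StarRing F] (i : Fin t) : HE ((std k t F).E i) := by
  intro a
  show (piMat (Pi.mulSingle i a))ᴴ = piMat (Pi.mulSingle i aᴴ)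
  rw [piMat_conjT]
  congr 1
  funext j
  by_cases h : j = i
  · subst h; rw [Pi.mulSingle_eq_same, Pi.mulSingle_eq_same]
  · rw [Pi.mulSingle_eq_of_ne h, Pi.mulSingle_eq_of_ne h, conjTranspose_one]

lemma det_fac (i : Fin t) {a : Matrix (Fin k) (Fin k) F} (ha : a.det = 1) : ((std k t F).E i a).det = 1 := by
  classical
  have h : (std k t F).E i a = Matrix.reindex (Equiv.funSplitAt i (Fin k)).symm (Equiv.funSplitAt i (Fin k)).symm
      (a ⊗ₖ (1 : Matrix ({j // j ≠ i} → Fin k) ({j // j ≠ i} → Fin k) F)) := by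
    ext x y
    show piMat (Pi.mulSingle i a) x y = _
    rw [piMat_mulSingle_apply, reindex_apply, submatrix_apply, kroneckerMap_apply, one_apply]
    congr 1
    have : (∀ j, j ≠ i → x j = y j) ↔ ((((Equiv.funSplitAt i (Fin k)).symm).symm x).2 = (((Equiv.funSplitAt i (Fin k)).symm).symm y).2) := by
      constructor
      · intro h; funext j; exact h j.1 j.2
      · intro h j hj; exact congrFun h ⟨j, hj⟩
    simp only [this]
  rw [h, det_reindex_self, det_kronecker, ha, det_one, one_pow, one_pow, one_mul]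

variable [Fintype F] [StarRing F] {q : ℕ}

/-- **the overgroups of the tensor wreath group in the unitary group** -/
theorem u_overgroup (U : UF F q) (hk : 3 ≤ k) (hq : 3 ≤ q ∨ 4 ≤ k) (ht : 0 < t) {K : Subgroup (GL (Fin t → Fin k) F)}
    (hK : ∀ g ∈ tensorWreathStandard k t F, Un g → g.1.det = 1 → g ∈ K) (hKU : ∀ g ∈ K, Un g) :
    (∀ w : (Fin t → Fin k) → F, star w ⬝ᵥ w = 0 → ∀ c : F, star c = -c → Mem1 K (c • vecMulVec w (star w))) ∨
      K ≤ tensorWreathStandard k t F := by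
  haveI : Nonempty (Fin k) := ⟨⟨0, by omega⟩⟩
  have hX : CtxU (std k t F) q := ⟨U, hk, hq, fun i => he_std i⟩
  have hR : ∀ i, RootsU ((std k t F).E i) K := by
    intro i s hs
    refine hK _ (mem_tws_of_mon (by omega) ht (Sys.EU_mem_mon i s)) (un_EU (hX.hE i) hs.1) ?_
    rw [EU_val]
    exact det_fac i hs.2
  by_cases hC : ∀ i, CoefU ((std k t F).E i) K
  · right
    intro g hg
    apply mem_tws_of_mon (by omega) ht
    refine claimU_std hX Finset.univ K ⟨fun x _ i hi => absurd (Finset.mem_univ i) hi, hKU, fun i _ => hR i, fun i _ => hC i⟩ g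
      (fun i hi => absurd (Finset.mem_univ i) hi) (hKU g hg) ?_
    intro i _ s hs
    exact K.mul_mem (K.mul_mem hg (hR i s hs)) (K.inv_mem hg)
  · left
    simp only [CoefU] at hC
    push Not at hC
    obtain ⟨i, A, hA, u, hu0, hu, hmem, hns⟩ := hC
    intro w hw c hc
    refine full_stdU hX hKU hR ?_ (i := i) (A := A) (coU_of U hk (hR i) hu0 hu hA hmem) (by rintro ⟨c, hc⟩; exact hns c hc) hw hc
    intro i j m hij hjm him
    have hf : ∀ {a b : Fin t} (hab : a ≠ b), (std k t F).flip hab ∈ tensorWreathStandard k t F := fun hab =>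
      mem_tws_of_mon (by omega) ht (Sys.flip_mem_mon hab (Finset.mem_univ _) (Finset.mem_univ _))
    refine hK _ ?_ ?_ ?_
    · exact Subgroup.mul_mem _ (Subgroup.mul_mem _ (hf hij) (hf hjm)) (Subgroup.mul_mem _ (hf hij) (hf hjm))
    · exact ((Sys.flip_un hX hij).mul (Sys.flip_un hX hjm)).mul ((Sys.flip_un hX hij).mul (Sys.flip_un hX hjm))
    · have hd : ∀ {a b : Fin t} (hab : a ≠ b), ((std k t F).flip hab).1.det * ((std k t F).flip hab).1.det = 1 := by
        intro a b hab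
        rw [← det_mul, Sys.flip_val, Sys.flipM_sq, det_one]
        exact hab
      rw [Units.val_mul, Units.val_mul, det_mul, det_mul]
      calc ((std k t F).flip hij).1.det * ((std k t F).flip hjm).1.det * (((std k t F).flip hij).1.det * ((std k t F).flip hjm).1.det) =
          (((std k t F).flip hij).1.det * ((std k t F).flip hij).1.det) * (((std k t F).flip hjm).1.det * ((std k t F).flip hjm).1.det) := by ring
        _ = 1 := by rw [hd, hd, mul_one]

end overg

section frame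

variable {F : Type*} [Field F] [Fintype F] [StarRing F] {q n k t : ℕ}

lemma wreath_iff (e : Fin n ≃ (Fin t → Fin k)) (P x : GL (Fin n) F) :
    x ∈ tensorWreathSubgroup k t e P ↔ rhoW e P x ∈ tensorWreathStandard k t F := by
  constructor
  · rintro ⟨y, ⟨z, hz, rfl⟩, rfl⟩
    have h2 : rhoW e P ((MulAut.conj P).toMonoidHom ((glReindex e.symm).toMonoidHom z)) = z := by
      show glReindex e (P⁻¹ * (P * glReindex e.symm z * P⁻¹) * (P⁻¹)⁻¹) = z
      have : P⁻¹ * (P * glReindex e.symm z * P⁻¹) * (P⁻¹)⁻¹ = glReindex e.symm z := by group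
      rw [this]
      apply Units.ext
      rw [UTP.glReindex_coe', UTP.glReindex_coe']
      ext i j
      simp
    rw [h2]; exact hz
  · exact rhoW_mem e P x

/-- the pure tensor with equal factors -/
noncomputable def pureC (t : ℕ) (S : GL (Fin k) F) : GL (Fin t → Fin k) F :=
  ⟨piMat (fun _ => S.1), piMat (fun _ => (S⁻¹).1), by rw [piMat_const_mul, mul_inv_val, piMat_const_one],
    by rw [piMat_const_mul, inv_mul_val, piMat_const_one]⟩

lemma pureC_mem (S : GL (Fin k) F) : pureC t S ∈ tensorWreathStandard k t F :=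
  Subgroup.subset_closure (Or.inl ⟨fun _ => S, fun x y => rfl⟩)

/-- the scalars -/
noncomputable def scal (k : ℕ) {t : ℕ} (i₀ : Fin t) (μ : Fˣ) : GL (Fin t → Fin k) F :=
  EU ((std k t F).E i₀) (Units.map (Matrix.scalar (Fin k) : F →+* Matrix (Fin k) (Fin k) F).toMonoidHom μ)

lemma scal_val (i₀ : Fin t) (μ : Fˣ) : (scal k i₀ μ : GL (Fin t → Fin k) F).1 = μ.1 • 1 := by
  have h1 : (Units.map (Matrix.scalar (Fin k) : F →+* Matrix (Fin k) (Fin k) F).toMonoidHom μ).1 = μ.1 • (1 : Matrix (Fin k) (Fin k) F) := by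
    show Matrix.scalar (Fin k) μ.1 = _
    rw [Matrix.scalar_apply, ← Matrix.smul_one_eq_diagonal]
  rw [scal, EU_val, h1, map_smul, map_one]

variable (hs : ∀ x : F, star x = x ^ q)

include hs

theorem exists_unitary_frameW (hF : Fintype.card F = q ^ 2) (hk : 0 < k) (ht : 0 < t)
    (e : Fin n ≃ (Fin t → Fin k)) (P : GL (Fin n) F) {f₁ : (Fin k → F) → (Fin k → F) → F} (hf₁ : IsUnitaryFormPow q f₁)
    (hT : IsTensorPowerFormStructure (fun x : F => x ^ q) (Cfsg.hermForm n F q) f₁ e P) :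
    ∃ P' : GL (Fin n) F, P' ∈ Cfsg.GU n F q ∧ tensorWreathSubgroup k t e P = tensorWreathSubgroup k t e P' := by
  obtain ⟨c, hc0, hc⟩ := hT
  obtain ⟨S, hS⟩ := UTP.exists_gram_one hs hF hf₁
  have hc' : ∀ x y : (Fin t → Fin k) → F, Cfsg.hermForm n F q (P.1 *ᵥ (x ∘ e)) (P.1 *ᵥ (y ∘ e)) =
      c * (x ⬝ᵥ (piMat (fun _ => gramMatrix f₁) *ᵥ star y)) := by
    intro x y
    rw [hc, ← UTP.formOfGram_dot hs]
    rfl
  -- the form in the frame `S`
  have hSS : ∀ x y : (Fin t → Fin k) → F, ((piMat (fun _ => S.1)) *ᵥ x) ⬝ᵥ (piMat (fun _ => gramMatrix f₁) *ᵥ star (piMat (fun _ => S.1) *ᵥ y)) =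
      x ⬝ᵥ star y := by
    intro x y
    have h1 : (piMat (fun _ : Fin t => S.1)).map star = piMat (fun _ => S.1.map star) := by
      ext a b
      show star (∏ i, S.1 (a i) (b i)) = ∏ i, S.1.map star (a i) (b i)
      rw [star_prod]; rfl
    have h2 : (piMat (fun _ : Fin t => S.1))ᵀ = piMat (fun _ => S.1ᵀ) := by
      ext a b; rfl
    rw [UTP.star_mulVec' hs, mulVec_mulVec, ← vecMul_transpose, ← dotProduct_mulVec, mulVec_mulVec, h1, h2, piMat_const_mul, piMat_const_mul,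
      ← mul_assoc, hS, piMat_const_one, one_mulVec]
  have hcq : c ^ q = c := by
    obtain ⟨x, hx⟩ : ∃ x : (Fin t → Fin k) → F, x = Pi.single (fun _ => ⟨0, hk⟩) 1 := ⟨_, rfl⟩
    have h3 : x ⬝ᵥ star x = 1 := by
      rw [hx, single_one_dotProduct, Pi.star_apply, Pi.single_eq_same, star_one]
    have h4 := hc' (piMat (fun _ => S.1) *ᵥ x) (piMat (fun _ => S.1) *ᵥ x)
    rw [hSS, h3, mul_one] at h4
    rw [← h4, Uni.hermForm_self_pow_q hF]
  obtain ⟨μ, hμ⟩ := Uni.exists_norm_eq (F := F) (q := q) hF (c := c⁻¹) (by rw [inv_pow, hcq])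
  have hμ0 : μ ≠ 0 := by
    intro h0
    rw [h0, zero_pow (by omega)] at hμ
    exact inv_ne_zero hc0 hμ.symm
  obtain ⟨T, hTd⟩ : ∃ T : GL (Fin t → Fin k) F, T = scal k ⟨0, ht⟩ (Units.mk0 μ hμ0) * pureC t S := ⟨_, rfl⟩
  have hTm : T ∈ tensorWreathStandard k t F := by
    rw [hTd]
    exact Subgroup.mul_mem _ (mem_tws_of_mon hk ht (Sys.EU_mem_mon _ _)) (pureC_mem S)
  have hTv : T.1 = μ • piMat (fun _ => S.1) := by
    rw [hTd, Units.val_mul, scal_val, smul_mul_assoc, one_mul]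
    rfl
  have hTT : ∀ x y : (Fin t → Fin k) → F, Cfsg.hermForm n F q (P.1 *ᵥ ((T.1 *ᵥ x) ∘ e)) (P.1 *ᵥ ((T.1 *ᵥ y) ∘ e)) = x ⬝ᵥ star y := by
    intro x y
    rw [hc', hTv, smul_mulVec, smul_mulVec, star_smul, mulVec_smul, smul_dotProduct, dotProduct_smul, hSS, hs μ, smul_eq_mul, smul_eq_mul]
    have : μ * (μ ^ q) = c⁻¹ := by rw [← hμ, pow_succ']
    calc c * (μ * (μ ^ q * (x ⬝ᵥ star y))) = c * (μ * μ ^ q) * (x ⬝ᵥ star y) := by ring
      _ = _ := by rw [this, mul_inv_cancel₀ hc0, one_mul]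
  refine ⟨P * glReindex e.symm T, ?_, ?_⟩
  · intro u v
    show Cfsg.hermForm n F q ((P * glReindex e.symm T).1 *ᵥ u) ((P * glReindex e.symm T).1 *ᵥ v) = Cfsg.hermForm n F q u v
    have h1 : ∀ u : Fin n → F, (P * glReindex e.symm T).1 *ᵥ u = P.1 *ᵥ ((T.1 *ᵥ (u ∘ e.symm)) ∘ e) := by
      intro u
      rw [Units.val_mul, ← Matrix.mulVec_mulVec, UTP.glReindex_coe', UTP.reindex_mulVec']
      rfl
    rw [h1, h1, hTT, ← UTP.dot_star hs]
    simp only [dotProduct, Pi.star_apply, Function.comp_apply]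
    exact Fintype.sum_equiv e.symm _ _ fun j => rfl
  · ext x
    rw [wreath_iff, wreath_iff]
    have h1 : rhoW e (P * glReindex e.symm T) x = T⁻¹ * rhoW e P x * T := by
      show glReindex e ((P * glReindex e.symm T)⁻¹ * x * ((P * glReindex e.symm T)⁻¹)⁻¹) = T⁻¹ * glReindex e (P⁻¹ * x * (P⁻¹)⁻¹) * T
      have h2 : (P * glReindex e.symm T)⁻¹ * x * ((P * glReindex e.symm T)⁻¹)⁻¹ =
          (glReindex e.symm T)⁻¹ * (P⁻¹ * x * (P⁻¹)⁻¹) * glReindex e.symm T := by group
      have h3 : glReindex e (glReindex e.symm T) = T := by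
        apply Units.ext
        rw [UTP.glReindex_coe', UTP.glReindex_coe']
        ext i j
        simp
      rw [h2, map_mul, map_mul, map_inv, h3]
    rw [h1]
    constructor
    · intro h
      exact Subgroup.mul_mem _ (Subgroup.mul_mem _ (Subgroup.inv_mem _ hTm) h) hTm
    · intro h
      have h4 := Subgroup.mul_mem _ (Subgroup.mul_mem _ hTm h) (Subgroup.inv_mem _ hTm)
      have h5 : T * (T⁻¹ * rhoW e P x * T) * T⁻¹ = rhoW e P x := by group
      rwa [h5] at h4

end frame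

section final

variable {F : Type*} [Field F] [Fintype F] {q n : ℕ}

/-- **maximality in the special unitary group** -/
theorem u_wreath_maximal (hF : Fintype.card F = q ^ 2) (hn : 4 ≤ n) (k t : ℕ) (hk : 3 ≤ k) (ht : 2 ≤ t) (hex : ¬ (q = 2 ∧ k = 3))
    (e : Fin n ≃ (Fin t → Fin k)) (P : GL (Fin n) F) (f₁ : (Fin k → F) → (Fin k → F) → F) (hf₁ : IsUnitaryFormPow q f₁)
    (hT : IsTensorPowerFormStructure (fun x : F => x ^ q) (Cfsg.hermForm n F q) f₁ e P) :
    IsMaximalIn (Cfsg.GU n F q ⊓ specialLinear (Fin n) F) (tensorWreathSubgroup k t e P ⊓ (Cfsg.GU n F q ⊓ specialLinear (Fin n) F)) := by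
  classical
  letI : StarRing F := UTP.starF hF
  have hs : ∀ x : F, star x = x ^ q := fun x => rfl
  have U : UF F q := ⟨hF, hs⟩
  have hq2 : 2 ≤ q := U.q2
  obtain ⟨P', hP', hTP⟩ := exists_unitary_frameW hs hF (by omega) (by omega) e P hf₁ hT
  rw [hTP]
  have hψm : ∀ x : GL (Fin n) F, (rhoW e P' x).1 = Matrix.reindex e e (P'⁻¹ * x * P').1 := by
    intro x
    show Matrix.reindex e e (P'⁻¹ * x * (P'⁻¹)⁻¹).1 = _
    rw [inv_inv]
  have hreU : ∀ M : Matrix (Fin n) (Fin n) F, (Matrix.reindex e e M)ᴴ * Matrix.reindex e e M = Matrix.reindex e e (Mᴴ * M) := by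
    intro M
    rw [Matrix.conjTranspose_reindex]
    exact (map_mul (Matrix.reindexAlgEquiv F F e) _ _).symm
  have hre1 : Matrix.reindex e e (1 : Matrix (Fin n) (Fin n) F) = 1 := by
    rw [Matrix.reindex_apply, Matrix.submatrix_one_equiv]
  have hψU : ∀ x : GL (Fin n) F, x ∈ Cfsg.GU n F q ↔ Un (rhoW e P' x) := by
    intro x
    have h1 : x ∈ Cfsg.GU n F q ↔ P'⁻¹ * x * P' ∈ Cfsg.GU n F q := by
      constructor
      · intro h
        exact Subgroup.mul_mem _ (Subgroup.mul_mem _ (Subgroup.inv_mem _ hP') h) hP'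
      · intro h
        have h2 := Subgroup.mul_mem _ (Subgroup.mul_mem _ hP' h) (Subgroup.inv_mem _ hP')
        have h3 : P' * (P'⁻¹ * x * P') * P'⁻¹ = x := by group
        rwa [h3] at h2
    rw [h1, UTP.mem_GU_iff hs, Un, hψm, hreU]
    constructor
    · intro h; rw [h, hre1]
    · intro h
      rw [← hre1] at h
      exact (Matrix.reindex e e).injective h
  have hψD : ∀ x : GL (Fin n) F, x ∈ specialLinear (Fin n) F ↔ (rhoW e P' x).1.det = 1 := by
    intro x
    rw [← mem_sl_iff]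
    show GeneralLinearGroup.det x = 1 ↔ GeneralLinearGroup.det (rhoW e P' x) = 1
    rw [rhoW_det]
  refine ⟨lt_of_le_of_ne inf_le_right fun h => ?_, fun M hM1 hM2 => ?_⟩
  · exact UCase.not_le_tensorWreathSubgroup hF (by omega) hk ht e P' (inf_eq_right.1 h)
  obtain ⟨K, hKdef⟩ : ∃ K, K = M.map (rhoW e P').toMonoidHom := ⟨_, rfl⟩
  have hmemK : ∀ x : GL (Fin n) F, rhoW e P' x ∈ K ↔ x ∈ M := by
    intro x
    rw [hKdef]
    constructor
    · rintro ⟨y, hy, hyx⟩
      have : y = x := (rhoW e P').injective hyx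
      rwa [← this]
    · intro h; exact ⟨x, h, rfl⟩
  have hKU : ∀ g ∈ K, Un g := by
    rw [hKdef]
    rintro _ ⟨g, hg, rfl⟩
    exact (hψU g).1 (hM2 hg).1
  have hK : ∀ g ∈ tensorWreathStandard k t F, Un g → g.1.det = 1 → g ∈ K := by
    intro g hg hgU hgD
    obtain ⟨x, rfl⟩ := (rhoW e P').surjective g
    rw [hmemK]
    exact hM1 ⟨(wreath_iff e P' x).2 hg, (hψU x).2 hgU, (hψD x).2 hgD⟩
  rcases u_overgroup U hk (by omega) (by omega) hK hKU with hall | hall
  · right
    refine le_antisymm hM2 (UTP.sg_le_of_transv hF hn ?_)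
    intro g v c hv0 hv hc hg
    obtain ⟨v', hv'⟩ : ∃ v' : (Fin t → Fin k) → F, v' = ((P'⁻¹).1 *ᵥ v) ∘ e.symm := ⟨_, rfl⟩
    have hP'i := Subgroup.inv_mem _ hP'
    have hform : ∀ x y : Fin n → F, (x ∘ e.symm) ⬝ᵥ star (y ∘ e.symm) = Cfsg.hermForm n F q x y := by
      intro x y
      rw [← UTP.dot_star hs]
      simp only [dotProduct, Pi.star_apply, Function.comp_apply]
      exact Fintype.sum_equiv e.symm _ _ fun j => rfl
    have hv'0 : star v' ⬝ᵥ v' = 0 := by
      rw [dotProduct_comm, hv', hform]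
      exact (hP'i v v).trans hv
    obtain ⟨z, hz, hze⟩ := hall v' hv'0 c (by rw [hs]; exact hc)
    have h2 : (rhoW e P' (UCase.suHom n F q g)).1 = 1 + c • vecMulVec v' (star v') := by
      apply Matrix.ext_of_mulVec_single
      intro p
      obtain ⟨y, hy⟩ : ∃ y : (Fin t → Fin k) → F, y = Pi.single p 1 := ⟨_, rfl⟩
      rw [← hy]
      obtain ⟨w, hw⟩ : ∃ w : Fin n → F, y = w ∘ e.symm := ⟨y ∘ e, by ext i; simp⟩
      rw [hψm, UTP.reindex_mulVec', Units.val_mul, Units.val_mul, ← Matrix.mulVec_mulVec, ← Matrix.mulVec_mulVec]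
      have h3 : y ∘ e = w := by rw [hw]; ext i; simp
      have h4 : (UCase.suHom n F q g).1 *ᵥ (P'.1 *ᵥ w) = P'.1 *ᵥ w + (c * Cfsg.hermForm n F q (P'.1 *ᵥ w) v) • v := hg _
      have h5 : Cfsg.hermForm n F q (P'.1 *ᵥ w) v = Cfsg.hermForm n F q w ((P'⁻¹).1 *ᵥ v) := by
        have h6 : Cfsg.hermForm n F q (P'.1 *ᵥ w) (P'.1 *ᵥ ((P'⁻¹).1 *ᵥ v)) = Cfsg.hermForm n F q w ((P'⁻¹).1 *ᵥ v) := hP' w ((P'⁻¹).1 *ᵥ v)
        rw [Matrix.mulVec_mulVec, ← Units.val_mul, mul_inv_cancel, Units.val_one, Matrix.one_mulVec] at h6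
        exact h6
      have h7 : (1 + c • vecMulVec v' (star v')) *ᵥ y = y + (c * (y ⬝ᵥ star v')) • v' := by
        rw [Matrix.add_mulVec, Matrix.one_mulVec, Matrix.smul_mulVec, vmv_mulVec', smul_smul, dotProduct_comm]
      rw [h3, h4, h7, Matrix.mulVec_add, Matrix.mulVec_smul, Matrix.mulVec_mulVec, ← Units.val_mul,
        inv_mul_cancel, Units.val_one, Matrix.one_mulVec, h5, hw, hv', hform]
      rfl
    have h3 : rhoW e P' (UCase.suHom n F q g) = z := Units.ext (by rw [h2, hze])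
    rw [← hmemK, h3]
    exact hz
  · left
    refine le_antisymm (fun x hx => ⟨(wreath_iff e P' x).2 (hall ((hmemK x).2 hx)), hM2 hx⟩) hM1

end final

end Cfsg.Agent.Asch.CW
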