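import Mathlib
import Cfsg.Prelude.Def_GeometricClasses
import Cfsg.Agent.Asch.UniMain
import Cfsg.Agent.Asch.UniNine
set_option autoImplicit false
set_option linter.unusedSectionVars false

/-!
The structure theorem for subgroups of the unitary groups, final form.
-/

namespace Cfsg.Agent.Asch

open Module Cfsg.Geo EForm

open scoped Matrix Kronecker MatrixGroups

variable {ι : Type} [Fintype ι] [DecidableEq ι] {F : Type*} [Field F]

/-- **Aschbacher's theorem**, unitary case -/
theorem unitary_structure [Fintype F] {q : ℕ} (hF : Fintype.card F = q ^ 2) (hn : 2 ≤ Fintype.card ι) {f : (ι → F) → (ι → F) → F}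
    (hf : IsUnitaryFormPow q f) {H : Subgroup (GL ι F)} (hH : FixesForm (matrixSet H) f) :
    (∃ M, UniMember q f M ∧ H ≤ M) ∨ InUnitaryResidualClass H := by
  apply unitary_structure_of hF hn hf hH
  intro σ b c hq hσ hT
  subst hq
  obtain ⟨σ', hσ', hσne, hσ2⟩ := exists_pow_sigma hF
  have hσσ : σ = σ' := by
    ext x
    rw [hσ, hσ']
  subst hσσ
  have hE : EForm σ 1 f := EForm.of_unitary (IsUnitaryFormPow.isUnitaryForm hf hσ' hσne hσ2)
  obtain ⟨r, R, p, e, k, h1, h2, h3, h4, h5, h6, h7, h8⟩ := Heis.uni_nine' (by rw [hF]; norm_num) hf hσ hE b hT.mul₁ hT.mul₂ hT.star₁ hT.star₂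
    (Matrix.GeneralLinearGroup.det_ne_zero _) (Matrix.GeneralLinearGroup.det_ne_zero _) hT.gram hT.act
  exact ⟨_, Or.inr (Or.inr (Or.inr (Or.inr (Or.inr (Or.inr (Or.inr (Or.inr (Or.inr (Or.inl
        ⟨r, R, p, e, k, h1, h2, h3, h4, h5, h6, h7, rfl⟩))))))))), h8⟩

theorem isUnitaryFormPow_hermForm [Fintype F] {q : ℕ} (hF : Fintype.card F = q ^ 2) (n : ℕ) : IsUnitaryFormPow q (hermForm n F q) where
  add_left x y v := by simp [hermForm, add_mul, Finset.sum_add_distrib]
  smul_left c x v := by simp [hermForm, Finset.mul_sum, mul_assoc]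
  herm v w := by
    obtain ⟨σ, hσ, -, hσ2⟩ := exists_pow_sigma hF
    rw [← hσ]
    unfold hermForm
    rw [map_sum]
    apply Finset.sum_congr rfl
    intro i _
    rw [map_mul, ← hσ, ← hσ, hσ2, mul_comm]
  nondegenerate := by
    obtain ⟨σ, hσ, -, hσ2⟩ := exists_pow_sigma hF
    intro v hv
    obtain ⟨i, hi⟩ := Function.ne_iff.1 hv
    refine ⟨⟨Pi.single i 1, ?_⟩, ⟨Pi.single i 1, ?_⟩⟩
    · unfold hermForm
      rw [Finset.sum_eq_single i]
      · rw [Pi.single_eq_same, one_mul, ← hσ]
        simpa using hi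
      · intro j _ hj; rw [Pi.single_eq_of_ne hj, zero_mul]
      · simp
    · unfold hermForm
      rw [Finset.sum_eq_single i]
      · rw [Pi.single_eq_same, ← hσ, map_one, mul_one]
        simpa using hi
      · intro j _ hj; rw [Pi.single_eq_of_ne hj, ← hσ, map_zero, mul_zero]
      · simp

/-- **Aschbacher's theorem**, standard unitary group -/
theorem unitary_structure_std [Fintype F] {n q : ℕ} (hF : Fintype.card F = q ^ 2) (hn : 2 ≤ n) (H : Subgroup (GL (Fin n) F))
    (hH : H ≤ GU n F q) : (∃ M, UniMember q (hermForm n F q) M ∧ H ≤ M) ∨ InUnitaryResidualClass H := by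
  apply unitary_structure hF (by simpa using hn) (isUnitaryFormPow_hermForm hF n)
  rintro _ ⟨g, hg, rfl⟩ u v
  exact hH hg u v

end Cfsg.Agent.Asch
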